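import Mathlib
import Cfsg.Agent.Orth.C1

/-! Reflection groups over prime fields: a full three-dimensional subspace forces everything. -/

set_option autoImplicit false

namespace Cfsg.Agent.H1

open Module Cfsg.Agent.Orth

variable {F V : Type*} [Field F] [AddCommGroup V] [Module F V] {Q : QuadraticForm F V}
  {G : Subgroup (V ≃ₗ[F] V)}

/-- the vectors `δ` with `E(x, δ) ∈ G` -/
def TT (hprime : ∀ c : F, ∃ n : ℕ, c = n) (Q : QuadraticForm F V) (G : Subgroup (V ≃ₗ[F] V))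
    (x : V) (hx : Q x = 0) : Submodule F V where
  carrier := {δ | B Q x δ = 0 ∧ eich Q x δ ∈ G}
  add_mem' := fun {a b} ha hb => ⟨by simp [ha.1, hb.1], by
    rw [← eich_mul hx ha.1 hb.1]; exact mul_mem ha.2 hb.2⟩
  zero_mem' := ⟨by simp, by rw [eich_zero]; exact one_mem _⟩
  smul_mem' := fun c δ h => ⟨by simp [h.1], by
    obtain ⟨n, rfl⟩ := hprime c
    induction n with
    | zero => simp [eich_zero]
    | succ n ih =>
      rw [Nat.cast_succ, add_smul, one_smul, ← eich_mul hx (by simp [h.1]) h.1]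
      exact mul_mem ih h.2⟩

lemma refl_one {η : V} (hη : Q η = 1) (x : V) : refl Q η x = x - B Q η x • η := by
  rw [refl_apply, hη]; simp

lemma refl_conj_mem (hG : G ≤ O Q) {g : V ≃ₗ[F] V} (hg : g ∈ G) {η : V} (h : refl Q η ∈ G) :
    refl Q (g η) ∈ G := by
  rw [← conj_refl (hG hg)]
  exact mul_mem (mul_mem hg h) (inv_mem hg)

lemma refl_of_conj_mem (hG : G ≤ O Q) {g : V ≃ₗ[F] V} (hg : g ∈ G) {η : V} (h : refl Q (g η) ∈ G) :
    refl Q η ∈ G := by
  simpa using refl_conj_mem hG (inv_mem hg) h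

lemma refl_mul_refl_add {η w : V} (hη : Q η = 1) (hw : Q w = 0) (h : B Q w η = 0) :
    refl Q η * refl Q (η + w) = eich Q w η := by
  ext x
  have h1 : Q (η + w) = 1 := by rw [Q_add, hη, hw, B_comm, h]; ring
  rw [mul_app, refl_one h1, refl_one hη, eich_apply hw h]
  simp only [map_sub, map_smul, map_add, LinearMap.add_apply, B_self, hη, B_comm Q η w, h,
    smul_eq_mul]
  module

section
variable (hprime : ∀ c : F, ∃ n : ℕ, c = n)

lemma mem_TT {x δ : V} {hx : Q x = 0} :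
    δ ∈ TT hprime Q G x hx ↔ B Q x δ = 0 ∧ eich Q x δ ∈ G := Iff.rfl

lemma self_mem_TT {x : V} (hx : Q x = 0) : x ∈ TT hprime Q G x hx :=
  ⟨B_self_of_sing Q hx, by
    have := eich_smul_self hx (1 : F)
    rw [one_smul] at this
    rw [this]; exact one_mem _⟩

lemma TT_fix (hG : G ≤ O Q) {x δ : V} {hx : Q x = 0} {g : V ≃ₗ[F] V} (hg : g ∈ G) (hgx : g x = x)
    (h : δ ∈ TT hprime Q G x hx) : g δ ∈ TT hprime Q G x hx := by
  refine ⟨?_, ?_⟩
  · rw [← hgx, O_B (hG hg)]; exact h.1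
  · have := eich_conj_mem hG hg h.2
    rwa [hgx] at this

lemma TT_claimA (hG : G ≤ O Q) {x δ ξ : V} {hx : Q x = 0} (hξ : Q ξ = 1) (hr : refl Q ξ ∈ G)
    (hxξ : B Q x ξ = 0) (h : δ ∈ TT hprime Q G x hx) (hne : B Q ξ δ ≠ 0) :
    ξ ∈ TT hprime Q G x hx := by
  have h1 := TT_fix hprime hG hr (refl_of_perp (by rw [B_comm, hxξ])) h
  rw [refl_one hξ] at h1
  have h2 := Submodule.smul_mem _ (B Q ξ δ)⁻¹ (Submodule.sub_mem _ h h1)
  rwa [sub_sub_cancel, smul_smul, inv_mul_cancel₀ hne, one_smul] at h2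

lemma TT_of_pair {x ξ : V} {hx : Q x = 0} (hξ : Q ξ = 1) (hr : refl Q ξ ∈ G)
    (hxξ : B Q x ξ = 0) {c : F} (hc : c ≠ 0) (hr' : refl Q (ξ + c • x) ∈ G) :
    ξ ∈ TT hprime Q G x hx := by
  have h1 := mul_mem hr hr'
  rw [refl_mul_refl_add hξ (by rw [Q_smul, hx, mul_zero]) (by simp [hxξ]),
    eich_smul_left hx hxξ] at h1
  have h2 : c • ξ ∈ TT hprime Q G x hx := ⟨by simp [hxξ], h1⟩
  have := Submodule.smul_mem _ c⁻¹ h2
  rwa [smul_smul, inv_mul_cancel₀ hc, one_smul] at this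

end

/-- `G` contains the unipotent radical at `x` relative to `Z`. -/
def FullOn (Q : QuadraticForm F V) (G : Subgroup (V ≃ₗ[F] V)) (Z : Submodule F V) (x : V) : Prop :=
  ∀ δ ∈ Z, B Q x δ = 0 → eich Q x δ ∈ G

lemma FullOn.refl (hG : G ≤ O Q) {Z : Submodule F V} {x γ : V} (h : FullOn Q G Z x) (hγ : γ ∈ Z)
    (hr : refl Q γ ∈ G) : FullOn Q G Z (refl Q γ x) := by
  intro δ hδ hb
  have := eich_conj_mem hG hr (h (Orth.refl Q γ δ) (refl_mem hγ hδ) (by
    rw [← O_B (refl_mem_O Q γ), refl_refl]; exact hb))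
  rwa [refl_refl] at this

lemma FullOn.smul {Z : Submodule F V} {x : V} (hx : Q x = 0) (h : FullOn Q G Z x) {c : F}
    (hc : c ≠ 0) : FullOn Q G Z (c • x) := by
  intro δ hδ hb
  have hb' : B Q x δ = 0 := by simpa [hc] using hb
  rw [eich_smul_left hx hb']
  exact h _ (Z.smul_mem _ hδ) (by simp [hb'])

lemma exists_move_perp (h2 : (2 : F) ≠ 0) {Z : Submodule F V} {x f : V} (hxZ : x ∈ Z)
    (hx : Q x = 0) (hf : Q f = 0) (hxf : B Q x f = 1) (Tx : FullOn Q G Z x) (Tf : FullOn Q G Z f)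
    {η : V} (hηZ : η ∈ Z) (hη : Q η = 1) (hxη : B Q x η = 0) (k : F) :
    ∃ g ∈ G, g η = η - B Q f η • x + k • f := by
  have h1 : eich Q x ((B Q f η / 2) • η) η = η - B Q f η • x := by
    rw [eich_apply_of_perp_left hx (by simp [hxη]) hxη, map_smul, LinearMap.smul_apply, B_self, hη]
    congr 2
    rw [smul_eq_mul]; field_simp
  set η' := η - B Q f η • x with hη'
  have hq : Q η' = 1 := by rw [← h1, eich_mem_O, hη]
  have hb : B Q f η' = 0 := by simp [hη', B_comm Q f x, hxf]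
  have h3 : eich Q f ((-k / 2) • η') η' = η' + k • f := by
    rw [eich_apply_of_perp_left hf (by simp [hb]) hb, map_smul, LinearMap.smul_apply, B_self, hq,
      sub_eq_add_neg, ← neg_smul]
    congr 2
    rw [smul_eq_mul]; field_simp
  refine ⟨eich Q f ((-k / 2) • η') * eich Q x ((B Q f η / 2) • η), mul_mem
    (Tf _ (Z.smul_mem _ (Z.sub_mem hηZ (Z.smul_mem _ hxZ))) (by simp [hb]))
    (Tx _ (Z.smul_mem _ hηZ) (by simp [hxη])), ?_⟩
  rw [mul_app, h1, h3]

lemma all_refl_mem (h2 : (2 : F) ≠ 0) (hG : G ≤ O Q) {Z : Submodule F V} {x f : V} (hxZ : x ∈ Z)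
    (hfZ : f ∈ Z) (hx : Q x = 0) (hf : Q f = 0) (hxf : B Q x f = 1) (Tx : FullOn Q G Z x)
    (Tf : FullOn Q G Z f) {ξ : V} (hξZ : ξ ∈ Z) (hξ : Q ξ = 1) (hxξ : B Q x ξ = 0)
    (hr : refl Q ξ ∈ G) : ∀ η ∈ Z, Q η = 1 → refl Q η ∈ G := by
  have key : ∀ η ∈ Z, Q η = 1 → B Q x η ≠ 0 → refl Q η ∈ G := by
    intro η hηZ hη hb
    obtain ⟨g, hg, hgξ⟩ := exists_move_perp h2 hxZ hx hf hxf Tx Tf hξZ hξ hxξ (B Q x η)
    have h1 : B Q x (g ξ) = B Q x η := by simp [hgξ, hxξ, hxf, B_self_of_sing Q hx]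
    have hZ : g ξ ∈ Z := by
      rw [hgξ]; exact Z.add_mem (Z.sub_mem hξZ (Z.smul_mem _ hxZ)) (Z.smul_mem _ hfZ)
    obtain ⟨h3, h4⟩ := eich_trans (x := g ξ) (y := η) hx (by rw [hG hg, hξ, hη]) h1 (by rwa [h1])
    rw [← h4]
    exact refl_conj_mem hG (Tx _ (Z.smul_mem _ (Z.sub_mem hηZ hZ)) h3) (refl_conj_mem hG hg hr)
  intro η hηZ hη
  by_cases hb : B Q x η = 0
  · obtain ⟨g, hg, hgη⟩ := exists_move_perp h2 hxZ hx hf hxf Tx Tf hηZ hη hb 1
    refine refl_of_conj_mem hG hg (key _ ?_ (by rw [hG hg, hη]) ?_)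
    · rw [hgη]; exact Z.add_mem (Z.sub_mem hηZ (Z.smul_mem _ hxZ)) (Z.smul_mem _ hfZ)
    · simp [hgη, hb, hxf, B_self_of_sing Q hx]
  · exact key η hηZ hη hb

/-- a full subspace -/
structure Ful (Q : QuadraticForm F V) (G : Subgroup (V ≃ₗ[F] V)) (Z : Submodule F V) (x : V) :
    Prop where
  nd : NdOn Q Z
  mem : x ∈ Z
  sing : Q x = 0
  ne : x ≠ 0
  dim : 3 ≤ finrank F Z
  full : FullOn Q G Z x
  refl : ∀ η ∈ Z, Q η = 1 → refl Q η ∈ G

/-- the reflections of `G` in vectors of norm one are connected and span -/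
def Conn (Q : QuadraticForm F V) (G : Subgroup (V ≃ₗ[F] V)) : Prop :=
  ∀ Z : Submodule F V, Z ≠ ⊥ → Z ≠ ⊤ → ∃ ρ, Q ρ = 1 ∧ refl Q ρ ∈ G ∧ ρ ∉ Z ∧ ρ ∉ perp Q Z

lemma exists_binary [Finite F] (h2 : (2 : F) ≠ 0) {q d : F} (hq : q ≠ 0) (hd : d ≠ 0) :
    ∃ τ r : F, q * τ ^ 2 + d * r ^ 2 = 1 := by
  have := Fintype.ofFinite F
  have hodd : Fintype.card F % 2 = 1 := by
    have : ringChar F ≠ 2 := by
      intro h
      apply h2
      have := (ringChar.spec F 2).2 (by rw [h])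
      exact_mod_cast this
    exact FiniteField.odd_card_of_char_ne_two this
  open Polynomial in
  obtain ⟨a, b, h⟩ := FiniteField.exists_root_sum_quadratic (f := C q * X ^ 2)
    (g := C d * X ^ 2 + C (-1)) (by rw [degree_C_mul_X_pow _ hq]; rfl)
    (by rw [degree_add_C (by rw [degree_C_mul_X_pow _ hd]; decide), degree_C_mul_X_pow _ hd]; rfl) hodd
  refine ⟨a, b, ?_⟩
  simp only [Polynomial.eval_mul, Polynomial.eval_C, Polynomial.eval_pow, Polynomial.eval_X,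
    Polynomial.eval_add] at h
  linear_combination h

lemma exists_binary_ne (h2 : (2 : F) ≠ 0) (h3 : (3 : F) ≠ 0) {q d r0 : F}
    (h : d * r0 ^ 2 = 1) : ∃ τ r : F, τ ≠ 0 ∧ q * τ ^ 2 + d * r ^ 2 = 1 := by
  have hd : d ≠ 0 := by rintro rfl; simp at h
  have hr : r0 ≠ 0 := by rintro rfl; simp at h
  have key : ∀ t : F, t ≠ 0 → q + d * t ^ 2 ≠ 0 → ∃ τ r : F, τ ≠ 0 ∧ q * τ ^ 2 + d * r ^ 2 = 1 := by
    intro t ht hn
    refine ⟨2 * d * r0 * t / (q + d * t ^ 2), r0 * (q - d * t ^ 2) / (q + d * t ^ 2),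
      div_ne_zero (by simp [h2, hd, hr, ht]) hn, ?_⟩
    field_simp
    linear_combination (q + d * t ^ 2) ^ 2 * h
  by_cases h1 : q + d * 1 ^ 2 = 0
  · refine key 2 h2 fun h4 => mul_ne_zero h3 hd ?_
    linear_combination h4 - h1
  · exact key 1 one_ne_zero h1

lemma exists_binary_good [Finite F] (h2 : (2 : F) ≠ 0) (h3 : (3 : F) ≠ 0) {q d : F} (hq : q ≠ 0)
    (hd : d ≠ 0) : ∃ τ r : F, τ ≠ 0 ∧ q * τ ^ 2 + d * r ^ 2 = 1 ∧ (r ≠ 0 ∨ 2 * q ≠ 1) := by
  obtain ⟨τ, r, hτ, h⟩ : ∃ τ r : F, τ ≠ 0 ∧ q * τ ^ 2 + d * r ^ 2 = 1 := by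
    obtain ⟨τ, r, h⟩ := exists_binary h2 hq hd
    by_cases hτ : τ = 0
    · exact exists_binary_ne h2 h3 (r0 := r) (by simpa [hτ] using h)
    · exact ⟨τ, r, hτ, h⟩
  by_cases hq2 : 2 * q = 1
  swap
  · exact ⟨τ, r, hτ, h, Or.inr hq2⟩
  by_cases hr : r = 0
  swap
  · exact ⟨τ, r, hτ, h, Or.inl hr⟩
  have h' : q * τ ^ 2 = 1 := by simpa [hr] using h
  obtain ⟨r', τ', hr', h4⟩ := exists_binary_ne h2 h3 (q := d) h'
  by_cases hτ' : τ' = 0
  · refine ⟨1, r' / τ, one_ne_zero, ?_, Or.inl (div_ne_zero hr' hτ)⟩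
    have h5 : d * r' ^ 2 = 1 := by simpa [hτ'] using h4
    field_simp
    linear_combination h5 - h' + τ ^ 2 * hq2
  · exact ⟨τ', r', hτ', by linear_combination h4, Or.inl hr'⟩

section grow
variable [Finite F] [FiniteDimensional F V] (hprime : ∀ c : F, ∃ n : ℕ, c = n)
  (h2 : (2 : F) ≠ 0) (h3 : (3 : F) ≠ 0) (hG : G ≤ O Q)

omit [Finite F] [FiniteDimensional F V] in
lemma Ful.exists_partner {Z : Submodule F V} {x : V} (h : Ful Q G Z x) :
    ∃ f ∈ Z, Q f = 0 ∧ B Q x f = 1 ∧ Q (x + f) = 1 ∧ Orth.refl Q (x + f) x = -f := by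
  obtain ⟨f, hfZ, hf, hxf⟩ := Orth.exists_partner h.mem h.sing (h.nd.exists_B_ne h.mem h.ne)
  have h1 : Q (x + f) = 1 := by rw [Q_add, h.sing, hf, hxf]; ring
  refine ⟨f, hfZ, hf, hxf, h1, ?_⟩
  rw [refl_one h1]
  simp [B_self_of_sing Q h.sing, B_comm Q f x, hxf]

omit [Finite F] in
lemma Ful.exists_third {Z : Submodule F V} {x f : V} (h : Ful Q G Z x) (hfZ : f ∈ Z) (hf : Q f = 0)
    (hxf : B Q x f = 1) : ∃ z ∈ Z, B Q x z = 0 ∧ B Q f z = 0 ∧ Q z ≠ 0 := by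
  have hle : Submodule.span F {x, f} ≤ Z := by
    rw [Submodule.span_le]; rintro _ (rfl | rfl); exacts [h.mem, hfZ]
  have hH : NdOn Q (Submodule.span F {x, f}) := by
    intro v hv hb
    obtain ⟨a, b, rfl⟩ := Submodule.mem_span_pair.1 hv
    have h1 := hb x (Submodule.subset_span (by simp))
    have h2 := hb f (Submodule.subset_span (by simp))
    simp [B_self_of_sing Q h.sing, B_self_of_sing Q hf, hxf, B_comm Q f x] at h1 h2
    simp [h1, h2]
  have h1 := h.nd.finrank_inf_perp hle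
  have h2 := finrank_span_pair_le (F := F) x f
  have h3 := h.dim
  obtain ⟨z, hz, hz0⟩ := (h.nd.inf_perp hH hle).exists_nonsing le_rfl (by omega)
  exact ⟨z, hz.1, hz.2 x (Submodule.subset_span (by simp)), hz.2 f (Submodule.subset_span (by simp)),
    hz0⟩

include hprime h2 h3 hG

omit [Finite F] in
lemma Ful.grow_of_perp {Z : Submodule F V} {x : V} (h : Ful Q G Z x) {z y : V} (hz : z ∈ perp Q Z)
    (hq : Q z ≠ 0) (hy : y ∈ Z) (hy0 : y ≠ 0) (hxy : B Q x y = 0) {μ : F} (hμ : μ ≠ 0)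
    (hξ : Q (y + μ • z) = 1) (hr : Orth.refl Q (y + μ • z) ∈ G) :
    ∃ Z' x', Z < Z' ∧ Ful Q G Z' x' := by
  obtain ⟨f, hfZ, hf, hxf, hxf1, hrx⟩ := h.exists_partner
  have hxz : B Q x z = 0 := hz x h.mem
  have hxξ : B Q x (y + μ • z) = 0 := by simp [hxy, hxz]
  have hT : ∀ δ ∈ Z, B Q x δ = 0 → δ ∈ TT hprime Q G x h.sing := fun δ hδ hb => ⟨hb, h.full δ hδ hb⟩
  have hξT : y + μ • z ∈ TT hprime Q G x h.sing := by
    by_cases hyx : y ∈ F ∙ x
    · obtain ⟨c, rfl⟩ := Submodule.mem_span_singleton.1 hyx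
      have hc : c ≠ 0 := by rintro rfl; simp at hy0
      have hη' : Q ((2 : F) • x + (2 : F)⁻¹ • f) = 1 := by
        rw [Q_add, Q_smul, Q_smul, h.sing, hf]; simp [hxf, h2]
      have hZ' : (2 : F) • x + (2 : F)⁻¹ • f ∈ Z := Z.add_mem (Z.smul_mem _ h.mem) (Z.smul_mem _ hfZ)
      have h4 := refl_conj_mem hG (h.refl _ hZ' hη')
        (refl_conj_mem hG (h.refl _ (Z.add_mem h.mem hfZ) hxf1) hr)
      refine TT_of_pair hprime hξ hr hxξ (mul_ne_zero h3 hc) ?_
      convert h4 using 2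
      rw [map_add, map_smul, map_smul, hrx, refl_of_perp (hz _ (Z.add_mem h.mem hfZ)), map_add,
        map_smul, map_smul, refl_of_perp (hz _ hZ'), map_neg, refl_one hη']
      simp only [map_add, map_smul, LinearMap.add_apply, LinearMap.smul_apply, hxf,
        B_self_of_sing Q hf, smul_eq_mul, mul_zero, add_zero, mul_one, smul_add, smul_smul,
        mul_inv_cancel₀ h2]
      module
    · obtain ⟨δ, hδ, hne⟩ := h.nd.exists_perp_B_ne
        ((Submodule.span_singleton_le_iff_mem _ _).2 h.mem) hy hyx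
      refine TT_claimA hprime hG hξ hr hxξ (hT δ hδ.1 (mem_perp_span_singleton.1 hδ.2)) ?_
      simpa [B_comm Q z δ, hz δ hδ.1] using hne
  have hzT : z ∈ TT hprime Q G x h.sing := by
    have := Submodule.smul_mem _ μ⁻¹ (Submodule.sub_mem _ hξT (hT y hy hxy))
    rwa [add_sub_cancel_left, smul_smul, inv_mul_cancel₀ hμ, one_smul] at this
  have hzZ : z ∉ Z := fun h' => hq (by
    have := hz z h'
    rw [B_self] at this
    exact (mul_eq_zero.1 this).resolve_left h2)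
  have hmem : ∀ v, v ∈ Z ⊔ F ∙ z ↔ ∃ a ∈ Z, ∃ c : F, v = a + c • z := by
    intro v
    rw [Submodule.mem_sup]
    constructor
    · rintro ⟨a, ha, b, hb, rfl⟩
      obtain ⟨c, rfl⟩ := Submodule.mem_span_singleton.1 hb
      exact ⟨a, ha, c, rfl⟩
    · rintro ⟨a, ha, c, rfl⟩
      exact ⟨a, ha, _, Submodule.smul_mem _ _ (Submodule.mem_span_singleton_self z), rfl⟩
  have hz' : z ∈ Z ⊔ F ∙ z := Submodule.mem_sup_right (Submodule.mem_span_singleton_self z)
  have hfull : FullOn Q G (Z ⊔ F ∙ z) x := by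
    intro δ hδ hb
    obtain ⟨a, ha, c, rfl⟩ := (hmem δ).1 hδ
    exact (Submodule.add_mem _ (hT a ha (by simpa [hxz] using hb)) (Submodule.smul_mem _ c hzT)).2
  have hfull' : FullOn Q G (Z ⊔ F ∙ z) f := by
    have := (hfull.refl hG (Submodule.mem_sup_left (Z.add_mem h.mem hfZ))
      (h.refl _ (Z.add_mem h.mem hfZ) hxf1))
    rw [hrx] at this
    simpa using this.smul (by rw [Q_neg, hf]) (c := -1) (by simp)
  refine ⟨Z ⊔ F ∙ z, x, lt_of_le_of_ne le_sup_left fun h' => hzZ (h' ▸ hz'), ?_, Submodule.mem_sup_left h.mem,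
    h.sing, h.ne, h.dim.trans (Submodule.finrank_mono le_sup_left), hfull, ?_⟩
  · intro v hv hb
    obtain ⟨a, ha, c, rfl⟩ := (hmem v).1 hv
    have h1 := hb z hz'
    rw [map_add, map_smul, B_comm Q z a, hz a ha, B_self, zero_add, smul_eq_mul] at h1
    have hc : c = 0 := (mul_eq_zero.1 h1).resolve_right (mul_ne_zero h2 hq)
    subst hc
    rw [zero_smul, add_zero] at hb ⊢
    exact h.nd a ha fun b hb' => hb b (Submodule.mem_sup_left hb')
  · exact all_refl_mem h2 hG (Submodule.mem_sup_left h.mem) (Submodule.mem_sup_left hfZ) h.sing hf hxf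
      hfull hfull' ((hmem _).2 ⟨y, hy, μ, rfl⟩) hξ hxξ hr

lemma Ful.grow_nonsing {Z : Submodule F V} {x : V} (h : Ful Q G Z x) {z y : V} (hz : z ∈ perp Q Z)
    (hq : Q z ≠ 0) (hy : y ∈ Z) (hy0 : y ≠ 0)
    (hξ : Q (y + z) = 1) (hr : Orth.refl Q (y + z) ∈ G) :
    ∃ Z' x', Z < Z' ∧ Ful Q G Z' x' := by
  by_cases hxy : B Q x y = 0
  · exact h.grow_of_perp hprime h2 h3 hG hz hq hy hy0 hxy one_ne_zero (by simpa using hξ)
      (by simpa using hr)
  obtain ⟨f, hfZ, hf, hxf, -, -⟩ := h.exists_partner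
  obtain ⟨z0, hz0Z, hxz0, hfz0, hd⟩ := h.exists_third hfZ hf hxf
  obtain ⟨τ, r, hτ, hτr, hgood⟩ := exists_binary_good h2 h3 hq hd
  set a := B Q x y with ha
  have hyz : Q y + Q z = 1 := by rw [← hξ, Q_add, hz y hy, add_zero]
  set y1 := a • f + (Q y / a) • x with hy1
  have hy1Z : y1 ∈ Z := Z.add_mem (Z.smul_mem _ hfZ) (Z.smul_mem _ h.mem)
  have hq1 : Q y1 = Q y := by
    rw [hy1, Q_add, Q_smul, Q_smul, hf, h.sing]
    simp only [map_smul, LinearMap.smul_apply, smul_eq_mul, B_comm Q f x, hxf]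
    field_simp; ring
  have hb1 : B Q x y1 = a := by simp [hy1, hxf, B_self_of_sing Q h.sing]
  obtain ⟨h4, h5⟩ := eich_trans (x := y) (y := y1) h.sing hq1.symm hb1.symm hxy
  have hδZ : (B Q x y)⁻¹ • (y1 - y) ∈ Z := Z.smul_mem _ (Z.sub_mem hy1Z hy)
  have h6 := refl_conj_mem hG (h.full _ hδZ h4) hr
  rw [map_add, h5, eich_apply_of_perp (hz x h.mem) (hz _ hδZ)] at h6
  have hρ : Q (y1 + z) = 1 := by rw [Q_add, hq1, hz y1 hy1Z, add_zero, hyz]
  set η := (τ * Q z / a) • x + (τ * a) • f + r • z0 with hη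
  have hηZ : η ∈ Z := Z.add_mem (Z.add_mem (Z.smul_mem _ h.mem) (Z.smul_mem _ hfZ)) (Z.smul_mem _ hz0Z)
  have hηq : Q η = 1 := by
    rw [hη, Q_add, Q_add, Q_smul, Q_smul, Q_smul, hf, h.sing]
    simp only [map_add, map_smul, LinearMap.add_apply, LinearMap.smul_apply, smul_eq_mul, hxf, hxz0,
      hfz0]
    have : τ * a * (τ * Q z / a * 1) = Q z * τ ^ 2 := by field_simp
    linear_combination hτr + this
  have hb : B Q (y1 + z) η = τ := by
    rw [map_add (B Q) y1 z, LinearMap.add_apply, B_comm Q z η, hz η hηZ, hη, hy1]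
    simp only [map_add, map_smul, LinearMap.add_apply, LinearMap.smul_apply, smul_eq_mul, hxf, hxz0,
      hfz0, B_comm Q f x, B_self_of_sing Q hf, B_self_of_sing Q h.sing]
    have e1 : a * (τ * Q z / a) = τ * Q z := by field_simp
    have e2 : a * (Q y / a) = Q y := by field_simp
    linear_combination τ * hyz + e1 + τ * e2
  have h7 := refl_conj_mem hG h6 (h.refl η hηZ hηq)
  have h8 : Orth.refl Q (y1 + z) η = ((τ * (2 * Q z - 1) / a) • x + r • z0) + (-τ) • z := by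
    rw [refl_one hρ, hb, hη, hy1]
    have : τ * (2 * Q z - 1) / a = τ * Q z / a - τ * (Q y / a) := by
      field_simp; linear_combination hyz
    rw [this]; module
  refine h.grow_of_perp hprime h2 h3 hG hz hq (y := (τ * (2 * Q z - 1) / a) • x + r • z0)
    (Z.add_mem (Z.smul_mem _ h.mem) (Z.smul_mem _ hz0Z)) ?_
    (by simp [hxz0, B_self_of_sing Q h.sing]) (neg_ne_zero.2 hτ)
    (by rw [← h8, refl_mem_O, hηq]) (by rwa [← h8])
  intro h0
  have e1 := congrArg (B Q f) h0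
  have e2 := congrArg (B Q z0) h0
  simp only [map_add, map_smul, smul_eq_mul, B_comm Q f x, hxf, hfz0, B_comm Q z0 x, hxz0, B_self,
    map_zero, mul_zero, add_zero, mul_one, zero_add] at e1 e2
  rcases hgood with hr0 | hq2
  · exact mul_ne_zero hr0 (mul_ne_zero h2 hd) e2
  · exact div_ne_zero (mul_ne_zero hτ (sub_ne_zero.2 hq2)) hxy e1

omit h3 [Finite F] in
lemma Ful.grow_sing (hC : Conn Q G) {Z : Submodule F V} {x : V} (h : Ful Q G Z x) {z y : V}
    (hz : z ∈ perp Q Z) (hq : Q z = 0) (hz0 : z ≠ 0) (hy : y ∈ Z)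
    (hξ : Q (y + z) = 1) (hr : Orth.refl Q (y + z) ∈ G) :
    ∃ Z' x', Z < Z' ∧ Ful Q G Z' x' := by
  obtain ⟨f, hfZ, hf, hxf, hxf1, hrx⟩ := h.exists_partner
  obtain ⟨z0, hz0Z, hxz0, -, hd⟩ := h.exists_third hfZ hf hxf
  have hz' : ∀ a ∈ Z, B Q z a = 0 := fun a ha => by rw [B_comm]; exact hz a ha
  have hyq : Q y = 1 := by rw [← hξ, Q_add, hz y hy, hq]; ring
  have hyT : y ∈ TT hprime Q G z hq :=
    TT_of_pair hprime hyq (h.refl y hy hyq) (hz' y hy) one_ne_zero (by simpa using hr)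
  have hE : ∀ δ ∈ Z, B Q x δ = 0 → ∀ v ∈ TT hprime Q G z hq, eich Q x δ v ∈ TT hprime Q G z hq :=
    fun δ hδ hb v hv => TT_fix hprime hG (h.full δ hδ hb)
      (eich_apply_of_perp (hz x h.mem) (hz δ hδ)) hv
  have hxT : x ∈ TT hprime Q G z hq := by
    by_cases hxy : B Q x y = 0
    · have h1 := Submodule.smul_mem _ (2 : F)⁻¹ (Submodule.sub_mem _ hyT (hE y hy hxy y hyT))
      rwa [eich_apply_of_perp_left h.sing hxy hxy, B_self, hyq, sub_sub_cancel, smul_smul, mul_one,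
        inv_mul_cancel₀ h2, one_smul] at h1
    · have h1 := hE z0 hz0Z hxz0 y hyT
      have h4 := hE (-z0) (Z.neg_mem hz0Z) (by simp [hxz0]) y hyT
      have h5 := Submodule.smul_mem _ (2 * Q z0 * B Q x y)⁻¹ (Submodule.sub_mem _
        (Submodule.smul_mem _ (2 : F) hyT) (Submodule.add_mem _ h1 h4))
      have h6 : (2 : F) • y - (eich Q x z0 y + eich Q x (-z0) y) = (2 * Q z0 * B Q x y) • x := by
        rw [eich_apply h.sing hxz0, eich_apply h.sing (by simp [hxz0]), Q_neg, map_neg,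
          LinearMap.neg_apply]
        module
      rwa [h6, smul_smul, inv_mul_cancel₀ (mul_ne_zero (mul_ne_zero h2 hd) hxy), one_smul] at h5
  have hfT : f ∈ TT hprime Q G z hq := by
    have := TT_fix hprime hG (h.refl _ (Z.add_mem h.mem hfZ) hxf1)
      (refl_of_perp (hz _ (Z.add_mem h.mem hfZ))) hxT
    rw [hrx] at this
    simpa using Submodule.neg_mem _ this
  have hZT : Z ≤ TT hprime Q G z hq := by
    intro v hv
    have h1 : B Q x (v - B Q x v • f) = 0 := by simp [hxf]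
    have h4 := hE _ (Z.sub_mem hv (Z.smul_mem _ hfZ)) h1 f hfT
    rw [eich_apply h.sing h1, hxf] at h4
    have h5 := Submodule.add_mem _ (Submodule.sub_mem _ (Submodule.add_mem _ h4 (Submodule.smul_mem _
      (B Q (v - B Q x v • f) f + Q (v - B Q x v • f) * 1) hxT)) hfT) (Submodule.smul_mem _ (B Q x v) hfT)
    convert h5 using 1
    module
  obtain ⟨γ, hγ, hγG, -, hγz⟩ := hC (F ∙ z) (by simpa using hz0) (by
    intro h'
    have h1 := finrank_span_singleton_le (F := F) z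
    have h4 := h.dim
    have h5 := Submodule.finrank_le Z
    rw [h', finrank_top] at h1
    omega)
  rw [mem_perp_span_singleton] at hγz
  have hmem : ∀ v, v ∈ Z ⊔ Submodule.span F {z, γ} ↔ ∃ a ∈ Z, ∃ c d : F, v = a + (c • z + d • γ) := by
    intro v
    rw [Submodule.mem_sup]
    constructor
    · rintro ⟨a, ha, b, hb, rfl⟩
      obtain ⟨c, d, rfl⟩ := Submodule.mem_span_pair.1 hb
      exact ⟨a, ha, c, d, rfl⟩
    · rintro ⟨a, ha, c, d, rfl⟩
      exact ⟨a, ha, _, Submodule.mem_span_pair.2 ⟨c, d, rfl⟩, rfl⟩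
  have hzm : z ∈ Z ⊔ Submodule.span F {z, γ} := Submodule.mem_sup_right (Submodule.subset_span (by simp))
  have hγm : γ ∈ Z ⊔ Submodule.span F {z, γ} := Submodule.mem_sup_right (Submodule.subset_span (by simp))
  have hfull : FullOn Q G (Z ⊔ Submodule.span F {z, γ}) z := by
    intro δ hδ hb
    obtain ⟨a, ha, c, d, rfl⟩ := (hmem δ).1 hδ
    have hd : d = 0 := by simpa [hz' a ha, B_self_of_sing Q hq, hγz] using hb
    subst hd
    rw [zero_smul, add_zero]
    exact (Submodule.add_mem _ (hZT ha) (Submodule.smul_mem _ c (self_mem_TT hprime hq))).2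
  have hn : -(B Q z γ * B Q z γ) ≠ 0 := neg_ne_zero.2 (mul_ne_zero hγz hγz)
  have hfq : Q (Orth.refl Q γ z) = 0 := by rw [refl_mem_O, hq]
  have hfull' := (hfull.refl hG hγm hγG).smul hfq (inv_ne_zero hn)
  refine ⟨Z ⊔ Submodule.span F {z, γ}, z, lt_of_le_of_ne le_sup_left fun h' => hz0 ?_, ?_, hzm,
    hq, hz0, h.dim.trans (Submodule.finrank_mono le_sup_left), hfull, ?_⟩
  · exact h.nd z (h' ▸ hzm) hz
  · intro v hv hb
    obtain ⟨a, ha, c, d, rfl⟩ := (hmem v).1 hv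
    have hd : d = 0 := by simpa [hz' a ha, B_self_of_sing Q hq, hγz] using hb z hzm
    subst hd
    have ha0 : a = 0 := h.nd a ha fun b hb' => by
      simpa [hz b hb'] using hb b (Submodule.mem_sup_left hb')
    subst ha0
    have hc : c = 0 := by simpa [B_comm Q γ z, hγz] using hb γ hγm
    simp [hc]
  · refine all_refl_mem h2 hG hzm (Submodule.smul_mem _ _ (refl_mem hγm hzm)) hq
      (by rw [Q_smul, hfq, mul_zero]) ?_ hfull hfull' (Submodule.mem_sup_left hy) hyq (hz' y hy)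
      (h.refl y hy hyq)
    rw [map_smul, refl_one hγ, map_sub, map_smul, B_self_of_sing Q hq, B_comm Q γ z, smul_eq_mul,
      smul_eq_mul, zero_sub, inv_mul_cancel₀ hn]

theorem Ful.EO_le (hQ : Nd Q) (hd : 5 ≤ finrank F V) (hC : Conn Q G) {Z : Submodule F V} {x : V}
    (h : Ful Q G Z x) : EO Q ≤ G := by
  induction hk : finrank F V - finrank F Z using Nat.strong_induction_on generalizing Z x with
  | _ k ih =>
  by_cases hZ : Z = ⊤
  · subst hZ
    obtain ⟨f, -, hf, hxf, hxf1, hrx⟩ := h.exists_partner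
    exact EO_le_of_full_of_move hQ hd hG h.sing (fun w hw => h.full w trivial hw)
      (h.refl _ trivial hxf1) (by rw [hrx]; simp [hxf])
  obtain ⟨ρ, hρ, hρG, hρZ, hρp⟩ := hC Z (fun h' => h.ne (by simpa [h'] using h.mem)) hZ
  obtain ⟨y, hy, z, hz, rfl⟩ := h.nd.exists_decomp ρ
  obtain ⟨Z', x', hlt, h'⟩ : ∃ Z' x', Z < Z' ∧ Ful Q G Z' x' := by
    by_cases hq : Q z = 0
    · exact h.grow_sing hprime h2 hG hC hz hq (by rintro rfl; exact hρZ (by simpa using hy)) hy hρ hρG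
    · exact h.grow_nonsing hprime h2 h3 hG hz hq hy (by rintro rfl; exact hρp (by simpa using hz))
        hρ hρG
  have h1 := Submodule.finrank_lt_finrank_of_lt hlt
  have h4 := Submodule.finrank_le Z'
  exact ih _ (by omega) h' rfl

end grow

end Cfsg.Agent.H1
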