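import Mathlib
import Cfsg.Agent.H8.Dickson

/-! Three involutions of `PGL(2, p)` given by traceless matrices: consequences of Dickson's theorem. -/

set_option autoImplicit false

namespace Cfsg.Agent.H1

open MulAction Matrix OnePoint Cfsg.Agent.H8
open scoped MatrixGroups
open Matrix.ProjGenLinGroup (mk)

variable {F K : Type*} [Field F] [Field K] [Algebra F K]

/-- homogeneous coordinates -/
def hco (x : OnePoint K) : K × K := OnePoint.rec (1, 0) (fun z => (z, 1)) x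

@[simp] lemma hco_infty : hco (∞ : OnePoint K) = (1, 0) := rfl
@[simp] lemma hco_coe (z : K) : hco (z : OnePoint K) = (z, 1) := rfl

lemma mk_smul_eq_iff (g : GL (Fin 2) F) (x y : OnePoint K) :
    mk g • x = y ↔ (algebraMap F K (g 0 0) * (hco x).1 + algebraMap F K (g 0 1) * (hco x).2) * (hco y).2
      = (hco y).1 * (algebraMap F K (g 1 0) * (hco x).1 + algebraMap F K (g 1 1) * (hco x).2) := by
  cases x with
  | infty =>
    cases y with
    | infty => rw [smul_infty_eq_infty]; simp [eq_comm (a := (0 : K))]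
    | coe w => rw [smul_infty_eq_coe]; simp
  | coe z =>
    cases y with
    | infty => rw [smul_coe_eq_infty]; simp [eq_comm]
    | coe w => rw [smul_coe_eq_coe]; simp

lemma hco_det_ne {x y : OnePoint K} (h : x ≠ y) :
    (hco x).1 * (hco y).2 - (hco x).2 * (hco y).1 ≠ 0 := by
  cases x with
  | infty =>
    cases y with
    | infty => exact absurd rfl h
    | coe w => simp
  | coe z =>
    cases y with
    | infty => simp
    | coe w => simpa [sub_eq_zero] using h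

lemma hco_ne_zero (x : OnePoint K) : (hco x).1 ≠ 0 ∨ (hco x).2 ≠ 0 := by
  cases x <;> simp

/-- Chebyshev-like sequence -/
def chebU (t d : F) : ℕ → F
  | 0 => 0
  | 1 => 1
  | (m + 2) => t * chebU t d (m + 1) - d * chebU t d m

lemma mat_pow_succ (g : Matrix (Fin 2) (Fin 2) F) (m : ℕ) :
    g ^ (m + 1) = chebU (g 0 0 + g 1 1) (g 0 0 * g 1 1 - g 0 1 * g 1 0) (m + 1) • g -
      ((g 0 0 * g 1 1 - g 0 1 * g 1 0) * chebU (g 0 0 + g 1 1) (g 0 0 * g 1 1 - g 0 1 * g 1 0) m) •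
        (1 : Matrix (Fin 2) (Fin 2) F) := by
  induction m with
  | zero => simp [chebU]
  | succ m ih =>
    rw [pow_succ, ih]
    ext i j
    fin_cases i <;> fin_cases j <;> simp [chebU, Matrix.mul_apply, Fin.sum_univ_two] <;> ring

lemma cheb_of_pow {g : GL (Fin 2) F} {m : ℕ} (h : mk g ^ (m + 1) = 1)
    (hs : ¬ (g 0 1 = 0 ∧ g 1 0 = 0 ∧ g 0 0 = g 1 1)) :
    chebU (g 0 0 + g 1 1) (g 0 0 * g 1 1 - g 0 1 * g 1 0) (m + 1) = 0 := by
  rw [← map_pow, mk_eq_one_iff] at h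
  have e : ∀ i j, (g ^ (m + 1)) i j = ((g : Matrix (Fin 2) (Fin 2) F) ^ (m + 1)) i j := by
    intro i j; rw [Units.val_pow_eq_pow_val]
  rw [e, e, e, e, mat_pow_succ] at h
  simp only [Matrix.sub_apply, Matrix.smul_apply, smul_eq_mul, Matrix.one_apply_eq, ne_eq,
    zero_ne_one, not_false_eq_true, Matrix.one_apply_ne, one_ne_zero, mul_zero, sub_zero,
    mul_one, sub_left_inj] at h
  by_contra hne
  apply hs
  exact ⟨(mul_eq_zero.1 h.1).resolve_left hne, (mul_eq_zero.1 h.2.1).resolve_left hne,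
    mul_left_cancel₀ hne h.2.2⟩

/-- allowed values of `tr² / det` in `S₄` -/
def C4 (τ : F) : Prop := τ = 0 ∨ τ = 1 ∨ τ = 2
/-- allowed values of `tr² / det` in `A₅` -/
def C5 (τ : F) : Prop := τ = 0 ∨ τ = 1 ∨ τ ^ 2 - 3 * τ + 1 = 0

lemma cond_of_pow {g : GL (Fin 2) F} {k : ℕ} (h : mk g ^ 2 = 1 ∨ mk g ^ 3 = 1 ∨ mk g ^ k = 1)
    (hs : ¬ (g 0 1 = 0 ∧ g 1 0 = 0 ∧ g 0 0 = g 1 1)) {τ : F}
    (hτ : (g 0 0 + g 1 1) ^ 2 = τ * (g 0 0 * g 1 1 - g 0 1 * g 1 0)) :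
    ((k = 3 ∨ k = 4) → C4 τ) ∧ (k = 5 → C5 τ) := by
  have hd := g.det_ne_zero
  rw [det_fin_two] at hd
  set t := g 0 0 + g 1 1
  set d := g 0 0 * g 1 1 - g 0 1 * g 1 0
  have h2 : mk g ^ 2 = 1 → τ = 0 := fun h => by
    have := cheb_of_pow (m := 1) h hs
    simp only [chebU] at this
    apply mul_right_cancel₀ hd
    linear_combination -hτ + t * this
  have h3 : mk g ^ 3 = 1 → τ = 1 := fun h => by
    have := cheb_of_pow (m := 2) h hs
    simp only [chebU] at this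
    apply mul_right_cancel₀ hd
    linear_combination -hτ + this
  have h4 : mk g ^ 4 = 1 → τ = 0 ∨ τ = 2 := fun h => by
    have := cheb_of_pow (m := 3) h hs
    simp only [chebU] at this
    have h5 : τ * (τ - 2) * (d * d) = 0 := by
      linear_combination t * this - (τ * d + t ^ 2 - 2 * d) * hτ
    rcases mul_eq_zero.1 ((mul_eq_zero.1 h5).resolve_right (mul_ne_zero hd hd)) with h | h
    · exact Or.inl h
    · exact Or.inr (sub_eq_zero.1 h)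
  have h5 : mk g ^ 5 = 1 → τ ^ 2 - 3 * τ + 1 = 0 := fun h => by
    have := cheb_of_pow (m := 4) h hs
    simp only [chebU] at this
    apply mul_right_cancel₀ (mul_ne_zero hd hd)
    linear_combination this - (τ * d + t ^ 2 - 3 * d) * hτ
  refine ⟨fun hk => ?_, fun hk => ?_⟩
  · rcases h with h | h | h
    · exact Or.inl (h2 h)
    · exact Or.inr (Or.inl (h3 h))
    · rcases hk with rfl | rfl
      · exact Or.inr (Or.inl (h3 h))
      · rcases h4 h with h | h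
        · exact Or.inl h
        · exact Or.inr (Or.inr h)
  · subst hk
    rcases h with h | h | h
    · exact Or.inl (h2 h)
    · exact Or.inr (Or.inl (h3 h))
    · exact Or.inr (Or.inr (h5 h))

/-- a traceless invertible matrix -/
def tl (a b c l : F) (h : a ^ 2 + b * c = l) (hl : l ≠ 0) : GL (Fin 2) F :=
  mat a b c (-a) (by rw [← h] at hl; intro h'; apply hl; linear_combination -h')

lemma pair_contra {a1 b1 c1 a2 b2 c2 a3 b3 c3 l : F} (h1 : a1 ^ 2 + b1 * c1 = l)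
    (h2 : a2 ^ 2 + b2 * c2 = l) (h3 : a3 ^ 2 + b3 * c3 = l) (hl : l ≠ 0)
    (hD : a1 * (b2 * c3 - b3 * c2) - b1 * (a2 * c3 - a3 * c2) + c1 * (a2 * b3 - a3 * b2) ≠ 0)
    (t12 : 2 * a1 * a2 + b1 * c2 + c1 * b2 ≠ 0)
    (t3 : 2 * a1 * a3 + b1 * c3 + c1 * b3 ≠ 0 ∨ 2 * a2 * a3 + b2 * c3 + c2 * b3 ≠ 0)
    {x y : OnePoint K} (hxy : x ≠ y) (m1 : mk (tl a1 b1 c1 l h1 hl) ∈ pairStab F x y)
    (m2 : mk (tl a2 b2 c2 l h2 hl) ∈ pairStab F x y)
    (m3 : mk (tl a3 b3 c3 l h3 hl) ∈ pairStab F x y) : False := by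
  have hΔ := hco_det_ne hxy
  simp only [mem_pairStab, mk_smul_eq_iff, tl, mat00, mat01, mat10, mat11, map_neg] at m1 m2 m3
  rw [← (algebraMap F K).injective.ne_iff] at hD t12
  rw [← (algebraMap F K).injective.ne_iff, ← (algebraMap F K).injective.ne_iff] at t3
  simp only [map_add, map_sub, map_mul, map_ofNat, map_zero] at hD t12 t3
  generalize algebraMap F K a1 = A1 at *
  generalize algebraMap F K b1 = B1 at *
  generalize algebraMap F K c1 = C1 at *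
  generalize algebraMap F K a2 = A2 at *
  generalize algebraMap F K b2 = B2 at *
  generalize algebraMap F K c2 = C2 at *
  generalize algebraMap F K a3 = A3 at *
  generalize algebraMap F K b3 = B3 at *
  generalize algebraMap F K c3 = C3 at *
  generalize (hco x).1 = x1 at *
  generalize (hco x).2 = x2 at *
  generalize (hco y).1 = y1 at *
  generalize (hco y).2 = y2 at *
  let L : K → K → K → K → K → K → K → K := fun a b c u1 u2 v1 v2 =>
    (a * u1 + b * u2) * v2 - v1 * (c * u1 + -a * u2)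
  have tr : ∀ a b c a' b' c' : K, (2 * a * a' + b * c' + c * b') * (x1 * y2 - x2 * y1) ^ 2 =
      2 * L a b c x1 x2 y1 y2 * L a' b' c' x1 x2 y1 y2 - L a b c x1 x2 x1 x2 * L a' b' c' y1 y2 y1 y2
        - L a b c y1 y2 y1 y2 * L a' b' c' x1 x2 x1 x2 := by
    intros; simp only [L]; ring
  have det : (A1 * (B2 * C3 - B3 * C2) - B1 * (A2 * C3 - A3 * C2) + C1 * (A2 * B3 - A3 * B2)) *
      (x1 * y2 - x2 * y1) ^ 3 =
      - (L A1 B1 C1 x1 x2 y1 y2 * (L A2 B2 C2 y1 y2 y1 y2 * L A3 B3 C3 x1 x2 x1 x2 -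
          L A3 B3 C3 y1 y2 y1 y2 * L A2 B2 C2 x1 x2 x1 x2)
        - L A1 B1 C1 y1 y2 y1 y2 * (L A2 B2 C2 x1 x2 y1 y2 * L A3 B3 C3 x1 x2 x1 x2 -
          L A3 B3 C3 x1 x2 y1 y2 * L A2 B2 C2 x1 x2 x1 x2)
        + L A1 B1 C1 x1 x2 x1 x2 * (L A2 B2 C2 x1 x2 y1 y2 * L A3 B3 C3 y1 y2 y1 y2 -
          L A3 B3 C3 x1 x2 y1 y2 * L A2 B2 C2 y1 y2 y1 y2)) := by
    simp only [L]; ring
  have n1 : (L A1 B1 C1 x1 x2 x1 x2 = 0 ∧ L A1 B1 C1 y1 y2 y1 y2 = 0) ∨ L A1 B1 C1 x1 x2 y1 y2 = 0 :=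
    m1.imp (fun h => ⟨sub_eq_zero.2 h.1, sub_eq_zero.2 h.2⟩) (fun h => sub_eq_zero.2 h.1)
  have n2 : (L A2 B2 C2 x1 x2 x1 x2 = 0 ∧ L A2 B2 C2 y1 y2 y1 y2 = 0) ∨ L A2 B2 C2 x1 x2 y1 y2 = 0 :=
    m2.imp (fun h => ⟨sub_eq_zero.2 h.1, sub_eq_zero.2 h.2⟩) (fun h => sub_eq_zero.2 h.1)
  have n3 : (L A3 B3 C3 x1 x2 x1 x2 = 0 ∧ L A3 B3 C3 y1 y2 y1 y2 = 0) ∨ L A3 B3 C3 x1 x2 y1 y2 = 0 :=
    m3.imp (fun h => ⟨sub_eq_zero.2 h.1, sub_eq_zero.2 h.2⟩) (fun h => sub_eq_zero.2 h.1)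
  have hD' := mul_ne_zero hD (pow_ne_zero 3 hΔ)
  have t12' := mul_ne_zero t12 (pow_ne_zero 2 hΔ)
  have t3' := t3.imp (fun h => mul_ne_zero h (pow_ne_zero 2 hΔ)) (fun h => mul_ne_zero h (pow_ne_zero 2 hΔ))
  rw [det] at hD'
  rw [tr] at t12'
  rw [tr, tr] at t3'
  rcases n1 with ⟨p1, q1⟩ | p1 <;> rcases n2 with ⟨p2, q2⟩ | p2 <;> rcases n3 with ⟨p3, q3⟩ | p3 <;>
    simp_all

theorem tri_mat [Finite F] (hprime : ∀ c : F, ∃ n : ℕ, c = n)
    {a1 b1 c1 a2 b2 c2 a3 b3 c3 l : F} (h1 : a1 ^ 2 + b1 * c1 = l)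
    (h2 : a2 ^ 2 + b2 * c2 = l) (h3 : a3 ^ 2 + b3 * c3 = l) (hl : l ≠ 0)
    {τ12 τ13 τ23 τ : F}
    (e12 : 2 * a1 * a2 + b1 * c2 + c1 * b2 = l * τ12)
    (e13 : 2 * a1 * a3 + b1 * c3 + c1 * b3 = l * τ13)
    (e23 : 2 * a2 * a3 + b2 * c3 + c2 * b3 = l * τ23)
    (hτ : τ = 4 + τ12 * τ13 * τ23 - τ12 ^ 2 - τ13 ^ 2 - τ23 ^ 2)
    (hτ0 : τ ≠ 0) (t12 : τ12 ≠ 0) (t3 : τ13 ≠ 0 ∨ τ23 ≠ 0)
    (H : Subgroup PGL(2, F)) (m1 : mk (tl a1 b1 c1 l h1 hl) ∈ H)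
    (m2 : mk (tl a2 b2 c2 l h2 hl) ∈ H) (m3 : mk (tl a3 b3 c3 l h3 hl) ∈ H) :
    Lsub F ≤ H ∨ (C4 (τ12 ^ 2) ∧ C4 (τ13 ^ 2) ∧ C4 (τ23 ^ 2) ∧ C4 τ) ∨
      ((5 : F) ≠ 0 ∧ C5 (τ12 ^ 2) ∧ C5 (τ13 ^ 2) ∧ C5 (τ23 ^ 2) ∧ C5 τ) := by
  obtain ⟨p, hp⟩ := CharP.exists F
  have hpp : p.Prime := CharP.char_is_prime F p
  have := Fact.mk hpp
  set D := a1 * (b2 * c3 - b3 * c2) - b1 * (a2 * c3 - a3 * c2) + c1 * (a2 * b3 - a3 * b2) with hDdef
  have hD2 : D ^ 2 = τ * (-l) ^ 3 := by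
    have : D ^ 2 = -(4 * (a1 ^ 2 + b1 * c1) * (a2 ^ 2 + b2 * c2) * (a3 ^ 2 + b3 * c3) +
      (2 * a1 * a2 + b1 * c2 + c1 * b2) * (2 * a1 * a3 + b1 * c3 + c1 * b3) *
        (2 * a2 * a3 + b2 * c3 + c2 * b3)
      - (a3 ^ 2 + b3 * c3) * (2 * a1 * a2 + b1 * c2 + c1 * b2) ^ 2
      - (a2 ^ 2 + b2 * c2) * (2 * a1 * a3 + b1 * c3 + c1 * b3) ^ 2
      - (a1 ^ 2 + b1 * c1) * (2 * a2 * a3 + b2 * c3 + c2 * b3) ^ 2) := by
      rw [hDdef]; ring
    rw [this, h1, h2, h3, e12, e13, e23, hτ]; ring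
  have hD : D ≠ 0 := by
    intro h
    rw [h] at hD2
    exact mul_ne_zero hτ0 (pow_ne_zero 3 (neg_ne_zero.2 hl)) (by rw [← hD2]; ring)
  have t12' : 2 * a1 * a2 + b1 * c2 + c1 * b2 ≠ 0 := by rw [e12]; exact mul_ne_zero hl t12
  have t3' : 2 * a1 * a3 + b1 * c3 + c1 * b3 ≠ 0 ∨ 2 * a2 * a3 + b2 * c3 + c2 * b3 ≠ 0 := by
    rw [e13, e23]; exact t3.imp (mul_ne_zero hl) (mul_ne_zero hl)
  rcases dickson p H with ⟨x, hx⟩ | ⟨x, y, hxy, hx⟩ | ⟨t, a, b, ht, hx⟩ | ⟨k, hk, hord, hpk⟩ |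
    ⟨k, g, -, hk⟩
  · exfalso
    have n1 := hx m1
    have n2 := hx m2
    have n3 := hx m3
    simp only [mem_stabilizer_iff, mk_smul_eq_iff, tl, mat00, mat01, mat10, mat11,
      Algebra.algebraMap_self, RingHom.id_apply] at n1 n2 n3
    rcases hco_ne_zero x with h | h
    · apply mul_ne_zero hD (mul_ne_zero h h)
      rw [hDdef]
      linear_combination (-(a2 * b3 - a3 * b2)) * n1 + (a1 * b3 - a3 * b1) * n2 - (a1 * b2 - a2 * b1) * n3
    · apply mul_ne_zero hD (mul_ne_zero h h)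
      rw [hDdef]
      linear_combination (-(a2 * c3 - a3 * c2)) * n1 + (a1 * c3 - a3 * c1) * n2 - (a1 * c2 - a2 * c1) * n3
  · exact (pair_contra h1 h2 h3 hl hD t12' t3' hxy (hx m1) (hx m2) (hx m3)).elim
  · exact (pair_contra h1 h2 h3 hl hD t12' t3' (fun e => ht.ne_conj (coe_eq_coe.mp e))
      (hx m1) (hx m2) (hx m3)).elim
  · right
    have key : ∀ g : GL (Fin 2) F, mk g ∈ H → ¬ (g 0 1 = 0 ∧ g 1 0 = 0 ∧ g 0 0 = g 1 1) → ∀ τ : F,
        (g 0 0 + g 1 1) ^ 2 = τ * (g 0 0 * g 1 1 - g 0 1 * g 1 0) →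
        ((k = 3 ∨ k = 4) → C4 τ) ∧ (k = 5 → C5 τ) := by
      intro g hg hs τ hτ
      refine cond_of_pow ?_ hs hτ
      have := hord ⟨_, hg⟩
      simpa only [Subtype.ext_iff, Subgroup.coe_pow, Subgroup.coe_one] using this
    have pr : ∀ {a1 b1 c1 a2 b2 c2 : F} (h1 : a1 ^ 2 + b1 * c1 = l) (h2 : a2 ^ 2 + b2 * c2 = l)
        {τ12 : F} (_ : 2 * a1 * a2 + b1 * c2 + c1 * b2 = l * τ12)
        (_ : ¬ (a1 * b2 - b1 * a2 = 0 ∧ c1 * a2 - a1 * c2 = 0 ∧ b1 * c2 = c1 * b2)),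
        mk (tl a1 b1 c1 l h1 hl) ∈ H → mk (tl a2 b2 c2 l h2 hl) ∈ H →
        ((k = 3 ∨ k = 4) → C4 (τ12 ^ 2)) ∧ (k = 5 → C5 (τ12 ^ 2)) := by
      intro a1 b1 c1 a2 b2 c2 h1 h2 τ12 e12 hn m1 m2
      refine key (tl a1 b1 c1 l h1 hl * tl a2 b2 c2 l h2 hl) (by rw [map_mul]; exact H.mul_mem m1 m2)
        ?_ _ ?_
      · simp only [tl, GeneralLinearGroup.coe_mul, Matrix.mul_apply, Fin.sum_univ_two, mat00, mat01,
          mat10, mat11]
        rintro ⟨q1, q2, q3⟩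
        exact hn ⟨by linear_combination q1, by linear_combination q2, by linear_combination q3⟩
      · simp only [tl, GeneralLinearGroup.coe_mul, Matrix.mul_apply, Fin.sum_univ_two, mat00, mat01,
          mat10, mat11]
        have : (a1 * a2 + b1 * c2) * (c1 * b2 + -a1 * -a2) - (a1 * b2 + b1 * -a2) * (c1 * a2 + -a1 * c2)
          = l * l := by
          nth_rewrite 1 [← h1]; rw [← h2]; ring
        rw [this]
        have : a1 * a2 + b1 * c2 + (c1 * b2 + -a1 * -a2) = l * τ12 := by rw [← e12]; ring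
        rw [this]; ring
    have k12 := pr h1 h2 e12 (by
      rintro ⟨q1, q2, q3⟩; apply hD; rw [hDdef]
      linear_combination c3 * q1 + b3 * q2 + a3 * q3) m1 m2
    have k13 := pr h1 h3 e13 (by
      rintro ⟨q1, q2, q3⟩; apply hD; rw [hDdef]
      linear_combination -c2 * q1 - b2 * q2 - a2 * q3) m1 m3
    have k23 := pr h2 h3 e23 (by
      rintro ⟨q1, q2, q3⟩; apply hD; rw [hDdef]
      linear_combination c1 * q1 + b1 * q2 + a1 * q3) m2 m3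
    have k123 := key (tl a1 b1 c1 l h1 hl * tl a2 b2 c2 l h2 hl * tl a3 b3 c3 l h3 hl)
      (by rw [map_mul, map_mul]; exact H.mul_mem (H.mul_mem m1 m2) m3) (by
        simp only [tl, GeneralLinearGroup.coe_mul, Matrix.mul_apply, Fin.sum_univ_two, mat00, mat01,
          mat10, mat11]
        rintro ⟨q1, q2, q3⟩
        apply mul_ne_zero t12' hl
        rw [← h3]
        linear_combination c3 * q1 + b3 * q2 + a3 * q3) τ (by
        simp only [tl, GeneralLinearGroup.coe_mul, Matrix.mul_apply, Fin.sum_univ_two, mat00, mat01,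
          mat10, mat11]
        have e1 : ((a1 * a2 + b1 * c2) * a3 + (a1 * b2 + b1 * -a2) * c3 +
          ((c1 * a2 + -a1 * c2) * b3 + (c1 * b2 + -a1 * -a2) * -a3)) = D := by rw [hDdef]; ring
        have e2 : ((a1 * a2 + b1 * c2) * a3 + (a1 * b2 + b1 * -a2) * c3) *
            ((c1 * a2 + -a1 * c2) * b3 + (c1 * b2 + -a1 * -a2) * -a3) -
          ((a1 * a2 + b1 * c2) * b3 + (a1 * b2 + b1 * -a2) * -a3) *
            ((c1 * a2 + -a1 * c2) * a3 + (c1 * b2 + -a1 * -a2) * c3) =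
            -((a1 ^ 2 + b1 * c1) * (a2 ^ 2 + b2 * c2) * (a3 ^ 2 + b3 * c3)) := by ring
        rw [e1, e2, h1, h2, h3, hD2]; ring)
    rcases hk with ⟨hk, -⟩ | ⟨hk, -⟩ | ⟨hk, hc⟩
    · exact Or.inl ⟨k12.1 (Or.inl hk), k13.1 (Or.inl hk), k23.1 (Or.inl hk), k123.1 (Or.inl hk)⟩
    · exact Or.inl ⟨k12.1 (Or.inr hk), k13.1 (Or.inr hk), k23.1 (Or.inr hk), k123.1 (Or.inr hk)⟩
    · refine Or.inr ⟨?_, k12.2 hk, k13.2 hk, k23.2 hk, k123.2 hk⟩
      intro h5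
      have hp5 : p ∣ 5 := (CharP.cast_eq_zero_iff F p 5).1 (by exact_mod_cast h5)
      have hp5' : p = 5 := (Nat.prime_dvd_prime_iff_eq hpp (by norm_num)).1 hp5
      rcases hpk with h | ⟨h, -⟩
      · apply h; rw [hc, hp5']; norm_num
      · omega
  · left
    have hk' : k = ⊤ := by
      rw [eq_top_iff]; intro c _
      obtain ⟨n, rfl⟩ := hprime c
      exact natCast_mem k n
    subst hk'
    have : cj g (PS (⊤ : Subfield F)) ≤ H := by
      rcases hk with rfl | rfl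
      · exact le_rfl
      · exact cj_mono g (PS_le_PG _)
    refine le_trans ?_ this
    rw [PS_top]
    intro γ hγ
    rw [mem_cj]
    induction γ using ProjGenLinGroup.induction_on with | mk a =>
    induction g using ProjGenLinGroup.induction_on with | mk g =>
    rw [← map_inv, ← map_mul, ← map_mul, mk_mem_Lsub, ← det_fin_two] at *
    rw [Units.val_mul, Units.val_mul, det_mul, det_mul, mul_right_comm, ← det_mul, ← Units.val_mul,
      inv_mul_cancel, Units.val_one, det_one, one_mul]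
    exact hγ

end Cfsg.Agent.H1
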