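import Mathlib
import Cfsg.Agent.H1.FrameMat
import Cfsg.Agent.H1.FrameGrow

/-! Three reflections: Dickson's theorem in geometric form. -/

set_option autoImplicit false

namespace Cfsg.Agent.H1

open Module Cfsg.Agent.Orth Cfsg.Agent.H8
open scoped MatrixGroups

local notation "pmk" => Matrix.ProjGenLinGroup.mk

variable {F V : Type*} [Field F] [AddCommGroup V] [Module F V] {Q : QuadraticForm F V}
  {G : Subgroup (V ≃ₗ[F] V)}

/-- coordinates on a three-dimensional non-degenerate space -/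
structure Tri3 (Q : QuadraticForm F V) (Y : Submodule F V) (u v z : V) : Prop where
  nd : NdOn Q Y
  uY : u ∈ Y
  vY : v ∈ Y
  zY : z ∈ Y
  hu : Q u = 0
  hv : Q v = 0
  huv : B Q u v = 1
  huz : B Q u z = 0
  hvz : B Q v z = 0
  hz : Q z ≠ 0
  dec : ∀ x ∈ Y, x = B Q v x • u + B Q u x • v + (B Q z x / (2 * Q z)) • z

lemma exists_tri3 [Finite F] [FiniteDimensional F V] (h2 : (2 : F) ≠ 0) {Y : Submodule F V}
    (hY : NdOn Q Y) (hd : finrank F Y = 3) : ∃ u v z, Tri3 Q Y u v z := by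
  obtain ⟨u, uY, hu0, hu⟩ := exists_sing_of_three (Q := Q) Y hd.ge
  obtain ⟨v, vY, hv, huv⟩ := exists_partner uY hu (hY.exists_B_ne uY hu0)
  have hle : Submodule.span F {u, v} ≤ Y := by
    rw [Submodule.span_le]; rintro _ (rfl | rfl); exacts [uY, vY]
  have hH : NdOn Q (Submodule.span F {u, v}) := by
    intro x hx hb
    obtain ⟨a, b, rfl⟩ := Submodule.mem_span_pair.1 hx
    have h1 := hb u (Submodule.subset_span (by simp))
    have h2 := hb v (Submodule.subset_span (by simp))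
    simp [B_self_of_sing Q hu, B_self_of_sing Q hv, huv, B_comm Q v u] at h1 h2
    simp [h1, h2]
  have h1 := hY.finrank_inf_perp hle
  have h3 := finrank_span_pair_le (F := F) u v
  have h4 : 2 ≤ finrank F (Submodule.span F ({u, v} : Set V)) := by
    have : (F ∙ u) < Submodule.span F ({u, v} : Set V) := by
      refine lt_of_le_of_ne (Submodule.span_mono (by simp)) fun h => ?_
      have : v ∈ F ∙ u := h ▸ Submodule.subset_span (by simp)
      obtain ⟨c, rfl⟩ := Submodule.mem_span_singleton.1 this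
      simp [B_self_of_sing Q hu] at huv
    have h5 := Submodule.finrank_lt_finrank_of_lt this
    rw [finrank_span_singleton hu0] at h5
    omega
  obtain ⟨z, hz, hz0⟩ := (hY.inf_perp hH hle).exists_nonsing le_rfl (by omega)
  have huz : B Q u z = 0 := hz.2 u (Submodule.subset_span (by simp))
  have hvz : B Q v z = 0 := hz.2 v (Submodule.subset_span (by simp))
  refine ⟨u, v, z, hY, uY, vY, hz.1, hu, hv, huv, huz, hvz, hz0, fun x hx => ?_⟩
  have hz1 : z ≠ 0 := by rintro rfl; simp at hz0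
  have h5 : (F ∙ z) = Y ⊓ perp Q (Submodule.span F {u, v}) := by
    apply Submodule.eq_of_le_of_finrank_eq ((Submodule.span_singleton_le_iff_mem _ _).2 hz)
    rw [finrank_span_singleton hz1]; omega
  have h6 : x - B Q v x • u - B Q u x • v ∈ F ∙ z := by
    rw [h5]
    refine ⟨Y.sub_mem (Y.sub_mem hx (Y.smul_mem _ uY)) (Y.smul_mem _ vY), mem_perp_span.2 ?_⟩
    intro s hs
    rcases hs with hs | hs <;> rw [hs] <;>
      simp [B_self_of_sing Q hu, B_self_of_sing Q hv, huv, B_comm Q v u]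
  obtain ⟨c, hc⟩ := Submodule.mem_span_singleton.1 h6
  have h7 := congrArg (B Q z) hc
  simp only [map_smul, map_sub, B_comm Q z u, B_comm Q z v, huz, hvz, B_self, smul_eq_mul, mul_zero,
    sub_zero] at h7
  rw [← h7, mul_div_cancel_right₀ _ (mul_ne_zero h2 hz0), hc]
  abel

/-- the traceless matrix attached to a vector -/
def phiM (Q : QuadraticForm F V) (u v z x : V) : Matrix (Fin 2) (Fin 2) F :=
  !![B Q z x, 2 * B Q v x; 2 * Q z * B Q u x, -B Q z x]

section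
variable {Y : Submodule F V} {u v z : V}

lemma Tri3.polar (h2 : (2 : F) ≠ 0) (h : Tri3 Q Y u v z) {x : V} (hx : x ∈ Y) (y : V) :
    2 * B Q z x * B Q z y + (2 * B Q v x) * (2 * Q z * B Q u y) + (2 * Q z * B Q u x) * (2 * B Q v y)
      = (4 * Q z) * B Q x y := by
  have := congrArg (fun w => B Q w y) (h.dec x hx)
  simp only [map_add, map_smul, LinearMap.add_apply, LinearMap.smul_apply, smul_eq_mul] at this
  rw [this]
  have := h.hz
  field_simp
  ring

lemma Tri3.sq (h2 : (2 : F) ≠ 0) (h : Tri3 Q Y u v z) {x : V} (hx : x ∈ Y) (hq : Q x = 1) :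
    B Q z x ^ 2 + (2 * B Q v x) * (2 * Q z * B Q u x) = 4 * Q z := by
  have := h.polar h2 hx x
  rw [B_self, hq] at this
  apply mul_left_cancel₀ h2
  linear_combination this

lemma Tri3.four_ne (h2 : (2 : F) ≠ 0) (h : Tri3 Q Y u v z) : 4 * Q z ≠ 0 :=
  mul_ne_zero (by have := mul_ne_zero h2 h2; norm_num at this ⊢; exact this) h.hz

lemma Tri3.phi_inj (h2 : (2 : F) ≠ 0) (h : Tri3 Q Y u v z) {x y : V} (hx : x ∈ Y) (hy : y ∈ Y)
    (e : phiM Q u v z x = phiM Q u v z y) : x = y := by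
  have e1 := congrFun (congrFun e 0) 0
  have e2 := congrFun (congrFun e 0) 1
  have e3 := congrFun (congrFun e 1) 0
  simp [phiM, h2, h.hz] at e1 e2 e3
  exact (h.dec x hx).trans (by rw [e1, e2, e3]; exact (h.dec y hy).symm)

/-- relation between matrices and isometries -/
def TRel (Q : QuadraticForm F V) (G : Subgroup (V ≃ₗ[F] V)) (Y : Submodule F V) (u v z : V)
    (A : GL (Fin 2) F) (g : V ≃ₗ[F] V) (ε : F) : Prop :=
  g ∈ G ∧ (∀ x ∈ Y, g x ∈ Y) ∧ (∀ x ∈ perp Q Y, g x = x) ∧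
    ∀ x ∈ Y, (A : Matrix (Fin 2) (Fin 2) F) * phiM Q u v z x = ε • (phiM Q u v z (g x) * A)

lemma TRel.mul {A A' : GL (Fin 2) F} {g g' : V ≃ₗ[F] V} {ε ε' : F} (h : TRel Q G Y u v z A g ε)
    (h' : TRel Q G Y u v z A' g' ε') : TRel Q G Y u v z (A * A') (g * g') (ε * ε') := by
  refine ⟨mul_mem h.1 h'.1, fun x hx => h.2.1 _ (h'.2.1 x hx), fun x hx => by
    rw [mul_app, h'.2.2.1 x hx, h.2.2.1 x hx], fun x hx => ?_⟩
  rw [Units.val_mul, mul_assoc, h'.2.2.2 x hx, Matrix.mul_smul, ← mul_assoc, h.2.2.2 _ (h'.2.1 x hx),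
    Matrix.smul_mul, smul_smul, mul_comm ε', mul_assoc, mul_app]

lemma TRel.inv [FiniteDimensional F V] {A : GL (Fin 2) F} {g : V ≃ₗ[F] V} {ε : F} (hε : ε * ε = 1)
    (h : TRel Q G Y u v z A g ε) : TRel Q G Y u v z A⁻¹ g⁻¹ ε := by
  have h1 := inv_mem_of_forall_mem h.2.1
  refine ⟨inv_mem h.1, h1, fun x hx => ?_, fun x hx => ?_⟩
  · nth_rewrite 1 [← h.2.2.1 x hx]; simp
  · have := h.2.2.2 _ (h1 x hx)
    rw [apply_inv_apply] at this
    have h3 : ((A⁻¹ : GL (Fin 2) F) : Matrix (Fin 2) (Fin 2) F) * ((A : Matrix (Fin 2) (Fin 2) F) *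
        phiM Q u v z (g⁻¹ x)) * (A⁻¹ : GL (Fin 2) F) = phiM Q u v z (g⁻¹ x) * (A⁻¹ : GL (Fin 2) F) := by
      rw [← mul_assoc, ← Units.val_mul, inv_mul_cancel, Units.val_one, one_mul]
    rw [← h3, this, Matrix.mul_smul, Matrix.smul_mul, smul_smul, hε, one_smul, mul_assoc, mul_assoc,
      ← Units.val_mul, mul_inv_cancel, Units.val_one, mul_one]

/-- the subgroup of `PGL(2, F)` induced by `G` on `Y` -/
def THS [FiniteDimensional F V] (Q : QuadraticForm F V) (G : Subgroup (V ≃ₗ[F] V)) (Y : Submodule F V)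
    (u v z : V) (b : Prop) : Subgroup PGL(2, F) where
  carrier := {γ | ∃ A g ε, pmk A = γ ∧ ε * ε = 1 ∧ (b → ε = 1) ∧ TRel Q G Y u v z A g ε}
  mul_mem' := by
    rintro _ _ ⟨A, g, ε, rfl, h1, h2, h3⟩ ⟨A', g', ε', rfl, h1', h2', h3'⟩
    exact ⟨A * A', g * g', ε * ε', map_mul _ _ _, by linear_combination ε' * ε' * h1 + h1',
      fun hb => by rw [h2 hb, h2' hb, mul_one], h3.mul h3'⟩
  one_mem' := ⟨1, 1, 1, map_one _, mul_one _, fun _ => rfl, one_mem _, fun x hx => hx,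
    fun x _ => rfl, fun x _ => by simp [one_app]⟩
  inv_mem' := by
    rintro _ ⟨A, g, ε, rfl, h1, h2, h3⟩
    exact ⟨A⁻¹, g⁻¹, ε, map_inv _ _, h1, h2, h3.inv h1⟩

variable [FiniteDimensional F V]

lemma THS_sq {γ : PGL(2, F)} (h : γ ∈ THS Q G Y u v z False) : γ * γ ∈ THS Q G Y u v z True := by
  obtain ⟨A, g, ε, rfl, h1, -, h3⟩ := h
  exact ⟨A * A, g * g, ε * ε, map_mul _ _ _, by rw [h1, mul_one], fun _ => h1, h3.mul h3⟩

lemma Tri3.mem_of_THS (h2 : (2 : F) ≠ 0) (h : Tri3 Q Y u v z) {A : GL (Fin 2) F}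
    (hA : pmk A ∈ THS Q G Y u v z True) {k : V ≃ₗ[F] V} (hk : TRel Q ⊤ Y u v z A k 1) : k ∈ G := by
  obtain ⟨A', g, ε, e, -, h1, h3⟩ := hA
  obtain rfl := h1 trivial
  obtain ⟨c, hc, e'⟩ := exists_smul_of_mk_eq e
  have e2 : (A : Matrix (Fin 2) (Fin 2) F) = c • (A' : Matrix (Fin 2) (Fin 2) F) := by
    ext i j; exact e' i j
  have : k = g := by
    ext x
    obtain ⟨a, ha, b, hb, rfl⟩ := h.nd.exists_decomp x
    rw [map_add, map_add, hk.2.2.1 b hb, h3.2.2.1 b hb]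
    congr 1
    apply h.phi_inj h2 (hk.2.1 a ha) (h3.2.1 a ha)
    have e3 := hk.2.2.2 a ha
    have e4 := h3.2.2.2 a ha
    rw [one_smul] at e3 e4
    have e5 : phiM Q u v z (k a) * A = phiM Q u v z (g a) * A := by
      rw [← e3, e2, Matrix.smul_mul, e4, Matrix.mul_smul]
    exact (Units.mul_left_inj A).1 e5
  rw [this]; exact h3.1

omit [FiniteDimensional F V] in
lemma Tri3.trel_refl (h2 : (2 : F) ≠ 0) (h : Tri3 Q Y u v z) {η : V} (hη : η ∈ Y) (hq : Q η = 1)
    (hr : Orth.refl Q η ∈ G) :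
    TRel Q G Y u v z (tl _ _ _ _ (h.sq h2 hη hq) (h.four_ne h2)) (Orth.refl Q η) (-1) := by
  refine ⟨hr, fun x hx => refl_mem hη hx, fun x hx => refl_of_perp (hx η hη), fun x hx => ?_⟩
  have e1 := h.polar h2 hη x
  have e2 := h.sq h2 hη hq
  rw [refl_one hq]
  ext i j
  fin_cases i <;> fin_cases j <;>
    simp [phiM, tl, Matrix.mul_apply, Fin.sum_univ_two, Matrix.vecMul, dotProduct]
  · linear_combination e1 - B Q η x * e2
  · ring
  · ring
  · linear_combination e1 - B Q η x * e2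

omit [FiniteDimensional F V] in
lemma Tri3.trel_eich (h : Tri3 Q Y u v z) (s : F) :
    TRel Q ⊤ Y u v z (mat 1 s 0 1 (by simp)) (eich Q u (s • z)) 1 := by
  have h1 : B Q u (s • z) = 0 := by simp [h.huz]
  refine ⟨trivial, fun x hx => EU_mem (eich_mem_EU h.uY (Y.smul_mem _ h.zY)) hx,
    fun x hx => eich_apply_of_perp (hx u h.uY) (hx _ (Y.smul_mem _ h.zY)), fun x hx => ?_⟩
  rw [eich_apply h.hu h1, Q_smul]
  ext i j
  fin_cases i <;> fin_cases j <;>
    simp [phiM, Matrix.mul_apply, Fin.sum_univ_two, Matrix.vecMul, dotProduct, B_self, h.huz, h.hvz, h.hu, B_comm Q v u, h.huv,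
      B_comm Q z u] <;> ring

lemma Tri3.ful (h2 : (2 : F) ≠ 0) (hG : G ≤ O Q) (h : Tri3 Q Y u v z) (hd : finrank F Y = 3)
    {α : V} (hα : α ∈ Y) (hq : Q α = 1) (hr : Orth.refl Q α ∈ G)
    (hL : Lsub F ≤ THS Q G Y u v z False) : Ful Q G Y u := by
  have hL' : Lsub F ≤ THS Q G Y u v z True := by
    rw [← PS_top] at hL ⊢
    apply PS_le_of_transl
    · intro s _
      have := THS_sq (hL (transl_mem_PS (s := s / 2) trivial))
      convert this using 1
      rw [transl, transl, ← map_mul]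
      congr 1
      ext i j
      fin_cases i <;> fin_cases j <;> simp [Matrix.mul_apply, Fin.sum_univ_two]
      field_simp; norm_num
    · intro s _
      have := THS_sq (hL (transl'_mem_PS (s := s / 2) trivial))
      convert this using 1
      rw [transl', transl', ← map_mul]
      congr 1
      ext i j
      fin_cases i <;> fin_cases j <;> simp [Matrix.mul_apply, Fin.sum_univ_two]
      field_simp; norm_num
  refine ⟨h.nd, h.uY, h.hu, fun h0 => by simpa [h0] using h.huv, hd.ge, fun δ hδ hb => ?_,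
    fun η hη hqη => ?_⟩
  · rw [h.dec δ hδ, hb, zero_smul, add_zero, add_comm, eich_add_smul_self h.hu (by simp [h.huz])]
    refine h.mem_of_THS h2 (hL' ?_) (h.trel_eich _)
    rw [mk_mem_Lsub]; exact ⟨1, by simp⟩
  · have h1 := (h.trel_refl (G := ⊤) h2 hη hqη trivial).mul (h.trel_refl (G := ⊤) h2 hα hq trivial)
    rw [neg_mul_neg, mul_one] at h1
    have h3 := h.mem_of_THS h2 (hL' ?_) h1
    · simpa [mul_assoc, refl_mul_self] using mul_mem h3 hr
    · rw [mk_mem_Lsub, ← Matrix.det_fin_two, Units.val_mul, Matrix.det_mul, Matrix.det_fin_two,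
        Matrix.det_fin_two]
      refine ⟨4 * Q z, ?_⟩
      simp only [tl, mat00, mat01, mat10, mat11]
      have e1 := h.sq h2 hη hqη
      have e2 := h.sq h2 hα hq
      linear_combination (B Q z α ^ 2 + 2 * B Q v α * (2 * Q z * B Q u α)) * e1 + 4 * Q z * e2

end

theorem tri_geo [Finite F] [FiniteDimensional F V] (hprime : ∀ c : F, ∃ n : ℕ, c = n)
    (h2 : (2 : F) ≠ 0) (h3 : (3 : F) ≠ 0) (hG : G ≤ O Q) (hQ : Nd Q) (hd : 5 ≤ finrank F V)
    (hC : Conn Q G) (hE : ¬ EO Q ≤ G) {α β γ : V} (hα : Q α = 1) (hβ : Q β = 1) (hγ : Q γ = 1)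
    (rα : Orth.refl Q α ∈ G) (rβ : Orth.refl Q β ∈ G) (rγ : Orth.refl Q γ ∈ G) {a b c τ : F}
    (ha : B Q α β = a) (hb : B Q α γ = b) (hc : B Q β γ = c)
    (hτ : τ = 4 + a * b * c - a ^ 2 - b ^ 2 - c ^ 2) (hτ0 : τ ≠ 0) (ha0 : a ≠ 0)
    (hbc : b ≠ 0 ∨ c ≠ 0) :
    (C4 (a ^ 2) ∧ C4 (b ^ 2) ∧ C4 (c ^ 2) ∧ C4 τ) ∨
      ((5 : F) ≠ 0 ∧ C5 (a ^ 2) ∧ C5 (b ^ 2) ∧ C5 (c ^ 2) ∧ C5 τ) := by
  set Y := Submodule.span F ({α, β, γ} : Set V) with hY
  have αY : α ∈ Y := Submodule.subset_span (by simp)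
  have βY : β ∈ Y := Submodule.subset_span (by simp)
  have γY : γ ∈ Y := Submodule.subset_span (by simp)
  have key : ∀ x y w : F, B Q α (x • α + y • β + w • γ) = 0 → B Q β (x • α + y • β + w • γ) = 0 →
      B Q γ (x • α + y • β + w • γ) = 0 → x = 0 ∧ y = 0 ∧ w = 0 := by
    intro x y w e1 e2 e3
    simp only [map_add, map_smul, smul_eq_mul, B_self, hα, hβ, hγ, B_comm Q β α, B_comm Q γ α,
      B_comm Q γ β, ha, hb, hc] at e1 e2 e3
    have h4 := mul_ne_zero h2 hτ0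
    refine ⟨mul_left_cancel₀ h4 ?_, mul_left_cancel₀ h4 ?_, mul_left_cancel₀ h4 ?_⟩
    · rw [hτ]; linear_combination (4 - c ^ 2) * e1 + (b * c - 2 * a) * e2 + (a * c - 2 * b) * e3
    · rw [hτ]; linear_combination (b * c - 2 * a) * e1 + (4 - b ^ 2) * e2 + (a * b - 2 * c) * e3
    · rw [hτ]; linear_combination (a * c - 2 * b) * e1 + (a * b - 2 * c) * e2 + (4 - a ^ 2) * e3
  have hnd : NdOn Q Y := by
    intro v hv h
    obtain ⟨x, y, w, rfl⟩ := Submodule.mem_span_triple.1 hv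
    obtain ⟨rfl, rfl, rfl⟩ := key x y w (h α αY) (h β βY) (h γ γY)
    simp
  have hdim : finrank F Y = 3 := by
    have hli : LinearIndependent F ![α, β, γ] := by
      rw [Fintype.linearIndependent_iff]
      intro g hg
      simp only [Fin.sum_univ_three, Matrix.cons_val_zero, Matrix.cons_val_one, Matrix.cons_val] at hg
      obtain ⟨e1, e2, e3⟩ := key (g 0) (g 1) (g 2) (by simp [hg]) (by simp [hg]) (by simp [hg])
      intro i; fin_cases i; exacts [e1, e2, e3]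
    have := finrank_span_eq_card hli
    rw [Fintype.card_fin] at this
    have e : Set.range ![α, β, γ] = {α, β, γ} := by ext x; simp; tauto
    rw [e] at this
    exact this
  obtain ⟨u, v, z, h⟩ := exists_tri3 h2 hnd hdim
  have m : ∀ {η : V} (hη : η ∈ Y) (hq : Q η = 1), Orth.refl Q η ∈ G →
      pmk (tl _ _ _ _ (h.sq h2 hη hq) (h.four_ne h2)) ∈ THS Q G Y u v z False :=
    fun hη hq hr => ⟨_, _, -1, rfl, by ring, False.elim, h.trel_refl h2 hη hq hr⟩
  rcases tri_mat hprime (h.sq h2 αY hα) (h.sq h2 βY hβ) (h.sq h2 γY hγ) (h.four_ne h2)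
    (ha ▸ h.polar h2 αY β) (hb ▸ h.polar h2 αY γ) (hc ▸ h.polar h2 βY γ) hτ hτ0 ha0 hbc _
    (m αY hα rα) (m βY hβ rβ) (m γY hγ rγ) with hL | hL
  · exact absurd ((h.ful h2 hG hdim αY hα rα hL).EO_le hprime h2 h3 hG hQ hd hC) hE
  · exact hL

end Cfsg.Agent.H1
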