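import Mathlib
import Cfsg.Agent.H1.FrameTri

/-! Reflection groups over prime fields containing `W(D_n)`. -/

set_option autoImplicit false

namespace Cfsg.Agent.H1

open Module Cfsg.Agent.Orth

variable {F V : Type*} [Field F] [AddCommGroup V] [Module F V] {Q : QuadraticForm F V}
  {G : Subgroup (V ≃ₗ[F] V)} {ι : Type*} [Fintype ι] [DecidableEq ι]

/-- orthonormal basis for the polar form -/
structure ONB (Q : QuadraticForm F V) (e : ι → V) : Prop where
  B_eq : ∀ i j, B Q (e i) (e j) = if i = j then 1 else 0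
  span : ∀ x, x = ∑ i, B Q (e i) x • e i

/-- roots of type `D_n` -/
def IsRoot (F : Type*) [Field F] [Module F V] (e : ι → V) (α : V) : Prop :=
  ∃ i j, i ≠ j ∧ ∃ ε ε' : F, ε * ε = 1 ∧ ε' * ε' = 1 ∧ α = ε • e i + ε' • e j

variable {e : ι → V}

lemma ONB.self (he : ONB Q e) (i : ι) : B Q (e i) (e i) = 1 := by simp [he.B_eq]

lemma ONB.ne (he : ONB Q e) {i j : ι} (h : i ≠ j) : B Q (e i) (e j) = 0 := by simp [he.B_eq, h]

lemma ONB.ext (he : ONB Q e) {x y : V} (h : ∀ i, B Q (e i) x = B Q (e i) y) : x = y := by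
  rw [he.span x, he.span y]
  simp only [← he.span]
  rw [he.span x, he.span y]
  exact Finset.sum_congr rfl fun i _ => by rw [h i]

lemma ONB.parseval (he : ONB Q e) (x y : V) : B Q x y = ∑ i, B Q (e i) x * B Q (e i) y := by
  nth_rewrite 1 [he.span x]
  simp [map_sum]

lemma ONB.card_le [FiniteDimensional F V] (he : ONB Q e) : Fintype.card ι ≤ finrank F V := by
  apply LinearIndependent.fintype_card_le_finrank (b := e)
  rw [Fintype.linearIndependent_iff]
  intro g hg i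
  have := congrArg (B Q (e i)) hg
  simpa [map_sum, he.B_eq] using this

lemma ONB.map (he : ONB Q e) {g : V ≃ₗ[F] V} (hg : g ∈ O Q) : ONB Q (fun i => g (e i)) := by
  refine ⟨fun i j => by rw [O_B hg, he.B_eq], fun x => ?_⟩
  have := congrArg g (he.span (g⁻¹ x))
  simpa [map_sum, O_B_inv hg] using this

lemma ONB.root_Q (h2 : (2 : F) ≠ 0) (he : ONB Q e) {α : V} (h : IsRoot F e α) : Q α = 1 := by
  obtain ⟨i, j, hij, ε, ε', h1, h3, rfl⟩ := h
  apply mul_left_cancel₀ h2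
  rw [← B_self]
  simp only [map_add, map_smul, LinearMap.add_apply, LinearMap.smul_apply, smul_eq_mul, he.self,
    he.ne hij, he.ne hij.symm]
  linear_combination h1 + h3

omit [Fintype ι] [DecidableEq ι] in
lemma isRoot_add {i j : ι} (h : i ≠ j) : IsRoot F e (e i + e j) :=
  ⟨i, j, h, 1, 1, by simp, by simp, by simp⟩

omit [Fintype ι] [DecidableEq ι] in
lemma isRoot_sub {i j : ι} (h : i ≠ j) : IsRoot F e (e i - e j) :=
  ⟨i, j, h, 1, -1, by simp, by simp, by simp [sub_eq_add_neg]⟩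

lemma exists_notMem_of_card_lt (s : Finset ι) (h : s.card < Fintype.card ι) : ∃ k, k ∉ s := by
  by_contra h'
  push Not at h'
  have : s = Finset.univ := Finset.eq_univ_of_forall h'
  rw [this, Finset.card_univ] at h
  exact lt_irrefl _ h

lemma exists_ne2 (h : 3 ≤ Fintype.card ι) (i j : ι) : ∃ k, k ≠ i ∧ k ≠ j := by
  obtain ⟨k, hk⟩ := exists_notMem_of_card_lt {i, j} (by have := Finset.card_le_two (a := i) (b := j); omega)
  exact ⟨k, by simpa using hk⟩

lemma exists_ne3 (h : 4 ≤ Fintype.card ι) (i j k : ι) : ∃ l, l ≠ i ∧ l ≠ j ∧ l ≠ k := by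
  obtain ⟨l, hl⟩ := exists_notMem_of_card_lt {i, j, k}
    (by have := Finset.card_le_three (a := i) (b := j) (c := k); omega)
  exact ⟨l, by simpa using hl⟩

lemma exists_ne4 (h : 5 ≤ Fintype.card ι) (i j k l : ι) : ∃ m, m ≠ i ∧ m ≠ j ∧ m ≠ k ∧ m ≠ l := by
  obtain ⟨m, hm⟩ := exists_notMem_of_card_lt {i, j, k, l}
    (by have := Finset.card_le_four (a := i) (b := j) (c := k) (d := l); omega)
  exact ⟨m, by simpa using hm⟩

lemma exists_ne5 (h : 6 ≤ Fintype.card ι) (i j k l m : ι) :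
    ∃ n, n ≠ i ∧ n ≠ j ∧ n ≠ k ∧ n ≠ l ∧ n ≠ m := by
  obtain ⟨n, hn⟩ := exists_notMem_of_card_lt {i, j, k, l, m}
    (by have := Finset.card_le_five (a := i) (b := j) (c := k) (d := l) (e := m); omega)
  exact ⟨n, by simpa using hn⟩

lemma ONB.conn (h2 : (2 : F) ≠ 0) (he : ONB Q e) (hQ : Nd Q) (hn : 3 ≤ Fintype.card ι)
    (hroot : ∀ α, IsRoot F e α → refl Q α ∈ G) : Conn Q G := by
  intro Z hZ0 hZ1
  by_contra hcon
  push Not at hcon
  have h1 : ∀ α, IsRoot F e α → α ∉ Z → α ∈ perp Q Z :=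
    fun α hα => hcon α (he.root_Q h2 hα) (hroot α hα)
  have half : ∀ (W : Submodule F V) (i j : ι), e i + e j ∈ W → e i - e j ∈ W → e i ∈ W ∧ e j ∈ W := by
    intro W i j a b
    have h3 := W.smul_mem (2 : F)⁻¹ (W.add_mem a b)
    have h4 := W.smul_mem (2 : F)⁻¹ (W.sub_mem a b)
    rw [show e i + e j + (e i - e j) = (2 : F) • e i by module, smul_smul, inv_mul_cancel₀ h2,
      one_smul] at h3
    rw [show e i + e j - (e i - e j) = (2 : F) • e j by module, smul_smul, inv_mul_cancel₀ h2,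
      one_smul] at h4
    exact ⟨h3, h4⟩
  have top : ∀ W : Submodule F V, (∀ i, e i ∈ W) → W = ⊤ := by
    intro W hW
    rw [eq_top_iff]; intro x _
    rw [he.span x]
    exact W.sum_mem fun i _ => W.smul_mem _ (hW i)
  by_cases h3 : ∃ α, IsRoot F e α ∧ α ∈ Z
  · obtain ⟨α, ⟨i, j, hij, ε, ε', a1, a2, rfl⟩, hZ⟩ := h3
    have hε : ε ≠ 0 := by rintro rfl; simp at a1
    have hε' : ε' ≠ 0 := by rintro rfl; simp at a2
    have k1 : ∀ k, k ≠ i → k ≠ j → e i ∈ Z ∧ e k ∈ Z := by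
      intro k hki hkj
      apply half
      · by_contra h
        have := h1 _ (isRoot_add hki.symm) h _ hZ
        simp [he.B_eq, hki.symm, hkj.symm, hij.symm, hε] at this
      · by_contra h
        have := h1 _ (isRoot_sub hki.symm) h _ hZ
        simp [he.B_eq, hki.symm, hkj.symm, hij.symm, hε] at this
    obtain ⟨k, hki, hkj⟩ := exists_ne2 hn i j
    have hi := (k1 k hki hkj).1
    have hj : e j ∈ Z := by
      have := Z.smul_mem ε' (Z.sub_mem hZ (Z.smul_mem ε hi))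
      rwa [add_sub_cancel_left, smul_smul, a2, one_smul] at this
    refine hZ1 (top Z fun m => ?_)
    by_cases hmi : m = i
    · rwa [hmi]
    by_cases hmj : m = j
    · rwa [hmj]
    exact (k1 m hmi hmj).2
  · push Not at h3
    have : perp Q Z = ⊤ := top _ fun i => by
      obtain ⟨k, hki, -⟩ := exists_ne2 hn i i
      exact (half _ i k (h1 _ (isRoot_add hki.symm) (h3 _ (isRoot_add hki.symm)))
        (h1 _ (isRoot_sub hki.symm) (h3 _ (isRoot_sub hki.symm)))).1
    apply hZ0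
    rw [eq_bot_iff]
    intro v hv
    exact hQ v fun x => by
      have hx : x ∈ perp Q Z := this ▸ trivial
      rw [B_comm]; exact hx v hv

/-- the pattern of inner products with an `A₂` inside `H₃` -/
def Pat (x y z : F) : Prop :=
  (x ^ 2 = 1 ∧ y ^ 4 - 3 * y ^ 2 + 1 = 0 ∧ z ^ 4 - 3 * z ^ 2 + 1 = 0) ∨
  (y ^ 2 = 1 ∧ x ^ 4 - 3 * x ^ 2 + 1 = 0 ∧ z ^ 4 - 3 * z ^ 2 + 1 = 0) ∨
  (z ^ 2 = 1 ∧ x ^ 4 - 3 * x ^ 2 + 1 = 0 ∧ y ^ 4 - 3 * y ^ 2 + 1 = 0)

lemma c4_contra (h2 : (2 : F) ≠ 0) (h3 : (3 : F) ≠ 0) {x y τ : F} (hx : x ≠ 0) (hy : y ≠ 0)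
    (hz : x + y ≠ 0) (hτ : τ = 3 - x * y - x ^ 2 - y ^ 2) (hτ0 : τ ≠ 0) (cx : C4 (x ^ 2))
    (cy : C4 (y ^ 2)) (cτ : C4 τ) (cz : C4 ((x + y) ^ 2) ∨ (5 : F) ≠ 0) : False := by
  have hxy := mul_ne_zero hx hy
  have hz2 := pow_ne_zero 2 hz
  rcases cx with cx | cx | cx
  · exact hx (pow_eq_zero_iff two_ne_zero |>.1 cx)
  all_goals rcases cy with cy | cy | cy
  all_goals try exact hy (pow_eq_zero_iff two_ne_zero |>.1 cy)
  all_goals rcases cτ with cτ | cτ | cτ
  all_goals try exact hτ0 cτ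
  · exact hxy (by linear_combination hτ - cx - cy - cτ)
  · exact hz2 (by linear_combination 2 * hτ - cx - cy - 2 * cτ)
  · have e : x * y = -1 := by linear_combination hτ - cx - cy - cτ
    exact one_ne_zero (α := F) (by linear_combination (x * y - 1) * e - y ^ 2 * cx - cy)
  · have e : x * y = -2 := by linear_combination hτ - cx - cy - cτ
    exact h2 (by linear_combination -(x * y - 2) * e + y ^ 2 * cx + cy)
  · have e : x * y = -1 := by linear_combination hτ - cx - cy - cτ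
    exact one_ne_zero (α := F) (by linear_combination (x * y - 1) * e - x ^ 2 * cy - cx)
  · have e : x * y = -2 := by linear_combination hτ - cx - cy - cτ
    exact h2 (by linear_combination -(x * y - 2) * e + x ^ 2 * cy + cx)
  · exact hz2 (by linear_combination 2 * hτ - cx - cy - 2 * cτ)
  · have e : x * y = -3 := by linear_combination hτ - cx - cy - cτ
    have h5 : (5 : F) = 0 := by linear_combination -(x * y - 3) * e + x ^ 2 * cy + 2 * cx
    have e2 : (x + y) ^ 2 = -2 := by linear_combination cx + cy + 2 * e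
    rcases cz with (cz | cz | cz) | cz
    · exact hz2 cz
    · exact h3 (by linear_combination e2 - cz)
    · exact one_ne_zero (α := F) (by linear_combination h5 - e2 + cz)
    · exact cz h5

lemma pat_of_c5 (h2 : (2 : F) ≠ 0) (h3 : (3 : F) ≠ 0) (h5 : (5 : F) ≠ 0) {x y τ : F} (hx : x ≠ 0)
    (hy : y ≠ 0) (hz : x + y ≠ 0) (hτ : τ = 3 - x * y - x ^ 2 - y ^ 2) (hτ0 : τ ≠ 0) (cx : C5 (x ^ 2))
    (cy : C5 (y ^ 2)) (cz : C5 ((x + y) ^ 2)) (cτ : C5 τ) : Pat x y (x + y) := by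
  have two : ∀ a b : F, a + b ≠ 0 → a ^ 2 = 1 → b ^ 2 = 1 → ¬ C5 ((a + b) ^ 2) := by
    intro a b hab ha hb hc
    have e : (a + b) * (a - b) = 0 := by linear_combination ha - hb
    have e1 : a = b := sub_eq_zero.1 ((mul_eq_zero.1 e).resolve_left hab)
    subst e1
    have e2 : (a + a) ^ 2 = 4 := by linear_combination 4 * ha
    rw [e2] at hc
    rcases hc with hc | hc | hc
    · exact mul_ne_zero h2 h2 (by linear_combination hc)
    · exact h3 (by linear_combination hc)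
    · exact h5 (by linear_combination hc)
  have cx' := cx
  have cy' := cy
  have cz' := cz
  rcases cx with cx | cx | cx
  · exact absurd (pow_eq_zero_iff two_ne_zero |>.1 cx) hx
  all_goals rcases cy with cy | cy | cy
  all_goals try exact absurd (pow_eq_zero_iff two_ne_zero |>.1 cy) hy
  all_goals rcases cz with cz | cz | cz
  all_goals try exact absurd (pow_eq_zero_iff two_ne_zero |>.1 cz) hz
  · exact absurd cz' (two x y hz cx cy)
  · exact absurd cz' (two x y hz cx cy)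
  · exact absurd (by simpa using cy') (two (x + y) (-x) (by simpa using hy) cz (by simpa using cx))
  · exact Or.inl ⟨cx, by linear_combination cy, by linear_combination cz⟩
  · exact absurd (by simpa using cx') (two (x + y) (-y) (by simpa using hx) cz (by simpa using cy))
  · exact Or.inr (Or.inl ⟨cy, by linear_combination cx, by linear_combination cz⟩)
  · exact Or.inr (Or.inr ⟨cz, by linear_combination cx, by linear_combination cy⟩)
  · exfalso
    have e : (6 - 2 * τ) ^ 2 - 6 * (6 - 2 * τ) + 6 = 0 := by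
      rw [hτ]; linear_combination 2 * cx + 2 * cy + 2 * cz
    rcases cτ with cτ | cτ | cτ
    · exact hτ0 cτ
    · rw [cτ] at e; exact h2 (by linear_combination -e)
    · exact h2 (by linear_combination e - 4 * cτ)

/-- standing hypotheses -/
structure RG (Q : QuadraticForm F V) (G : Subgroup (V ≃ₗ[F] V)) (e : ι → V) : Prop where
  prime : ∀ c : F, ∃ n : ℕ, c = n
  h2 : (2 : F) ≠ 0
  le : G ≤ O Q
  nd : Nd Q
  onb : ONB Q e
  card : 7 ≤ Fintype.card ι
  root : ∀ α, IsRoot F e α → refl Q α ∈ G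
  notEO : ¬ EO Q ≤ G

/-- reflecting vectors of norm one -/
def InC (Q : QuadraticForm F V) (G : Subgroup (V ≃ₗ[F] V)) (β : V) : Prop :=
  Q β = 1 ∧ refl Q β ∈ G

lemma InC.map (hG : G ≤ O Q) {g : V ≃ₗ[F] V} (hg : g ∈ G) {β : V} (h : InC Q G β) : InC Q G (g β) :=
  ⟨by rw [hG hg, h.1], refl_conj_mem hG hg h.2⟩

lemma InC.refl (hG : G ≤ O Q) {α β : V} (hα : InC Q G α) (h : InC Q G β) :
    InC Q G (β - B Q α β • α) := by
  rw [← refl_one hα.1]; exact h.map hG hα.2

lemma RG.inC (h : RG Q G e) {α : V} (hα : IsRoot F e α) : InC Q G α :=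
  ⟨h.onb.root_Q h.h2 hα, h.root α hα⟩

lemma RG.conn (h : RG Q G e) : Conn Q G := h.onb.conn h.h2 h.nd (by have := h.card; omega) h.root

variable [Finite F] [FiniteDimensional F V]

omit [Finite F] in
lemma RG.dim (h : RG Q G e) : 5 ≤ finrank F V := by
  have := h.onb.card_le
  have := h.card
  omega

lemma RG.nu (h : RG Q G e) (h3 : (3 : F) ≠ 0) {η η' : V} (hη : InC Q G η) (hη' : InC Q G η')
    (hb : B Q η η' = 2) : η = η' := by
  by_contra hne
  obtain ⟨γ, hγ, hγG, -, hγp⟩ := h.conn (F ∙ (η' - η)) (by simpa [sub_eq_zero] using Ne.symm hne) (by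
    intro h'
    have h1 := finrank_span_singleton_le (F := F) (η' - η)
    have h4 := h.dim
    rw [h', finrank_top] at h1
    omega)
  rw [mem_perp_span_singleton, map_sub, LinearMap.sub_apply] at hγp
  have h4 : (4 : F) ≠ 0 := by have := mul_ne_zero h.h2 h.h2; norm_num at this ⊢; exact this
  rcases tri_geo h.prime h.h2 h3 h.le h.nd h.dim h.conn h.notEO hη.1 hη'.1 hγ hη.2 hη'.2 hγG hb rfl rfl
    rfl (by intro h0; apply pow_ne_zero 2 hγp; linear_combination -h0) h.h2 (by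
      by_contra h0; push Not at h0; apply hγp; rw [h0.1, h0.2, sub_zero]) with
    ⟨c | c | c, -⟩ | ⟨h5, c | c | c, -⟩
  · exact h4 (by linear_combination c)
  · exact h3 (by linear_combination c)
  · exact h.h2 (by linear_combination c)
  · exact h4 (by linear_combination c)
  · exact h3 (by linear_combination c)
  · exact h5 (by linear_combination c)

lemma RG.pat (h : RG Q G e) (h3 : (3 : F) ≠ 0) {α γ β : V} (hα : InC Q G α) (hγ : InC Q G γ)
    (hβ : InC Q G β) (hαγ : B Q α γ = -1) (hn : ∀ a b : F, β ≠ a • α + b • γ) {x y : F}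
    (hx : B Q α β = x) (hy : B Q γ β = y) (hx0 : x ≠ 0) (hy0 : y ≠ 0) (hz0 : x + y ≠ 0) :
    (5 : F) ≠ 0 ∧ Pat x y (x + y) := by
  have hαα : B Q α α = 2 := by rw [B_self, hα.1, mul_one]
  have hγγ : B Q γ γ = 2 := by rw [B_self, hγ.1, mul_one]
  have hββ : B Q β β = 2 := by rw [B_self, hβ.1, mul_one]
  have hγα : B Q γ α = -1 := by rw [B_comm, hαγ]
  have hβα : B Q β α = x := by rw [B_comm, hx]
  have hβγ : B Q β γ = y := by rw [B_comm, hy]
  have hδ : InC Q G (-(α + γ)) := by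
    have := (InC.refl h.le hα hγ)
    rw [hαγ] at this
    refine ⟨by rw [Q_neg, ← this.1]; congr 1; module, ?_⟩
    rw [refl_neg]; convert this.2 using 2; module
  by_cases hτ0 : 3 - x * y - x ^ 2 - y ^ 2 = 0
  · exfalso
    have e1 := h.nu h3 (InC.refl h.le hα (InC.refl h.le hγ (InC.refl h.le hβ hγ))) (InC.refl h.le hβ hα)
      (by
        simp only [map_sub, map_smul, LinearMap.sub_apply, LinearMap.smul_apply, smul_eq_mul, hαα, hγγ,
          hββ, hγα, hβα, hβγ, hαγ, hx, hy]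
        linear_combination (x * y - 1) * hτ0)
    have e2 := h.nu h3 (InC.refl h.le hα (InC.refl h.le hγ (InC.refl h.le hβ hδ))) (InC.refl h.le hβ hγ)
      (by
        simp only [map_sub, map_smul, map_neg, map_add, LinearMap.sub_apply, LinearMap.smul_apply,
          LinearMap.neg_apply, LinearMap.add_apply, smul_eq_mul, hαα, hγγ,
          hββ, hγα, hβα, hβγ, hαγ, hx, hy]
        linear_combination (-(x + y) * y - 1) * hτ0)
    simp only [map_sub, map_smul, map_neg, map_add, smul_eq_mul, hαα, hγγ,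
          hββ, hγα, hβα, hβγ, hαγ, hx, hy] at e1 e2
    have e3 : x = y := by
      by_contra hne
      have hne' : y - x ≠ 0 := sub_ne_zero.2 (Ne.symm hne)
      apply hn ((y * (x + y) - 2) / (y - x)) ((y ^ 2 - 1) / (y - x))
      have : (y - x) • β = (y * (x + y) - 2) • α + (y ^ 2 - 1) • γ := by
        linear_combination (norm := module) -e1
      rw [div_eq_inv_mul, div_eq_inv_mul, ← smul_smul, ← smul_smul, ← smul_add, ← this, smul_smul,
        inv_mul_cancel₀ hne', one_smul]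
    have hne' : x + 2 * y ≠ 0 := by
      rw [e3]; intro h0; exact mul_ne_zero h3 hy0 (by linear_combination h0)
    apply hn (((x + y) ^ 2 - 1) / (x + 2 * y)) (((x + y) * y + 1) / (x + 2 * y))
    have : (x + 2 * y) • β = ((x + y) ^ 2 - 1) • α + ((x + y) * y + 1) • γ := by
      linear_combination (norm := module) e2
    rw [div_eq_inv_mul, div_eq_inv_mul, ← smul_smul, ← smul_smul, ← smul_add, ← this, smul_smul,
      inv_mul_cancel₀ hne', one_smul]
  have t1 := tri_geo h.prime h.h2 h3 h.le h.nd h.dim h.conn h.notEO hα.1 hγ.1 hβ.1 hα.2 hγ.2 hβ.2 hαγ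
    hx hy (τ := 3 - x * y - x ^ 2 - y ^ 2) (by ring) hτ0 (by simp) (Or.inl hx0)
  have t2 := tri_geo h.prime h.h2 h3 h.le h.nd h.dim h.conn h.notEO hα.1 hδ.1 hβ.1 hα.2 hδ.2 hβ.2
    (a := -1) (by simp [hαα, hαγ]; norm_num) hx (c := -(x + y)) (by simp [hx, hy])
    (τ := 3 - x * y - x ^ 2 - y ^ 2) (by ring) hτ0 (by simp) (Or.inl hx0)
  rw [neg_sq (x + y)] at t2
  rcases t1 with ⟨-, cx, cy, cτ⟩ | ⟨h5, -, cx, cy, cτ⟩
  · exact (c4_contra h.h2 h3 hx0 hy0 hz0 rfl hτ0 cx cy cτ (t2.imp (fun t => t.2.2.1) (fun t => t.1))).elim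
  · rcases t2 with ⟨-, cx', cz, cτ'⟩ | ⟨-, -, -, cz, -⟩
    · exact (c4_contra h.h2 h3 hx0 (neg_ne_zero.2 hz0) (by simpa using hy0) (by ring) hτ0 cx'
        (by rwa [neg_sq]) cτ' (Or.inr h5)).elim
    · exact ⟨h5, pat_of_c5 h.h2 h3 h5 hx0 hy0 hz0 rfl hτ0 cx cy cz cτ⟩

lemma RG.pat3 (h : RG Q G e) (h3 : (3 : F) ≠ 0) {β : V} (hβ : InC Q G β) {i j k : ι} (hij : i ≠ j)
    (hik : i ≠ k) (hjk : j ≠ k) {u v w : F} (hu : u ^ 2 = B Q (e i) β ^ 2)
    (hv : v ^ 2 = B Q (e j) β ^ 2) (hw : w ^ 2 = B Q (e k) β ^ 2)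
    (hn : (∃ l, l ≠ i ∧ l ≠ j ∧ l ≠ k ∧ B Q (e l) β ≠ 0) ∨ u + v + w ≠ 0)
    (huv : u ≠ v) (hvw : v ≠ w) (huw : u ≠ w) : (5 : F) ≠ 0 ∧ Pat (u - v) (v - w) (u - w) := by
  have sg : ∀ a b : F, a ^ 2 = b ^ 2 → ∃ ε : F, ε * ε = 1 ∧ a = ε * b := by
    intro a b hab
    rcases sq_eq_sq_iff_eq_or_eq_neg.1 hab with h | h
    · exact ⟨1, by simp, by simp [h]⟩
    · exact ⟨-1, by simp, by simp [h]⟩
  obtain ⟨ε1, s1, rfl⟩ := sg _ _ hu
  obtain ⟨ε2, s2, rfl⟩ := sg _ _ hv
  obtain ⟨ε3, s3, rfl⟩ := sg _ _ hw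
  have := h.pat h3 (h.inC (α := ε1 • e i + (-ε2) • e j) ⟨i, j, hij, _, _, s1, by simpa using s2, rfl⟩)
    (h.inC (α := ε2 • e j + (-ε3) • e k) ⟨j, k, hjk, _, _, s2, by simpa using s3, rfl⟩) hβ
    (by simp [h.onb.B_eq, hij, hik, hjk, s2]) (fun a b hab => ?_)
    (x := ε1 * B Q (e i) β - ε2 * B Q (e j) β) (y := ε2 * B Q (e j) β - ε3 * B Q (e k) β)
    (by simp [sub_eq_add_neg]) (by simp [sub_eq_add_neg]) (sub_ne_zero.2 huv) (sub_ne_zero.2 hvw)
    (by rw [sub_add_sub_cancel]; exact sub_ne_zero.2 huw)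
  · rwa [sub_add_sub_cancel] at this
  · rcases hn with ⟨l, hli, hlj, hlk, hl⟩ | hn
    · apply hl; rw [hab]; simp [h.onb.B_eq, hli, hlj, hlk]
    · apply hn; rw [hab]
      simp [h.onb.B_eq, hij, hik, hjk, hij.symm, hik.symm, hjk.symm]
      linear_combination a * s1 + (b - a) * s2 - b * s3

lemma RG.sq_eq_of_zero (h : RG Q G e) (h3 : (3 : F) ≠ 0) {β : V} (hβ : InC Q G β) {i j k : ι}
    (hij : i ≠ j) (hi : B Q (e i) β ≠ 0) (hj : B Q (e j) β ≠ 0) (hk : B Q (e k) β = 0) :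
    B Q (e i) β ^ 2 = B Q (e j) β ^ 2 := by
  have hik : i ≠ k := by rintro rfl; exact hi hk
  have hjk : j ≠ k := by rintro rfl; exact hj hk
  by_contra hne
  set u := B Q (e i) β
  set v := B Q (e j) β
  have h1 : u ≠ v := fun h => hne (by rw [h])
  have h1' : u ≠ -v := fun h => hne (by rw [h, neg_sq])
  have p1 := (h.pat3 h3 hβ hij hik hjk (u := u) (v := v) (w := 0) rfl rfl (by simp [hk])
    (Or.inr (by intro h0; exact h1' (by linear_combination h0))) h1 hj hi).2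
  have p2 := (h.pat3 h3 hβ hij hik hjk (u := u) (v := -v) (w := 0) rfl (neg_sq v) (by simp [hk])
    (Or.inr (by intro h0; exact h1 (by linear_combination h0))) h1' (neg_ne_zero.2 hj) hi).2
  have h2 := h.h2
  have h4 : 4 * u * v ≠ 0 := by
    have := mul_ne_zero (mul_ne_zero (mul_ne_zero h2 h2) hi) hj
    norm_num at this ⊢; exact this
  have key : ∀ a b : F, 4 * a * b ≠ 0 → a ^ 2 = 1 → b ^ 4 - 3 * b ^ 2 + 1 = 0 →
      (a - b) ^ 4 - 3 * (a - b) ^ 2 + 1 = 0 → (a + b) ^ 4 - 3 * (a + b) ^ 2 + 1 = 0 → False := by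
    intro a b hab ha hb e1 e2
    have e3 : 2 * b ^ 2 = 1 := by
      apply mul_left_cancel₀ hab
      linear_combination e2 - e1 - 8 * a * b * ha
    exact one_ne_zero (α := F) (by linear_combination (2 * b ^ 2 - 5) * e3 - 4 * hb)
  simp only [Pat, sub_zero, sub_neg_eq_add] at p1 p2
  rcases p1 with ⟨a1, a2, a3⟩ | ⟨a1, a2, a3⟩ | ⟨a1, a2, a3⟩ <;>
    rcases p2 with ⟨b1, b2, b3⟩ | ⟨b1, b2, b3⟩ | ⟨b1, b2, b3⟩
  · exact h4 (by linear_combination b1 - a1)
  · exact one_ne_zero (α := F) (by linear_combination (v ^ 2 - 2) * b1 - a2)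
  · exact one_ne_zero (α := F) (by linear_combination (u ^ 2 - 2) * b1 - a3)
  · exact one_ne_zero (α := F) (by linear_combination (v ^ 2 - 2) * a1 - b2)
  · exact key v u (by rwa [mul_right_comm]) a1 a3 (by linear_combination a2) (by linear_combination b2)
  · exact one_ne_zero (α := F) (by linear_combination (v ^ 2 - 2) * a1 - b3)
  · exact one_ne_zero (α := F) (by linear_combination (u ^ 2 - 2) * a1 - b3)
  · exact one_ne_zero (α := F) (by linear_combination (u ^ 2 - 2) * a1 - b3)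
  · exact key u v h4 a1 a3 a2 b2

omit [Finite F] [FiniteDimensional F V] in
lemma RG.flip_mem (h : RG Q G e) {i j : ι} (hij : i ≠ j) :
    ∃ g ∈ G, ∀ x, g x = x - (2 * B Q (e i) x) • e i - (2 * B Q (e j) x) • e j := by
  refine ⟨refl Q (e i - e j) * refl Q (e i + e j), mul_mem (h.root _ (isRoot_sub hij))
    (h.root _ (isRoot_add hij)), fun x => ?_⟩
  rw [mul_app, refl_one (h.inC (isRoot_sub hij)).1, refl_one (h.inC (isRoot_add hij)).1]
  simp only [map_sub, map_add, map_smul, LinearMap.sub_apply, LinearMap.add_apply, smul_eq_mul,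
    h.onb.self, h.onb.ne hij, h.onb.ne hij.symm]
  module

lemma RG.zero_three (h : RG Q G e) {β : V} (hβ : InC Q G β) {i j l k : ι}
    (hij : i ≠ j) (hil : i ≠ l) (hjl : j ≠ l) (hi : B Q (e i) β ≠ 0) (hj : B Q (e j) β ≠ 0)
    (hl : B Q (e l) β ≠ 0) (hk : B Q (e k) β = 0) : False := by
  have hik : i ≠ k := by rintro rfl; exact hi hk
  have hjk : j ≠ k := by rintro rfl; exact hj hk
  have hlk : l ≠ k := by rintro rfl; exact hl hk
  have h2 := h.h2
  by_cases h3 : (3 : F) = 0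
  swap
  · have e0 := h.sq_eq_of_zero h3 hβ hij hi hj hk
    set u := B Q (e i) β
    obtain ⟨h5, p⟩ := h.pat3 h3 hβ hij hik hjk (u := u) (v := -u) (w := 0) rfl (by rw [neg_sq, e0])
      (by simp [hk]) (Or.inl ⟨l, hil.symm, hjl.symm, hlk, hl⟩)
      (fun h0 => mul_ne_zero h2 hi (by linear_combination h0)) (neg_ne_zero.2 hi) hi
    rcases p with ⟨a1, a2, a3⟩ | ⟨a1, a2, a3⟩ | ⟨a1, a2, a3⟩
    · exact h5 (by linear_combination 16 * a3 - (4 * u ^ 2 - 11) * a1)
    · exact one_ne_zero (α := F) (by linear_combination (u ^ 2 - 2) * a1 - a3)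
    · exact one_ne_zero (α := F) (by linear_combination (u ^ 2 - 2) * a1 - a3)
  have sq : ∀ c : F, c ≠ 0 → c * c = 1 := by
    intro c hc
    obtain ⟨n, rfl⟩ := h.prime c
    have : ∀ n : ℕ, (n : F) * (n * n - 1) = 0 := by
      intro n
      induction n with
      | zero => simp
      | succ n ih => push_cast; linear_combination ih + (n * n + n) * h3
    exact sub_eq_zero.1 ((mul_eq_zero.1 (this n)).resolve_left hc)
  set a := B Q (e i) β with ha
  set b := B Q (e j) β with hb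
  have sa := sq a hi
  have sb := sq b hj
  set w := a • e i + (-b) • e j + e k with hw
  have bw : ∀ x, B Q w x = a * B Q (e i) x - b * B Q (e j) x + B Q (e k) x := by
    intro x; simp [hw, sub_eq_add_neg]
  have hwq : Q w = 0 := by
    apply mul_left_cancel₀ h2
    rw [← B_self, bw]
    simp [hw, h.onb.B_eq, hij, hik, hjk, hij.symm, hik.symm, hjk.symm]
    linear_combination sa + sb + h3
  have hδ : InC Q G (a • e i + b • e j) := h.inC ⟨i, j, hij, a, b, sa, sb, rfl⟩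
  have hwδ : B Q w (a • e i + b • e j) = 0 := by
    rw [bw]; simp [h.onb.B_eq, hij, hij.symm, hik.symm, hjk.symm]
    linear_combination sa - sb
  have hδT : a • e i + b • e j ∈ TT h.prime Q G w hwq := by
    refine TT_of_pair h.prime hδ.1 hδ.2 hwδ one_ne_zero ?_
    have := h.root _ ⟨i, k, hik, -a, 1, by simpa using sa, by simp, rfl⟩
    convert this using 2
    have e3 : (3 * a) • e i = 0 := by rw [h3, zero_mul, zero_smul]
    rw [hw]; linear_combination (norm := module) e3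
  have hβT : β ∈ TT h.prime Q G w hwq := by
    refine TT_claimA h.prime h.le hβ.1 hβ.2 (by rw [bw, hk]; linear_combination sa - sb) hδT ?_
    rw [B_comm]
    simp only [map_add, map_smul, LinearMap.add_apply, LinearMap.smul_apply, smul_eq_mul, ← ha, ← hb,
      sa, sb]
    norm_num; exact h2
  have flipT : ∀ m m', m ≠ m' → m ≠ i → m ≠ j → m ≠ k → m' ≠ i → m' ≠ j → m' ≠ k →
      ∀ x ∈ TT h.prime Q G w hwq, B Q (e m) x • e m + B Q (e m') x • e m' ∈ TT h.prime Q G w hwq := by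
    intro m m' hm a1 a2 a3 b1 b2 b3 x hx
    obtain ⟨g, hg, hgx⟩ := h.flip_mem hm
    have := TT_fix h.prime h.le hg (by
      rw [hgx]; simp [hw, h.onb.B_eq, a1, a2, a3, b1, b2, b3]) hx
    have h4 := Submodule.smul_mem _ (2 : F)⁻¹ (Submodule.sub_mem _ hx this)
    convert h4 using 1
    rw [hgx, show x - (x - (2 * B Q (e m) x) • e m - (2 * B Q (e m') x) • e m') =
      (2 : F) • (B Q (e m) x • e m + B Q (e m') x • e m') by module, smul_smul, inv_mul_cancel₀ h2,
      one_smul]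
  have hc := h.card
  obtain ⟨m, m1, m2, m3, m4⟩ := exists_ne4 (by omega) i j k l
  obtain ⟨m', n1, n2, n3, n4, n5⟩ := exists_ne5 (by omega) i j k l m
  have hlT : e l ∈ TT h.prime Q G w hwq := by
    have h4 := flipT l m' n4.symm hil.symm hjl.symm hlk n1 n2 n3 _
      (flipT l m m4.symm hil.symm hjl.symm hlk m1 m2 m3 _ hβT)
    simp only [map_add, map_smul, h.onb.self, h.onb.ne m4.symm, h.onb.ne n4, h.onb.ne n5, smul_eq_mul,
      mul_zero, mul_one, add_zero, zero_smul] at h4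
    have := Submodule.smul_mem _ (B Q (e l) β)⁻¹ h4
    rwa [smul_smul, inv_mul_cancel₀ hl, one_smul] at this
  have hmT : ∀ m, m ≠ i → m ≠ j → m ≠ k → e m ∈ TT h.prime Q G w hwq := by
    intro m m1 m2 m3
    by_cases hml : m = l
    · rwa [hml]
    have hr := h.inC (isRoot_sub (Ne.symm hml))
    have := TT_fix h.prime h.le hr.2 (refl_of_perp (by
      simp [hw, h.onb.B_eq, m1, m2, m3, hil.symm, hjl.symm, hlk])) hlT
    rw [refl_one hr.1] at this
    simpa [h.onb.self, h.onb.ne hml] using this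
  have hfull : Full Q G w := by
    intro v hv
    have h4 : v - (B Q (e k) v • w + (a * B Q (e i) v - B Q (e k) v) • (a • e i + b • e j)) ∈
        TT h.prime Q G w hwq := by
      rw [h.onb.span (v - _)]
      refine Submodule.sum_mem _ fun m _ => ?_
      rw [bw] at hv
      by_cases m1 : m = i
      · have : B Q (e m) (v - (B Q (e k) v • w + (a * B Q (e i) v - B Q (e k) v) •
            (a • e i + b • e j))) = 0 := by
          simp [m1, hw, h.onb.B_eq, hij, hik]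
          linear_combination -B Q (e i) v * sa
        rw [this, zero_smul]; exact Submodule.zero_mem _
      by_cases m2 : m = j
      · have : B Q (e m) (v - (B Q (e k) v • w + (a * B Q (e i) v - B Q (e k) v) •
            (a • e i + b • e j))) = 0 := by
          simp [m2, hw, h.onb.B_eq, hij.symm, hjk]
          linear_combination -b * hv - B Q (e j) v * sb + b * B Q (e k) v * h3
        rw [this, zero_smul]; exact Submodule.zero_mem _
      by_cases m3 : m = k
      · have : B Q (e m) (v - (B Q (e k) v • w + (a * B Q (e i) v - B Q (e k) v) •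
            (a • e i + b • e j))) = 0 := by
          simp [m3, hw, h.onb.B_eq, hik.symm, hjk.symm]
        rw [this, zero_smul]; exact Submodule.zero_mem _
      exact Submodule.smul_mem _ _ (hmT m m1 m2 m3)
    have := Submodule.add_mem _ h4 (Submodule.add_mem _ (Submodule.smul_mem _ (B Q (e k) v)
      (self_mem_TT h.prime hwq)) (Submodule.smul_mem _ (a * B Q (e i) v - B Q (e k) v) hδT))
    rw [sub_add_cancel] at this
    exact this.2
  have hr := h.inC (isRoot_add hlk)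
  refine h.notEO (EO_le_of_full_of_move h.nd h.dim h.le hwq hfull hr.2 ?_)
  have h5 : B Q w (e l + e k) = 1 := by
    rw [bw]; simp [h.onb.B_eq, hil, hjl, hik, hjk, hlk.symm]
  rw [refl_one hr.1, map_sub, map_smul, B_self_of_sing Q hwq, B_comm Q (e l + e k) w, h5]
  simp

lemma RG.two_two (h : RG Q G e) (h3 : (3 : F) ≠ 0) {β : V} (hβ : InC Q G β) {i j k l : ι}
    (hij : i ≠ j) (hkl : k ≠ l) (hi : B Q (e i) β ≠ 0) (hk : B Q (e k) β ≠ 0)
    (e1 : B Q (e i) β ^ 2 = B Q (e j) β ^ 2) (e2 : B Q (e k) β ^ 2 = B Q (e l) β ^ 2) :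
    B Q (e i) β ^ 2 = B Q (e k) β ^ 2 := by
  by_contra hne
  have hj : B Q (e j) β ≠ 0 := fun h0 => hi (by simpa [h0] using e1)
  have hl : B Q (e l) β ≠ 0 := fun h0 => hk (by simpa [h0] using e2)
  have hik : i ≠ k := by rintro rfl; exact hne rfl
  have hjk : j ≠ k := by rintro rfl; exact hne e1
  have hil : i ≠ l := by rintro rfl; exact hne e2.symm
  have hjl : j ≠ l := by rintro rfl; exact hne (e1.trans e2.symm)
  have h2 := h.h2
  set u := B Q (e i) β
  set v := B Q (e k) β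
  have h1 : u ≠ v := fun h => hne (by rw [h])
  have h1' : -u ≠ v := fun h => hne (by rw [← h, neg_sq])
  have p1 := (h.pat3 h3 hβ hij hik hjk (u := u) (v := -u) (w := v) rfl (by rw [neg_sq, e1]) rfl
    (Or.inl ⟨l, hil.symm, hjl.symm, hkl.symm, hl⟩)
    (fun h0 => mul_ne_zero h2 hi (by linear_combination h0)) h1' h1).2
  have p2 := (h.pat3 h3 hβ hkl hik.symm hil.symm (u := v) (v := -v) (w := u) rfl (by rw [neg_sq, e2]) rfl
    (Or.inl ⟨j, hjk, hjl, hij.symm, hj⟩)
    (fun h0 => mul_ne_zero h2 hk (by linear_combination h0))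
    (fun h0 => h1' (by linear_combination h0)) h1.symm).2
  have h4 : (4 : F) ≠ 0 := by have := mul_ne_zero h2 h2; norm_num at this ⊢; exact this
  have hne' : u ^ 2 - v ^ 2 ≠ 0 := sub_ne_zero.2 hne
  have key : ∀ v : F, u ^ 2 - v ^ 2 ≠ 0 → (2 * u) ^ 4 - 3 * (2 * u) ^ 2 + 1 = 0 →
      (2 * v) ^ 4 - 3 * (2 * v) ^ 2 + 1 = 0 → (u + v) ^ 2 = 1 → False := by
    intro v hne' a b c
    have s1 : 4 * u ^ 2 + 4 * v ^ 2 = 3 := by
      apply mul_left_cancel₀ (mul_ne_zero h4 hne')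
      linear_combination a - b
    have s2 : 16 * u ^ 2 * v ^ 2 = 1 := by linear_combination 4 * u ^ 2 * s1 - a
    have s3 : 8 * u * v = 1 := by linear_combination 4 * c - s1
    exact h3 (by linear_combination (8 * u * v + 1) * s3 - 4 * s2)
  rcases p1 with ⟨a1, a2, a3⟩ | ⟨a1, a2, a3⟩ | ⟨a1, a2, a3⟩ <;>
    rcases p2 with ⟨b1, b2, b3⟩ | ⟨b1, b2, b3⟩ | ⟨b1, b2, b3⟩
  · exact mul_ne_zero h4 hne' (by linear_combination a1 - b1)
  · exact one_ne_zero (α := F) (by linear_combination ((u + v) ^ 2 - 2) * b1 - a2)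
  · exact one_ne_zero (α := F) (by linear_combination ((u - v) ^ 2 - 2) * b1 - a3)
  · exact one_ne_zero (α := F) (by linear_combination ((u + v) ^ 2 - 2) * a1 - b2)
  · exact key v hne' (by linear_combination a2) (by linear_combination b2) (by linear_combination a1)
  · exact one_ne_zero (α := F) (by linear_combination ((u + v) ^ 2 - 2) * a1 - b3)
  · exact one_ne_zero (α := F) (by linear_combination ((u - v) ^ 2 - 2) * a1 - b3)
  · exact one_ne_zero (α := F) (by linear_combination ((u - v) ^ 2 - 2) * a1 - b3)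
  · exact key (-v) (by rwa [neg_sq]) (by linear_combination a2) (by linear_combination b2)
      (by linear_combination a1)

lemma k4_prop {A A' B B' C C' : Prop}
    (q1 : (A ∧ ¬ B ∧ ¬ C) ∨ (B ∧ ¬ A ∧ ¬ C) ∨ (C ∧ ¬ A ∧ ¬ B))
    (q2 : (A ∧ ¬ B' ∧ ¬ C') ∨ (B' ∧ ¬ A ∧ ¬ C') ∨ (C' ∧ ¬ A ∧ ¬ B'))
    (q3 : (A' ∧ ¬ B' ∧ ¬ C) ∨ (B' ∧ ¬ A' ∧ ¬ C) ∨ (C ∧ ¬ A' ∧ ¬ B'))
    (q4 : (A' ∧ ¬ B ∧ ¬ C') ∨ (B ∧ ¬ A' ∧ ¬ C') ∨ (C' ∧ ¬ A' ∧ ¬ B))
    (r1 : A → ¬ A') (r2 : B → ¬ B') (r3 : C → ¬ C') : False := by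
  tauto

lemma RG.three_distinct (h : RG Q G e) (h3 : (3 : F) ≠ 0) {β : V} (hβ : InC Q G β)
    (hfull : ∀ i, B Q (e i) β ≠ 0) {i j k : ι} (e1 : B Q (e i) β ^ 2 ≠ B Q (e j) β ^ 2)
    (e2 : B Q (e j) β ^ 2 ≠ B Q (e k) β ^ 2) (e3 : B Q (e i) β ^ 2 ≠ B Q (e k) β ^ 2) : False := by
  have hij : i ≠ j := by rintro rfl; exact e1 rfl
  have hjk : j ≠ k := by rintro rfl; exact e2 rfl
  have hik : i ≠ k := by rintro rfl; exact e3 rfl
  have hc := h.card
  obtain ⟨l, l1, l2, l3⟩ := exists_ne3 (by omega) i j k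
  have key : ∀ u v w : F, u ^ 2 = B Q (e i) β ^ 2 → v ^ 2 = B Q (e j) β ^ 2 → w ^ 2 = B Q (e k) β ^ 2 →
      Pat (u - v) (v - w) (u - w) := fun u v w a b c =>
    (h.pat3 h3 hβ hij hik hjk a b c (Or.inl ⟨l, l1, l2, l3, hfull l⟩)
      (fun h0 => e1 (by rw [← a, ← b, h0])) (fun h0 => e2 (by rw [← b, ← c, h0]))
      (fun h0 => e3 (by rw [← a, ← c, h0]))).2
  have hu := hfull i
  have hv := hfull j
  have hw := hfull k
  set u := B Q (e i) β
  set v := B Q (e j) β
  set w := B Q (e k) β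
  have p1 := key u v w rfl rfl rfl
  have p2 := key u v (-w) rfl rfl (neg_sq _)
  have p3 := key u (-v) w rfl (neg_sq _) rfl
  have p4 := key u (-v) (-w) rfl (neg_sq _) (neg_sq _)
  have h4 : (4 : F) ≠ 0 := by have := mul_ne_zero h.h2 h.h2; norm_num at this ⊢; exact this
  have ex : ∀ t : F, t ^ 4 - 3 * t ^ 2 + 1 = 0 → t ^ 2 ≠ 1 := fun t a b =>
    one_ne_zero (α := F) (by linear_combination (t ^ 2 - 2) * b - a)
  have pm : ∀ a b : F, a ≠ 0 → b ≠ 0 → (a - b) ^ 2 = 1 → (a + b) ^ 2 ≠ 1 := fun a b ha hb s t =>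
    mul_ne_zero (mul_ne_zero h4 ha) hb (by linear_combination t - s)
  have weak : ∀ x y z : F, Pat x y z → (x ^ 2 = 1 ∧ y ^ 2 ≠ 1 ∧ z ^ 2 ≠ 1) ∨
      (y ^ 2 = 1 ∧ x ^ 2 ≠ 1 ∧ z ^ 2 ≠ 1) ∨ (z ^ 2 = 1 ∧ x ^ 2 ≠ 1 ∧ y ^ 2 ≠ 1) := by
    rintro x y z (⟨a, b, c⟩ | ⟨a, b, c⟩ | ⟨a, b, c⟩)
    · exact Or.inl ⟨a, ex _ b, ex _ c⟩
    · exact Or.inr (Or.inl ⟨a, ex _ b, ex _ c⟩)
    · exact Or.inr (Or.inr ⟨a, ex _ b, ex _ c⟩)
  have q1 := weak _ _ _ p1
  have q2 := weak _ _ _ p2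
  have q3 := weak _ _ _ p3
  have q4 := weak _ _ _ p4
  have r1 := pm u v hu hv
  have r2 := pm v w hv hw
  have r3 := pm u w hu hw
  rw [sub_neg_eq_add, sub_neg_eq_add] at q2
  rw [sub_neg_eq_add, show (-v - w) ^ 2 = (v + w) ^ 2 by ring] at q3
  rw [sub_neg_eq_add, sub_neg_eq_add u, show (-v - -w) ^ 2 = (v - w) ^ 2 by ring] at q4
  exact k4_prop q1 q2 q3 q4 r1 r2 r3

lemma RG.full_struct (h : RG Q G e) {β : V} (hβ : InC Q G β) (hfull : ∀ i, B Q (e i) β ≠ 0) :
    ∃ i0, (∀ j, j ≠ i0 → 4 * B Q (e j) β ^ 2 = 1) ∧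
      (4 * B Q (e i0) β ^ 2 = 1 ∨ (4 * B Q (e i0) β ^ 2 = 5 ∧ (3 : F) ≠ 0)) := by
  have hc := h.card
  have h2 := h.h2
  obtain ⟨i1⟩ : Nonempty ι := Fintype.card_pos_iff.1 (by omega)
  by_cases h3 : (3 : F) = 0
  · have sq : ∀ c : F, c ≠ 0 → 4 * c ^ 2 = 1 := by
      intro c hc
      obtain ⟨n, rfl⟩ := h.prime c
      have : ∀ n : ℕ, (n : F) * (n * n - 1) = 0 := by
        intro n
        induction n with
        | zero => simp
        | succ n ih => push_cast; linear_combination ih + (n * n + n) * h3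
      linear_combination 4 * ((mul_eq_zero.1 (this n)).resolve_left hc) + h3
    exact ⟨i1, fun j _ => sq _ (hfull j), Or.inl (sq _ (hfull i1))⟩
  obtain ⟨i0, hi0⟩ : ∃ i0, ∀ j k, j ≠ i0 → k ≠ i0 → B Q (e j) β ^ 2 = B Q (e k) β ^ 2 := by
    by_cases hall : ∀ j k, B Q (e j) β ^ 2 = B Q (e k) β ^ 2
    · exact ⟨i1, fun j k _ _ => hall j k⟩
    push Not at hall
    obtain ⟨i, j, hij⟩ := hall
    have t : ∀ k, B Q (e i) β ^ 2 = B Q (e k) β ^ 2 ∨ B Q (e j) β ^ 2 = B Q (e k) β ^ 2 := by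
      intro k
      by_contra h0
      push Not at h0
      exact h.three_distinct h3 hβ hfull hij h0.2 h0.1
    by_cases hk : ∃ k, k ≠ i ∧ B Q (e i) β ^ 2 = B Q (e k) β ^ 2
    · obtain ⟨k, hki, hk⟩ := hk
      have t2 : ∀ l, l ≠ j → B Q (e i) β ^ 2 = B Q (e l) β ^ 2 := fun l hl =>
        (t l).resolve_right fun h0 => hij (h.two_two h3 hβ hki.symm hl.symm (hfull i) (hfull j) hk h0)
      exact ⟨j, fun a b ha hb => (t2 a ha).symm.trans (t2 b hb)⟩
    · push Not at hk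
      have t2 : ∀ l, l ≠ i → B Q (e j) β ^ 2 = B Q (e l) β ^ 2 := fun l hl =>
        (t l).resolve_left (hk l hl)
      exact ⟨i, fun a b ha hb => (t2 a ha).symm.trans (t2 b hb)⟩
  have h4 : ∀ i, i ≠ i0 → 4 * B Q (e i) β ^ 2 = 1 := by
    intro i hi
    obtain ⟨j, j1, j2⟩ := exists_ne2 (by omega) i0 i
    obtain ⟨k, k1, k2, k3⟩ := exists_ne3 (by omega) i0 i j
    obtain ⟨l, l1, l2, l3, l4⟩ := exists_ne4 (by omega) i0 i j k
    obtain ⟨ε, s, hε⟩ : ∃ ε : F, ε * ε = 1 ∧ B Q (e i) β = ε * B Q (e j) β := by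
      rcases sq_eq_sq_iff_eq_or_eq_neg.1 (hi0 i j hi j1) with h | h
      · exact ⟨1, by simp, by simp [h]⟩
      · exact ⟨-1, by simp, by simp [h]⟩
    have hρ := InC.refl h.le hβ (h.inC (α := (1 : F) • e i + ε • e j) ⟨i, j, j2.symm, 1, ε, by simp, s, rfl⟩)
    set u := B Q (e i) β with hu
    have hb : B Q β ((1 : F) • e i + ε • e j) = 2 * u := by
      rw [B_comm]; simp only [map_add, map_smul, LinearMap.add_apply, LinearMap.smul_apply, smul_eq_mul]
      linear_combination -hε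
    rw [hb] at hρ
    set β' := (1 : F) • e i + ε • e j - (2 * u) • β with hβ'
    have ci : B Q (e i) β' = 1 - 2 * u ^ 2 := by
      simp [hβ', h.onb.B_eq, j2.symm, ← hu]; ring
    have cj : B Q (e j) β' = ε * (1 - 2 * u ^ 2) := by
      simp [hβ', h.onb.B_eq, j2]
      linear_combination 2 * u * ε * hε + 2 * u * B Q (e j) β * s
    have cm : ∀ m, m ≠ i → m ≠ j → B Q (e m) β' = -(2 * u * B Q (e m) β) := by
      intro m m1 m2; simp [hβ', h.onb.B_eq, m1, m2]
    have nz : ∀ m, m ≠ i → m ≠ j → B Q (e m) β' ≠ 0 := fun m m1 m2 => by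
      rw [cm m m1 m2]; exact neg_ne_zero.2 (mul_ne_zero (mul_ne_zero h2 (hfull i)) (hfull m))
    by_cases h0 : 1 - 2 * u ^ 2 = 0
    · exact (h.zero_three hρ l4.symm k1 l1 (nz k k2 k3) (nz l l2 l3) (nz i0 hi.symm j1.symm)
        (k := i) (by rw [ci, h0])).elim
    have := h.two_two h3 hρ j2.symm l4.symm (by rwa [ci]) (nz k k2 k3)
      (by rw [ci, cj]; linear_combination -(1 - 2 * u ^ 2) ^ 2 * s)
      (by rw [cm k k2 k3, cm l l2 l3]; linear_combination 4 * u ^ 2 * hi0 k l k1 l1)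
    rw [ci, cm k k2 k3] at this
    linear_combination -this - 4 * u ^ 2 * hi0 k i k1 hi
  refine ⟨i0, h4, ?_⟩
  obtain ⟨i, i1, -⟩ := exists_ne2 (by omega) i0 i0
  obtain ⟨j, j1, j2⟩ := exists_ne2 (by omega) i0 i
  obtain ⟨l, l1, l2, l3⟩ := exists_ne3 (by omega) i0 i j
  by_cases h0 : B Q (e i) β ^ 2 = B Q (e i0) β ^ 2
  · left; rw [← h0]; exact h4 i i1
  right
  refine ⟨?_, h3⟩
  have a4 := h4 i i1
  have hu := hfull i
  have hv := hfull i0
  set u := B Q (e i) β
  set v := B Q (e i0) β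
  have p1 := (h.pat3 h3 hβ j2.symm i1 j1 (u := u) (v := -u) (w := v) rfl
    (by rw [neg_sq]; exact hi0 i j i1 j1) rfl (Or.inl ⟨l, l2, l3, l1, hfull l⟩)
    (fun h0 => mul_ne_zero h2 hu (by linear_combination h0))
    (fun h => h0 (by rw [← h, neg_sq])) (fun h => h0 (by rw [h]))).2
  rcases p1 with ⟨a1, a2, a3⟩ | ⟨a1, a2, a3⟩ | ⟨a1, a2, a3⟩
  · apply mul_left_cancel₀ (mul_ne_zero (mul_ne_zero h2 hu) hv)
    linear_combination a2 - a3 - 2 * u * v * a4
  · exact (one_ne_zero (α := F) (by linear_combination (4 * u ^ 2 - 2) * a4 - a2)).elim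
  · exact (one_ne_zero (α := F) (by linear_combination (4 * u ^ 2 - 2) * a4 - a2)).elim

theorem RG.main (h : RG Q G e) (hn : Fintype.card ι ≠ 8) {β : V} (hβ : InC Q G β) :
    IsRoot F e β ∨ ∃ i, ∃ c : F, β = c • e i := by
  have hc := h.card
  have h2 := h.h2
  have hnorm : ∑ i, B Q (e i) β * B Q (e i) β = 2 := by rw [← h.onb.parseval, B_self, hβ.1, mul_one]
  by_cases hfull : ∀ i, B Q (e i) β ≠ 0
  · exfalso
    obtain ⟨i0, h4, h5⟩ := h.full_struct hβ hfull
    by_cases h7 : Fintype.card ι = 7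
    · have e1 : ∑ i, 4 * B Q (e i) β ^ 2 = 8 := by
        rw [← Finset.mul_sum]; simp only [sq]; rw [hnorm]; norm_num
      rw [← Finset.add_sum_erase _ _ (Finset.mem_univ i0),
        Finset.sum_congr rfl fun j hj => h4 j (Finset.ne_of_mem_erase hj)] at e1
      simp only [Finset.sum_const, Finset.card_erase_of_mem (Finset.mem_univ i0), Finset.card_univ, h7,
        nsmul_eq_mul, mul_one] at e1
      norm_num at e1
      rcases h5 with h5 | ⟨h5, h3⟩
      · exact one_ne_zero (α := F) (by linear_combination h5 - e1)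
      · exact h3 (by linear_combination e1 - h5)
    obtain ⟨f⟩ : Nonempty (Fin 8 ↪ {j // j ≠ i0}) := by
      apply Function.Embedding.nonempty_of_card_le
      simp; omega
    have fe : ∀ a b : Fin 8, ((f a : ι) = f b) ↔ a = b := fun a b => by
      rw [← Subtype.ext_iff, f.injective.eq_iff]
    have f0 : ∀ a : Fin 8, i0 ≠ (f a : ι) := fun a => (f a).2.symm
    obtain ⟨g1, hg1, e1⟩ := h.flip_mem (i := f 0) (j := f 1) (by simp [fe])
    obtain ⟨g2, hg2, e2⟩ := h.flip_mem (i := f 2) (j := f 3) (by simp [fe])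
    obtain ⟨g3, hg3, e3⟩ := h.flip_mem (i := f 4) (j := f 5) (by simp [fe])
    have h6 := InC.refl h.le hβ (((hβ.map h.le hg1).map h.le hg2).map h.le hg3)
    have hb : B Q β (g3 (g2 (g1 β))) = -1 := by
      rw [e3, e2, e1]
      simp [h.onb.B_eq, fe, B_self, hβ.1, B_comm Q β (e _)]
      apply mul_left_cancel₀ h2
      linear_combination -h4 _ (f 0).2 - h4 _ (f 1).2 - h4 _ (f 2).2 - h4 _ (f 3).2 - h4 _ (f 4).2 -
        h4 _ (f 5).2
    rw [hb] at h6
    refine h.zero_three h6 (i := f 6) (j := f 7) (l := i0) (k := f 0) (by simp [fe]) (f 6).2 (f 7).2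
      ?_ ?_ ?_ ?_
    · rw [e3, e2, e1]; simp [h.onb.B_eq, fe, ← two_mul, h2, hfull]
    · rw [e3, e2, e1]; simp [h.onb.B_eq, fe, ← two_mul, h2, hfull]
    · rw [e3, e2, e1]; simp [h.onb.B_eq, f0, fe, ← two_mul, h2, hfull]
    · rw [e3, e2, e1]; simp [h.onb.B_eq, fe]; ring
  push Not at hfull
  obtain ⟨k, hk⟩ := hfull
  by_cases h1 : ∃ i j, i ≠ j ∧ B Q (e i) β ≠ 0 ∧ B Q (e j) β ≠ 0
  · left
    obtain ⟨i, j, hij, hi, hj⟩ := h1
    have h0 : ∀ l, l ≠ i → l ≠ j → B Q (e l) β = 0 := fun l a b => by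
      by_contra hl
      exact h.zero_three hβ hij a.symm b.symm hi hj hl hk
    have e0 : β = B Q (e i) β • e i + B Q (e j) β • e j := by
      apply h.onb.ext
      intro l
      by_cases a : l = i
      · simp [a, h.onb.B_eq, hij]
      by_cases b : l = j
      · simp [b, h.onb.B_eq, hij.symm]
      simp [h.onb.B_eq, a, b, h0 l a b]
    have e1 : B Q (e i) β ^ 2 + B Q (e j) β ^ 2 = 2 := by
      have := B_self Q β
      rw [hβ.1] at this
      nth_rewrite 1 [e0] at this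
      simp only [map_add, map_smul, LinearMap.add_apply, LinearMap.smul_apply, smul_eq_mul] at this
      linear_combination this
    have e2 : B Q (e i) β ^ 2 = B Q (e j) β ^ 2 := by
      by_cases h3 : (3 : F) = 0
      · have sq : ∀ c : F, c ≠ 0 → c ^ 2 = 1 := by
          intro c hc
          obtain ⟨n, rfl⟩ := h.prime c
          have : ∀ n : ℕ, (n : F) * (n * n - 1) = 0 := by
            intro n
            induction n with
            | zero => simp
            | succ n ih => push_cast; linear_combination ih + (n * n + n) * h3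
          linear_combination ((mul_eq_zero.1 (this n)).resolve_left hc)
        rw [sq _ hi, sq _ hj]
      · exact h.sq_eq_of_zero h3 hβ hij hi hj hk
    refine ⟨i, j, hij, _, _, mul_left_cancel₀ h2 ?_, mul_left_cancel₀ h2 ?_, e0⟩
    · linear_combination e1 + e2
    · linear_combination e1 - e2
  · right
    push Not at h1
    by_cases h3 : ∃ i, B Q (e i) β ≠ 0
    · obtain ⟨i, hi⟩ := h3
      refine ⟨i, B Q (e i) β, h.onb.ext fun l => ?_⟩
      by_cases a : l = i
      · simp [a, h.onb.B_eq]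
      · simp [h.onb.B_eq, a, h1 i l (Ne.symm a) hi]
    · push Not at h3
      exact ⟨k, 0, h.onb.ext fun l => by simp [h3 l]⟩

end Cfsg.Agent.H1
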