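import Mathlib
import Cfsg.Agent.H1.FrameRefl

/-! Overgroups of the stabiliser of an orthonormal frame. -/

set_option autoImplicit false

namespace Cfsg.Agent.H1

open Module Cfsg.Agent.Orth

section dihedral
variable {Γ : Type*} [Group Γ] {s t : Γ}

lemma dih_conj (hs : s * s = 1) (ht : t * t = 1) (j : ℕ) :
    s * (s * t) ^ j = ((s * t) ^ j)⁻¹ * s ∧ t * (s * t) ^ j = ((s * t) ^ j)⁻¹ * t := by
  have hs' : s⁻¹ = s := inv_eq_of_mul_eq_one_right hs
  have ht' : t⁻¹ = t := inv_eq_of_mul_eq_one_right ht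
  have e1 : s * (s * t) * s⁻¹ = (s * t)⁻¹ := by
    rw [mul_inv_rev, ht', hs', ← mul_assoc, hs, one_mul]
  have e2 : t * (s * t) * t⁻¹ = (s * t)⁻¹ := by
    rw [mul_inv_rev, ht', hs', mul_assoc, mul_assoc, ht, mul_one]
  constructor
  · rw [← inv_pow, ← e1, conj_pow]; simp
  · rw [← inv_pow, ← e2, conj_pow]; simp

lemma dih_odd (hs : s * s = 1) (ht : t * t = 1) (h : Odd (orderOf (s * t))) :
    ∃ j : ℕ, ((s * t) ^ j * s * ((s * t) ^ j)⁻¹) * s * ((s * t) ^ j * s * ((s * t) ^ j)⁻¹) = t := by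
  obtain ⟨k, hk⟩ := h
  refine ⟨2 * k ^ 3, ?_⟩
  set c := s * t with hc
  have e1 : ∀ j : ℕ, c ^ j * s * (c ^ j)⁻¹ = c ^ (2 * j) * s := by
    intro j
    have := (dih_conj hs ht j).1
    rw [← hc] at this
    have e : s * (c ^ j)⁻¹ = c ^ j * s := by
      rw [mul_inv_eq_iff_eq_mul, mul_assoc, this, mul_inv_cancel_left]
    rw [mul_assoc, e, ← mul_assoc, ← pow_add, two_mul]
  rw [e1, mul_assoc (c ^ _) s s, hs, mul_one, ← mul_assoc, ← pow_add]
  have e2 : c ^ (2 * (2 * k ^ 3) + 2 * (2 * k ^ 3)) * c = 1 := by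
    rw [← pow_succ, ← orderOf_dvd_iff_pow_eq_one, hk]
    obtain rfl | hk0 := Nat.eq_zero_or_pos k
    · simp
    refine ⟨4 * k ^ 2 - 2 * k + 1, ?_⟩
    have : 2 * k ≤ 4 * k ^ 2 := by nlinarith
    zify [this]; ring
  rw [eq_inv_of_mul_eq_one_left e2, hc, mul_inv_rev, mul_assoc, inv_mul_cancel, mul_one]
  exact inv_eq_of_mul_eq_one_right ht

lemma dih_even [Finite Γ] (hs : s * s = 1) (ht : t * t = 1) (h : Even (orderOf (s * t))) :
    ∃ m : ℕ, (s * t) ^ m ≠ 1 ∧ (s * t) ^ m * s = s * (s * t) ^ m ∧ (s * t) ^ m * t = t * (s * t) ^ m ∧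
      (∃ j : ℕ, (s * t) ^ m * t = (s * t) ^ j * s * ((s * t) ^ j)⁻¹ ∨
        (s * t) ^ m * t = (s * t) ^ j * t * ((s * t) ^ j)⁻¹) ∧
      (∃ j : ℕ, (s * t) ^ m * s = (s * t) ^ j * s * ((s * t) ^ j)⁻¹ ∨
        (s * t) ^ m * s = (s * t) ^ j * t * ((s * t) ^ j)⁻¹) := by
  obtain ⟨m, hm⟩ := h
  set c := s * t with hc
  have hpos := orderOf_pos c
  have e0 : (c ^ m)⁻¹ = c ^ m := by
    apply inv_eq_of_mul_eq_one_right
    rw [← pow_add, ← hm, pow_orderOf_eq_one]
  have e1 : ∀ j : ℕ, c ^ j * s * (c ^ j)⁻¹ = c ^ (2 * j) * s := by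
    intro j
    have := (dih_conj hs ht j).1
    rw [← hc] at this
    have e : s * (c ^ j)⁻¹ = c ^ j * s := by
      rw [mul_inv_eq_iff_eq_mul, mul_assoc, this, mul_inv_cancel_left]
    rw [mul_assoc, e, ← mul_assoc, ← pow_add, two_mul]
  have e2 : ∀ j : ℕ, c ^ j * t * (c ^ j)⁻¹ = c ^ (2 * j) * t := by
    intro j
    have := (dih_conj hs ht j).2
    rw [← hc] at this
    have e : t * (c ^ j)⁻¹ = c ^ j * t := by
      rw [mul_inv_eq_iff_eq_mul, mul_assoc, this, mul_inv_cancel_left]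
    rw [mul_assoc, e, ← mul_assoc, ← pow_add, two_mul]
  have e3 : c * t = s := by rw [hc, mul_assoc, ht, mul_one]
  refine ⟨m, pow_ne_one_of_lt_orderOf (by omega) (by omega), ?_, ?_, ?_, ?_⟩
  · rw [(dih_conj hs ht m).1, ← hc, e0]
  · rw [(dih_conj hs ht m).2, ← hc, e0]
  · rcases Nat.even_or_odd' m with ⟨j, rfl | rfl⟩
    · exact ⟨j, Or.inr (e2 j).symm⟩
    · exact ⟨j, Or.inl (by rw [e1, pow_succ, mul_assoc, e3])⟩
  · rcases Nat.even_or_odd' m with ⟨j, rfl | rfl⟩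
    · exact ⟨j, Or.inl (e1 j).symm⟩
    · exact ⟨j + 1, Or.inr (by rw [e2, ← e3, ← mul_assoc, ← pow_succ]; rfl)⟩

end dihedral

variable {F V : Type*} [Field F] [AddCommGroup V] [Module F V] {Q : QuadraticForm F V}
  {M : Subgroup (V ≃ₗ[F] V)} {ι : Type*} [Fintype ι] [DecidableEq ι] {e : ι → V}

lemma le_finrank_of_triangular [FiniteDimensional F V] {m : ℕ} (y : Fin m → V)
    (φ : Fin m → V →ₗ[F] F) (hd : ∀ i, φ i (y i) ≠ 0) (ht : ∀ i j, i < j → φ j (y i) = 0)
    {W : Submodule F V} (hW : ∀ i, y i ∈ W) : m ≤ finrank F W := by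
  classical
  have hli : LinearIndependent F (fun i => (⟨y i, hW i⟩ : W)) := by
    rw [Fintype.linearIndependent_iff]
    intro g hg
    by_contra hne
    push Not at hne
    obtain ⟨j, hj, hmax⟩ := Finset.exists_max_image (Finset.univ.filter fun i => g i ≠ 0) id
      (by obtain ⟨i, hi⟩ := hne; exact ⟨i, by simpa using hi⟩)
    have h1 : ∑ i, g i • y i = 0 := by simpa using congrArg Subtype.val hg
    have h2 := congrArg (φ j) h1
    rw [map_sum, map_zero, Finset.sum_eq_single j] at h2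
    · rw [map_smul, smul_eq_mul] at h2
      exact mul_ne_zero (by simpa using hj) (hd j) h2
    · intro i _ hij
      rcases lt_or_gt_of_ne hij with h | h
      · rw [map_smul, ht i j h, smul_zero]
      · have : g i = 0 := by
          by_contra h0
          exact absurd (hmax i (by simpa using h0)) (not_le.2 h)
        rw [this, zero_smul, map_zero]
    · simp
  simpa using hli.fintype_card_le_finrank

/-- monomial with respect to the frame `e` -/
def Mono (e : ι → V) (g : V ≃ₗ[F] V) : Prop :=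
  ∀ i, ∃ j, ∃ ε : F, ε * ε = 1 ∧ g (e i) = ε • e j

omit [Fintype ι] [DecidableEq ι] in
lemma Mono.mul {g h : V ≃ₗ[F] V} (hg : Mono e g) (hh : Mono e h) : Mono e (g * h) := by
  intro i
  obtain ⟨j, ε, a, b⟩ := hh i
  obtain ⟨k, ε', c, d⟩ := hg j
  exact ⟨k, ε * ε', by linear_combination ε' * ε' * a + c, by rw [mul_app, b, map_smul, d, smul_smul]⟩

lemma ONB.eq_of_smul (he : ONB Q e) {g : V ≃ₗ[F] V} {i i' j : ι} {ε ε' : F} (hε : ε * ε = 1)
    (h : g (e i) = ε • e j) (h' : g (e i') = ε' • e j) : i' = i := by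
  by_contra hne
  have : e i' = (ε' * ε) • e i := g.injective (by
    rw [map_smul, h, h', smul_smul, mul_assoc, hε, mul_one])
  have h3 := congrArg (B Q (e i')) this
  simp [he.self, he.ne hne] at h3

lemma Mono.inv (he : ONB Q e) {g : V ≃ₗ[F] V} (hg : Mono e g) : Mono e g⁻¹ := by
  choose π ε hε hπ using hg
  have hinj : Function.Injective π := fun a b hab =>
    he.eq_of_smul (hε b) (hπ b) (hab ▸ hπ a)
  intro j
  obtain ⟨i, rfl⟩ := Finite.surjective_of_injective hinj j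
  refine ⟨i, ε i, hε i, ?_⟩
  apply g.injective
  rw [apply_inv_apply, map_smul, hπ, smul_smul, hε, one_smul]

omit [Fintype ι] [DecidableEq ι] in
lemma mono_map_iff {g h : V ≃ₗ[F] V} : Mono (fun i => g (e i)) h ↔ Mono e (g⁻¹ * h * g) := by
  refine forall_congr' fun i => exists_congr fun j => exists_congr fun ε => and_congr_right fun _ => ?_
  rw [mul_app, mul_app, ← g.injective.eq_iff (a := g⁻¹ _), apply_inv_apply, map_smul]

omit [Fintype ι] [DecidableEq ι] in
lemma isRoot_map_iff {g : V ≃ₗ[F] V} {α : V} : IsRoot F (fun i => g (e i)) α ↔ IsRoot F e (g⁻¹ α) := by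
  refine exists_congr fun i => exists_congr fun j => and_congr_right fun _ => exists_congr fun ε =>
    exists_congr fun ε' => and_congr_right fun _ => and_congr_right fun _ => ?_
  rw [← g.injective.eq_iff (a := g⁻¹ _), apply_inv_apply, map_add, map_smul, map_smul]

/-- the sign change in two coordinates -/
def tt (Q : QuadraticForm F V) (e : ι → V) (i j : ι) : V ≃ₗ[F] V := refl Q (e i) * refl Q (e j)

lemma ONB.refl_e (h2 : (2 : F) ≠ 0) (he : ONB Q e) (i : ι) (x : V) :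
    refl Q (e i) x = x - (2 * B Q (e i) x) • e i := by
  have := he.self i
  rw [B_self] at this
  rw [refl_apply, inv_eq_of_mul_eq_one_left this]

lemma ONB.tt_apply (h2 : (2 : F) ≠ 0) (he : ONB Q e) {i j : ι} (hij : i ≠ j) (x : V) :
    tt Q e i j x = x - (2 * B Q (e i) x) • e i - (2 * B Q (e j) x) • e j := by
  rw [tt, mul_app, he.refl_e h2, he.refl_e h2, map_sub, map_smul, he.ne hij, smul_zero, sub_zero]
  abel

lemma ONB.tt_e (h2 : (2 : F) ≠ 0) (he : ONB Q e) {i j : ι} (hij : i ≠ j) (k : ι) :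
    tt Q e i j (e k) = if k = i ∨ k = j then -e k else e k := by
  rw [he.tt_apply h2 hij]
  by_cases a : k = i
  · subst a; simp [he.self, he.ne hij.symm]; module
  by_cases b : k = j
  · subst b; simp [he.self, he.ne hij]; module
  simp [a, b, he.ne (Ne.symm a), he.ne (Ne.symm b)]

lemma ONB.tt_comm (h2 : (2 : F) ≠ 0) (he : ONB Q e) {i j : ι} (hij : i ≠ j) :
    tt Q e i j = tt Q e j i := by
  ext x; rw [he.tt_apply h2 hij, he.tt_apply h2 hij.symm]; abel

lemma ONB.tt_mul_self (h2 : (2 : F) ≠ 0) (he : ONB Q e) {i j : ι} (hij : i ≠ j) :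
    tt Q e i j * tt Q e i j = 1 := by
  nth_rewrite 1 [he.tt_comm h2 hij]
  rw [tt, tt, mul_assoc, ← mul_assoc (refl Q (e i)), refl_mul_self, one_mul, refl_mul_self]

lemma ONB.tt_mono (h2 : (2 : F) ≠ 0) (he : ONB Q e) {i j : ι} (hij : i ≠ j) : Mono e (tt Q e i j) := by
  intro k
  rw [he.tt_e h2 hij]
  split_ifs
  · exact ⟨k, -1, by simp, by simp⟩
  · exact ⟨k, 1, by simp, by simp⟩

omit [Fintype ι] [DecidableEq ι] in
lemma conj_tt {g : V ≃ₗ[F] V} (hg : g ∈ O Q) (i j : ι) :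
    g * tt Q e i j * g⁻¹ = tt Q (fun i => g (e i)) i j := by
  rw [tt, tt, ← conj_refl hg, ← conj_refl hg]; group

lemma Mono.tt_eq (he : ONB Q e) {g : V ≃ₗ[F] V} (h : Mono e g) {i j : ι} (hij : i ≠ j) :
    ∃ a b, a ≠ b ∧ tt Q (fun i => g (e i)) i j = tt Q e a b := by
  obtain ⟨a, ε, h1, h2⟩ := h i
  obtain ⟨b, ε', h3, h4⟩ := h j
  refine ⟨a, b, ?_, ?_⟩
  · rintro rfl; exact hij (he.eq_of_smul h3 h4 h2)
  · simp only [tt]
    rw [h2, h4, refl_smul (by rintro rfl; simp at h1), refl_smul (by rintro rfl; simp at h3)]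

/-- standing hypotheses -/
structure TI (Q : QuadraticForm F V) (M : Subgroup (V ≃ₗ[F] V)) (e : ι → V) : Prop where
  h2 : (2 : F) ≠ 0
  le : M ≤ O Q
  onb : ONB Q e
  card : 7 ≤ Fintype.card ι
  pair : ∀ α β, IsRoot F e α → IsRoot F e β → refl Q α * refl Q β ∈ M
  hB : ∀ g ∈ M, ∀ α, IsRoot F e α → IsRoot F e (g α) → Mono e g

lemma TI.map (h : TI Q M e) {g : V ≃ₗ[F] V} (hg : g ∈ M) : TI Q M (fun i => g (e i)) := by
  refine ⟨h.h2, h.le, h.onb.map (h.le hg), h.card, fun α β hα hβ => ?_, fun k hk α hα hkα => ?_⟩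
  · have := h.pair _ _ (isRoot_map_iff.1 hα) (isRoot_map_iff.1 hβ)
    rw [← conj_refl (inv_mem (h.le hg)), ← conj_refl (inv_mem (h.le hg))] at this
    have h3 := mul_mem (mul_mem hg this) (inv_mem hg)
    convert h3 using 1; group
  · rw [mono_map_iff]
    refine h.hB _ (mul_mem (mul_mem (inv_mem hg) hk) hg) _ (isRoot_map_iff.1 hα) ?_
    simpa [mul_app] using isRoot_map_iff.1 hkα

lemma TI.tt_mem (h : TI Q M e) {i j : ι} (hij : i ≠ j) : tt Q e i j ∈ M := by
  have := h.pair _ _ (isRoot_sub hij) (isRoot_add hij)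
  convert this using 1
  ext x
  rw [h.onb.tt_apply h.h2 hij, mul_app, refl_one (h.onb.root_Q h.h2 (isRoot_sub hij)),
    refl_one (h.onb.root_Q h.h2 (isRoot_add hij))]
  simp only [map_sub, map_add, map_smul, LinearMap.sub_apply, LinearMap.add_apply, smul_eq_mul,
    h.onb.self, h.onb.ne hij, h.onb.ne hij.symm]
  module

lemma exists_root_of_mono (h2 : (2 : F) ≠ 0) (he : ONB Q e) {e' : ι → V} (he' : ONB Q e') {k l : ι}
    (hkl : k ≠ l) (hm : Mono e (tt Q e' k l)) :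
    ∃ α, IsRoot F e α ∧ ∃ a b : F, α = a • e' k + b • e' l := by
  have sub : ∀ x, ∃ a b : F, tt Q e' k l x - x = a • e' k + b • e' l := fun x =>
    ⟨-(2 * B Q (e' k) x), -(2 * B Q (e' l) x), by rw [he'.tt_apply h2 hkl]; module⟩
  by_cases h1 : ∃ i j, i ≠ j ∧ ∃ ε : F, ε * ε = 1 ∧ tt Q e' k l (e i) = ε • e j
  · obtain ⟨i, j, hij, ε, hε, h1⟩ := h1
    refine ⟨_, ⟨j, i, hij.symm, ε, -1, hε, by simp, rfl⟩, ?_⟩
    have := sub (e i)
    rwa [h1, sub_eq_add_neg, ← neg_one_smul F (e i)] at this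
  have h3 : ∀ i, tt Q e' k l (e i) = e i ∨ ∃ a b : F, e i = a • e' k + b • e' l := by
    intro i
    obtain ⟨j, ε, hε, h4⟩ := hm i
    obtain rfl : i = j := by by_contra h0; exact h1 ⟨i, j, h0, ε, hε, h4⟩
    rcases mul_self_eq_one_iff.1 hε with rfl | rfl
    · left; rw [h4, one_smul]
    · right
      obtain ⟨a, b, h5⟩ := sub (e i)
      rw [h4] at h5
      refine ⟨-(2⁻¹ * a), -(2⁻¹ * b), ?_⟩
      have h6 : (2 : F) • e i = -(a • e' k + b • e' l) := by rw [← h5]; module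
      rw [← one_smul F (e i), ← inv_mul_cancel₀ h2, ← smul_smul, h6]; module
  by_cases h4 : ∃ i j, i ≠ j ∧ tt Q e' k l (e i) ≠ e i ∧ tt Q e' k l (e j) ≠ e j
  · obtain ⟨i, j, hij, hi, hj⟩ := h4
    obtain ⟨a, b, h5⟩ := (h3 i).resolve_left hi
    obtain ⟨c, d, h6⟩ := (h3 j).resolve_left hj
    exact ⟨_, isRoot_add hij, a + c, b + d, by rw [h5, h6]; module⟩
  exfalso
  push Not at h4
  obtain ⟨i0, hi0⟩ : ∃ i0, ∀ i, i ≠ i0 → tt Q e' k l (e i) = e i := by
    by_cases h5 : ∃ i, tt Q e' k l (e i) ≠ e i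
    · obtain ⟨i, hi⟩ := h5
      exact ⟨i, fun j hj => h4 i j hj.symm hi⟩
    · push Not at h5
      exact ⟨k, fun j _ => h5 j⟩
  have h5 : ∀ i, i ≠ i0 → B Q (e i) (e' k) = 0 ∧ B Q (e i) (e' l) = 0 := by
    intro i hi
    have h6 := hi0 i hi
    rw [he'.tt_apply h2 hkl] at h6
    have h7 := congrArg (B Q (e' k)) h6
    have h8 := congrArg (B Q (e' l)) h6
    simp only [map_sub, map_smul, he'.self, he'.ne hkl, he'.ne hkl.symm, smul_eq_mul] at h7 h8
    rw [B_comm Q (e i), B_comm Q (e i)]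
    exact ⟨mul_left_cancel₀ h2 (by linear_combination -h7), mul_left_cancel₀ h2 (by linear_combination -h8)⟩
  have p : ∀ x y, (∀ i, i ≠ i0 → B Q (e i) x = 0) → B Q x y = B Q (e i0) x * B Q (e i0) y := by
    intro x y hx
    rw [he.parseval, Finset.sum_eq_single i0 (fun i _ hi => by rw [hx i hi, zero_mul]) (by simp)]
  have p1 := p _ (e' k) fun i hi => (h5 i hi).1
  have p2 := p _ (e' l) fun i hi => (h5 i hi).2
  have p3 := p _ (e' l) fun i hi => (h5 i hi).1
  rw [he'.self] at p1 p2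
  rw [he'.ne hkl] at p3
  exact one_ne_zero (α := F) (by
    linear_combination p1 + B Q (e i0) (e' k) * B Q (e i0) (e' k) * p2 -
      B Q (e i0) (e' k) * B Q (e i0) (e' l) * p3)

lemma TI.plane (h : TI Q M e) {e' : ι → V} (h' : TI Q M e') {k l : ι} (hkl : k ≠ l)
    (hm : Mono e (tt Q e' k l)) :
    (∀ y ∈ M, y (e' k) = e' k → y (e' l) = e' l → Mono e y) ∧
      ∃ i j, i ≠ j ∧ (∀ m, m ≠ k → m ≠ l → B Q (e' m) (e i) = 0 ∧ B Q (e' m) (e j) = 0) ∧
        ∀ r, r ≠ i → r ≠ j → B Q (e r) (e' k) = 0 ∧ B Q (e r) (e' l) = 0 := by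
  have h2 := h.h2
  have he := h.onb
  have he' := h'.onb
  have hc := h.card
  obtain ⟨α, hα, a, b, hab⟩ := exists_root_of_mono h2 he he' hkl hm
  have fix : ∀ y : V ≃ₗ[F] V, y (e' k) = e' k → y (e' l) = e' l → y α = α := fun y h1 h3 => by
    rw [hab, map_add, map_smul, map_smul, h1, h3]
  have k1 : ∀ y ∈ M, y (e' k) = e' k → y (e' l) = e' l → Mono e y := fun y hy h1 h3 =>
    h.hB y hy α hα (by rwa [fix y h1 h3])
  refine ⟨k1, ?_⟩
  obtain ⟨i, j, hij, ε, ε', hε, hε', hαe⟩ := hα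
  have hε0 : ε ≠ 0 := by rintro rfl; simp at hε
  have hε0' : ε' ≠ 0 := by rintro rfl; simp at hε'
  set α' := ε • e i - ε' • e j with hα'
  have k2 : ∀ y ∈ M, y (e' k) = e' k → y (e' l) = e' l → y α' = α' ∨ y α' = -α' := by
    intro y hy h1 h3
    have h4 := fix y h1 h3
    obtain ⟨p, η, hη, hp⟩ := k1 y hy h1 h3 i
    obtain ⟨q, η', hη', hq⟩ := k1 y hy h1 h3 j
    have hpq : p ≠ q := by rintro rfl; exact hij (he.eq_of_smul hη' hq hp)
    rw [hαe, map_add, map_smul, map_smul, hp, hq] at h4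
    have h5 := congrArg (B Q (e i)) h4
    rw [hα', map_sub, map_smul, map_smul, hp, hq]
    by_cases c1 : p = i
    · subst c1
      simp [he.self, he.ne hpq, he.ne hij, hε0] at h5
      left
      rw [h5] at h4 ⊢
      linear_combination (norm := module) -h4
    by_cases c2 : q = i
    · subst c2
      simp [he.self, he.ne hpq.symm, he.ne hij] at h5
      right
      rw [smul_smul ε' η', h5] at h4 ⊢
      linear_combination (norm := module) h4
    simp [he.self, he.ne (Ne.symm c1), he.ne (Ne.symm c2), he.ne hij, hε0] at h5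
    exact absurd h5.symm hε0
  have k3 : ∀ m, m ≠ k → m ≠ l → B Q (e' m) α' = 0 := by
    intro m mk ml
    by_contra hne
    have k4 : ∀ m', m' ≠ k → m' ≠ l → m' ≠ m →
        α' = B Q (e' m) α' • e' m + B Q (e' m') α' • e' m' := by
      intro m' a1 a2 a3
      have h4 := k2 _ (h'.tt_mem a3.symm) (by rw [he'.tt_e h2 a3.symm]; simp [mk.symm, a1.symm])
        (by rw [he'.tt_e h2 a3.symm]; simp [ml.symm, a2.symm])
      rw [he'.tt_apply h2 a3.symm] at h4
      rcases h4 with h4 | h4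
      · have h5 := congrArg (B Q (e' m)) h4
        simp only [map_sub, map_smul, he'.self, he'.ne a3.symm, smul_eq_mul] at h5
        exact absurd (mul_left_cancel₀ h2 (by linear_combination -h5)) hne
      · apply smul_right_injective V h2
        linear_combination (norm := module) h4
    obtain ⟨m', a1, a2, a3⟩ := exists_ne3 (by omega) k l m
    obtain ⟨m'', b1, b2, b3, b4⟩ := exists_ne4 (by omega) k l m m'
    have h4 : B Q (e' m') α' = 0 := by
      rw [k4 m'' b1 b2 b3]; simp [he'.ne a3, he'.ne b4.symm]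
    have h5 := k4 m' a1 a2 a3
    rw [h4, zero_smul, add_zero] at h5
    have r1 := he'.root_Q h2 (isRoot_sub a3.symm)
    have r2 := he'.root_Q h2 (isRoot_sub b4.symm)
    have h6 := k2 _ (h'.pair _ _ (isRoot_sub a3.symm) (isRoot_sub b4.symm))
      (by rw [mul_app, refl_of_perp (a := e' m' - e' m''), refl_of_perp] <;>
        simp [he'.ne a1, he'.ne b1, he'.ne mk])
      (by rw [mul_app, refl_of_perp (a := e' m' - e' m''), refl_of_perp] <;>
        simp [he'.ne a2, he'.ne b2, he'.ne ml])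
    have h7 : (refl Q (e' m - e' m') * refl Q (e' m' - e' m'')) α' = B Q (e' m) α' • e' m' := by
      nth_rewrite 1 [h5]
      rw [map_smul, mul_app, refl_of_perp (a := e' m' - e' m'') (by simp [he'.ne a3, he'.ne b3]),
        refl_one r1]
      simp [he'.self, he'.ne a3]
    rw [h7] at h6
    rcases h6 with h6 | h6
    · have := congrArg (B Q (e' m')) h6
      rw [h4] at this; simp [he'.self, hne] at this
    · have := congrArg (B Q (e' m')) h6
      rw [map_neg, h4] at this; simp [he'.self, hne] at this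
  have k5 : ∀ m, m ≠ k → m ≠ l → B Q (e' m) (e i) = 0 ∧ B Q (e' m) (e j) = 0 := by
    intro m mk ml
    have h4 := k3 m mk ml
    have h5 : B Q (e' m) α = 0 := by rw [hab]; simp [he'.ne mk, he'.ne ml]
    rw [hαe] at h5
    simp only [hα', map_sub, map_add, map_smul, smul_eq_mul] at h4 h5
    exact ⟨mul_left_cancel₀ (mul_ne_zero h2 hε0) (by linear_combination h4 + h5),
      mul_left_cancel₀ (mul_ne_zero h2 hε0') (by linear_combination h5 - h4)⟩
  refine ⟨i, j, hij, k5, fun r ri rj => ?_⟩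
  have ex : ∀ x, (∀ m, m ≠ k → m ≠ l → B Q (e' m) x = 0) → ∀ y,
      B Q y x = B Q (e' k) x * B Q y (e' k) + B Q (e' l) x * B Q y (e' l) := by
    intro x hx y
    have : x = B Q (e' k) x • e' k + B Q (e' l) x • e' l := he'.ext fun m => by
      by_cases c1 : m = k
      · simp [c1, he'.self, he'.ne hkl]
      by_cases c2 : m = l
      · simp [c2, he'.self, he'.ne hkl.symm]
      simp [he'.ne c1, he'.ne c2, hx m c1 c2]
    nth_rewrite 1 [this]
    simp
  have x1 := ex (e i) fun m a b => (k5 m a b).1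
  have x2 := ex (e j) fun m a b => (k5 m a b).2
  have y1 := x1 (e i)
  have y2 := x2 (e j)
  have y3 := x1 (e j)
  have y4 := x1 (e r)
  have y5 := x2 (e r)
  rw [he.self, B_comm Q (e i), B_comm Q (e i)] at y1
  rw [he.self, B_comm Q (e j), B_comm Q (e j)] at y2
  rw [he.ne hij.symm, B_comm Q (e j), B_comm Q (e j)] at y3
  rw [he.ne ri] at y4
  rw [he.ne rj] at y5
  set a1 := B Q (e' k) (e i)
  set b1 := B Q (e' l) (e i)
  set a2 := B Q (e' k) (e j)
  set b2 := B Q (e' l) (e j)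
  have hD : a1 * b2 - a2 * b1 ≠ 0 := by
    intro h0
    exact one_ne_zero (α := F) (by
      linear_combination y1 + (a1 * a1 + b1 * b1) * y2 - (a1 * a2 + b1 * b2) * y3 +
        (a1 * b2 - a2 * b1) * h0)
  exact ⟨mul_left_cancel₀ hD (by linear_combination b1 * y5 - b2 * y4),
    mul_left_cancel₀ hD (by linear_combination a2 * y4 - a1 * y5)⟩

lemma TI.line (h : TI Q M e) {e' : ι → V} (h' : TI Q M e') {m m' m'' : ι} (h1 : m ≠ m')
    (h3 : m ≠ m'') (h4 : m' ≠ m'') (hm : Mono e (tt Q e' m m')) (hm' : Mono e (tt Q e' m m'')) :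
    ∃ a, ∃ ε : F, ε * ε = 1 ∧ e' m = ε • e a := by
  obtain ⟨-, i, j, hij, a1, a2⟩ := h.plane h' h1 hm
  obtain ⟨-, i', j', hij', -, b2⟩ := h.plane h' h3 hm'
  have key : ∀ a, (∀ r, r ≠ a → B Q (e r) (e' m) = 0) → ∃ a, ∃ ε : F, ε * ε = 1 ∧ e' m = ε • e a := by
    intro a ha
    have e1 : e' m = B Q (e a) (e' m) • e a := h.onb.ext fun r => by
      by_cases c : r = a
      · simp [c, h.onb.self]
      · simp [h.onb.ne c, ha r c]
    refine ⟨a, _, ?_, e1⟩
    have := h'.onb.self m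
    nth_rewrite 1 [e1] at this
    simpa using this
  by_cases c1 : i ≠ i' ∧ i ≠ j'
  · refine key j fun r rj => ?_
    by_cases c : r = i
    · rw [c]; exact (b2 i c1.1 c1.2).1
    · exact (a2 r c rj).1
  by_cases c2 : j ≠ i' ∧ j ≠ j'
  · refine key i fun r ri => ?_
    by_cases c : r = j
    · rw [c]; exact (b2 j c2.1 c2.2).1
    · exact (a2 r ri c).1
  exfalso
  have : e' m'' = 0 := h.onb.ext fun r => by
    rw [map_zero]
    by_cases c : r = i
    · rw [c, B_comm]; exact (a1 m'' h3.symm h4.symm).1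
    by_cases c' : r = j
    · rw [c', B_comm]; exact (a1 m'' h3.symm h4.symm).2
    refine (b2 r ?_ ?_).2
    · rintro rfl; apply hij; grind
    · rintro rfl; apply hij; grind
  have h5 := h'.onb.self m''
  simp [this] at h5

lemma TI.K (h : TI Q M e) {g : V ≃ₗ[F] V} (hg : g ∈ M) {k l : ι} (hkl : k ≠ l)
    (hm : Mono e (tt Q (fun i => g (e i)) k l)) : Mono e g := by
  have h' := h.map hg
  have hc := h.card
  obtain ⟨k1, -⟩ := h.plane h' hkl hm
  have k2 : ∀ m m', m ≠ m' → m ≠ k → m ≠ l → m' ≠ k → m' ≠ l →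
      Mono e (tt Q (fun i => g (e i)) m m') := fun m m' a b c d f =>
    k1 _ (h'.tt_mem a) (by rw [h'.onb.tt_e h.h2 a]; simp [b.symm, d.symm])
      (by rw [h'.onb.tt_e h.h2 a]; simp [c.symm, f.symm])
  obtain ⟨m, a1, a2⟩ := exists_ne2 (by omega) k l
  obtain ⟨m', b1, b2, b3⟩ := exists_ne3 (by omega) k l m
  obtain ⟨m'', c1, c2, c3, c4⟩ := exists_ne4 (by omega) k l m m'
  obtain ⟨a, ε, hε, ha⟩ := h.line h' b3.symm c3.symm c4.symm (k2 _ _ b3.symm a1 a2 b1 b2)
    (k2 _ _ c3.symm a1 a2 c1 c2)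
  obtain ⟨b, ε', hε', hb⟩ := h.line h' b3 c4.symm c3.symm (k2 _ _ b3 b1 b2 a1 a2)
    (k2 _ _ c4.symm b1 b2 c1 c2)
  refine h.hB g hg _ (isRoot_add b3) ⟨b, a, ?_, ε', ε, hε', hε, by rw [map_add]; congr 1⟩
  rintro rfl
  exact b3 (h.onb.eq_of_smul hε ha hb)

lemma TI.fin (h : TI Q M e) {g : V ≃ₗ[F] V} (hg : g ∈ M) {α : V} (hα : IsRoot F e α) {r r' : ι}
    (hr : r ≠ r') (h1 : B Q (g (e r)) α = 0) (h3 : B Q (g (e r')) α = 0) : Mono e g := by
  have h' := h.map hg
  refine h.K hg hr (h.hB _ (h'.tt_mem hr) α hα ?_)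
  rw [h'.onb.tt_apply h.h2 hr]
  simpa [h1, h3] using hα

lemma B_eq_zero_of_fix (h2 : (2 : F) ≠ 0) {z : V ≃ₗ[F] V} (hz : z ∈ O Q) {x α : V} (h1 : z x = x)
    (h3 : z α = -α) : B Q x α = 0 := by
  have := O_B hz x α
  rw [h1, h3, map_neg] at this
  exact mul_left_cancel₀ h2 (by linear_combination -this)

lemma B_sub_eq_zero_of_fix {z : V ≃ₗ[F] V} (hz : z ∈ O Q) {x : V} (h1 : z x = x) (y : V) :
    B Q x (z y - y) = 0 := by
  have := O_B hz x y
  rw [h1] at this
  rw [map_sub, this, sub_self]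

lemma TI.E1 (h : TI Q M e) {z w : V ≃ₗ[F] V} (hz : z ∈ M) (hw : w ∈ M) {i j a b : ι} (hij : i ≠ j)
    (hab : a ≠ b) (h1 : z * tt Q e i j = tt Q e i j * z) (h3 : z * tt Q e i j = w * tt Q e a b * w⁻¹) :
    ∃ c d, c ≠ d ∧ z = tt Q e c d * tt Q e i j := by
  have m1 : Mono e z := h.K hz hij (by
    rw [← conj_tt (h.le hz), h1, mul_inv_cancel_right]; exact h.onb.tt_mono h.h2 hij)
  have m2 : Mono e w := h.K hw hab (by
    rw [← conj_tt (h.le hw), ← h3]; exact m1.mul (h.onb.tt_mono h.h2 hij))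
  obtain ⟨c, d, hcd, h4⟩ := m2.tt_eq h.onb hab
  refine ⟨c, d, hcd, ?_⟩
  rw [← h4, ← conj_tt (h.le hw), ← h3, mul_assoc, h.onb.tt_mul_self h.h2 hij, mul_one]

lemma TI.even [Finite (V ≃ₗ[F] V)] (h : TI Q M e) {g : V ≃ₗ[F] V} (hg : g ∈ M) {k l i j : ι}
    (hkl : k ≠ l) (hij : i ≠ j) (he : Even (orderOf (tt Q (fun i => g (e i)) k l * tt Q e i j))) :
    Mono e g := by
  have h' := h.map hg
  have h2 := h.h2
  have hc := h.card
  obtain ⟨m, hz1, c1, c2, ⟨j1, c3⟩, ⟨j2, c4⟩⟩ := dih_even (h'.onb.tt_mul_self h2 hkl)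
    (h.onb.tt_mul_self h2 hij) he
  have hp : ∀ n : ℕ, (tt Q (fun i => g (e i)) k l * tt Q e i j) ^ n ∈ M :=
    fun n => pow_mem (mul_mem (h'.tt_mem hkl) (h.tt_mem hij)) n
  set z := (tt Q (fun i => g (e i)) k l * tt Q e i j) ^ m with hz
  obtain ⟨a, b, hab, e1⟩ : ∃ c d, c ≠ d ∧ z = tt Q e c d * tt Q e i j := by
    rcases c3 with c3 | c3
    · refine h.E1 (hp m) (mul_mem (hp j1) hg) hij hkl c2 ?_
      rw [c3, ← conj_tt (h.le hg)]; group
    · exact h.E1 (hp m) (hp j1) hij hij c2 c3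
  obtain ⟨c, d, hcd, e2⟩ : ∃ c d, c ≠ d ∧
      z = tt Q (fun i => g (e i)) c d * tt Q (fun i => g (e i)) k l := by
    rcases c4 with c4 | c4
    · exact h'.E1 (hp m) (hp j2) hkl hkl c1 c4
    · refine h'.E1 (hp m) (mul_mem (hp j2) (inv_mem hg)) hkl hij c1 ?_
      rw [c4, ← conj_tt (h.le hg) i j]; group
  obtain ⟨α, hα, hzα⟩ : ∃ α, IsRoot F e α ∧ z α = -α := by
    have key : ∀ a b, a ≠ b → z = tt Q e a b * tt Q e i j → a ≠ i → a ≠ j →
        ∃ α, IsRoot F e α ∧ z α = -α := by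
      intro a b hab e1 ai aj
      by_cases hb : b = i
      · subst hb
        refine ⟨_, isRoot_add aj, ?_⟩
        simp [e1, mul_app, h.onb.tt_e h2 hij, h.onb.tt_e h2 hab, ai, aj, aj.symm, hij.symm]; abel
      · refine ⟨_, isRoot_add ai, ?_⟩
        simp [e1, mul_app, h.onb.tt_e h2 hij, h.onb.tt_e h2 hab, ai, aj, ai.symm, Ne.symm hb]; abel
    by_cases a1 : a ≠ i ∧ a ≠ j
    · exact key a b hab e1 a1.1 a1.2
    by_cases a2 : b ≠ i ∧ b ≠ j
    · exact key b a hab.symm (by rw [e1, h.onb.tt_comm h2 hab]) a2.1 a2.2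
    exfalso
    apply hz1
    rw [e1]
    have : (a = i ∧ b = j) ∨ (a = j ∧ b = i) := by grind
    rcases this with ⟨rfl, rfl⟩ | ⟨rfl, rfl⟩
    · exact h.onb.tt_mul_self h2 hab
    · rw [h.onb.tt_comm h2 hab]; exact h.onb.tt_mul_self h2 hij
  obtain ⟨r, r1, r2, r3, r4⟩ := exists_ne4 (by omega) c d k l
  obtain ⟨r', s1, s2, s3, s4, s5⟩ := exists_ne5 (by omega) c d k l r
  have fx : ∀ r, r ≠ c → r ≠ d → r ≠ k → r ≠ l → z (g (e r)) = g (e r) := by
    intro r r1 r2 r3 r4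
    have a1 := h'.onb.tt_e h2 hkl r
    have a2 := h'.onb.tt_e h2 hcd r
    simp only [r1, r2, r3, r4, or_self, if_false] at a1 a2
    rw [e2, mul_app, a1, a2]
  exact h.fin hg hα s5 (B_eq_zero_of_fix h2 (h.le (hp m)) (fx r' s1 s2 s3 s4) hzα)
    (B_eq_zero_of_fix h2 (h.le (hp m)) (fx r r1 r2 r3 r4) hzα)

lemma ONB.exists_fix_two [FiniteDimensional F V] (he : ONB Q e) (hc : 6 ≤ Fintype.card ι)
    {h : V ≃ₗ[F] V} (hm : Mono e h) {W : Submodule F V} (hW : finrank F W ≤ 2)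
    (hsub : ∀ x, h x - x ∈ W) : ∃ r r', r ≠ r' ∧ h (e r) = e r ∧ h (e r') = e r' := by
  by_contra hcon
  push Not at hcon
  obtain ⟨i1⟩ : Nonempty ι := Fintype.card_pos_iff.1 (by omega)
  obtain ⟨r0, hr0⟩ : ∃ r0, ∀ r, r ≠ r0 → h (e r) ≠ e r := by
    by_cases h5 : ∃ i, h (e i) = e i
    · obtain ⟨i, hi⟩ := h5
      exact ⟨i, fun j hj => hcon i j hj.symm hi⟩
    · push Not at h5
      exact ⟨i1, fun j _ => h5 j⟩
  choose π ε hε hπ using hm
  have d : ∀ k, k ≠ r0 → B Q (e k) (h (e k) - e k) ≠ 0 := by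
    intro k hk
    by_cases c : π k = k
    · intro h0
      apply hr0 k hk
      rw [hπ, c] at h0 ⊢
      simp only [map_sub, map_smul, he.self, smul_eq_mul, mul_one, sub_eq_zero] at h0
      rw [h0, one_smul]
    · simp [hπ, he.self, he.ne (Ne.symm c)]
  have o : ∀ c k, c ≠ k → c ≠ π k → B Q (e c) (h (e k) - e k) = 0 := by
    intro c k a b; simp [hπ, he.ne a, he.ne b]
  obtain ⟨k1, a1, -⟩ := exists_ne2 (by omega) r0 r0
  obtain ⟨k2, b1, b2, b3⟩ := exists_ne3 (by omega) r0 k1 (π k1)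
  obtain ⟨k3, c1, c2, c3, c4, c5⟩ := exists_ne5 (by omega) r0 k1 (π k1) k2 (π k2)
  have := le_finrank_of_triangular (fun i => h (e (![k1, k2, k3] i)) - e (![k1, k2, k3] i))
    (fun i => B Q (e (![k1, k2, k3] i))) (fun i => by fin_cases i <;> apply d <;> assumption)
    (fun i j hij => by
      fin_cases i <;> fin_cases j <;> first | exact absurd hij (by decide) | apply o <;> assumption)
    (fun i => hsub _)
  omega

lemma fix_of_odd {h : V ≃ₗ[F] V} (ho : Odd (orderOf h)) {x : V} (k : ℕ) (hx : (h ^ (2 ^ k)) x = x) :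
    h x = x := by
  have h1 : h ^ (2 ^ k) ∈ MulAction.stabilizer (V ≃ₗ[F] V) x := hx
  have h3 : h ∈ Subgroup.zpowers (h ^ (2 ^ k)) := by
    rw [mem_zpowers_pow_iff]
    exact Nat.Coprime.pow_left k ((Nat.coprime_two_left).2 ho)
  exact (Subgroup.zpowers_le_of_mem h1) h3

lemma ONB.exists_fix_odd [FiniteDimensional F V] (he : ONB Q e) (hc : 7 ≤ Fintype.card ι)
    {h : V ≃ₗ[F] V} (hm : Mono e h) (ho : Odd (orderOf h)) {W : Submodule F V} (hW : finrank F W ≤ 4)
    (hsub : ∀ x, h x - x ∈ W) : ∃ r, h (e r) = e r := by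
  by_contra hcon
  push Not at hcon
  obtain ⟨a0⟩ : Nonempty ι := Fintype.card_pos_iff.1 (by omega)
  choose π ε hε hπ using hm
  have hinj : Function.Injective π := fun a b hab => he.eq_of_smul (hε b) (hπ b) (hab ▸ hπ a)
  have hε0 : ∀ k, ε k ≠ 0 := fun k h0 => by simpa [h0] using hε k
  have n1 : ∀ k, π k ≠ k := fun k hk => hcon k (fix_of_odd ho 1 (by
    simp [pow_succ, mul_app, hπ, hk, smul_smul, hε]))
  have n2 : ∀ k, π (π k) ≠ k := fun k hk => hcon k (fix_of_odd ho 2 (by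
    rw [show 2 ^ 2 = 4 by norm_num]
    simp only [pow_succ, mul_app, hπ, hk, smul_smul, map_smul, pow_zero, one_mul, mul_one]
    rw [show ε k * (ε (π k) * (ε k * ε (π k))) = 1 by linear_combination ε (π k) * ε (π k) * hε k + hε (π k),
      one_smul]))
  have n4 : ∀ k, π (π (π (π k))) ≠ k := fun k hk => hcon k (fix_of_odd ho 3 (by
    have e1 : (h ^ 4) (e k) = (ε k * ε (π k) * ε (π (π k)) * ε (π (π (π k)))) • e k := by
      simp only [pow_succ, mul_app, hπ, hk, smul_smul, map_smul, pow_zero, one_mul, mul_assoc]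
    rw [show 2 ^ 3 = 4 + 4 by norm_num, pow_add, mul_app, e1, map_smul, e1, smul_smul, mul_mul_mul_comm,
      hε, mul_mul_mul_comm _ (ε (π (π k))), hε, mul_mul_mul_comm _ (ε (π k)), hε, hε]
    simp))
  have d1 : ∀ k, B Q (e k) (h (e k) - e k) ≠ 0 := fun k => by simp [hπ, he.self, he.ne (n1 k).symm]
  have d2 : ∀ k, B Q (e (π k)) (h (e k) - e k) ≠ 0 := fun k => by simp [hπ, he.self, he.ne (n1 k), hε0]
  have o : ∀ c k, c ≠ k → c ≠ π k → B Q (e c) (h (e k) - e k) = 0 := by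
    intro c k a b; simp [hπ, he.ne a, he.ne b]
  have fin : ∀ k c : Fin 5 → ι, (∀ i, c i = k i ∨ c i = π (k i)) →
      (∀ i j, i < j → c j ≠ k i ∧ c j ≠ π (k i)) → False := by
    intro k c h1 h3
    have := le_finrank_of_triangular (fun i => h (e (k i)) - e (k i)) (fun i => B Q (e (c i)))
      (fun i => by rcases h1 i with a | a <;> simp only [a]; exacts [d1 _, d2 _])
      (fun i j hij => o _ _ (h3 i j hij).1 (h3 i j hij).2) (fun i => hsub _)
    omega
  by_cases c3 : π (π (π a0)) = a0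
  · obtain ⟨b0, b1, b2, b3⟩ := exists_ne3 (by omega) a0 (π a0) (π (π a0))
    obtain ⟨c, hc'⟩ := exists_notMem_of_card_lt {a0, π a0, π (π a0), b0, π b0, π (π b0)}
      (by have := Finset.card_le_six (a := a0) (b := π a0) (c := π (π a0)) (d := b0) (e := π b0)
            (f := π (π b0)); omega)
    simp only [Finset.mem_insert, Finset.mem_singleton, not_or] at hc'
    have q1 := n1 a0; have q2 := n2 a0; have q3 := n1 (π a0); have q4 := n1 b0; have q5 := n2 b0
    have q6 := n1 (π b0)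
    have q7 : π (π b0) ≠ a0 := fun h0 => b2 (hinj (hinj (h0.trans c3.symm)))
    have q8 : π (π b0) ≠ π a0 := fun h0 => b3 (hinj ((hinj h0).trans c3.symm))
    have q9 : π (π b0) ≠ π (π a0) := fun h0 => b1 (hinj (hinj h0))
    refine fin ![a0, π a0, b0, π b0, c] ![a0, π (π a0), b0, π (π b0), c]
      (fun i => by fin_cases i <;> simp) (fun i j hij => ?_)
    fin_cases i <;> fin_cases j <;> first | exact absurd hij (by decide) | (simp; tauto)
  · obtain ⟨c, hc'⟩ := exists_ne5 (by omega) a0 (π a0) (π (π a0)) (π (π (π a0))) (π (π (π (π a0))))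
    have q1 := n1 a0; have q2 := n2 a0; have q3 := n1 (π a0); have q4 := n2 (π a0)
    have q5 := n1 (π (π a0)); have q6 := n4 a0; have q7 := n2 (π (π a0)); have q8 := n1 (π (π (π a0)))
    have q9 : π (π (π (π a0))) ≠ π a0 := fun h0 => c3 (hinj h0)
    refine fin ![a0, π a0, π (π a0), π (π (π a0)), c]
      ![a0, π (π a0), π (π (π a0)), π (π (π (π a0))), c]
      (fun i => by fin_cases i <;> simp) (fun i j hij => ?_)
    fin_cases i <;> fin_cases j <;> first | exact absurd hij (by decide) | (simp; tauto)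

lemma TI.swap (h : TI Q M e) {g u : V ≃ₗ[F] V} (hg : g ∈ M) (hu : u ∈ M) (hu2 : u * u = 1) {k l i j : ι}
    (hkl : k ≠ l) (hij : i ≠ j) (h1 : u * tt Q (fun i => g (e i)) k l * u = tt Q e i j) :
    Mono e (g⁻¹ * u) := by
  refine h.K (mul_mem (inv_mem hg) hu) hij ?_
  have hu' : u⁻¹ = u := inv_eq_of_mul_eq_one_right hu2
  rw [← conj_tt (h.le (mul_mem (inv_mem hg) hu)), ← h1, ← conj_tt (h.le hg), mul_inv_rev, hu']
  convert h.onb.tt_mono h.h2 hkl using 1
  simp only [mul_assoc, inv_inv, inv_mul_cancel_left, ← mul_assoc u u, hu2, one_mul, inv_mul_cancel,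
    mul_one]

lemma TI.H (h : TI Q M e) {g u u' : V ≃ₗ[F] V} (hg : g ∈ M) (hu : u ∈ M) (hu2 : u * u = 1)
    (hu' : u' ∈ M) (hu2' : u' * u' = 1) {k l a b j : ι} (hkl : k ≠ l) (haj : a ≠ j) (hbj : b ≠ j)
    (hab : a ≠ b) (h1 : u * tt Q (fun i => g (e i)) k l * u = tt Q e a j)
    (h1' : u' * tt Q (fun i => g (e i)) k l * u' = tt Q e b j) :
    Mono e (u * u') ∧ Mono (fun i => g (e i)) (u * u') ∧
      ∃ c, ∃ ε : F, c ≠ b ∧ ε * ε = 1 ∧ (u * u') (e b) = ε • e c := by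
  have m1 := h.swap hg hu hu2 hkl haj h1
  have m2 := h.swap hg hu' hu2' hkl hbj h1'
  have i1 : u⁻¹ = u := inv_eq_of_mul_eq_one_right hu2
  have i2 : u'⁻¹ = u' := inv_eq_of_mul_eq_one_right hu2'
  have m3 : Mono e (u * u') := by
    convert (m1.inv h.onb).mul m2 using 1
    rw [mul_inv_rev, i1]; group
  refine ⟨m3, ?_, ?_⟩
  · rw [mono_map_iff]
    convert m1.mul (m2.inv h.onb) using 1
    rw [mul_inv_rev, i2]; group
  · obtain ⟨c, ε, hε, hc⟩ := m3 b
    refine ⟨c, ε, ?_, hε, hc⟩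
    rintro rfl
    have e1 : tt Q e a j * (u * u') = (u * u') * tt Q e c j := by
      rw [← h1, ← h1']
      simp only [mul_assoc, ← mul_assoc u u, ← mul_assoc u' u', hu2, hu2', one_mul]
    have e2 := congrArg (fun f : V ≃ₗ[F] V => B Q (e c) (f (e c))) e1
    simp only [mul_app (tt Q e a j), mul_app (u * u'), hc, map_smul, h.onb.tt_e h.h2 haj,
      h.onb.tt_e h.h2 hbj, hab.symm, hbj, or_self, if_false, true_or, if_true, map_neg, h.onb.self,
      smul_eq_mul, mul_one] at e2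
    exact mul_ne_zero h.h2 (show ε ≠ 0 by rintro rfl; simp at hε) (by linear_combination e2)

lemma refl_mul_refl_sub_mem (x y v : V) :
    (refl Q x * refl Q y) v - v ∈ Submodule.span F ({x, y} : Set V) := by
  rw [mul_app, refl_apply, refl_apply Q y v, Submodule.mem_span_pair]
  exact ⟨-((Q x)⁻¹ * B Q x (v - ((Q y)⁻¹ * B Q y v) • y)), -((Q y)⁻¹ * B Q y v), by module⟩

variable [FiniteDimensional F V] [Finite (V ≃ₗ[F] V)]

lemma TI.A (h : TI Q M e) {g : V ≃ₗ[F] V} (hg : g ∈ M) {j : ι} (hj : g (e j) = e j) : Mono e g := by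
  have h' := h.map hg
  have h2 := h.h2
  have hc := h.card
  obtain ⟨a, a1, -⟩ := exists_ne2 (by omega) j j
  obtain ⟨b, b1, b2⟩ := exists_ne2 (by omega) j a
  have key : ∀ b, b ≠ j → Mono e g ∨ ∃ x, B Q x (e j) = 0 ∧ refl Q x * refl Q (e j) ∈ M ∧
      (refl Q x * refl Q (e j)) * tt Q (fun i => g (e i)) a j * (refl Q x * refl Q (e j)) =
        tt Q e b j := by
    intro b hb
    rcases Nat.even_or_odd (orderOf (tt Q (fun i => g (e i)) a j * tt Q e b j)) with h0 | h0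
    · exact Or.inl (h.even hg a1 hb h0)
    right
    obtain ⟨m, hm⟩ := dih_odd (h'.onb.tt_mul_self h2 a1) (h.onb.tt_mul_self h2 hb) h0
    set w := (tt Q (fun i => g (e i)) a j * tt Q e b j) ^ m with hw
    have hwM : w ∈ M := pow_mem (mul_mem (h'.tt_mem a1) (h.tt_mem hb)) m
    have hwj : w (e j) = e j := by
      have : tt Q (fun i => g (e i)) a j * tt Q e b j ∈ MulAction.stabilizer (V ≃ₗ[F] V) (e j) := by
        have e1 := h'.onb.tt_e h2 a1 j
        simp only [or_true, if_true, hj] at e1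
        show tt Q (fun i => g (e i)) a j (tt Q e b j (e j)) = e j
        rw [h.onb.tt_e h2 hb]; simp [e1]
      exact pow_mem this m
    have e2 : w * tt Q (fun i => g (e i)) a j * w⁻¹ = refl Q (w (g (e a))) * refl Q (e j) := by
      rw [conj_tt (h.le hwM), tt]; simp only [hj, hwj]
    refine ⟨w (g (e a)), ?_, ?_, ?_⟩
    · rw [← hwj, ← hj, O_B (h.le hwM), O_B (h.le hg), h.onb.ne a1]
    · rw [← e2]; exact mul_mem (mul_mem hwM (h'.tt_mem a1)) (inv_mem hwM)
    · rw [← e2]; exact hm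
  have sq : ∀ x y, B Q x (e j) = 0 →
      (refl Q y * refl Q (e j)) * (refl Q x * refl Q (e j)) = refl Q y * refl Q x := by
    intro x y hx
    have := conj_refl (refl_mem_O Q (e j)) x
    rw [refl_of_perp (by rw [B_comm, hx]), refl_inv] at this
    rw [mul_assoc, ← mul_assoc (refl Q (e j)), this]
  rcases key a a1 with k1 | ⟨x, x1, x2, x3⟩
  · exact k1
  rcases key b b1 with k1 | ⟨y, y1, y2, y3⟩
  · exact k1
  obtain ⟨-, m2, c, ε, hcb, hε, h4⟩ := h.H hg x2 (by rw [sq x x x1, refl_mul_self]) y2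
    (by rw [sq y y y1, refl_mul_self]) a1 a1 b1 b2.symm x3 y3
  have hO := h.le (mul_mem x2 y2)
  rw [sq y x y1] at m2 h4 hO
  obtain ⟨r, r', hr, f1, f2⟩ := h'.onb.exists_fix_two (by omega) m2 (finrank_span_pair_le x y)
    (refl_mul_refl_sub_mem x y)
  refine h.fin hg (α := (refl Q x * refl Q y) (e b) - e b) ⟨c, b, hcb, ε, -1, hε, by simp, ?_⟩ hr
    (B_sub_eq_zero_of_fix hO f1 _) (B_sub_eq_zero_of_fix hO f2 _)
  rw [h4]; module

theorem TI.main (h : TI Q M e) {g : V ≃ₗ[F] V} (hg : g ∈ M) : Mono e g := by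
  have h' := h.map hg
  have h2 := h.h2
  have hc := h.card
  obtain ⟨j⟩ : Nonempty ι := Fintype.card_pos_iff.1 (by omega)
  obtain ⟨a, a1, -⟩ := exists_ne2 (by omega) j j
  obtain ⟨b, b1, b2⟩ := exists_ne2 (by omega) j a
  have key : ∀ b, b ≠ j → Mono e g ∨ ∃ w ∈ M,
      tt Q (fun i => w (e i)) a j * tt Q (fun i => g (e i)) a j * tt Q (fun i => w (e i)) a j =
        tt Q e b j := by
    intro b hb
    rcases Nat.even_or_odd (orderOf (tt Q (fun i => g (e i)) a j * tt Q e b j)) with h0 | h0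
    · exact Or.inl (h.even hg a1 hb h0)
    right
    obtain ⟨m, hm⟩ := dih_odd (h'.onb.tt_mul_self h2 a1) (h.onb.tt_mul_self h2 hb) h0
    set w := (tt Q (fun i => g (e i)) a j * tt Q e b j) ^ m with hw
    have hwM : w ∈ M := pow_mem (mul_mem (h'.tt_mem a1) (h.tt_mem hb)) m
    refine ⟨w * g, mul_mem hwM hg, ?_⟩
    rw [conj_tt (h.le hwM)] at hm
    exact hm
  rcases key a a1 with k1 | ⟨w1, x1, x2⟩
  · exact k1
  rcases key b b1 with k1 | ⟨w2, y1, y2⟩
  · exact k1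
  have t1 := h.map x1
  have t2 := h.map y1
  obtain ⟨m1, m2, c, ε, hcb, hε, h4⟩ := h.H hg (t1.tt_mem a1) (t1.onb.tt_mul_self h2 a1) (t2.tt_mem a1)
    (t2.onb.tt_mul_self h2 a1) a1 a1 b1 b2.symm x2 y2
  have hM := mul_mem (t1.tt_mem a1) (t2.tt_mem a1)
  have hα : IsRoot F e ((tt Q (fun i => w1 (e i)) a j * tt Q (fun i => w2 (e i)) a j) (e b) - e b) :=
    ⟨c, b, hcb, ε, -1, hε, by simp, by rw [h4]; module⟩
  rcases Nat.even_or_odd (orderOf (tt Q (fun i => w1 (e i)) a j * tt Q (fun i => w2 (e i)) a j))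
    with h0 | h0
  · have e1 : (fun i => w1 (e i)) = fun i => (w1 * w2⁻¹) (w2 (e i)) := by
      funext i; simp [mul_app]
    rw [e1] at h0
    obtain ⟨p, q, hpq, e2⟩ := (t2.even (mul_mem x1 (inv_mem y1)) a1 a1 h0).tt_eq t2.onb a1
    rw [← e1] at e2
    obtain ⟨r, r1, r2, r3, r4⟩ := exists_ne4 (by omega) p q a j
    obtain ⟨r', s1, s2, s3, s4, s5⟩ := exists_ne5 (by omega) p q a j r
    have fx : ∀ r, r ≠ p → r ≠ q → r ≠ a → r ≠ j →
        (tt Q (fun i => w1 (e i)) a j * tt Q (fun i => w2 (e i)) a j) (w2 (e r)) = w2 (e r) := by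
      intro r r1 r2 r3 r4
      have a1 := t2.onb.tt_e h2 a1 r
      have a2 := t2.onb.tt_e h2 hpq r
      simp only [r1, r2, r3, r4, or_self, if_false] at a1 a2
      rw [e2, mul_app, a1, a2]
    have m3 := h.fin y1 hα s5 (B_sub_eq_zero_of_fix (h.le hM) (fx r' s1 s2 s3 s4) _)
      (B_sub_eq_zero_of_fix (h.le hM) (fx r r1 r2 r3 r4) _)
    obtain ⟨p', q', hpq', e3⟩ := m3.tt_eq h.onb a1
    have m4 := h.swap hg (t2.tt_mem a1) (t2.onb.tt_mul_self h2 a1) a1 b1 y2
    have m5 := (h.onb.tt_mono h2 hpq').mul (m4.inv h.onb)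
    rw [← e3] at m5
    simpa using m5
  set k := tt Q (fun i => w1 (e i)) a j * tt Q (fun i => w2 (e i)) a j with hk
  obtain ⟨r, hr⟩ := h'.onb.exists_fix_odd hc m2 h0
    (W := Submodule.span F {w1 (e a), w1 (e j)} ⊔ Submodule.span F {w2 (e a), w2 (e j)})
    (by
      have := finrank_sup_le (Submodule.span F {w1 (e a), w1 (e j)}) (Submodule.span F {w2 (e a), w2 (e j)})
      have := finrank_span_pair_le (F := F) (w1 (e a)) (w1 (e j))
      have := finrank_span_pair_le (F := F) (w2 (e a)) (w2 (e j))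
      omega)
    (fun x => by
      have := Submodule.add_mem_sup (refl_mul_refl_sub_mem (Q := Q) (w1 (e a)) (w1 (e j))
        (tt Q (fun i => w2 (e i)) a j x)) (refl_mul_refl_sub_mem (Q := Q) (w2 (e a)) (w2 (e j)) x)
      convert this using 1
      simp only [hk, tt, mul_app]; abel)
  obtain ⟨d, ε', hε', h5⟩ := m1 c
  have hdc : d ≠ c := by rintro rfl; exact hcb (h.onb.eq_of_smul hε h4 h5)
  have hdb : d ≠ b := by
    rintro rfl
    have := fix_of_odd h0 (x := e d) 2 (by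
      rw [show 2 ^ 2 = 4 by norm_num]
      clear_value k
      simp only [pow_succ, mul_app, h4, h5, smul_smul, map_smul, pow_zero, one_mul, mul_one]
      rw [show ε * (ε' * (ε * ε')) = 1 by linear_combination ε' * ε' * hε + hε', one_smul])
    exact hcb (h.onb.eq_of_smul (g := 1) (j := d) (ε := 1) (ε' := ε) (by simp) (by simp [one_app]) (by
      rw [one_app, ← this, h4, smul_smul, hε, one_smul]))
  have hγ : IsRoot F e (k (e c) - e c) := ⟨d, c, hdc, ε', -1, hε', by simp, by rw [h5]; module⟩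
  have hc3 := h.pair _ _ hα hγ
  have m3 := h'.A hc3 (j := r) (by
    rw [mul_app, refl_of_perp (a := k (e c) - e c), refl_of_perp] <;> rw [B_comm] <;>
      exact B_sub_eq_zero_of_fix (h.le hM) hr _)
  obtain ⟨s, s', hs, f1, f2⟩ := h'.onb.exists_fix_two (by omega) m3 (finrank_span_pair_le _ _)
    (refl_mul_refl_sub_mem _ _)
  have fz : ∀ v, (refl Q (k (e b) - e b) * refl Q (k (e c) - e c)) v = v → B Q v (k (e b) - e b) = 0 := by
    intro v hv
    have e1 := congrArg (refl Q (k (e b) - e b)) hv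
    rw [mul_app (refl Q _), refl_refl, refl_one (h.onb.root_Q h2 hα), refl_one (h.onb.root_Q h2 hγ)] at e1
    have e2 := congrArg (B Q (e b)) e1
    rw [map_sub, map_sub (B Q (e b)) v, map_smul, map_smul] at e2
    have e3 : B Q (e b) (k (e c) - e c) = 0 := by simp [h5, h.onb.ne hdb.symm, h.onb.ne hcb.symm]
    have e4 : B Q (e b) (k (e b) - e b) = -1 := by simp [h4, h.onb.self, h.onb.ne hcb.symm]
    rw [e3, e4, smul_eq_mul, smul_eq_mul] at e2
    rw [B_comm]; linear_combination -e2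
  exact h.fin hg hα hs (fz _ f1) (fz _ f2)

end Cfsg.Agent.H1
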