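import Mathlib
import Cfsg.Agent.H1.FrameTI
import Cfsg.Agent.Orth.Bridge

/-! The stabiliser of an orthogonal frame is maximal in `Ω_n(p)` for `n ≥ 7`, `n ≠ 8`. -/

set_option autoImplicit false

namespace Cfsg.Agent.H1

open Module Cfsg.Agent.Orth

section core
variable {F V : Type*} [Field F] [AddCommGroup V] [Module F V] {Q : QuadraticForm F V}
  {M : Subgroup (V ≃ₗ[F] V)} {ι : Type*} [Fintype ι] [DecidableEq ι] {e : ι → V}

lemma B_scale (c : F) (x y : V) : B (c • Q) x y = c * B Q x y := by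
  simp only [B_eq_polar, QuadraticMap.polar, smul_apply, smul_eq_mul]; ring

lemma O_scale {c : F} (hc : c ≠ 0) : O (c • Q) = O Q := by
  ext g
  simp only [mem_O, smul_apply, smul_eq_mul, mul_right_inj' hc]

lemma Nd_scale {c : F} (hc : c ≠ 0) (h : Nd Q) : Nd (c • Q) :=
  fun v hv => h v fun x => by simpa [B_scale, hc] using hv x

lemma eich_scale {c : F} (hc : c ≠ 0) (u w : V) : eich (c • Q) u w = eich Q u (c • w) := by
  by_cases h : Q u = 0 ∧ B Q u w = 0
  · ext x
    rw [eich_apply (by simp [h.1]) (by simp [B_scale, h.2]), eich_apply h.1 (by simp [h.2]), Q_smul]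
    simp only [B_scale, smul_apply, smul_eq_mul, map_smul, LinearMap.smul_apply]
    module
  · rw [eich_of_not (by simpa [B_scale, hc] using h), eich_of_not (by simpa [hc] using h)]

lemma EO_scale {c : F} (hc : c ≠ 0) : EO (c • Q) = EO Q := by
  apply le_antisymm
  · rw [EO_le_iff]; intro u w _ _; rw [eich_scale hc]; exact eich_mem_EO _ _
  · rw [EO_le_iff]; intro u w _ _
    have := eich_mem_EO (Q := c • Q) u (c⁻¹ • w)
    rwa [eich_scale hc, smul_smul, mul_inv_cancel₀ hc, one_smul] at this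

lemma ONB.root_pair (he : ONB Q e) {α α' : V} (h : IsRoot F e α) (h' : IsRoot F e α')
    (hb : B Q α α' = 0) : (∃ k, ∃ ε : F, ε * ε = 1 ∧ α + α' = (2 * ε) • e k) ∨
      (∀ r, B Q (e r) (α + α') = 0 → B Q (e r) α = 0) := by
  have key : ∀ (i j k : ι) (a b c d : F), i ≠ j → i ≠ k → a * a = 1 → b * b = 1 → c * c = 1 → d * d = 1 →
      B Q (a • e i + b • e j) (c • e i + d • e k) = 0 →
      ∃ l, ∃ ε : F, ε * ε = 1 ∧ (a • e i + b • e j) + (c • e i + d • e k) = (2 * ε) • e l := by
    intro i j k a b c d hij hik ha hb hc hd h0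
    have hjk : j = k := by
      by_contra hjk
      simp [he.self, he.ne hik, he.ne hij.symm, he.ne hjk] at h0
      rcases h0 with h0 | h0
      all_goals simp_all
    subst hjk
    simp [he.self, he.ne hij, he.ne hij.symm] at h0
    have h1 : (c - a) * (c + a) = 0 := by linear_combination hc - ha
    rcases mul_eq_zero.1 h1 with h1 | h1
    · have e1 : c = a := sub_eq_zero.1 h1
      have e2 : d = -b := by linear_combination b * h0 - d * hb - b * a * e1 - b * ha
      exact ⟨i, a, ha, by rw [e1, e2]; module⟩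
    · have e1 : c = -a := eq_neg_of_add_eq_zero_left h1
      have e2 : d = b := by linear_combination b * h0 - d * hb - b * a * e1 + b * ha
      exact ⟨j, b, hb, by rw [e1, e2]; module⟩
  obtain ⟨i, j, hij, a, b, ha, hb', rfl⟩ := h
  obtain ⟨k, l, hkl, c, d, hc, hd, rfl⟩ := h'
  by_cases c1 : k = i
  · subst c1; exact Or.inl (key k j l a b c d hij hkl ha hb' hc hd hb)
  by_cases c2 : l = i
  · subst c2
    rw [add_comm (c • e k)] at hb ⊢
    exact Or.inl (key l j k a b d c hij hkl.symm ha hb' hd hc hb)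
  by_cases c3 : k = j
  · subst c3
    rw [add_comm (a • e i)] at hb ⊢
    exact Or.inl (key k i l b a c d hij.symm hkl hb' ha hc hd hb)
  by_cases c4 : l = j
  · subst c4
    rw [add_comm (a • e i), add_comm (c • e k)] at hb ⊢
    exact Or.inl (key l i k b a d c hij.symm hkl.symm hb' ha hd hc hb)
  right
  intro r hr
  by_cases r1 : r = i
  · subst r1
    simp [he.self, he.ne hij, he.ne (Ne.symm c1), he.ne (Ne.symm c2)] at hr
    simp [hr] at ha
  by_cases r2 : r = j
  · subst r2
    simp [he.self, he.ne hij.symm, he.ne (Ne.symm c3), he.ne (Ne.symm c4)] at hr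
    simp [hr] at hb'
  simp [he.ne r1, he.ne r2]

lemma ONB.mono_of_Bn (hprime : ∀ c : F, ∃ n : ℕ, c = n) (h2 : (2 : F) ≠ 0) (he : ONB Q e)
    (hc : 5 ≤ Fintype.card ι) {g : V ≃ₗ[F] V} (hg : g ∈ O Q)
    (h : ∀ ρ, IsRoot F e ρ → IsRoot F e (g ρ) ∨ ∃ i, ∃ c : F, g ρ = c • e i) : Mono e g := by
  have h1 : ∀ ρ, IsRoot F e ρ → IsRoot F e (g ρ) := by
    intro ρ hρ
    refine (h ρ hρ).resolve_right ?_
    rintro ⟨i, c, hi⟩
    have sq : ∀ ρ, IsRoot F e ρ → ∀ i (c : F), g ρ = c • e i → c * c = 2 := by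
      intro ρ hρ i c hi
      have := O_B hg ρ ρ
      rw [hi, B_self Q ρ, he.root_Q h2 hρ] at this
      simpa [he.self] using this
    have hc2 := sq ρ hρ i c hi
    obtain ⟨a, b, hab, ε, ε', hε, hε', rfl⟩ := hρ
    obtain ⟨m, ma, mb⟩ := exists_ne2 (by omega) a b
    have hρ' : IsRoot F e (ε • e a + (1 : F) • e m) := ⟨a, m, ma.symm, ε, 1, hε, by simp, rfl⟩
    have hb := O_B hg (ε • e a + ε' • e b) (ε • e a + (1 : F) • e m)
    have hb' : B Q (ε • e a + ε' • e b) (ε • e a + (1 : F) • e m) = 1 := by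
      simp [he.self, he.ne ma.symm, he.ne mb.symm, he.ne hab.symm, hε]
    rw [hb', hi] at hb
    rcases h _ hρ' with ⟨k, l, hkl, η, η', hη, hη', hk⟩ | ⟨k, c', hk⟩
    · rw [hk] at hb
      by_cases c1 : i = k
      · subst c1
        simp [he.self, he.ne hkl] at hb
        exact one_ne_zero (α := F) (by linear_combination (η * c + 1) * hb - c * c * hη - hc2)
      by_cases c2 : i = l
      · subst c2
        simp [he.self, he.ne hkl.symm] at hb
        exact one_ne_zero (α := F) (by linear_combination (η' * c + 1) * hb - c * c * hη' - hc2)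
      simp [he.ne c1, he.ne c2] at hb
    · have hc3 := sq _ hρ' k c' hk
      rw [hk] at hb
      by_cases c1 : i = k
      · subst c1
        simp [he.self] at hb
        have h3 : (3 : F) = 0 := by linear_combination (c' * c + 1) * hb - c * c * hc3 - 2 * hc2
        obtain ⟨n, rfl⟩ := hprime c
        have : ∀ n : ℕ, (n : F) * (n * n - 1) = 0 := by
          intro n
          induction n with
          | zero => simp
          | succ n ih => push_cast; linear_combination ih + (n * n + n) * h3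
        have h4 := this n
        rw [hc2] at h4
        have h5 : (n : F) = 0 := by linear_combination h4
        rw [h5] at hc2
        exact h2 (by linear_combination -hc2)
      · simp [he.ne c1] at hb
  intro i
  by_contra hcon
  have h3 : ∀ j, j ≠ i → ∀ r, B Q (e r) (g (e i)) = 0 → B Q (e r) (g (e j)) = 0 := by
    intro j hj r hr
    have e1 : g (e i + e j) + g (e i - e j) = (2 : F) • g (e i) := by rw [map_add, map_sub]; module
    rcases he.root_pair (h1 _ (isRoot_add hj.symm)) (h1 _ (isRoot_sub hj.symm)) (by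
      rw [O_B hg]; simp [he.self, he.ne hj, he.ne hj.symm]) with ⟨k, ε, hε, h4⟩ | h4
    · exfalso
      refine hcon ⟨k, ε, hε, smul_right_injective V h2 ?_⟩
      simp only
      rw [← e1, h4, smul_smul]
    · have := h4 r (by rw [e1, map_smul, hr, smul_zero])
      simpa [hr] using this
  obtain ⟨j, hj, -⟩ := exists_ne2 (by omega) i i
  obtain ⟨a, b, -, ε1, ε2, -, -, h4⟩ := h1 _ (isRoot_add hj.symm)
  obtain ⟨c, d, -, ε3, ε4, -, -, h5⟩ := h1 _ (isRoot_sub hj.symm)
  obtain ⟨r, r1, r2, r3, r4⟩ := exists_ne4 hc a b c d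
  have h6 : B Q (e r) (g (e i)) = 0 := by
    have e1 : g (e i + e j) + g (e i - e j) = (2 : F) • g (e i) := by rw [map_add, map_sub]; module
    have := congrArg (B Q (e r)) e1
    rw [h4, h5] at this
    simpa [he.ne r1, he.ne r2, he.ne r3, he.ne r4, h2] using this
  have h7 : e r = 0 := (he.map hg).ext fun k => by
    rw [map_zero, B_comm]
    by_cases c : k = i
    · rw [c, h6]
    · exact h3 k c r h6
  have h8 := he.self r
  simp [h7] at h8

theorem frame_core [Finite F] [FiniteDimensional F V] (hprime : ∀ c : F, ∃ n : ℕ, c = n)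
    (h2 : (2 : F) ≠ 0) (hQ : Nd Q) (he : ONB Q e) (h7 : 7 ≤ Fintype.card ι) (h8 : Fintype.card ι ≠ 8)
    (hM : M ≤ O Q) (pair : ∀ α β, IsRoot F e α → IsRoot F e β → refl Q α * refl Q β ∈ M) :
    (∀ g ∈ M, Mono e g) ∨ EO Q ≤ M := by
  by_cases hE : EO Q ≤ M
  · exact Or.inr hE
  left
  have : Finite V := Module.finite_of_finite F
  have : Finite (V ≃ₗ[F] V) := DFunLike.finite _
  obtain ⟨i0⟩ : Nonempty ι := Fintype.card_pos_iff.1 (by omega)
  obtain ⟨j0, hj0, -⟩ := exists_ne2 (by omega) i0 i0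
  have hα0 : IsRoot F e (e j0 + e i0) := isRoot_add hj0
  set r := refl Q (e j0 + e i0) with hr
  have hrr : r * r = 1 := refl_mul_self Q _
  have hri : r⁻¹ = r := refl_inv Q _
  let G : Subgroup (V ≃ₗ[F] V) := Subgroup.closure {s | ∃ β, refl Q β * r ∈ M ∧ s = refl Q β}
  have hG : G ≤ O Q := by
    rw [Subgroup.closure_le]; rintro _ ⟨β, -, rfl⟩; exact refl_mem_O Q β
  have hsq : ∀ g ∈ G, g * g ∈ M := by
    let Z : Subgroup (V ≃ₗ[F] V) :=
      { carrier := {g | (g ∈ M ∧ r * g * r ∈ M) ∨ (r * g ∈ M ∧ g * r ∈ M)}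
        mul_mem' := by
          rintro a b (⟨a1, a2⟩ | ⟨a1, a2⟩) (⟨b1, b2⟩ | ⟨b1, b2⟩)
          · refine Or.inl ⟨mul_mem a1 b1, ?_⟩
            convert mul_mem a2 b2 using 1
            simp only [mul_assoc, ← mul_assoc r r, hrr, one_mul]
          · refine Or.inr ⟨?_, by rw [mul_assoc]; exact mul_mem a1 b2⟩
            convert mul_mem a2 b1 using 1
            simp only [mul_assoc, ← mul_assoc r r, hrr, one_mul]
          · refine Or.inr ⟨by rw [← mul_assoc]; exact mul_mem a1 b1, ?_⟩
            convert mul_mem a2 b2 using 1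
            simp only [mul_assoc, ← mul_assoc r r, hrr, one_mul]
          · refine Or.inl ⟨?_, ?_⟩
            · convert mul_mem a2 b1 using 1
              simp only [mul_assoc, ← mul_assoc r r, hrr, one_mul]
            · convert mul_mem a1 b2 using 1
              simp only [mul_assoc]
        one_mem' := Or.inl ⟨one_mem _, by rw [mul_one, hrr]; exact one_mem _⟩
        inv_mem' := by
          rintro a (⟨a1, a2⟩ | ⟨a1, a2⟩)
          · refine Or.inl ⟨inv_mem a1, ?_⟩
            have := inv_mem a2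
            simpa only [mul_inv_rev, hri, mul_assoc] using this
          · refine Or.inr ⟨?_, ?_⟩
            · simpa only [mul_inv_rev, hri] using inv_mem a2
            · simpa only [mul_inv_rev, hri] using inv_mem a1 }
    have hZ : G ≤ Z := by
      rw [Subgroup.closure_le]
      rintro _ ⟨β, hβ, rfl⟩
      refine Or.inr ⟨?_, hβ⟩
      simpa only [mul_inv_rev, hri, refl_inv] using inv_mem hβ
    intro g hg
    rcases hZ hg with ⟨a, -⟩ | ⟨a, b⟩
    · exact mul_mem a a
    · convert mul_mem b a using 1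
      simp only [mul_assoc, ← mul_assoc r r, hrr, one_mul]
  have hRG : RG Q G e := by
    refine ⟨hprime, h2, hG, hQ, he, h7, fun α hα => Subgroup.subset_closure ⟨α, pair _ _ hα hα0, rfl⟩,
      fun hE' => hE ?_⟩
    rw [EO_le_iff]
    intro u w hu hw
    have h1 : B Q u ((2 : F)⁻¹ • w) = 0 := by simp [hw]
    have := hsq _ (hE' (eich_mem_EO u ((2 : F)⁻¹ • w)))
    rwa [eich_mul hu h1 h1, ← two_smul F, smul_smul, mul_inv_cancel₀ h2, one_smul] at this
  have hT : TI Q M e := by
    refine ⟨h2, hM, he, h7, pair, fun g hg α hα hgα => he.mono_of_Bn hprime h2 (by omega) (hM hg)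
      fun ρ hρ => hRG.main h8 ⟨by rw [hM hg, he.root_Q h2 hρ], Subgroup.subset_closure ⟨_, ?_, rfl⟩⟩⟩
    have h1 := mul_mem (mul_mem (mul_mem hg (pair _ _ hρ hα)) (inv_mem hg)) (pair _ _ hgα hα0)
    convert h1 using 1
    rw [← conj_refl (hM hg), ← conj_refl (hM hg)]
    simp only [mul_assoc, inv_mul_cancel_left, ← mul_assoc (refl Q α) (refl Q α), refl_mul_self,
      one_mul, hr]
  exact fun g hg => hT.main hg

lemma ONB.mono_refl (h2 : (2 : F) ≠ 0) (he : ONB Q e) {α : V} (h : IsRoot F e α) :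
    Mono e (refl Q α) := by
  have hq := he.root_Q h2 h
  obtain ⟨i, j, hij, ε, ε', h1, h3, rfl⟩ := h
  intro k
  rw [refl_one hq]
  by_cases a : k = i
  · subst a
    refine ⟨j, -(ε * ε'), by linear_combination ε' * ε' * h1 + h3, ?_⟩
    simp only [map_add, map_smul, LinearMap.add_apply, LinearMap.smul_apply, he.self, he.ne hij.symm,
      smul_eq_mul, mul_one, mul_zero, add_zero, smul_add, smul_smul, h1]
    module
  by_cases b : k = j
  · subst b
    refine ⟨i, -(ε * ε'), by linear_combination ε' * ε' * h1 + h3, ?_⟩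
    simp only [map_add, map_smul, LinearMap.add_apply, LinearMap.smul_apply, he.self, he.ne hij,
      smul_eq_mul, mul_one, mul_zero, zero_add, smul_add, smul_smul, h3]
    module
  exact ⟨k, 1, by simp, by simp [he.ne (Ne.symm a), he.ne (Ne.symm b)]⟩

end core

open Cfsg.Geo

lemma prime_field_cast {F : Type*} [Field F] [Fintype F] (h : (Fintype.card F).Prime) (c : F) :
    ∃ n : ℕ, c = n := by
  have := Fact.mk h
  have hc : CharP F (Fintype.card F) := by
    obtain ⟨p, hp⟩ := CharP.exists F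
    obtain ⟨n, hpp, hn⟩ := FiniteField.card F p
    have : p = Fintype.card F := by
      rw [hn] at h ⊢
      rw [(Nat.Prime.pow_eq_iff h).1 rfl |>.2, pow_one]
    exact this ▸ hp
  obtain ⟨z, rfl⟩ := (ZMod.ringEquiv F rfl).surjective c
  obtain ⟨n, rfl⟩ := ZMod.natCast_zmod_surjective z
  exact ⟨n, map_natCast _ n⟩

lemma two_ne_zero_of_odd {F : Type*} [Field F] [Fintype F] (hodd : Odd (Fintype.card F)) :
    (2 : F) ≠ 0 := by
  intro h
  have : ringChar F = 2 := by
    have := (ringChar.spec F 2).1 (by exact_mod_cast h)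
    rcases (Nat.dvd_prime Nat.prime_two).1 this with h1 | h1
    · exact absurd h1 (CharP.ringChar_ne_one)
    · exact h1
  have := FiniteField.even_card_of_char_two this
  rw [Nat.odd_iff] at hodd; omega

theorem frame_maximal {ι : Type} [Fintype ι] [DecidableEq ι] {F : Type*} [Field F] [Fintype F]
    {Q : (ι → F) → F} (hQ : IsNondegenerateQuadraticForm Q) (hprime : (Fintype.card F).Prime)
    (hodd : Odd (Fintype.card F)) (h7 : 7 ≤ Fintype.card ι) (h8 : Fintype.card ι ≠ 8) {t : ℕ}
    {D : Fin t → Submodule F (ι → F)} (hD : IsOrthogonalMDecomposition Q 1 D) :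
    IsMaximalIn (omegaGL Q) (decompositionStabilizer D ⊓ omegaGL Q) := by
  have h2 := two_ne_zero_of_odd hodd
  have ht := hD.decomp.decomp.two_le
  let i0 : Fin t := ⟨0, by omega⟩
  obtain ⟨v, hv, hv0⟩ := Submodule.exists_mem_ne_zero_of_ne_bot (p := D i0) (by
    intro h; have := hD.decomp.decomp.finrank_eq i0; rw [h, finrank_bot] at this; omega)
  have span1 : ∀ i w, w ∈ D i → w ≠ 0 → D i = F ∙ w := fun i w hw hw0 =>
    (Submodule.eq_of_le_of_finrank_eq ((Submodule.span_singleton_le_iff_mem _ _).2 hw)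
      (by rw [finrank_span_singleton hw0, hD.decomp.decomp.finrank_eq])).symm
  have hq : toQF hQ v ≠ 0 := by
    intro h
    obtain ⟨x, hx, hne⟩ := (hD.decomp.nondegenerate i0 v hv hv0).1
    rw [span1 i0 v hv hv0] at hx
    obtain ⟨c, rfl⟩ := Submodule.mem_span_singleton.1 hx
    apply hne
    rw [← B_toQF hQ, map_smul, LinearMap.smul_apply, B_self, h]; simp
  have hex : ∀ i, ∃ w ∈ D i, toQF hQ w = toQF hQ v := fun i => by
    obtain ⟨f, hf⟩ := hD.isometric i0 i
    exact ⟨_, (f ⟨v, hv⟩).2, hf ⟨v, hv⟩⟩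
  choose e he1 he2 using hex
  have he0 : ∀ i, e i ≠ 0 := fun i h => hq (by rw [← he2 i, h, map_zero])
  have hDe : ∀ i, D i = F ∙ e i := fun i => span1 i _ (he1 i) (he0 i)
  have hc : (2 * toQF hQ v)⁻¹ ≠ 0 := inv_ne_zero (mul_ne_zero h2 hq)
  set Q' := (2 * toQF hQ v)⁻¹ • toQF hQ with hQ'
  have hnd : Nd Q' := Nd_scale hc (nd_toQF hQ)
  have hB : ∀ i j, B Q' (e i) (e j) = if i = j then 1 else 0 := by
    intro i j
    rw [hQ', B_scale]
    split_ifs with h
    · rw [h, B_self, he2, inv_mul_cancel₀ (mul_ne_zero h2 hq)]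
    · rw [B_toQF, hD.decomp.orthogonal i j h _ (he1 i) _ (he1 j), mul_zero]
  have he : ONB Q' e := by
    refine ⟨hB, fun x => ?_⟩
    rw [← sub_eq_zero]
    apply hnd
    intro y
    have hy : y ∈ iSup D := by rw [hD.decomp.decomp.iSup_eq_top]; trivial
    have : iSup D ≤ LinearMap.ker ((B Q').flip (x - ∑ i, B Q' (e i) x • e i)) := by
      refine iSup_le fun i => ?_
      rw [hDe, Submodule.span_singleton_le_iff_mem]
      simp [map_sum, hB]
    exact this hy
  have hcard : t = Fintype.card ι := by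
    have h1 := he.card_le
    have h3 : Submodule.span F (Set.range e) = ⊤ := by
      rw [eq_top_iff]; intro x _
      rw [he.span x]
      exact Submodule.sum_mem _ fun i _ => Submodule.smul_mem _ _ (Submodule.subset_span ⟨i, rfl⟩)
    have h4 := finrank_range_le_card (R := F) e
    rw [Set.finrank, h3, finrank_top] at h4
    simp only [Fintype.card_fin, finrank_fintype_fun_eq_card] at h1 h4
    omega
  have hd : 5 ≤ finrank F (ι → F) := by simp; omega
  have hEO : EO Q' = EO (toQF hQ) := EO_scale hc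
  refine isMaximalIn_of hQ (by omega) _ (Mono e) (fun g hg => ?_) ?_ (fun M hM hP => ?_)
  · have hgO : phi g ∈ O Q' := EO_le_O (hEO ▸ (mem_omegaGL hQ (by omega)).1 hg)
    rw [mem_decompositionStabilizer]
    constructor
    · rintro ⟨σ, hσ⟩ i
      have : phi g (e i) ∈ D (σ i) := hσ i ▸ ⟨e i, he1 i, rfl⟩
      rw [hDe] at this
      obtain ⟨c, hc⟩ := Submodule.mem_span_singleton.1 this
      refine ⟨σ i, c, ?_, hc.symm⟩
      have := O_B hgO (e i) (e i)
      rw [← hc] at this
      simpa [he.self] using this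
    · intro hm
      choose π ε hε hπ using hm
      have hinj : Function.Injective π := fun a b hab => he.eq_of_smul (hε b) (hπ b) (hab ▸ hπ a)
      refine ⟨Equiv.ofBijective π (Finite.injective_iff_bijective.1 hinj), fun i => ?_⟩
      rw [hDe, hDe, Submodule.map_span, Set.image_singleton, Equiv.ofBijective_apply]
      simp only [LinearEquiv.coe_coe, hπ]
      exact Submodule.span_singleton_smul_eq (IsUnit.of_mul_eq_one _ (hε i)) _
  · obtain ⟨s, hs, hs0, hsq⟩ := exists_sing_of_three (Q := Q') (perp Q' (F ∙ e i0)) (by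
      have := finrank_perp_ge (Q := Q') (F ∙ e i0)
      have := finrank_span_singleton_le (F := F) (e i0)
      omega)
    rw [mem_perp_span_singleton] at hs
    have h1 : B Q' (e i0) (e i0 + s) = 1 := by rw [map_add, hs, he.self, add_zero]
    obtain ⟨g, hg, hge⟩ := hnd.EO_trans hd (he0 i0) (y := e i0 + s)
      (by intro h; simp [h] at h1) (by rw [Q_add, hsq, hs]; simp)
    refine ⟨g, hEO ▸ hg, fun hm => ?_⟩
    obtain ⟨j, ε, -, hj⟩ := hm i0
    rw [hge] at hj
    rw [hj] at h1
    by_cases c : i0 = j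
    · subst c
      simp only [map_smul, he.self, smul_eq_mul, mul_one] at h1
      rw [h1, one_smul] at hj
      exact hs0 (by simpa using hj)
    · simp [he.ne c] at h1
  · rw [← hEO] at hM hP ⊢
    exact frame_core (prime_field_cast hprime) h2 hnd he (by simp; omega) (by simp; omega)
      (hM.trans EO_le_O) fun α β hα hβ => hP _
        (hnd.refl_mul_refl_mem_EO hd (by rw [he.root_Q h2 hα, he.root_Q h2 hβ]))
        ((he.mono_refl h2 hα).mul (he.mono_refl h2 hβ))

end Cfsg.Agent.H1
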