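import Cfsg.Agent.H2.Frob
import Cfsg.Agent.H2.Sharp
import Cfsg.Agent.H2.Perfect

set_option autoImplicit false

namespace Cfsg.Agent.H1

open MulAction

/-- A Frobenius complement has no elementary abelian subgroup of order `p²`. -/
theorem frob_pp {G : Type*} [Group G] [Finite G] (H : Subgroup G)
    (hH : ∀ g h : G, h ∈ H → g⁻¹ * h * g ∈ H → g ∉ H → h = 1) (hne : ∃ g, g ∉ H) {p : ℕ}
    [hp : Fact p.Prime] {x y : G} (hx : x ∈ H) (hy : y ∈ H) (hxp : x ^ p = 1) (hyp : y ^ p = 1)
    (hx1 : x ≠ 1) (hxy : x * y = y * x) : y ∈ Subgroup.zpowers x := by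
  have hs : ∀ (g : G) (a b : G ⧸ H), a ≠ b → g • a = a → g • b = b → g = 1 := by
    intro g a b hab ha hb
    obtain ⟨s, rfl⟩ := QuotientGroup.mk_surjective a
    obtain ⟨t, rfl⟩ := QuotientGroup.mk_surjective b
    rw [Quotient.smul_mk, smul_eq_mul, eq_comm, QuotientGroup.eq] at ha hb
    rw [ne_eq, QuotientGroup.eq] at hab
    have := hH (s⁻¹ * t) (s⁻¹ * (g * s)) ha (by simpa [mul_assoc] using hb) hab
    have e : g = s * (s⁻¹ * (g * s)) * s⁻¹ := by group
    rw [e, this]; simp
  obtain ⟨K, hK⟩ := H2.frobenius_kernel hs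
  haveI : K.Normal := ⟨fun k hk g => by
    rw [hK] at hk ⊢
    rcases hk with rfl | hk
    · simp
    · right
      intro a ha
      apply hk (g⁻¹ • a)
      rw [mul_smul, mul_smul, smul_eq_iff_eq_inv_smul] at ha
      exact ha⟩
  haveI : Nontrivial K := by
    have hc := H2.card_fpf hs
    obtain ⟨g, hg⟩ := hne
    haveI : Nontrivial (G ⧸ H) := ⟨⟨(1 : G), g, by
      rw [ne_eq, QuotientGroup.eq]; simpa using hg⟩⟩
    have h2 : 1 < Nat.card (G ⧸ H) := Finite.one_lt_card
    have : 0 < Nat.card {g : G // ∀ a : G ⧸ H, g • a ≠ a} := by omega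
    obtain ⟨⟨k, hk⟩⟩ := (Nat.card_pos_iff.mp this).1
    refine ⟨⟨⟨k, (hK k).mpr (Or.inr hk)⟩, 1, fun e => ?_⟩⟩
    have : k = 1 := congrArg Subtype.val e
    exact hk ((1 : G) : G ⧸ H) (by rw [this, one_smul])
  have fpf : ∀ g ∈ H, ∀ k : K, MulAut.conjNormal g k = k → k ≠ 1 → g = 1 := by
    intro g hg k hk hk1
    have e : g * k = k * g := by
      have := congrArg Subtype.val hk
      rw [MulAut.conjNormal_apply, mul_inv_eq_iff_eq_mul] at this
      exact this
    have h1 : g • ((1 : G) : G ⧸ H) = (1 : G) := by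
      rw [Quotient.smul_mk, smul_eq_mul, eq_comm, QuotientGroup.eq]; simpa using hg
    refine hs g ((1 : G) : G ⧸ H) ((k : G) • ((1 : G) : G ⧸ H)) ?_ h1 (by rw [← mul_smul, e, mul_smul, h1])
    rcases (hK k).mp k.2 with h2 | h2
    · exact absurd (Subtype.ext h2) hk1
    · exact (h2 _).symm
  have hc : Commute x y := hxy
  let P : Subgroup G :=
    { carrier := {z | ∃ i j : ℤ, z = x ^ i * y ^ j}
      one_mem' := ⟨0, 0, by simp⟩
      mul_mem' := by
        rintro _ _ ⟨i, j, rfl⟩ ⟨k, l, rfl⟩
        refine ⟨i + k, j + l, ?_⟩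
        rw [zpow_add, zpow_add, mul_assoc, mul_assoc, ← mul_assoc (y ^ j), ← (hc.zpow_zpow k j).eq, mul_assoc]
      inv_mem' := by
        rintro _ ⟨i, j, rfl⟩
        exact ⟨-i, -j, by rw [mul_inv_rev, ← zpow_neg, ← zpow_neg, (hc.zpow_zpow _ _).eq]⟩ }
  have hPH : P ≤ H := by
    rintro _ ⟨i, j, rfl⟩
    exact H.mul_mem (H.zpow_mem hx _) (H.zpow_mem hy _)
  have hPp : ∀ z ∈ P, z ^ p = 1 := by
    rintro _ ⟨i, j, rfl⟩
    rw [(hc.zpow_zpow i j).mul_pow, ← zpow_natCast, ← zpow_natCast, ← zpow_mul, ← zpow_mul, mul_comm i,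
      mul_comm j, zpow_mul, zpow_mul, zpow_natCast, zpow_natCast, hxp, hyp]
    simp
  let φ : G →* MulAut K := MulAut.conjNormal
  have hinj : ∀ g ∈ H, φ g = 1 → g = 1 := by
    intro g hg h1
    obtain ⟨k, hk⟩ := exists_ne (1 : K)
    exact fpf g hg k (by change φ g k = k; rw [h1]; rfl) hk
  have hN := H2.noPP_of_aut (P.map φ) (by
      rintro _ ⟨g, hg, rfl⟩ h1 k hk
      by_contra hk1
      exact h1 (by rw [fpf g (hPH hg) k hk hk1, map_one])) (p := p) (by
      rintro ⟨_, g, hg, rfl⟩
      exact ⟨1, Subtype.ext (by simp [← map_pow, hPp g hg])⟩)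
  have hxP : x ∈ P := ⟨1, 0, by simp⟩
  have hyP : y ∈ P := ⟨0, 1, by simp⟩
  obtain ⟨i, hi⟩ := hN ⟨φ x, x, hxP, rfl⟩ ⟨φ y, y, hyP, rfl⟩
    (Subtype.ext (by simp [← map_pow, hxp])) (Subtype.ext (by simp [← map_pow, hyp]))
    (fun e => hx1 (hinj x hx (congrArg Subtype.val e))) (Subtype.ext (by simp [← map_mul, hxy]))
  have hi' : φ x ^ i = φ y := by simpa using congrArg Subtype.val hi
  have := hinj (y⁻¹ * x ^ i) (H.mul_mem (H.inv_mem hy) (H.zpow_mem hx i))
    (by rw [map_mul, map_inv, map_zpow, hi', inv_mul_cancel])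
  exact ⟨i, by rw [inv_mul_eq_one] at this; exact this.symm⟩

open Module in
theorem even_finrank_of_quadratic {F W : Type*} [Field F] [AddCommGroup W] [Module F W]
    [FiniteDimensional F W] (f : End F W) (α β : F) (hq : ∀ w, α • f (f w) + β • f w = w)
    (he : ∀ (w : W) (l : F), f w = l • w → w = 0) : Even (finrank F W) := by
  have key : ∀ (d : ℕ) (S : Submodule F W), (∀ v ∈ S, f v ∈ S) → Even (finrank F S) →
      finrank F W ≤ finrank F S + d → Even (finrank F W) := by
    intro d
    induction d with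
    | zero =>
      intro S _ h2 h3
      rwa [le_antisymm h3 (Submodule.finrank_le S)]
    | succ d ih =>
      intro S h1 h2 h3
      by_cases hS : S = ⊤
      · rw [hS, finrank_top] at h2; exact h2
      obtain ⟨w, hw⟩ : ∃ w, w ∉ S := by
        by_contra! h
        exact hS (eq_top_iff.mpr fun v _ => h v)
      have hfw : f w ∉ S ⊔ Submodule.span F {w} := by
        intro h
        obtain ⟨s, hs, _, hl, e⟩ := Submodule.mem_sup.mp h
        obtain ⟨l, rfl⟩ := Submodule.mem_span_singleton.mp hl
        have e1 : (α * l ^ 2 + β * l - 1) • w ∈ S := by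
          have e2 := hq w
          rw [← e, map_add, map_smul, ← e] at e2
          have : (α * l ^ 2 + β * l - 1) • w = -(α • f s + (α * l + β) • s) := by
            rw [sub_smul, one_smul]
            nth_rewrite 2 [← e2]
            module
          rw [this]
          exact S.neg_mem (S.add_mem (S.smul_mem _ (h1 s hs)) (S.smul_mem _ hs))
        have e3 : α * l ^ 2 + β * l - 1 = 0 := by
          by_contra h0
          exact hw ((S.smul_mem_iff h0).mp e1)
        have e4 : α • f w + (α * l + β) • w = 0 := he _ l (by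
          rw [map_add, map_smul, map_smul]
          have e5 : α • f (f w) = w - β • f w := by rw [← hq w, hq w, eq_sub_iff_add_eq, hq]
          rw [e5]
          have : w = (α * l ^ 2 + β * l) • w := by rw [sub_eq_zero.mp e3, one_smul]
          nth_rewrite 1 [this]
          module)
        by_cases hα : α = 0
        · rw [hα] at e3 e4
          have hβ : β ≠ 0 := by rintro rfl; simp at e3
          simp only [zero_smul, zero_mul, zero_add, smul_eq_zero, hβ, false_or] at e4
          exact hw (e4 ▸ S.zero_mem)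
        · have : w = 0 := he w (-(α⁻¹ * (α * l + β))) (by
            have := congrArg (fun v => α⁻¹ • v) e4
            simp only [smul_add, smul_smul, inv_mul_cancel₀ hα, one_smul, smul_zero] at this
            rw [neg_smul, eq_neg_iff_add_eq_zero, this])
          exact hw (this ▸ S.zero_mem)
      have d1 : finrank F (S ⊔ Submodule.span F {w} : Submodule F W) = finrank F S + 1 :=
        Submodule.finrank_sup_span_singleton hw
      have d2 : finrank F ((S ⊔ Submodule.span F {w}) ⊔ Submodule.span F {f w} : Submodule F W) =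
          finrank F S + 2 := by rw [Submodule.finrank_sup_span_singleton hfw, d1]
      by_cases hα : α = 0
      · have hβ : β • f w = w := by simpa [hα] using hq w
        have hβ0 : β ≠ 0 := by rintro rfl; exact hw (by simp at hβ; simp [← hβ])
        have : w = 0 := he w β⁻¹ (by rw [eq_inv_smul_iff₀ hβ0, hβ])
        exact absurd (this ▸ S.zero_mem) hw
      refine ih ((S ⊔ Submodule.span F {w}) ⊔ Submodule.span F {f w}) ?_ (by rw [d2]; exact h2.add even_two)
        (by omega)
      have m1 : w ∈ (S ⊔ Submodule.span F {w}) ⊔ Submodule.span F {f w} :=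
        Submodule.mem_sup_left (Submodule.mem_sup_right (Submodule.mem_span_singleton_self w))
      have m2 : f w ∈ (S ⊔ Submodule.span F {w}) ⊔ Submodule.span F {f w} :=
        Submodule.mem_sup_right (Submodule.mem_span_singleton_self _)
      intro v hv
      obtain ⟨_, h4, _, h5, rfl⟩ := Submodule.mem_sup.mp hv
      obtain ⟨s, hs, _, h6, rfl⟩ := Submodule.mem_sup.mp h4
      obtain ⟨a, rfl⟩ := Submodule.mem_span_singleton.mp h5
      obtain ⟨b, rfl⟩ := Submodule.mem_span_singleton.mp h6
      rw [map_add, map_add, map_smul, map_smul]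
      refine Submodule.add_mem _ (Submodule.add_mem _ (Submodule.mem_sup_left (Submodule.mem_sup_left
        (h1 s hs))) (Submodule.smul_mem _ _ m2)) (Submodule.smul_mem _ _ ?_)
      have : f (f w) = α⁻¹ • (w - β • f w) := by
        rw [eq_inv_smul_iff₀ hα, eq_sub_iff_add_eq, hq]
      rw [this]
      exact Submodule.smul_mem _ _ (Submodule.sub_mem _ m1 (Submodule.smul_mem _ _ m2))
  exact key (finrank F W) ⊥ (by simp) (by simp) (by simp)

end Cfsg.Agent.H1
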