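import Cfsg.Agent.H1.FrobPP

set_option autoImplicit false

namespace Cfsg.Agent.H1

open MulAction

open Classical in
/-- A Frobenius complement containing an element of order `p` has non-zero norm in every faithful
representation in characteristic `p`. -/
theorem frob_sum {G : Type*} [Group G] [Fintype G] (H : Subgroup G)
    (hH : ∀ g h : G, h ∈ H → g⁻¹ * h * g ∈ H → g ∉ H → h = 1) (hne : ∃ g, g ∉ H) {p : ℕ}
    [hp : Fact p.Prime] {A : Type*} [Ring A] (hA : (p : A) = 0) (φ : G →* A) (hφ : Function.Injective φ)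
    (hsum : ∑ g : G, (if g ∈ H then φ g else 0) = 0) {x : G} (hx : x ∈ H) (hxp : x ^ p = 1)
    (hx1 : x ≠ 1) : False := by
  have hs : ∀ (g : G) (a b : G ⧸ H), a ≠ b → g • a = a → g • b = b → g = 1 := by
    intro g a b hab ha hb
    obtain ⟨s, rfl⟩ := QuotientGroup.mk_surjective a
    obtain ⟨t, rfl⟩ := QuotientGroup.mk_surjective b
    rw [Quotient.smul_mk, smul_eq_mul, eq_comm, QuotientGroup.eq] at ha hb
    rw [ne_eq, QuotientGroup.eq] at hab
    have := hH (s⁻¹ * t) (s⁻¹ * (g * s)) ha (by simpa [mul_assoc] using hb) hab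
    have e : g = s * (s⁻¹ * (g * s)) * s⁻¹ := by group
    rw [e, this]; simp
  obtain ⟨K, hK⟩ := H2.frobenius_kernel hs
  obtain ⟨k, hk⟩ : ∃ k : G, ∀ a : G ⧸ H, k • a ≠ a := by
    have hc := H2.card_fpf hs
    obtain ⟨g, hg⟩ := hne
    haveI : Nontrivial (G ⧸ H) := ⟨⟨(1 : G), g, by
      rw [ne_eq, QuotientGroup.eq]; simpa using hg⟩⟩
    have h2 : 1 < Nat.card (G ⧸ H) := Finite.one_lt_card
    have : 0 < Nat.card {g : G // ∀ a : G ⧸ H, g • a ≠ a} := by omega
    obtain ⟨⟨k, hk⟩⟩ := (Nat.card_pos_iff.mp this).1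
    exact ⟨k, hk⟩
  have L : ∀ (J : Subgroup G) (s t : G), ∑ g : G, (if s⁻¹ * g * t ∈ J then φ g else 0) =
      φ s * (∑ g : G, (if g ∈ J then φ g else 0)) * φ t⁻¹ := by
    intro J s t
    rw [Finset.mul_sum, Finset.sum_mul]
    refine (Fintype.sum_equiv ((Equiv.mulLeft s).trans (Equiv.mulRight t⁻¹)) _ _ fun g => ?_).symm
    simp [mul_assoc]
  have S1 : ∑ g : G, φ g = 0 := by
    have : ∀ g : G, φ g = ∑ a : G ⧸ H, if a = (g : G ⧸ H) then φ g else 0 := fun g => by simp
    rw [Finset.sum_congr rfl fun g _ => this g, Finset.sum_comm]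
    refine Finset.sum_eq_zero fun a _ => ?_
    obtain ⟨s, rfl⟩ := QuotientGroup.mk_surjective a
    have := L H s 1
    rw [hsum, mul_zero, zero_mul] at this
    simpa [QuotientGroup.eq] using this
  have S2 : ∑ g : G, ∑ a : G ⧸ H, (if g • a = a then φ g else 0) = 0 := by
    rw [Finset.sum_comm]
    refine Finset.sum_eq_zero fun a _ => ?_
    obtain ⟨s, rfl⟩ := QuotientGroup.mk_surjective a
    have := L H s s
    rw [hsum, mul_zero, zero_mul] at this
    rw [← this]
    refine Finset.sum_congr rfl fun g _ => ?_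
    congr 1
    rw [Quotient.smul_mk, smul_eq_mul, mul_assoc, ← QuotientGroup.eq]
    exact propext eq_comm
  have uniq : ∀ g : G, g ≠ 1 → ∀ a : G ⧸ H, g • a = a → ∀ b : G ⧸ H, g • b = b ↔ b = a :=
    fun g hg a ha b => ⟨fun hb => by_contra fun e => hg (hs g b a e hb ha), fun e => e ▸ ha⟩
  have S3 : ∀ g : G, ∑ a : G ⧸ H, (if g • a = a then φ g else 0) =
      (if g = 1 then (Fintype.card (G ⧸ H) : A) else 0) + φ g - if g ∈ K then φ g else 0 := by
    intro g
    by_cases h1 : g = 1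
    · simp [h1]
    by_cases h2 : g ∈ K
    · simp [h1, h2, ((hK g).mp h2).resolve_left h1]
    · obtain ⟨a, ha⟩ : ∃ a : G ⧸ H, g • a = a := by
        by_contra! h
        exact h2 ((hK g).mpr (Or.inr h))
      simp [h1, h2, uniq g h1 a ha]
  have hn : (Fintype.card (G ⧸ H) : A) = 1 := by
    have h1 := Equiv.Perm.card_fixedPoints_modEq (f := MulAction.toEndHom (M := G) (α := G ⧸ H) x)
      (p := p) (n := 1) (by rw [pow_one, ← map_pow, hxp, map_one])
    have h2 : Nat.card (Function.fixedPoints (MulAction.toEndHom (M := G) (α := G ⧸ H) x)) = 1 := by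
      rw [Nat.card_eq_fintype_card, Fintype.card_eq_one_iff]
      have h3 : x • ((1 : G) : G ⧸ H) = (1 : G) := by
        rw [Quotient.smul_mk, smul_eq_mul, eq_comm, QuotientGroup.eq]; simpa using hx
      exact ⟨⟨(1 : G), h3⟩, fun b => Subtype.ext ((uniq x hx1 _ h3 b).mp b.2)⟩
    rw [Fintype.card_eq_nat_card, Fintype.card_eq_nat_card, h2, ← Fintype.card_eq_nat_card] at h1
    obtain ⟨m, hm⟩ := (Nat.modEq_iff_dvd' Fintype.card_pos).mp h1.symm
    have : Fintype.card (G ⧸ H) = p * m + 1 := by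
      have : 0 < Fintype.card (G ⧸ H) := Fintype.card_pos
      omega
    rw [this]; simp [hA]
  simp only [S3, Finset.sum_sub_distrib, Finset.sum_add_distrib, S1, hn] at S2
  have S4 : ∑ g : G, (if g ∈ K then φ g else 0) = 1 := by
    rw [eq_comm, ← sub_eq_zero]; simpa using S2
  have hkK : k ∈ K := (hK k).mpr (Or.inr hk)
  have := L K k 1
  simp only [mul_one, K.mul_mem_cancel_left (K.inv_mem hkK), S4, inv_one, map_one] at this
  have e : k = 1 := hφ (by rw [← this, map_one])
  exact hk ((1 : G) : G ⧸ H) (by rw [e, one_smul])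

end Cfsg.Agent.H1
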