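import Cfsg.Agent.Orth.GLPair

/-! Subfield subgroups of orthogonal groups, part 1: rational structures and the unipotent radical
of a rational point. -/

set_option autoImplicit false
set_option linter.unusedSimpArgs false
set_option linter.unusedSectionVars false
set_option linter.unusedVariables false

namespace Cfsg.Agent.H1

open Module Cfsg.Agent.Orth

section Gen

variable {F V : Type*} [Field F] [AddCommGroup V] [Module F V] {Q : QuadraticForm F V}
  [Finite F] [FiniteDimensional F V]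

/-- singular vectors generate `X^⊥` additively -/
theorem sing_induction (hQ : Nd Q) (X : Submodule F V) (hd : 2 * finrank F X + 3 ≤ finrank F V)
    (P : V → Prop) (hadd : ∀ x ∈ perp Q X, ∀ y ∈ perp Q X, P x → P y → P (x + y))
    (hs : ∀ x ∈ perp Q X, Q x = 0 → P x) : ∀ x ∈ perp Q X, P x := by
  let Y : Submodule F V :=
    { carrier := {x | x ∈ perp Q X ∧ ∀ a : F, P (a • x)}
      add_mem' := fun {x y} hx hy => ⟨add_mem hx.1 hy.1, fun a => by
        rw [smul_add]
        exact hadd _ (Submodule.smul_mem _ _ hx.1) _ (Submodule.smul_mem _ _ hy.1) (hx.2 a) (hy.2 a)⟩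
      zero_mem' := ⟨zero_mem _, fun a => by rw [smul_zero]; exact hs 0 (zero_mem _) (by simp)⟩
      smul_mem' := fun c x hx => ⟨Submodule.smul_mem _ _ hx.1, fun a => by
        rw [smul_smul]; exact hx.2 _⟩ }
  have hle : perp Q X ≤ Y := by
    by_contra h
    have h1 := hQ.finrank_perp X
    obtain ⟨e, he, he0, hn⟩ := hQ.ndOn_top.exists_sing_notMem (H := perp Q X) le_top
      (by rw [finrank_top]; omega) h
    exact hn ⟨he, fun a => hs _ (Submodule.smul_mem _ _ he) (by rw [Q_smul, he0, mul_zero])⟩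
  intro x hx
  simpa using (hle hx).2 1

theorem sing_induction_one (hQ : Nd Q) (hd : 5 ≤ finrank F V) (e : V)
    (P : V → Prop) (hadd : ∀ x y, B Q e x = 0 → B Q e y = 0 → P x → P y → P (x + y))
    (hs : ∀ x, B Q e x = 0 → Q x = 0 → P x) : ∀ x, B Q e x = 0 → P x := by
  have h1 := finrank_span_singleton_le (F := F) e
  intro x hx
  exact sing_induction hQ (F ∙ e) (by omega) P
    (fun x hx y hy => hadd x y (mem_perp_span_singleton.1 hx) (mem_perp_span_singleton.1 hy))
    (fun x hx => hs x (mem_perp_span_singleton.1 hx)) x (mem_perp_span_singleton.2 hx)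

theorem sing_induction_top (hQ : Nd Q) (hd : 3 ≤ finrank F V)
    (P : V → Prop) (hadd : ∀ x y, P x → P y → P (x + y))
    (hs : ∀ x, Q x = 0 → P x) : ∀ x, P x := by
  intro x
  exact sing_induction hQ ⊥ (by simpa using hd) P (fun x _ y _ => hadd x y) (fun x _ => hs x) x
    (by simp)

/-- a hyperbolic pair orthogonal to two given vectors -/
theorem exists_hyp_perp (hQ : Nd Q) (hd : 7 ≤ finrank F V) (a b : V) :
    ∃ p q, Q p = 0 ∧ Q q = 0 ∧ B Q p q = 1 ∧ B Q a p = 0 ∧ B Q a q = 0 ∧ B Q b p = 0 ∧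
      B Q b q = 0 := by
  have h1 := finrank_span_pair_le (F := F) a b
  have h2 := hQ.finrank_perp (Submodule.span F {a, b})
  obtain ⟨v, hv, hvX⟩ := exists_mem_notMem_of_finrank_lt (H := perp Q (Submodule.span F {a, b}))
    (X := Submodule.span F {a, b}) (by omega)
  obtain ⟨p, -, hp, hp0, hne⟩ := hQ.ndOn_top.exists_sing_perp_B_ne (X := Submodule.span F {a, b})
    le_top (by rw [finrank_top]; omega) (a := v) trivial hvX
  obtain ⟨q, hq, hq0, hpq⟩ := exists_partner hp hp0 ⟨v, hv, by rwa [B_comm]⟩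
  rw [mem_perp_span] at hp hq
  exact ⟨p, q, hp0, hq0, hpq, hp a (by simp), hq a (by simp), hp b (by simp), hq b (by simp)⟩

omit [Finite F] in
theorem exists_partner' (hQ : Nd Q) {e : V} (he0 : e ≠ 0) (he : Q e = 0) :
    ∃ f, Q f = 0 ∧ B Q e f = 1 := by
  obtain ⟨x, hx⟩ := hQ.exists_B_ne he0
  obtain ⟨f, -, h⟩ := exists_partner (H := ⊤) trivial he ⟨x, trivial, hx⟩
  exact ⟨f, h⟩

omit [Finite F] in
theorem exists_dual_two (hQ : Nd Q) {a b : V} (h : a ∉ F ∙ b) :
    ∃ x, B Q b x = 0 ∧ B Q a x = 1 := by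
  obtain ⟨x, hx, hne⟩ := hQ.exists_perp_B_ne h
  rw [mem_perp_span_singleton] at hx
  exact ⟨(B Q a x)⁻¹ • x, by simp [hx], by simp [hne]⟩

omit [Finite F] in
theorem exists_dual_three (hQ : Nd Q) {a b c : V} (h : a ∉ Submodule.span F {b, c}) :
    ∃ x, B Q b x = 0 ∧ B Q c x = 0 ∧ B Q a x = 1 := by
  obtain ⟨x, hx, hne⟩ := hQ.exists_perp_B_ne h
  rw [mem_perp_span] at hx
  exact ⟨(B Q a x)⁻¹ • x, by simp [hx b (by simp)], by simp [hx c (by simp)], by simp [hne]⟩

end Gen

variable {K : Type*} [Field K] {k : Subfield K}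
  {V₀ : Type*} [AddCommGroup V₀] [Module k V₀]
  {V : Type*} [AddCommGroup V] [Module K V]

/-- a rational structure on a quadratic space -/
structure RS (Q₀ : QuadraticForm k V₀) (Q : QuadraticForm K V) (j : V₀ →+ V) : Prop where
  nd0 : Nd Q₀
  nd : Nd Q
  smul : ∀ (a : k) x, j (a • x) = (a : K) • j x
  form : ∀ x, Q (j x) = (Q₀ x : K)
  span : Submodule.span K (Set.range j) = ⊤

variable (K) in
/-- preserving the rational structure up to a scalar -/
def PH (j : V₀ →+ V) (g : V ≃ₗ[K] V) : Prop := ∃ l : K, l ≠ 0 ∧ ∀ x, ∃ y, l • g (j x) = j y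

variable {Q₀ : QuadraticForm k V₀} {Q : QuadraticForm K V} {j : V₀ →+ V}
  {M : Subgroup (V ≃ₗ[K] V)}

theorem RS.B_j (h : RS Q₀ Q j) (x y : V₀) : B Q (j x) (j y) = (B Q₀ x y : K) := by
  have h1 := Q_add Q (j x) (j y)
  have h2 := congrArg (fun a : k => (a : K)) (Q_add Q₀ x y)
  rw [← map_add, h.form, h.form, h.form] at h1
  push_cast at h2
  linear_combination h2 - h1

theorem RS.eq_zero (h : RS Q₀ Q j) {v : V} (hv : ∀ x, B Q v (j x) = 0) : v = 0 := by
  apply h.nd
  intro y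
  have : Submodule.span K (Set.range j) ≤ LinearMap.ker (B Q v) :=
    Submodule.span_le.2 (by rintro _ ⟨x, rfl⟩; exact hv x)
  rw [B_comm]
  exact this (h.span ▸ trivial)

theorem RS.j_ne (h : RS Q₀ Q j) {x : V₀} (hx : x ≠ 0) : j x ≠ 0 := by
  intro h0
  obtain ⟨y, hy⟩ := h.nd0.exists_B_ne hx
  have := h.B_j x y
  rw [h0] at this
  simp only [map_zero, LinearMap.zero_apply] at this
  exact hy (by exact_mod_cast this.symm)

theorem RS.ext_eq (h : RS Q₀ Q j) {g g' : V ≃ₗ[K] V} (hg : ∀ x, g (j x) = g' (j x)) : g = g' := by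
  apply LinearEquiv.toLinearMap_injective
  apply LinearMap.ext_on h.span
  rintro _ ⟨x, rfl⟩
  exact hg x

/-- pairing with a fixed vector as a `k`-linear map -/
def RS.lin (h : RS Q₀ Q j) (v : V) : V₀ →ₗ[k] K where
  toFun x := B Q v (j x)
  map_add' x y := by simp
  map_smul' a x := by rw [h.smul, map_smul]; rfl

theorem RS.lin_apply (h : RS Q₀ Q j) (v : V) (x : V₀) : h.lin v x = B Q v (j x) := rfl

theorem RS.eich_j (h : RS Q₀ Q j) {e w : V₀} (he : Q₀ e = 0) (hw : B Q₀ e w = 0) (x : V₀) :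
    eich Q (j e) (j w) (j x) = j (eich Q₀ e w x) := by
  rw [eich_apply (by simp [h.form, he]) (by simp [h.B_j, hw]), eich_apply he hw, map_sub, map_add,
    h.smul, h.smul]
  simp [h.B_j, h.form]

variable [Finite K] [FiniteDimensional k V₀] [FiniteDimensional K V]

theorem RS.rat_of_val (h : RS Q₀ Q j) {v : V} (hv : ∀ x, B Q v (j x) ∈ k) : ∃ y, v = j y := by
  let φ : Dual k V₀ :=
    { toFun := fun x => ⟨B Q v (j x), hv x⟩
      map_add' := fun x y => Subtype.ext (by simp)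
      map_smul' := fun a x => Subtype.ext (by simp [h.smul]) }
  refine ⟨((B Q₀).toDual h.nd0.nondeg).symm φ, ?_⟩
  rw [← sub_eq_zero]
  refine h.eq_zero fun x => ?_
  rw [map_sub, LinearMap.sub_apply, h.B_j, LinearMap.BilinForm.apply_toDual_symm_apply]
  exact sub_self _

theorem RS.split (h : RS Q₀ Q j) {e : V₀} (he0 : e ≠ 0) (he : Q₀ e = 0) {v : V}
    (h1 : B Q (j e) v = 0) (h2 : ∀ x, B Q₀ e x = 0 → B Q v (j x) ∈ k) :
    ∃ (y : V₀) (μ : K), B Q₀ e y = 0 ∧ v = j y + μ • j e := by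
  obtain ⟨f, -, hef⟩ := exists_partner' h.nd0 he0 he
  obtain ⟨y, hy⟩ := h.rat_of_val (v := v - B Q v (j f) • j e) (fun x => by
    have := h2 (x - B Q₀ e x • f) (by simp [hef])
    convert this using 1
    rw [map_sub j, h.smul]
    simp [h.B_j, mul_comm])
  refine ⟨y, B Q v (j f), ?_, by rw [← hy]; abel⟩
  have : (B Q₀ e y : K) = 0 := by
    rw [← h.B_j, ← hy]
    simp [h1, h.B_j, B_self_of_sing Q₀ he]
  exact_mod_cast this

variable (Q₀ Q M j) in
/-- the scalars `l` with `E(e, l w) ∈ M` -/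
def Lam (l : K) : Prop := ∀ e w, Q₀ e = 0 → B Q₀ e w = 0 → eich Q (j e) (l • j w) ∈ M

section

variable (h : RS Q₀ Q j) (hM : M ≤ O Q)
  (hT : ∀ e w, Q₀ e = 0 → B Q₀ e w = 0 → eich Q (j e) (j w) ∈ M) (hn : 7 ≤ finrank k V₀)
include h hM hT

theorem RS.ext {g₀ : V₀ ≃ₗ[k] V₀} (hg : g₀ ∈ EO Q₀) : ∃ g ∈ M, ∀ x, g (j x) = j (g₀ x) := by
  let N : Subgroup (V₀ ≃ₗ[k] V₀) :=
    { carrier := {g₀ | ∃ g ∈ M, ∀ x, g (j x) = j (g₀ x)}
      mul_mem' := by
        rintro a b ⟨g, hg, h1⟩ ⟨g', hg', h2⟩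
        exact ⟨g * g', M.mul_mem hg hg', fun x => by simp [mul_app, h1, h2]⟩
      one_mem' := ⟨1, M.one_mem, fun x => rfl⟩
      inv_mem' := by
        rintro a ⟨g, hg, h1⟩
        refine ⟨g⁻¹, M.inv_mem hg, fun x => ?_⟩
        apply g.injective
        rw [h1, apply_inv_apply, apply_inv_apply] }
  have : EO Q₀ ≤ N := EO_le_iff.2 fun e w he hw => ⟨_, hT e w he hw, h.eich_j he hw⟩
  exact this hg

include hn

theorem RS.lam_of {e w : V₀} (he0 : e ≠ 0) (he : Q₀ e = 0) (hw : Q₀ w = 0) (hew : B Q₀ e w = 0)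
    (hwe : w ∉ k ∙ e) {l : K} (hR : eich Q (j e) (l • j w) ∈ M) : Lam Q₀ Q j M l := by
  intro e' w' he' hw'
  by_cases he'0 : e' = 0
  · rw [he'0, map_zero, eich_zero_left]; exact one_mem _
  obtain ⟨g₀, hg₀, rfl⟩ := h.nd0.EO_trans (by omega) he0 he'0 (by rw [he, he'])
  obtain ⟨g, hg, hx⟩ := h.ext hM hT hg₀
  have h1 := eich_conj_mem hM hg hR
  rw [map_smul, hx, hx] at h1
  have hgO := EO_le_O hg₀
  revert w'
  refine sing_induction_one h.nd0 (by omega) (g₀ e) _ (fun x y hx hy h2 h3 => ?_)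
    (fun x hx hx0 => ?_)
  · rw [map_add, smul_add]
    exact eich_add_mem (by simp [h.B_j, hx]) (by simp [h.B_j, hy]) h2 h3
  by_cases hxe : x ∈ k ∙ g₀ e
  · obtain ⟨a, rfl⟩ := Submodule.mem_span_singleton.1 hxe
    rw [h.smul, smul_smul, eich_smul_self (by simp [h.form, he'])]
    exact one_mem _
  have h4 := finrank_span_singleton_le (F := k) (g₀ e)
  obtain ⟨g₁, hg₁, h5⟩ := h.nd0.EU_trans_fix (X := k ∙ g₀ e) (by omega) (x := g₀ w) (y := x)
    (by
      intro h'
      obtain ⟨a, ha⟩ := Submodule.mem_span_singleton.1 h'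
      exact hwe (Submodule.mem_span_singleton.2 ⟨a, g₀.injective (by simpa using ha)⟩)) hxe
    (by rw [hgO, hw, hx0]) (by
      intro a ha
      obtain ⟨c, rfl⟩ := Submodule.mem_span_singleton.1 ha
      simp [O_B hgO, hew, hx])
  have h6 : g₁ (g₀ e) = g₀ e := EU_fix hg₁ fun u hu => by
    rw [B_comm]; exact mem_perp_span_singleton.1 hu
  obtain ⟨g', hg', hx'⟩ := h.ext hM hT (EU_le_EO _ hg₁)
  have := eich_conj_mem hM hg' h1
  rwa [map_smul, hx', hx', h5, h6] at this

/-- pairings of elements of the unipotent radical with rational vectors give levels -/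
theorem RS.lam_val {e u : V₀} (he0 : e ≠ 0) (he : Q₀ e = 0) (hu : Q₀ u = 0) (heu : B Q₀ e u = 0)
    (hue : u ∉ k ∙ e) {v : V} (hv : B Q (j e) v = 0) (hE : eich Q (j e) v ∈ M) :
    Lam Q₀ Q j M (B Q (j u) v) := by
  obtain ⟨p, w, hp, hw, hpw, h1, h2, h3, h4⟩ := exists_hyp_perp h.nd0 hn e u
  have e1 := eich_move_mem hM (hT u w hu h4)
    (eich_apply_of_perp (by simp [h.B_j, B_comm Q₀ u e, heu]) (by simp [h.B_j, B_comm Q₀ w e, h2]))
    hv hE
  have e2 := eich_move_mem hM (hT p u hp (by rw [B_comm, h3]))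
    (eich_apply_of_perp (by simp [h.B_j, B_comm Q₀ p e, h1]) (by simp [h.B_j, B_comm Q₀ u e, heu]))
    (by rw [map_sub, ← O_B (eich_mem_O (Q := Q) (j u) (j w)) (j e) v,
      eich_apply_of_perp (x := j e) (by simp [h.B_j, B_comm Q₀ u e, heu])
        (by simp [h.B_j, B_comm Q₀ w e, h2]), sub_self]) e1
  refine h.lam_of hM hT hn he0 he hu heu hue ?_
  convert e2 using 2
  rw [eich_apply (by simp [h.form, hp]) (by simp [h.B_j, B_comm Q₀ p u, h3]),
    eich_apply (by simp [h.form, hu]) (by simp [h.B_j, h4])]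
  simp only [map_add, map_sub, map_smul, h.B_j, h.form, hpw, hw, hu, h4, B_comm Q₀ p u, h3,
    B_self_of_sing Q₀ hu, smul_eq_mul]
  push_cast
  module

theorem RS.lam_rat (hr : (finrank k K).Prime) (hne : ¬ EO Q ≤ M) (hd : 5 ≤ finrank K V) {l : K}
    (hl : Lam Q₀ Q j M l) : l ∈ k := by
  obtain ⟨e, f, he, hf, hef, -⟩ := exists_hyp_perp h.nd0 hn 0 0
  obtain ⟨u, x, hu, hx, hux, h1, h2, h3, h4⟩ := exists_hyp_perp h.nd0 hn e f
  obtain ⟨w, p, hw, hp, hwp, h5, h6, h7, h8⟩ := exists_hyp_perp h.nd0 hn e u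
  have he0 : e ≠ 0 := by rintro rfl; simp at hef
  have hf0 : f ≠ 0 := by rintro rfl; simp at hef
  have hwe : w ∉ k ∙ e := by
    intro h'
    obtain ⟨a, rfl⟩ := Submodule.mem_span_singleton.1 h'
    simp [h6] at hwp
  have hpe : p ∉ k ∙ e := by
    intro h'
    obtain ⟨a, rfl⟩ := Submodule.mem_span_singleton.1 h'
    simp [B_comm Q₀ w e, h5] at hwp
  let S : Subalgebra k K :=
    { carrier := {a | Lam Q₀ Q j M a}
      mul_mem' := fun {a b} ha hb => by
        have e1 := eich_move_mem hM (ha u w hu h7)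
          (eich_apply_of_perp (x := j e) (by simp [h.B_j, B_comm Q₀ u e, h1])
            (by simp [h.B_j, B_comm Q₀ w e, h5])) (by simp [h.B_j, h2]) (hb e x he h2)
        have e2 := h.lam_val hM hT hn he0 he hp h6 hpe (by
          rw [eich_apply (by simp [h.form, hu]) (by simp [h.B_j, h7])]
          simp [h.B_j, h1, h2, h5]) e1
        convert e2 using 1
        rw [eich_apply (by simp [h.form, hu]) (by simp [h.B_j, h7])]
        simp [h.B_j, hux, B_comm Q₀ p w, hwp, B_comm Q₀ p u, h8, mul_comm]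
      add_mem' := fun {a b} ha hb e w he hw => by
        rw [add_smul]
        exact eich_add_mem (by simp [h.B_j, hw]) (by simp [h.B_j, hw]) (ha e w he hw) (hb e w he hw)
      algebraMap_mem' := fun a e w he hw => by
        have := hT e (a • w) he (by simp [hw])
        rwa [h.smul] at this }
  rcases (Subalgebra.isSimpleOrder_of_finrank_prime k K hr).eq_bot_or_eq_top S with h3 | h3
  · obtain ⟨a, ha⟩ := Algebra.mem_bot.1 (h3 ▸ show l ∈ S from hl)
    exact ha ▸ a.2
  exfalso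
  have hall : ∀ a, Lam Q₀ Q j M a := fun a => show a ∈ S from h3 ▸ trivial
  have full : ∀ e f, Q₀ e = 0 → B Q₀ e f = 1 → Full Q M (j e) := by
    intro e f he hef w hw
    let Y : Submodule K V :=
      { carrier := {v | ∀ c : K, eich Q (j e) (c • (v - B Q (j e) v • j f)) ∈ M}
        add_mem' := fun {a b} ha hb c => by
          have := eich_add_mem (by simp [h.B_j, hef]) (by simp [h.B_j, hef]) (ha c) (hb c)
          convert this using 2
          rw [map_add]; module
        zero_mem' := fun c => by simp [eich_zero]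
        smul_mem' := fun a v hv c => by
          have := hv (c * a)
          convert this using 2
          rw [map_smul, smul_eq_mul]; module }
    have : Submodule.span K (Set.range j) ≤ Y := Submodule.span_le.2 (by
      rintro _ ⟨x, rfl⟩ c
      have := hall c e (x - B Q₀ e x • f) he (by simp [hef])
      rwa [map_sub, h.smul, ← h.B_j] at this)
    have := this (h.span ▸ trivial : w ∈ Submodule.span K (Set.range j)) 1
    simpa [hw] using this
  exact hne (EO_le_of_full h.nd hd hM (by simp [h.form, he]) (by simp [h.form, hf])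
    (full e f he hef) (full f e hf (by rw [B_comm, hef])) (by simp [h.B_j, hef]))

theorem RS.val_mem (hL : ∀ l, Lam Q₀ Q j M l → l ∈ k) {e : V₀} (he0 : e ≠ 0) (he : Q₀ e = 0)
    {v : V} (hv : B Q (j e) v = 0) (hE : eich Q (j e) v ∈ M) :
    ∀ x, B Q₀ e x = 0 → B Q v (j x) ∈ k := by
  refine sing_induction_one h.nd0 (by omega) e _ (fun x y _ _ h2 h3 => ?_) (fun x hx hx0 => ?_)
  · rw [map_add, map_add]; exact k.add_mem h2 h3
  by_cases hxe : x ∈ k ∙ e
  · obtain ⟨a, rfl⟩ := Submodule.mem_span_singleton.1 hxe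
    rw [h.smul, map_smul, B_comm, hv, smul_zero]; exact k.zero_mem
  rw [B_comm]
  exact hL _ (h.lam_val hM hT hn he0 he hx0 hx hxe hv hE)

end

end Cfsg.Agent.H1
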