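import Cfsg.Agent.H1.OSub1

/-! Subfield subgroups of orthogonal groups, part 2: recognising rational elements. -/

set_option autoImplicit false
set_option linter.unusedSimpArgs false
set_option linter.unusedSectionVars false
set_option linter.unusedVariables false

namespace Cfsg.Agent.H1

open Module Cfsg.Agent.Orth

variable {K : Type*} [Field K] {k : Subfield K}
  {V₀ : Type*} [AddCommGroup V₀] [Module k V₀]
  {V : Type*} [AddCommGroup V] [Module K V]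

/-- a subgroup containing the rational Eichler transformations, of level `k` -/
structure Ctx (Q₀ : QuadraticForm k V₀) (Q : QuadraticForm K V) (j : V₀ →+ V)
    (M : Subgroup (V ≃ₗ[K] V)) : Prop extends RS Q₀ Q j where
  hM : M ≤ O Q
  hT : ∀ e w, Q₀ e = 0 → B Q₀ e w = 0 → eich Q (j e) (j w) ∈ M
  hn : 7 ≤ finrank k V₀
  hL : ∀ l, Lam Q₀ Q j M l → l ∈ k

variable {Q₀ : QuadraticForm k V₀} {Q : QuadraticForm K V} {j : V₀ →+ V}
  {M : Subgroup (V ≃ₗ[K] V)}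

theorem RS.exists_ne (h : RS Q₀ Q j) (φ : V →ₗ[K] K) {v : V} (hv : φ v ≠ 0) : ∃ x, φ (j x) ≠ 0 := by
  by_contra! h'
  have : Submodule.span K (Set.range j) ≤ LinearMap.ker φ :=
    Submodule.span_le.2 (by rintro _ ⟨x, rfl⟩; exact h' x)
  exact hv (this (h.span ▸ trivial))

variable [Finite K] [FiniteDimensional k V₀] [FiniteDimensional K V]

/-- Plücker relation: two rational decomposable bivectors sharing a vector -/
theorem RS.point_of_pluecker (h : RS Q₀ Q j) {y z₁ z₂ v₁ v₂ v₃ : V}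
    (h1 : ∀ a b, B Q y (j a) * B Q z₁ (j b) - B Q z₁ (j a) * B Q y (j b) ∈ k)
    (h2 : ∀ a b, B Q y (j a) * B Q z₂ (j b) - B Q z₂ (j a) * B Q y (j b) ∈ k)
    (e11 : B Q y v₁ = 1) (e12 : B Q y v₂ = 0) (e13 : B Q y v₃ = 0)
    (e22 : B Q z₁ v₂ = 1) (e23 : B Q z₁ v₃ = 0) (e33 : B Q z₂ v₃ = 1) :
    ∃ c : K, c ≠ 0 ∧ ∃ y₀, c • y = j y₀ := by
  let φ : V → V → V →ₗ[K] K := fun a b =>
    (B Q z₁ a * B Q z₂ b - B Q z₂ a * B Q z₁ b) • B Q y -
      (B Q y a * B Q z₂ b - B Q z₂ a * B Q y b) • B Q z₁ +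
      (B Q y a * B Q z₁ b - B Q z₁ a * B Q y b) • B Q z₂
  have cyc : ∀ a b c, φ a b c = φ b c a := fun a b c => by
    simp only [φ, LinearMap.add_apply, LinearMap.sub_apply, LinearMap.smul_apply, smul_eq_mul]
    ring
  obtain ⟨x₁, h3⟩ := h.exists_ne (φ v₂ v₃) (v := v₁) (by simp [φ, e11, e12, e13, e22, e23, e33])
  obtain ⟨x₂, h4⟩ := h.exists_ne (φ v₃ (j x₁)) (v := v₂) (by rwa [← cyc])
  obtain ⟨x₃, h5⟩ := h.exists_ne (φ (j x₁) (j x₂)) (v := v₃) (by rwa [← cyc])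
  obtain ⟨y₀, hy⟩ := h.rat_of_val (v := φ (j x₁) (j x₂) (j x₃) • y) (fun x => by
    have := k.sub_mem (k.sub_mem (k.mul_mem (h1 x₁ x₃) (h2 x₂ x)) (k.mul_mem (h1 x₁ x₂) (h2 x₃ x)))
      (k.mul_mem (h1 x₂ x₃) (h2 x₁ x))
    convert this using 1
    simp only [φ, map_smul, LinearMap.add_apply, LinearMap.sub_apply, LinearMap.smul_apply,
      smul_eq_mul]
    ring)
  exact ⟨_, h5, y₀, hy⟩

section

variable (C : Ctx Q₀ Q j M)
include C

theorem Ctx.val {e : V₀} (he0 : e ≠ 0) (he : Q₀ e = 0) {v : V} (hv : B Q (j e) v = 0)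
    (hE : eich Q (j e) v ∈ M) {x : V₀} (hx : B Q₀ e x = 0) : B Q v (j x) ∈ k :=
  C.toRS.val_mem C.hM C.hT C.hn C.hL he0 he hv hE x hx

theorem Ctx.conj {g : V ≃ₗ[K] V} (hg : g ∈ M) {u w : V₀} (hu : Q₀ u = 0) (hw : B Q₀ u w = 0) :
    eich Q (g (j u)) (g (j w)) ∈ M := eich_conj_mem C.hM hg (C.hT u w hu hw)

theorem Ctx.B_g {g : V ≃ₗ[K] V} (hg : g ∈ M) (x y : V₀) :
    B Q (g (j x)) (g (j y)) = (B Q₀ x y : K) := by rw [O_B (C.hM hg), C.B_j]

theorem Ctx.Q_g {g : V ≃ₗ[K] V} (hg : g ∈ M) (x : V₀) : Q (g (j x)) = (Q₀ x : K) := by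
  rw [C.hM hg, C.form]

theorem Ctx.F_mem {y z : V} (hy : Q y = 0) (hyz : B Q y z = 0) (hE : eich Q y z ∈ M) {e : V₀}
    (he0 : e ≠ 0) (he : Q₀ e = 0) (h1 : B Q y (j e) = 0) (h2 : B Q z (j e) = 0) {a b : V₀}
    (ha : B Q₀ e a = 0) (hb : B Q₀ e b = 0) :
    B Q y (j a) * B Q z (j b) - (B Q z (j a) + Q z * B Q y (j a)) * B Q y (j b) ∈ k := by
  have e1 := eich_move_mem C.hM hE (eich_apply_of_perp h1 h2) (by simp [C.B_j, ha])
    (C.hT e a he ha)
  have e2 := C.val he0 he (by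
    rw [eich_apply hy hyz]
    simp [B_comm Q (j e) y, B_comm Q (j e) z, h1, h2]) e1 hb
  convert e2 using 1
  rw [eich_apply hy hyz]
  simp only [map_add, map_sub, map_smul, LinearMap.add_apply, LinearMap.sub_apply,
    LinearMap.smul_apply, smul_eq_mul]
  ring

theorem Ctx.sq_mem {y z : V} (hy : Q y = 0) (hyz : B Q y z = 0) (hE : eich Q y z ∈ M)
    (hz : Q z ∈ k) (hz0 : Q z ≠ 0) {e : V₀}
    (he0 : e ≠ 0) (he : Q₀ e = 0) (h1 : B Q y (j e) = 0) (h2 : B Q z (j e) = 0) {a : V₀}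
    (ha : B Q₀ e a = 0) : B Q y (j a) * B Q y (j a) ∈ k := by
  have := k.neg_mem (k.div_mem (C.F_mem hy hyz hE he0 he h1 h2 ha ha) hz)
  convert this using 1
  field_simp
  ring

/-- a root centre orthogonal to two rational points is rational -/
theorem Ctx.rat_of_two (hsq : ∀ l : K, l * l ∈ k → l ∈ k) {y z : V} (hy : Q y = 0)
    (hyz : B Q y z = 0) (hE : eich Q y z ∈ M) (hz : Q z ∈ k) (hz0 : Q z ≠ 0) {e e' x₀ : V₀}
    (he : Q₀ e = 0) (he'0 : e' ≠ 0) (he' : Q₀ e' = 0) (h3 : B Q₀ e x₀ = 1) (h4 : B Q₀ e' x₀ = 0)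
    (h1 : B Q y (j e) = 0) (h2 : B Q z (j e) = 0) (h1' : B Q y (j e') = 0) (h2' : B Q z (j e') = 0) :
    ∃ y₀, y = j y₀ := by
  have he0 : e ≠ 0 := by rintro rfl; simp at h3
  refine C.toRS.rat_of_val fun x => ?_
  have e1 := hsq _ (C.sq_mem hy hyz hE hz hz0 he0 he h1 h2 (a := x - B Q₀ e x • x₀) (by simp [h3]))
  have e2 := hsq _ (C.sq_mem hy hyz hE hz hz0 he'0 he' h1' h2' (a := B Q₀ e x • x₀) (by simp [h4]))
  have := k.add_mem e1 e2
  rwa [← map_add, ← map_add, sub_add_cancel] at this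

theorem Ctx.PH_aux {g : V ≃ₗ[K] V} (hg : g ∈ M) {c : K} (hc : c ≠ 0) {u y₀ : V₀} (hu0 : u ≠ 0)
    (hu : Q₀ u = 0) (hgu : c • g (j u) = j y₀) :
    ∀ x, B Q₀ u x = 0 → ∃ y, c • g (j x) = j y := by
  have h := C.toRS
  have hn := C.hn
  have hgu' : g (j u) = c⁻¹ • j y₀ := by rw [← hgu, smul_smul, inv_mul_cancel₀ hc, one_smul]
  have hy0 : y₀ ≠ 0 := by
    rintro rfl
    exact h.j_ne hu0 (by simpa using hgu')
  have hy : Q₀ y₀ = 0 := by
    have := congrArg Q hgu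
    rw [Q_smul, C.Q_g hg, h.form, hu] at this
    exact_mod_cast (by simpa using this.symm)
  have dec : ∀ x, B Q₀ u x = 0 → ∃ (x' : V₀) (μ : K), B Q₀ y₀ x' = 0 ∧
      g (j x) = c • (j x' + μ • j y₀) := by
    intro x hx
    have e1 := C.conj hg hu hx
    have e2 : B Q (j y₀) (g (j x)) = 0 := by rw [← hgu, map_smul]; simp [C.B_g hg, hx]
    rw [hgu', eich_smul_left (by simp [h.form, hy]) e2] at e1
    obtain ⟨x', μ, h1, h2⟩ := h.split hy0 hy (v := c⁻¹ • g (j x)) (by simp [e2])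
      (fun a ha => C.val hy0 hy (by simp [e2]) e1 ha)
    exact ⟨x', μ, h1, by rw [← h2, smul_smul, mul_inv_cancel₀ hc, one_smul]⟩
  have pair : ∀ (a b a' b' : V₀) (μ ν : K), B Q₀ y₀ a' = 0 → B Q₀ y₀ b' = 0 →
      g (j a) = c • (j a' + μ • j y₀) → g (j b) = c • (j b' + ν • j y₀) →
      (B Q₀ a b : K) = c * c * B Q₀ a' b' := by
    intro a b a' b' μ ν h1 h2 h3 h4
    rw [← C.B_g hg, h3, h4]
    simp [h.B_j, h2, B_comm Q₀ a' y₀, h1, B_self_of_sing Q₀ hy, mul_assoc]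
  refine sing_induction_one h.nd0 (by omega) u _ (fun x y _ _ ⟨a, ha⟩ ⟨b, hb⟩ =>
    ⟨a + b, by simp [ha, hb]⟩) (fun x hx hx0 => ?_)
  by_cases hxu : x ∈ k ∙ u
  · obtain ⟨a, rfl⟩ := Submodule.mem_span_singleton.1 hxu
    exact ⟨a • y₀, by rw [h.smul, h.smul, map_smul, smul_comm, hgu]⟩
  obtain ⟨p, q, hp, hq, hpq, h1, h2, h3, h4⟩ := exists_hyp_perp h.nd0 hn u x
  obtain ⟨x', μ, k1, k2⟩ := dec x hx
  obtain ⟨p', ν, k3, k4⟩ := dec p h1
  obtain ⟨q', ν', k5, k6⟩ := dec q h2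
  have f1 := pair p q p' q' _ _ k3 k5 k4 k6
  have f2 := pair x q x' q' _ _ k1 k5 k2 k6
  have f3 := pair x p x' p' _ _ k1 k3 k2 k4
  simp only [hpq, h3, h4, Subfield.coe_one, Subfield.coe_zero, zero_eq_mul, mul_eq_zero, hc,
    or_self, false_or, ZeroMemClass.coe_eq_zero] at f1 f2 f3
  have hcc : c * c ∈ k := by
    have h5 : (B Q₀ p' q' : K) ≠ 0 := fun h' => by simp [h'] at f1
    have : c * c = (B Q₀ p' q' : K)⁻¹ := by field_simp; linear_combination -f1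
    rw [this]; exact k.inv_mem (B Q₀ p' q').2
  have hx' : Q₀ x' = 0 := by
    have := C.Q_g hg x
    rw [k2, Q_smul, Q_add, Q_smul, hx0] at this
    simpa [h.form, h.B_j, hy, B_comm Q₀ x' y₀, k1, hc] using this
  have hx'y : x' ∉ k ∙ y₀ := by
    intro h'
    obtain ⟨a, rfl⟩ := Submodule.mem_span_singleton.1 h'
    obtain ⟨x₃, h5, h6⟩ := exists_dual_two h.nd0 hxu
    have := C.B_g hg x x₃
    rw [k2, h.smul, ← hgu] at this
    simp [C.B_g hg, h5, h6] at this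
  have hx'0 : x' ≠ 0 := by rintro rfl; exact hx'y (zero_mem _)
  obtain ⟨x₁, h5, h6⟩ := exists_dual_two h.nd0 (a := y₀) (b := x') (by
    intro h'
    obtain ⟨a, rfl⟩ := Submodule.mem_span_singleton.1 h'
    have ha : a ≠ 0 := by rintro rfl; simp at hy0
    exact hx'y (Submodule.mem_span_singleton.2 ⟨a⁻¹, by rw [smul_smul, inv_mul_cancel₀ ha, one_smul]⟩))
  have e1 := C.F_mem (y := g (j x)) (z := g (j p)) (by simp [C.Q_g hg, hx0])
    (by simp [C.B_g hg, h3]) (C.conj hg hx0 h3) hx'0 hx'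
    (by simp [k2, h.B_j, B_self_of_sing Q₀ hx', k1])
    (by simp [k4, h.B_j, B_comm Q₀ p' x', f3, k1]) h5 f2
  have hμ : μ ∈ k := by
    convert e1 using 1
    simp only [k2, k4, map_add, map_smul, LinearMap.add_apply, LinearMap.smul_apply, h.B_j, h5, h6,
      f2, k5, smul_eq_mul]
    push_cast
    linear_combination μ * f1
  refine ⟨(⟨c * c, hcc⟩ : k) • (x' + (⟨μ, hμ⟩ : k) • y₀), ?_⟩
  rw [h.smul, map_add, h.smul, k2, smul_smul]

/-- an element mapping one rational singular point to a rational point is rational -/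
theorem Ctx.rat_of_point {g : V ≃ₗ[K] V} (hg : g ∈ M) {c : K} (hc : c ≠ 0) {u y₀ : V₀}
    (hu0 : u ≠ 0) (hu : Q₀ u = 0) (hgu : c • g (j u) = j y₀) (x : V₀) :
    ∃ y, c • g (j x) = j y := by
  have h := C.toRS
  obtain ⟨p, q, hp, hq, hpq, h1, h2, -⟩ := exists_hyp_perp h.nd0 C.hn u 0
  have hp0 : p ≠ 0 := by rintro rfl; simp at hpq
  obtain ⟨y₁, hy₁⟩ := C.PH_aux hg hc hu0 hu hgu p h1
  obtain ⟨f, h3, h4⟩ := exists_dual_two h.nd0 (a := u) (b := p) (by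
    intro h'
    obtain ⟨a, rfl⟩ := Submodule.mem_span_singleton.1 h'
    have : a = 0 := by simpa [hpq] using h2
    simp [this] at hu0)
  obtain ⟨a, ha⟩ := C.PH_aux hg hc hu0 hu hgu (x - B Q₀ u x • f) (by simp [h4])
  obtain ⟨b, hb⟩ := C.PH_aux hg hc hp0 hp hy₁ (B Q₀ u x • f) (by simp [h3])
  exact ⟨a + b, by rw [map_add, ← ha, ← hb, ← smul_add, ← map_add, ← map_add, sub_add_cancel]⟩

theorem Ctx.PH_of_point {g : V ≃ₗ[K] V} (hg : g ∈ M) {c : K} (hc : c ≠ 0) {u y₀ : V₀}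
    (hu0 : u ≠ 0) (hu : Q₀ u = 0) (hgu : c • g (j u) = j y₀) : PH K j g :=
  ⟨c, hc, C.rat_of_point hg hc hu0 hu hgu⟩

/-- the quadratic case -/
theorem Ctx.PH_of_two (h2K : (2 : K) ≠ 0) (hr : finrank k K = 2) {g : V ≃ₗ[K] V} (hg : g ∈ M) :
    PH K j g := by
  have h := C.toRS
  have hn := C.hn
  have hker : ∀ v : V, finrank k V₀ ≤ finrank k (LinearMap.ker (h.lin v)) + 2 := fun v => by
    have h1 := LinearMap.finrank_range_add_finrank_ker (h.lin v)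
    have h2 := Submodule.finrank_le (LinearMap.range (h.lin v))
    omega
  obtain ⟨u, f, hu, -, huf, -⟩ := exists_hyp_perp h.nd0 hn 0 0
  have hu0 : u ≠ 0 := by rintro rfl; simp at huf
  have FB : ∀ e, e ≠ 0 → Q₀ e = 0 → B Q (g (j u)) (j e) = 0 →
      ∃ c : K, c ≠ 0 ∧ ∀ x, B Q₀ e x = 0 → c * B Q (g (j u)) (j x) ∈ k := by
    intro e he0 he h1
    have h2 := finrank_inf_perp_ge (Q := Q₀) (LinearMap.ker (h.lin (g⁻¹ (j e)))) (k ∙ u)
    have h3 := finrank_span_singleton_le (F := k) u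
    have h4 := hker (g⁻¹ (j e))
    obtain ⟨w, ⟨h5, h6⟩, hw⟩ := h.nd0.ndOn_top.exists_nonsing
      (H := LinearMap.ker (h.lin (g⁻¹ (j e))) ⊓ perp Q₀ (k ∙ u)) le_top (by rw [finrank_top]; omega)
    have h6' : B Q₀ u w = 0 := mem_perp_span_singleton.1 h6
    have h5' : B Q (g (j w)) (j e) = 0 := by rw [O_B_inv (C.hM hg), B_comm]; exact h5
    have sq : ∀ x, B Q₀ e x = 0 → B Q (g (j u)) (j x) * B Q (g (j u)) (j x) ∈ k := fun x hx =>
      C.sq_mem (by simp [C.Q_g hg, hu]) (by simp [C.B_g hg, h6']) (C.conj hg hu h6')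
        (by simp [C.Q_g hg]) (by simpa [C.Q_g hg] using hw) he0 he h1 h5' hx
    by_cases h7 : ∀ x, B Q₀ e x = 0 → B Q (g (j u)) (j x) = 0
    · exact ⟨1, one_ne_zero, fun x hx => by simp [h7 x hx]⟩
    push Not at h7
    obtain ⟨x₀, h7, h8⟩ := h7
    refine ⟨_, h8, fun x hx => ?_⟩
    have := k.div_mem (k.sub_mem (k.sub_mem (sq (x₀ + x) (by simp [h7, hx])) (sq x₀ h7)) (sq x hx))
      (show (2 : K) ∈ k from natCast_mem k 2)
    convert this using 1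
    simp only [map_add]
    field_simp
    ring
  obtain ⟨e, he1, he0, he⟩ := exists_sing_of_three (Q := Q₀) (LinearMap.ker (h.lin (g (j u))))
    (by have := hker (g (j u)); omega)
  replace he1 : B Q (g (j u)) (j e) = 0 := he1
  obtain ⟨c, hc, hc'⟩ := FB e he0 he he1
  obtain ⟨x', μ, h1, h2⟩ := h.split he0 he (v := c • g (j u)) (by simp [B_comm Q (j e), he1])
    (fun x hx => by simpa using hc' x hx)
  by_cases hxe : x' ∈ k ∙ e
  · obtain ⟨a, rfl⟩ := Submodule.mem_span_singleton.1 hxe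
    rw [h.smul, ← add_smul] at h2
    have h3 : (a : K) + μ ≠ 0 := by
      intro h'
      rw [h'] at h2
      exact h.j_ne hu0 (by simpa [hc] using h2)
    exact C.PH_of_point hg (c := ((a : K) + μ)⁻¹ * c) (by simp [h3, hc]) hu0 hu (y₀ := e)
      (by rw [← smul_smul, h2, smul_smul, inv_mul_cancel₀ h3, one_smul])
  obtain ⟨p, q, hp, hq, hpq, k1, k2, k3, k4⟩ := exists_hyp_perp h.nd0 hn e x'
  have hp0 : p ≠ 0 := by rintro rfl; simp at hpq
  have h3 : ∀ x, c * B Q (g (j u)) (j x) = B Q₀ x' x + μ * B Q₀ e x := fun x => by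
    have := congrArg (fun v => B Q v (j x)) h2
    simpa [h.B_j] using this
  obtain ⟨c', hc1, hc2⟩ := FB p hp0 hp (by simpa [k1, k3, hc] using h3 p)
  obtain ⟨x₂, h4, h5⟩ := exists_dual_two h.nd0 hxe
  obtain ⟨x₁, h6, h7⟩ := exists_dual_two h.nd0 (a := e) (b := x') (by
    intro h'
    obtain ⟨a, rfl⟩ := Submodule.mem_span_singleton.1 h'
    have ha : a ≠ 0 := by rintro rfl; simp at he0
    exact hxe (Submodule.mem_span_singleton.2 ⟨a⁻¹, by rw [smul_smul, inv_mul_cancel₀ ha, one_smul]⟩))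
  have e1 := hc2 (x₁ - B Q₀ p x₁ • q) (by simp [hpq])
  have e2 := hc2 (x₂ - B Q₀ p x₂ • q) (by simp [hpq])
  have e3 := h3 (x₁ - B Q₀ p x₁ • q)
  have e4 := h3 (x₂ - B Q₀ p x₂ • q)
  simp only [map_sub (B Q₀ _), map_smul (B Q₀ _), k2, k4, h4, h5, h6, h7, smul_zero, sub_zero,
    Subfield.coe_one, Subfield.coe_zero, mul_one, mul_zero, zero_add, add_zero] at e3 e4
  have hμ : μ ∈ k := by
    have := k.div_mem e1 e2
    convert this using 1
    have e5 : B Q (g (j u)) (j (x₂ - B Q₀ p x₂ • q)) ≠ 0 := fun h' => by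
      rw [h', mul_zero] at e4; exact zero_ne_one e4
    rw [← e3]
    field_simp
    linear_combination (B Q (g (j u)) (j (x₁ - B Q₀ p x₁ • q))) * e4
  exact C.PH_of_point hg hc hu0 hu (y₀ := x' + (⟨μ, hμ⟩ : k) • e) (by rw [h2, map_add, h.smul])

end

end Cfsg.Agent.H1
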