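import Cfsg.Agent.H1.OSub2
import Cfsg.Agent.H8.DicksonCore

/-! Subfield subgroups of orthogonal groups, part 3: odd characteristic, via Dickson's theorem
applied to pairs of opposite long root subgroups. -/

set_option autoImplicit false
set_option linter.unusedSimpArgs false
set_option linter.unusedSectionVars false
set_option linter.unusedVariables false

namespace Cfsg.Agent.H1

section Dickson

open MulAction Matrix OnePoint Cfsg.Agent.H8
open scoped MatrixGroups
open Matrix.ProjGenLinGroup (mk)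

variable {F : Type*} [Field F]

theorem dickson_core3 [Finite F] (H : Subgroup PGL(2, F)) (h3 : 3 ≤ Nat.card (translSub H))
    (h4 : 4 ≤ Nat.card (translSub H) ∨ ¬ 5 ∣ Nat.card H)
    (hne : ∃ γ ∈ H, γ • (∞ : OnePoint F) ≠ ∞) :
    ∃ (k : Subfield F) (α β : F) (hα : α ≠ 0), (∀ s, transl s ∈ H ↔ s / α ∈ k) ∧
      (H = cj (mk (mat α β 0 1 (by simpa using hα))) (PS k) ∨
       H = cj (mk (mat α β 0 1 (by simpa using hα))) (PG k)) := by
  rcases h4 with h4 | h4
  · exact dickson_core H h4 hne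
  have := Fintype.ofFinite F
  obtain ⟨p, hp⟩ := CharP.exists F
  obtain ⟨n, hpp, hn⟩ := FiniteField.card F p
  have : Fact p.Prime := ⟨hpp⟩
  have : Nontrivial (translSub H) := Finite.one_lt_card_iff_nontrivial.mp (by omega)
  obtain ⟨s₀, hs₀⟩ := exists_ne (0 : translSub H)
  have hs₀' : (s₀ : F) ≠ 0 := fun e => hs₀ (Subtype.ext e)
  rcases dickson p H with ⟨x, hx⟩ | ⟨x, y, hxy, hx⟩ | ⟨t, a, b, ht, hx⟩ | ⟨k, hk, -, hk'⟩ |
    ⟨k, g, -, hk⟩
  · obtain ⟨γ, hγ, hγ'⟩ := hne
    have := transl_fix hs₀' (hx s₀.2)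
    subst this
    exact absurd (hx hγ) hγ'
  · have := card_translSub_le_two_of_le_pairStab hxy hx
    omega
  · have := card_translSub_le_two_of_le_pairStab (fun e => ht.ne_conj (coe_eq_coe.mp e)) hx
    omega
  · exfalso
    have h1 := card_translSub_dvd H
    obtain ⟨s, -, hs⟩ : ∃ s ≤ (n : ℕ), Nat.card (translSub H) = p ^ s := by
      rw [← Nat.dvd_prime_pow hpp, ← hn, ← Nat.card_eq_fintype_card]
      exact AddSubgroup.card_addSubgroup_dvd_card _
    rw [hs] at h1 h3
    rcases hk' with hk' | ⟨rfl, rfl⟩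
    · rcases s with _ | s
      · simp at h3
      · exact hk' ((dvd_pow_self p s.succ_ne_zero).trans h1)
    · have h60 : Nat.card H = 60 := by omega
      rw [h60] at h4
      omega
  · have hle : H ≤ cj g (PG k) := by
      rcases hk with rfl | rfl
      · exact cj_mono g (PS_le_PG k)
      · exact le_rfl
    have h1 : RatOver k (g⁻¹ • (∞ : OnePoint F)) := by
      refine ratOver_of_isUnip (mem_cj.mp (hle s₀.2)) ?_ ?_
      · intro e
        apply hs₀'
        rw [← transl_eq_one_iff]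
        have : transl (s₀ : F) = g * (g⁻¹ * transl (s₀ : F) * g) * g⁻¹ := by group
        rw [this, e]; simp
      · simpa using (isUnip_transl (s₀ : F)).conj g⁻¹
    obtain ⟨γ, hγ, hγ'⟩ := exists_PG_smul_infty h1
    have h2 : (g * γ) • (∞ : OnePoint F) = ∞ := by rw [mul_smul, hγ', smul_inv_smul]
    obtain ⟨a, ha⟩ := ProjGenLinGroup.mk_surjective (g * γ)
    rw [← ha, smul_infty_eq_infty] at h2
    have hd := a.det_ne_zero
    rw [det_fin_two, h2, mul_zero, sub_zero] at hd
    obtain ⟨a00, a11⟩ := mul_ne_zero_iff.mp hd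
    have hα : a 0 0 / a 1 1 ≠ 0 := div_ne_zero a00 a11
    have h3 : mk (mat (a 0 0 / a 1 1) (a 0 1 / a 1 1) 0 1 (by simpa using hα)) = g * γ := by
      rw [← ha]
      refine mk_eq_of_smul (a 1 1) a11 fun i j => ?_
      fin_cases i <;> fin_cases j <;> simp [h2, mul_div_cancel₀ _ a11]
    have hk2 : H = cj (g * γ) (PS k) ∨ H = cj (g * γ) (PG k) := by
      rwa [← cj_cj, ← cj_cj, cj_PS_of_mem hγ, cj_PG_of_mem hγ]
    refine ⟨k, a 0 0 / a 1 1, a 0 1 / a 1 1, hα, fun s => ?_, h3 ▸ hk2⟩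
    have h5 : (g * γ)⁻¹ * transl s * (g * γ) = transl (s / (a 0 0 / a 1 1)) := by
      rw [mul_assoc, inv_mul_eq_iff_eq_mul, ← h3, transl, transl, ← map_mul, ← map_mul]
      congr 1
      ext i j
      fin_cases i <;> fin_cases j <;> simp [Matrix.mul_apply, Fin.sum_univ_two]
      field_simp
      ring
    rcases hk2 with rfl | rfl
    · rw [mem_cj, h5]
      exact ⟨fun h => transl_mem_PG.mp (PS_le_PG k h), transl_mem_PS⟩
    · rw [mem_cj, h5, transl_mem_PG]

/-- Dickson's lemma: if the upper transvections of `G` have parameters `δ k` and `G` contains the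
standard lower transvection then `δ ∈ k`. -/
theorem dickson_lemma [Finite F] (h2 : (2 : F) ≠ 0) (G : Subgroup (GL (Fin 2) F)) (k : Subfield F)
    {δ : F} (hδ : δ ≠ 0) (hup : ∀ s, mat 1 s 0 1 (by simp) ∈ G ↔ s / δ ∈ k)
    (hlo : mat 1 0 1 1 (by simp) ∈ G) (h4 : 4 ≤ Nat.card k ∨ ¬ 5 ∣ Nat.card (GL (Fin 2) F)) :
    δ ∈ k := by
  have := Fintype.ofFinite F
  obtain ⟨p, hp⟩ := CharP.exists F
  obtain ⟨n, hpp, hn⟩ := FiniteField.card F p
  have : Fact p.Prime := ⟨hpp⟩
  have hup' : ∀ s : F, mat 1 s 0 1 (by simp) ^ p = 1 := by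
    intro s; rw [upper_pow]; ext i j; fin_cases i <;> fin_cases j <;> simp
  have hiff : ∀ s : F, mat 1 s 0 1 (by simp) ∈ G ↔ transl s ∈ G.map mk :=
    fun s => ⟨fun h => ⟨_, h, rfl⟩, mem_of_mk_mem_map p (hup' s)⟩
  have hcard : Nat.card k ≤ Nat.card (translSub (G.map mk)) := by
    refine Nat.card_le_card_of_injective
      (fun a => ⟨δ * a, (hiff _).1 ((hup _).2 (by simp [hδ]))⟩) fun a b hab => ?_
    exact Subtype.ext (mul_left_cancel₀ hδ (congrArg Subtype.val hab))
  have h3 : 3 ≤ Nat.card k := by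
    classical
    have := Fintype.ofFinite k
    rw [Nat.card_eq_fintype_card, Nat.succ_le_iff, Fintype.two_lt_card_iff]
    refine ⟨0, 1, -1, zero_ne_one, by simp, fun h => h2 ?_⟩
    have := congrArg Subtype.val h
    simp only [Subfield.coe_one, Subfield.coe_neg] at this
    linear_combination this
  obtain ⟨k', α, β, hα, h1, h2'⟩ := dickson_core3 (G.map mk) (by omega) (by
    rcases h4 with h4 | h4
    · left; omega
    · right
      exact fun h => h4 ((h.trans (Subgroup.card_map_dvd _ _)).trans G.card_subgroup_dvd_card))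
    ⟨mk _, ⟨_, hlo, rfl⟩, fun h => by simpa using smul_infty_eq_infty.mp h⟩
  set P := mat α β 0 1 (by simpa using hα) with hP
  have hle : G.map mk ≤ cj (mk P) (PG k') := by
    rcases h2' with h2' | h2' <;> rw [h2']
    exact cj_mono _ (PS_le_PG k')
  obtain ⟨a, ha, ha'⟩ := mem_PG.mp (mem_cj.mp (hle ⟨_, hlo, rfl⟩))
  rw [← map_inv, ← map_mul, ← map_mul] at ha
  obtain ⟨c, hc, e⟩ := exists_smul_of_mk_eq ha.symm
  set X : GL (Fin 2) F := P⁻¹ * mat 1 0 1 1 (by simp) * P with hX
  have hPX : P * X = mat 1 0 1 1 (by simp) * P := by rw [hX]; group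
  have e00 := congrArg (fun A : GL (Fin 2) F => A 0 0) hPX
  have e10 := congrArg (fun A : GL (Fin 2) F => A 1 0) hPX
  have e11 := congrArg (fun A : GL (Fin 2) F => A 1 1) hPX
  simp only [Units.val_mul, Matrix.mul_apply, Fin.sum_univ_two, hP, mat00, mat01, mat10, mat11,
    one_mul, zero_mul, mul_one, mul_zero, zero_add, add_zero] at e00 e10 e11
  have f00 : X 0 0 = 1 - β := mul_left_cancel₀ hα (by linear_combination e00 - β * e10)
  have m00 := ha' 0 0
  have m10 := ha' 1 0
  have m11 := ha' 1 1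
  rw [e] at m00 m10 m11
  rw [f00] at m00
  rw [e10] at m10
  rw [e11] at m11
  have hck : c ∈ k' := by
    have := k'.div_mem (k'.add_mem m00 m11) (show (2 : F) ∈ k' from natCast_mem k' 2)
    convert this using 1
    field_simp
    ring
  have hαk : α ∈ k' := by
    have := k'.div_mem m10 hck
    rwa [mul_div_cancel_left₀ _ hc] at this
  have hk : ∀ s, s / δ ∈ k ↔ s / α ∈ k' := fun s => (hup s).symm.trans ((hiff s).trans (h1 s))
  have g1 : δ / α ∈ k' := (hk δ).1 (by simp [hδ])
  have g2 : α / δ ∈ k := (hk α).2 (by simp [hα])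
  have g3 : α * (δ / α * α) / δ ∈ k := (hk _).2 (by
    rw [mul_div_cancel_left₀ _ hα]; exact k'.mul_mem g1 hαk)
  have := k.div_mem g3 g2
  convert this using 1
  field_simp

end Dickson

open Module Cfsg.Agent.Orth

section Pl

variable {F V : Type*} [Field F] [AddCommGroup V] [Module F V]

/-- the action on two planes at once -/
def plGL (M : Subgroup (V ≃ₗ[F] V)) (a a' b b' : V) (P : V → Prop) : Subgroup (GL (Fin 2) F) where
  carrier := {A | ∃ h ∈ M, h a = A 0 0 • a + A 1 0 • a' ∧ h a' = A 0 1 • a + A 1 1 • a' ∧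
    h b = A 0 0 • b + A 1 0 • b' ∧ h b' = A 0 1 • b + A 1 1 • b' ∧ ∀ v, P v → h v = v}
  one_mem' := ⟨1, one_mem _, by simp, by simp, by simp, by simp, fun _ _ => rfl⟩
  mul_mem' := by
    rintro A B ⟨g, hg, h1, h2, h1', h2', h0⟩ ⟨h, hh, h3, h4, h3', h4', h0'⟩
    refine ⟨g * h, mul_mem hg hh, ?_, ?_, ?_, ?_, fun v hv => by rw [mul_app, h0' v hv, h0 v hv]⟩ <;>
    · simp only [mul_app, h3, h4, h3', h4', map_add, map_smul, h1, h2, h1', h2', Units.val_mul,
        Matrix.mul_apply, Fin.sum_univ_two]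
      module
  inv_mem' := by
    rintro A ⟨g, hg, h1, h2, h1', h2', h0⟩
    have h := A.mul_inv
    have h00 := congrFun (congrFun h 0) 0
    have h01 := congrFun (congrFun h 0) 1
    have h10 := congrFun (congrFun h 1) 0
    have h11 := congrFun (congrFun h 1) 1
    simp only [Matrix.mul_apply, Fin.sum_univ_two, Matrix.one_apply_eq, ne_eq, zero_ne_one,
      one_ne_zero, not_false_eq_true, Matrix.one_apply_ne] at h00 h01 h10 h11
    refine ⟨g⁻¹, inv_mem hg, g.injective ?_, g.injective ?_, g.injective ?_, g.injective ?_,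
      fun v hv => g.injective (by rw [apply_inv_apply, h0 v hv])⟩
    · rw [apply_inv_apply, map_add, map_smul, map_smul, h1, h2]
      linear_combination (norm := module) -(h00 • a) - h10 • a'
    · rw [apply_inv_apply, map_add, map_smul, map_smul, h1, h2]
      linear_combination (norm := module) -(h01 • a) - h11 • a'
    · rw [apply_inv_apply, map_add, map_smul, map_smul, h1', h2']
      linear_combination (norm := module) -(h00 • b) - h10 • b'
    · rw [apply_inv_apply, map_add, map_smul, map_smul, h1', h2']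
      linear_combination (norm := module) -(h01 • b) - h11 • b'

end Pl

variable {K : Type*} [Field K] {k : Subfield K}
  {V₀ : Type*} [AddCommGroup V₀] [Module k V₀]
  {V : Type*} [AddCommGroup V] [Module K V]
variable {Q₀ : QuadraticForm k V₀} {Q : QuadraticForm K V} {j : V₀ →+ V}
  {M : Subgroup (V ≃ₗ[K] V)}
variable [Finite K] [FiniteDimensional k V₀] [FiniteDimensional K V]
variable (C : Ctx Q₀ Q j M)
include C

theorem Ctx.delta_mem (h2K : (2 : K) ≠ 0) (h5 : 4 ≤ Nat.card k ∨ ¬ 5 ∣ Nat.card (GL (Fin 2) K))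
    {e x : V₀} (he : Q₀ e = 0) (hx : Q₀ x = 0) (hex : B Q₀ e x = 0) {c d : V} (hc : Q c = 0)
    (hd : Q d = 0) (hcd : B Q c d = 0) (hE : eich Q c d ∈ M) :
    B Q c (j e) * B Q d (j x) - B Q d (j e) * B Q c (j x) ∈ k := by
  have h := C.toRS
  set δ := B Q c (j e) * B Q d (j x) - B Q d (j e) * B Q c (j x) with hδ
  by_cases hδ0 : δ = 0
  · rw [hδ0]; exact k.zero_mem
  have hxe : x ∉ k ∙ e := by
    intro h'
    obtain ⟨t, rfl⟩ := Submodule.mem_span_singleton.1 h'
    apply hδ0
    simp only [hδ, h.smul, map_smul, smul_eq_mul]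
    ring
  have he0 : e ≠ 0 := by rintro rfl; simp [hδ] at hδ0
  obtain ⟨x₃, h3, h4⟩ := exists_dual_two h.nd0 hxe
  set a := j e with ha
  set b := j x with hb
  have qa : Q a = 0 := by simp [ha, h.form, he]
  have qb : Q b = 0 := by simp [hb, h.form, hx]
  have ab : B Q a b = 0 := by simp [ha, hb, h.B_j, hex]
  have ba : B Q b a = 0 := by rw [B_comm, ab]
  have dc : B Q d c = 0 := by rw [B_comm, hcd]
  have aa := B_self_of_sing Q qa
  have bb := B_self_of_sing Q qb
  have cc := B_self_of_sing Q hc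
  have dd := B_self_of_sing Q hd
  set a' := B Q c a • d - B Q d a • c with ha'
  set b' := B Q c b • d - B Q d b • c with hb'
  have aa' : B Q a a' = 0 := by simp [ha', B_comm Q a]; ring
  have bb' : B Q b b' = 0 := by simp [hb', B_comm Q b]; ring
  have ab' : B Q a b' = -δ := by simp [hb', B_comm Q a, hδ]; ring
  have ba' : B Q b a' = δ := by simp [ha', B_comm Q b, hδ]
  have ca' : B Q c a' = 0 := by simp [ha', cc, hcd]
  have da' : B Q d a' = 0 := by simp [ha', dd, dc]
  have cb' : B Q c b' = 0 := by simp [hb', cc, hcd]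
  have db' : B Q d b' = 0 := by simp [hb', dd, dc]
  have a'a' : B Q a' a' = 0 := by nth_rewrite 1 [ha']; simp [ca', da']
  have a'b' : B Q a' b' = 0 := by nth_rewrite 1 [ha']; simp [cb', db']
  have b'b' : B Q b' b' = 0 := by nth_rewrite 1 [hb']; simp [cb', db']
  let P : V → Prop := fun v => B Q a v = 0 ∧ B Q b v = 0 ∧ B Q a' v = 0 ∧ B Q b' v = 0
  have up : ∀ s : K, eich Q a ((-(s / δ)) • b) a = a ∧ eich Q a ((-(s / δ)) • b) a' = s • a + a' ∧
      eich Q a ((-(s / δ)) • b) b = b ∧ eich Q a ((-(s / δ)) • b) b' = s • b + b' ∧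
      ∀ v, P v → eich Q a ((-(s / δ)) • b) v = v := by
    intro s
    have h0 : B Q a ((-(s / δ)) • b) = 0 := by simp [ab]
    refine ⟨eich_apply_self qa h0, ?_, eich_apply_of_perp ab (by simp [bb]), ?_,
      fun v hv => eich_apply_of_perp hv.1 (by simp [hv.2.1])⟩
    · rw [eich_apply qa h0]
      simp only [aa', ba', map_smul, LinearMap.smul_apply, smul_eq_mul]
      match_scalars <;> field_simp <;> ring
    · rw [eich_apply qa h0, Q_smul]
      simp only [ab', bb', qb, map_smul, LinearMap.smul_apply, smul_eq_mul]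
      match_scalars <;> field_simp <;> ring
  refine dickson_lemma h2K (plGL M a a' b b' P) k hδ0 (fun s => ⟨?_, fun hs => ?_⟩) ?_ h5
  · rintro ⟨g, hg, g1, g2, g3, g4, g5⟩
    simp only [H8.mat00, H8.mat01, H8.mat10, H8.mat11, one_smul, zero_smul, add_zero] at g1 g2 g3 g4
    obtain ⟨u1, u2, u3, u4, u5⟩ := up s
    have : g = eich Q a ((-(s / δ)) • b) := by
      ext v
      have hv : P (v - δ⁻¹ • (-B Q b' v • a + B Q a' v • b + B Q b v • a' - B Q a v • b')) := by
        refine ⟨?_, ?_, ?_, ?_⟩ <;>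
        · simp only [map_sub, map_add, map_smul, aa, ab, aa', ab', ba, bb, ba', bb', a'a', a'b',
            b'b', B_comm Q a' a, B_comm Q a' b, B_comm Q b' a, B_comm Q b' b, B_comm Q b' a',
            smul_eq_mul]
          field_simp
          ring
      have e1 := g5 _ hv
      have e2 := u5 _ hv
      simp only [map_sub, map_add, map_smul, g1, g2, g3, g4, u1, u2, u3, u4] at e1 e2
      linear_combination (norm := module) e1 - e2
    rw [this] at hg
    have := C.val he0 he (by rw [← ha]; simp [ab]) hg h3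
    simpa [hb, h.B_j, h4] using this
  · obtain ⟨u1, u2, u3, u4, u5⟩ := up s
    have := C.hT e ((⟨-(s / δ), k.neg_mem hs⟩ : k) • x) he (by simp [hex])
    rw [h.smul] at this
    exact ⟨_, this, by simpa using u1, by simpa using u2, by simpa using u3, by simpa using u4, u5⟩
  · refine ⟨_, hE, ?_, ?_, ?_, ?_, fun v hv => eich_apply_of_perp ?_ ?_⟩
    · rw [eich_apply hc hcd]; simp [ha', hd, add_sub_assoc]
    · simp [eich_apply_of_perp ca' da']
    · rw [eich_apply hc hcd]; simp [hb', hd, add_sub_assoc]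
    · simp [eich_apply_of_perp cb' db']
    · have e1 := hv.2.2.1
      have e2 := hv.2.2.2
      simp only [ha', hb', map_sub, map_smul, LinearMap.sub_apply, LinearMap.smul_apply,
        smul_eq_mul] at e1 e2
      apply mul_left_cancel₀ hδ0
      linear_combination B Q c b * e1 - B Q c a * e2
    · have e1 := hv.2.2.1
      have e2 := hv.2.2.2
      simp only [ha', hb', map_sub, map_smul, LinearMap.sub_apply, LinearMap.smul_apply,
        smul_eq_mul] at e1 e2
      apply mul_left_cancel₀ hδ0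
      linear_combination B Q d b * e1 - B Q d a * e2

theorem Ctx.delta_all (h2K : (2 : K) ≠ 0) (h5 : 4 ≤ Nat.card k ∨ ¬ 5 ∣ Nat.card (GL (Fin 2) K))
    {c d : V} (hc : Q c = 0) (hd : Q d = 0) (hcd : B Q c d = 0) (hE : eich Q c d ∈ M) (a b : V₀) :
    B Q c (j a) * B Q d (j b) - B Q d (j a) * B Q c (j b) ∈ k := by
  have h := C.toRS
  have hn := C.hn
  have h1 : ∀ e, Q₀ e = 0 → ∀ x, B Q₀ e x = 0 →
      B Q c (j e) * B Q d (j x) - B Q d (j e) * B Q c (j x) ∈ k := by
    intro e he
    refine sing_induction_one h.nd0 (by omega) e _ (fun x y _ _ h2 h3 => ?_)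
      (fun x hx hx0 => C.delta_mem h2K h5 he hx0 hx hc hd hcd hE)
    convert k.add_mem h2 h3 using 1
    simp only [map_add]; ring
  revert a
  refine sing_induction_top h.nd0 (by omega) _ (fun x y h2 h3 => ?_) (fun e he => ?_)
  · convert k.add_mem h2 h3 using 1
    simp only [map_add]; ring
  by_cases he0 : e = 0
  · simp [he0]
  obtain ⟨f, hf, hef⟩ := exists_partner' h.nd0 he0 he
  obtain ⟨p, q, hp, hq, hpq, k1, k2, k3, k4⟩ := exists_hyp_perp h.nd0 hn e f
  have e1 := h1 (e + p) (by rw [Q_add, he, hp, k1]; simp) (f - q)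
    (by simp [hef, k2, B_comm Q₀ p f, k3, hpq])
  have e2 := h1 (e + q) (by rw [Q_add, he, hq, k2]; simp) (f - p)
    (by simp [hef, k1, B_comm Q₀ q f, k4, B_comm Q₀ q p, hpq])
  have e3 := k.div_mem (k.add_mem (k.add_mem (k.add_mem (k.add_mem (k.add_mem e1 e2) (h1 e he p k1))
    (h1 e he q k2)) (h1 f hf p k3)) (h1 f hf q k4)) (show (2 : K) ∈ k from natCast_mem k 2)
  have e4 := k.add_mem (h1 e he (b - B Q₀ e b • f) (by simp [hef])) (k.mul_mem (B Q₀ e b).2 e3)
  convert e4 using 1
  simp only [map_add, map_sub, h.smul, map_smul, smul_eq_mul]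
  field_simp
  ring

/-- odd characteristic -/
theorem Ctx.PH_of_odd (h2K : (2 : K) ≠ 0) (h5 : 4 ≤ Nat.card k ∨ ¬ 5 ∣ Nat.card (GL (Fin 2) K))
    {g : V ≃ₗ[K] V} (hg : g ∈ M) : PH K j g := by
  have h := C.toRS
  have hn := C.hn
  obtain ⟨u, f, hu, -, huf, -⟩ := exists_hyp_perp h.nd0 hn 0 0
  obtain ⟨w₁, f₁, hw₁, -, h1, h2, h3, -⟩ := exists_hyp_perp h.nd0 hn u 0
  obtain ⟨w₂, f₂, hw₂, -, h4, h6, h7, -, h8⟩ := exists_hyp_perp h.nd0 hn u w₁
  have hu0 : u ≠ 0 := by rintro rfl; simp at huf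
  obtain ⟨c, hc, y₀, hy⟩ := h.point_of_pluecker (y := g (j u)) (z₁ := g (j w₁)) (z₂ := g (j w₂))
    (v₁ := g (j f)) (v₂ := g (j f₁)) (v₃ := g (j f₂))
    (C.delta_all h2K h5 (by simp [C.Q_g hg, hu]) (by simp [C.Q_g hg, hw₁]) (by simp [C.B_g hg, h2])
      (C.conj hg hu h2))
    (C.delta_all h2K h5 (by simp [C.Q_g hg, hu]) (by simp [C.Q_g hg, hw₂]) (by simp [C.B_g hg, h6])
      (C.conj hg hu h6))
    (by simp [C.B_g hg, huf]) (by simp [C.B_g hg, h3]) (by simp [C.B_g hg, h7])
    (by simp [C.B_g hg, h1]) (by simp [C.B_g hg, h8]) (by simp [C.B_g hg, h4])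
  exact C.PH_of_point hg hc hu0 hu hy

end Cfsg.Agent.H1
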