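import Cfsg.Agent.H1.OSub3

/-! Subfield subgroups of orthogonal groups, part 4: characteristic two, by a dihedral argument. -/

set_option autoImplicit false
set_option linter.unusedSimpArgs false
set_option linter.unusedSectionVars false
set_option linter.unusedVariables false

namespace Cfsg.Agent.H1

open Module Cfsg.Agent.Orth

theorem dihedral {G : Type*} [Group G] [Finite G] {M : Subgroup G} {i j : G} (hi : i * i = 1)
    (hj : j * j = 1) (hiM : i ∈ M) (hjM : j ∈ M) :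
    (∃ s ∈ M, s * i * s⁻¹ = j) ∨ ∃ z ∈ M, z ≠ 1 ∧ z * z = 1 ∧ z * i * z⁻¹ = i ∧
      z * j * z⁻¹ = j ∧ ∃ s ∈ M, s * i * s⁻¹ = z * i ∨ s * i * s⁻¹ = z * j := by
  have hi' : i⁻¹ = i := inv_eq_of_mul_eq_one_right hi
  have hj' : j⁻¹ = j := inv_eq_of_mul_eq_one_right hj
  set ρ := i * j with hρ
  have hρM : ρ ∈ M := M.mul_mem hiM hjM
  have h0 : j = ρ⁻¹ * i := by rw [hρ, mul_inv_rev, hi', hj', mul_assoc, hi, mul_one]
  have h1 : ∀ k : ℕ, i * (ρ ^ k)⁻¹ = ρ ^ k * i := by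
    intro k
    have : i * ρ⁻¹ * i⁻¹ = ρ := by rw [hρ, mul_inv_rev, hi', hj', mul_assoc, mul_assoc, hi, mul_one]
    calc i * (ρ ^ k)⁻¹ = (i * ρ⁻¹ * i⁻¹) ^ k * i := by rw [conj_pow, inv_pow]; group
      _ = _ := by rw [this]
  have h2 : ∀ k : ℕ, ρ ^ k * i * (ρ ^ k)⁻¹ = ρ ^ (2 * k) * i := by
    intro k
    rw [mul_assoc, h1, ← mul_assoc, ← pow_add, two_mul]
  have hN := pow_orderOf_eq_one ρ
  have hpos := orderOf_pos ρ
  rcases Nat.even_or_odd' (orderOf ρ) with ⟨k, hk | hk⟩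
  · right
    rw [hk] at hN hpos
    have hz : ρ ^ k * i * (ρ ^ k)⁻¹ = i := by rw [h2, hN, one_mul]
    refine ⟨ρ ^ k, M.pow_mem hρM k, pow_ne_one_of_lt_orderOf (by omega) (by omega),
      by rw [← pow_add, ← two_mul, hN], hz, ?_, ?_⟩
    · rw [h0]
      calc ρ ^ k * (ρ⁻¹ * i) * (ρ ^ k)⁻¹ = ρ⁻¹ * (ρ ^ k * i * (ρ ^ k)⁻¹) := by group
        _ = _ := by rw [hz]
    · rcases Nat.even_or_odd' k with ⟨l, hl | hl⟩
      · exact ⟨ρ ^ l, M.pow_mem hρM l, Or.inl (by rw [h2, hl])⟩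
      · exact ⟨ρ ^ l, M.pow_mem hρM l, Or.inr (by rw [h2, hl, h0]; group)⟩
  · left
    rw [hk] at hN
    refine ⟨ρ ^ k * i, M.mul_mem (M.pow_mem hρM k) hiM, ?_⟩
    calc ρ ^ k * i * i * (ρ ^ k * i)⁻¹ = ρ ^ k * i * (ρ ^ k)⁻¹ := by group
      _ = ρ⁻¹ * (ρ ^ (2 * k + 1)) * i := by rw [h2]; group
      _ = j := by rw [hN, mul_one, ← h0]

section Gen

variable {F V : Type*} [Field F] [AddCommGroup V] [Module F V] {Q : QuadraticForm F V}

theorem conj_apply_eq {s i i' : V ≃ₗ[F] V} (h : s * i * s⁻¹ = i') (x : V) : i' (s x) = s (i x) := by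
  rw [← h]; simp [mul_app]

theorem Q_eich_sub {u w : V} (hu : Q u = 0) (hw : B Q u w = 0) (v : V) :
    Q (eich Q u w v - v) = B Q u v * B Q u v * Q w := by
  rw [eich_apply hu hw, show ∀ a b c : V, a + b - c - a = b - c from fun a b c => by abel, Q_sub,
    Q_smul, Q_smul, hu]
  simp [B_comm Q w u, hw]

theorem sq_inj (h2 : (2 : F) = 0) {a b : F} (h : a * a = b * b) : a = b := by
  have : (a - b) ^ 2 = 0 := by linear_combination h + (b * b - a * b) * h2
  exact sub_eq_zero.1 (pow_eq_zero_iff two_ne_zero |>.1 this)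

theorem eich_sq (h2 : (2 : F) = 0) {u w : V} (hu : Q u = 0) (hw : B Q u w = 0) :
    eich Q u w * eich Q u w = 1 := by
  rw [eich_mul hu hw hw, ← two_smul F w, h2, zero_smul, eich_zero]

theorem inv_B {t : V ≃ₗ[F] V} (ht : t ∈ O Q) (htt : t * t = 1) (x y : V) :
    B Q (t x) y = B Q x (t y) := by
  rw [O_B_inv ht, inv_eq_of_mul_eq_one_right htt]

theorem inv_perp {t : V ≃ₗ[F] V} (ht : t ∈ O Q) (htt : t * t = 1) (x : V) {y : V} (hy : t y = y) :
    B Q (t x - x) y = 0 := by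
  rw [map_sub, LinearMap.sub_apply, inv_B ht htt, hy, sub_self]

theorem inv_fix (h2 : (2 : F) = 0) {t : V ≃ₗ[F] V} (htt : t * t = 1) (x : V) :
    t (t x - x) = t x - x := by
  rw [map_sub, ← mul_app, htt, one_app]
  have : (2 : F) • (x - t x) = 0 := by rw [h2, zero_smul]
  linear_combination (norm := module) this

theorem not_refl [FiniteDimensional F V] (hQ : Nd Q) (h2 : (2 : F) = 0) {A p q a b : V}
    (hA : Q A ≠ 0) (hp : Q p = 0)
    (hpq : B Q p q = 0) (hc : refl Q A * eich Q p q * (refl Q A)⁻¹ = eich Q p q) (ha : Q a = 0)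
    (hb : Q b = 0) (hab : B Q a b = 0) {s : V ≃ₗ[F] V} (hs : s ∈ O Q) :
    s * eich Q a b * s⁻¹ ≠ refl Q A * eich Q p q := by
  intro h
  obtain ⟨v, h1, h3⟩ := exists_dual_two hQ (a := A) (b := p) (by
    intro h'
    obtain ⟨c, rfl⟩ := Submodule.mem_span_singleton.1 h'
    exact hA (by rw [Q_smul, hp, mul_zero]))
  have e1 := conj_apply_eq hc v
  rw [refl_apply, refl_apply, h3, map_sub, map_smul, sub_right_inj] at e1
  have e2 := congrArg Q e1
  rw [Q_smul, Q_smul, eich_mem_O] at e2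
  have e3 : B Q A (eich Q p q v) = 1 := by
    apply sq_inj h2
    field_simp at e2
    linear_combination -e2
  have e4 := Q_eich_sub (Q := Q) (u := s a) (w := s b) (by rw [hs, ha]) (by rw [O_B hs, hab]) v
  rw [← conj_eich hs, h, hs, hb, mul_zero, mul_app, refl_apply, e3] at e4
  rw [eich_apply_of_perp_left hp hpq h1] at e3 e4
  rw [map_sub, h3, map_smul, smul_eq_mul, sub_eq_self] at e3
  rw [show ∀ a b c : V, a - b - c - a = -(b + c) from fun a b c => by abel, Q_neg, Q_add, Q_smul,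
    Q_smul, hp] at e4
  simp only [map_smul, LinearMap.smul_apply, smul_eq_mul, B_comm Q p A] at e4
  apply hA
  field_simp at e4
  have e5 : (1 : F) = 0 := by linear_combination e4 - e3
  exact absurd e5 one_ne_zero

end Gen

variable {K : Type*} [Field K] {k : Subfield K}
  {V₀ : Type*} [AddCommGroup V₀] [Module k V₀]
  {V : Type*} [AddCommGroup V] [Module K V]
variable {Q₀ : QuadraticForm k V₀} {Q : QuadraticForm K V} {j : V₀ →+ V}
  {M : Subgroup (V ≃ₗ[K] V)}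
variable [Finite K] [FiniteDimensional k V₀] [FiniteDimensional K V]

theorem exists_sqrt (h2 : (2 : K) = 0) (a : k) : ∃ b : k, b * b = a := by
  have h2k : (2 : k) = 0 := Subtype.ext h2
  exact (Finite.injective_iff_surjective (f := fun b : k => b * b)).1 (fun _ _ h => sq_inj h2k h) a

theorem mem_of_sq (h2 : (2 : K) = 0) (l : K) (h : l * l ∈ k) : l ∈ k := by
  obtain ⟨b, hb⟩ := exists_sqrt h2 (⟨_, h⟩ : k)
  rw [sq_inj h2 (a := l) (b := b) (congrArg Subtype.val hb).symm]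
  exact b.2

theorem RS.j_inj (h : RS Q₀ Q j) : Function.Injective j :=
  (injective_iff_map_eq_zero j).2 fun x hx => by_contra fun h0 => h.j_ne h0 hx

theorem RS.exists_lin (h : RS Q₀ Q j) {t : V ≃ₗ[K] V} (ht : ∀ x, ∃ y, t (j x) = j y) :
    ∃ τ : V₀ →ₗ[k] V₀, ∀ x, t (j x) - j x = j (τ x) := by
  choose f hf using ht
  refine ⟨⟨⟨fun x => f x - x, fun x y => h.j_inj ?_⟩, fun a x => h.j_inj ?_⟩, fun x => ?_⟩
  · simp only [map_sub, map_add, ← hf]; abel
  · simp only [map_sub, ← hf, h.smul, map_smul, RingHom.id_apply, smul_sub]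
  · simp [hf]

theorem RS.PH_inv (h : RS Q₀ Q j) {g : V ≃ₗ[K] V} (hg : PH K j g⁻¹) : PH K j g := by
  obtain ⟨l, hl, hg⟩ := hg
  choose f hf using hg
  have : Finite V₀ := Module.finite_of_finite k
  have hinj : Function.Injective f := fun x y hxy => by
    apply h.j_inj
    apply (g⁻¹).injective
    apply smul_right_injective V hl
    simp only [hf, hxy]
  refine ⟨l⁻¹, inv_ne_zero hl, fun y => ?_⟩
  obtain ⟨x, rfl⟩ := Finite.injective_iff_surjective.1 hinj y
  exact ⟨x, by rw [← hf, map_smul, apply_inv_apply, smul_smul, inv_mul_cancel₀ hl, one_smul]⟩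

theorem RS.ker_ge (h : RS Q₀ Q j) (h2 : (2 : K) = 0) {t : V ≃ₗ[K] V} (htt : t * t = 1)
    {τ : V₀ →ₗ[k] V₀} (hτ : ∀ x, t (j x) - j x = j (τ x)) :
    finrank k V₀ ≤ 2 * finrank k (LinearMap.ker τ) := by
  have h1 := LinearMap.finrank_range_add_finrank_ker τ
  have h3 : LinearMap.range τ ≤ LinearMap.ker τ := by
    rintro _ ⟨x, rfl⟩
    apply h.j_inj
    rw [← hτ, ← hτ, inv_fix h2 htt, sub_self, map_zero]
  have := Submodule.finrank_mono h3
  omega

variable (C : Ctx Q₀ Q j M)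
include C

theorem Ctx.optB (h2 : (2 : K) = 0) {g t : V ≃ₗ[K] V} (hg : g ∈ M) (ht : t ∈ O Q) (htt : t * t = 1)
    (ht1 : t ≠ 1) {τ τ' : V₀ →ₗ[k] V₀} (hτ : ∀ x, t (j x) - j x = j (τ x))
    (hτ' : ∀ x, t (g (j x)) - g (j x) = g (j (τ' x))) (hR : ∀ v, Q (t v - v) = 0) {w : V₀}
    (hw : τ' w = 0) (hw0 : Q₀ w ≠ 0) : PH K j g := by
  have h := C.toRS
  obtain ⟨x, hx⟩ : ∃ x, τ' x ≠ 0 := by
    by_contra! h'
    apply ht1
    have : t * g = g := h.ext_eq fun x => by rw [mul_app, ← sub_eq_zero, hτ', h']; simp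
    simpa using this
  obtain ⟨a, ha⟩ : ∃ a, τ a ≠ 0 := by
    by_contra! h'
    exact ht1 (h.ext_eq fun x => by rw [one_app, ← sub_eq_zero, hτ, h']; simp)
  have hq : ∀ x, Q₀ (τ x) = 0 := fun x => by
    have := hR (j x)
    rw [hτ, h.form] at this
    exact_mod_cast this
  have hq' : Q₀ (τ' x) = 0 := by
    have := hR (g (j x))
    rw [hτ', C.Q_g hg] at this
    exact_mod_cast this
  obtain ⟨b, -, hb⟩ := exists_partner' h.nd0 ha (hq a)
  have f1 : t (g (j w)) = g (j w) := by rw [← sub_eq_zero, hτ', hw]; simp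
  have f2 : t (g (j (τ' x))) = g (j (τ' x)) := by rw [← hτ', inv_fix h2 htt]
  have f3 : B Q₀ (τ' x) w = 0 := by
    have := inv_perp ht htt (g (j x)) f1
    rw [hτ', C.B_g hg] at this
    exact_mod_cast this
  have f4 : ∀ c v, t v = v → B Q v (j (τ c)) = 0 := fun c v hv => by
    rw [B_comm, ← hτ, inv_perp ht htt _ hv]
  have f5 : B Q₀ (τ b) a = 1 := by
    have : (B Q₀ (τ b) a : K) = B Q₀ (τ a) b := by
      rw [← h.B_j, ← h.B_j, ← hτ, ← hτ, map_sub, map_sub, LinearMap.sub_apply, LinearMap.sub_apply,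
        inv_B ht htt, B_comm Q (j b), B_comm Q (j b)]
    rw [hb] at this
    exact_mod_cast this
  have f6 : B Q₀ (τ b) b = 0 := by
    have e1 := hR (j b)
    rw [Q_sub, ht] at e1
    have : (B Q₀ (τ b) b : K) = 0 := by
      rw [← h.B_j, ← hτ, map_sub, LinearMap.sub_apply, B_self]
      linear_combination -e1
    exact_mod_cast this
  obtain ⟨y₀, hy⟩ := C.rat_of_two (mem_of_sq h2) (y := g (j (τ' x))) (z := g (j w))
    (by simp [C.Q_g hg, hq']) (by simp [C.B_g hg, f3]) (C.conj hg hq' f3) (by simp [C.Q_g hg])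
    (by simpa [C.Q_g hg] using hw0) (hq a) (e' := τ b) (fun h' => by simp [h'] at f5) (hq b) hb f6
    (f4 _ _ f2) (f4 _ _ f1) (f4 _ _ f2) (f4 _ _ f1)
  exact C.PH_of_point hg one_ne_zero hx hq' (by rw [one_smul, hy])

theorem Ctx.optC (h2 : (2 : K) = 0) {g t : V ≃ₗ[K] V} (hg : g ∈ M) (ht : t ∈ O Q) (htt : t * t = 1)
    {τ τ' : V₀ →ₗ[k] V₀} (hτ : ∀ x, t (j x) - j x = j (τ x))
    (hτ' : ∀ x, t (g (j x)) - g (j x) = g (j (τ' x))) (hC : TS Q₀ (LinearMap.ker τ))
    (hC' : TS Q₀ (LinearMap.ker τ')) : PH K j g := by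
  have h := C.toRS
  have hn := C.hn
  have d1 := h.ker_ge h2 (t := g⁻¹ * t * g) (τ := τ') (by
    calc g⁻¹ * t * g * (g⁻¹ * t * g) = g⁻¹ * (t * t) * g := by group
      _ = 1 := by rw [htt]; group) (fun x => by
    apply g.injective
    simp only [map_sub, mul_app, apply_inv_apply, hτ'])
  have d2 := h.nd0.ndOn_top.ts_finrank_le le_top hC.le_perp
  have d3 := LinearMap.finrank_range_add_finrank_ker τ
  rw [finrank_top] at d2
  obtain ⟨u, hu, hu0⟩ := exists_mem_notMem_of_finrank_lt (H := LinearMap.ker τ') (X := ⊥)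
    (by simp; omega)
  replace hu0 : u ≠ 0 := by simpa using hu0
  obtain ⟨w₁, hw₁, h1⟩ := exists_mem_notMem_of_finrank_lt (H := LinearMap.ker τ') (X := k ∙ u)
    (by have := finrank_span_singleton_le (F := k) u; omega)
  obtain ⟨w₂, hw₂, h3⟩ := exists_mem_notMem_of_finrank_lt (H := LinearMap.ker τ')
    (X := Submodule.span k {u, w₁}) (by have := finrank_span_pair_le (F := k) u w₁; omega)
  obtain ⟨f, -, k1⟩ := exists_partner' h.nd0 hu0 (hC' u hu)
  obtain ⟨f₁, k2, k3⟩ := exists_dual_two h.nd0 h1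
  obtain ⟨f₂, k4, k5, k6⟩ := exists_dual_three h.nd0 h3
  have key : ∀ w ∈ LinearMap.ker τ', ∀ a b, B Q (g (j u)) (j a) * B Q (g (j w)) (j b) -
      B Q (g (j w)) (j a) * B Q (g (j u)) (j b) ∈ k := by
    intro w hw a b
    have d4 := finrank_inf_perp_ge (Q := Q₀) (LinearMap.range τ) (Submodule.span k {a, b})
    have d5 := finrank_span_pair_le (F := k) a b
    obtain ⟨_, ⟨⟨c, rfl⟩, he⟩, he0⟩ := exists_mem_notMem_of_finrank_lt
      (H := LinearMap.range τ ⊓ perp Q₀ (Submodule.span k {a, b})) (X := ⊥) (by simp; omega)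
    replace he := mem_perp_span.1 he
    have f4 : ∀ v ∈ LinearMap.ker τ', B Q (g (j v)) (j (τ c)) = 0 := fun v hv => by
      rw [B_comm, ← hτ, inv_perp ht htt]
      rw [← sub_eq_zero, hτ', hv]; simp
    have := C.F_mem (y := g (j u)) (z := g (j w)) (by simp [C.Q_g hg, hC' u hu])
      (by simp [C.B_g hg, hC'.B_eq_zero hu hw]) (C.conj hg (hC' u hu) (hC'.B_eq_zero hu hw))
      (e := τ c) (by simpa using he0) (hC _ (h.j_inj (by
        rw [← hτ, ← hτ, inv_fix h2 htt, sub_self, map_zero]))) (f4 u hu) (f4 w hw)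
      (a := a) (b := b) (by rw [B_comm]; exact he a (by simp)) (by rw [B_comm]; exact he b (by simp))
    simpa [C.Q_g hg, hC' w hw] using this
  obtain ⟨c, hc, y₀, hy⟩ := h.point_of_pluecker (v₁ := g (j f)) (v₂ := g (j f₁)) (v₃ := g (j f₂))
    (key w₁ hw₁) (key w₂ hw₂) (by simp [C.B_g hg, k1]) (by simp [C.B_g hg, k2])
    (by simp [C.B_g hg, k4]) (by simp [C.B_g hg, k3]) (by simp [C.B_g hg, k5])
    (by simp [C.B_g hg, k6])
  exact C.PH_of_point hg hc hu0 (hC' u hu) hy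

theorem Ctx.optA (h2 : (2 : K) = 0) {g t : V ≃ₗ[K] V} (hg : g ∈ M) (ht : t ∈ O Q) (htt : t * t = 1)
    {τ τ' : V₀ →ₗ[k] V₀} (hτ : ∀ x, t (j x) - j x = j (τ x))
    (hτ' : ∀ x, t (g (j x)) - g (j x) = g (j (τ' x))) {x₀ : V₀} (hx₀ : Q₀ (τ' x₀) ≠ 0) :
    PH K j g ∨ t = refl Q (g (j (τ' x₀))) := by
  have h := C.toRS
  have hn := C.hn
  have sym : ∀ a b, B Q₀ (τ' a) b = B Q₀ (τ' b) a := fun a b => by
    have : (B Q₀ (τ' a) b : K) = B Q₀ (τ' b) a := by
      rw [← C.B_g hg, ← C.B_g hg, ← hτ', ← hτ', map_sub, map_sub, LinearMap.sub_apply,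
        LinearMap.sub_apply, inv_B ht htt, B_comm Q (g (j a)), B_comm Q (g (j a))]
    exact_mod_cast this
  have iso : ∀ a b, B Q₀ (τ' a) (τ' b) = 0 := fun a b => by
    have : (B Q₀ (τ' a) (τ' b) : K) = 0 := by
      rw [← C.B_g hg, ← hτ', ← hτ', inv_perp ht htt _ (inv_fix h2 htt _)]
    exact_mod_cast this
  have f1 : B Q₀ (τ' x₀) x₀ = Q₀ (τ' x₀) := by
    have : (B Q₀ (τ' x₀) x₀ : K) = Q₀ (τ' x₀) := by
      rw [← C.B_g hg, ← C.Q_g hg, ← hτ', Q_sub, map_sub, LinearMap.sub_apply, B_self, ht]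
      linear_combination (B Q (t (g (j x₀))) (g (j x₀)) - 2 * Q (g (j x₀))) * h2
    exact_mod_cast this
  by_cases h1 : ∀ v, B Q₀ (τ' x₀) v = 0 → τ' v = 0
  · right
    have : t * g = refl Q (g (j (τ' x₀))) * g := h.ext_eq fun x => by
      have e1 := h1 (x - ((Q₀ (τ' x₀))⁻¹ * B Q₀ (τ' x₀) x) • x₀) (by
        simp only [map_sub, map_smul, f1, smul_eq_mul]; field_simp; ring)
      rw [map_sub, map_smul, sub_eq_zero] at e1
      have e2 := hτ' x
      rw [e1, h.smul, map_smul] at e2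
      rw [mul_app, mul_app, refl_apply, C.B_g hg, C.Q_g hg]
      push_cast at e2
      have : (2 : K) • (((Q₀ (τ' x₀) : K)⁻¹ * B Q₀ (τ' x₀) x) • g (j (τ' x₀))) = 0 := by
        rw [h2, zero_smul]
      linear_combination (norm := module) e2 + this
    simpa using this
  left
  push Not at h1
  obtain ⟨v, h1, h3⟩ := h1
  obtain ⟨μ, hμ⟩ := exists_sqrt h2 (Q₀ (τ' v) / Q₀ (τ' x₀))
  have h2k : (2 : k) = 0 := Subtype.ext h2
  have hu : Q₀ (τ' (v + μ • x₀)) = 0 := by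
    rw [map_add, map_smul, Q_add, Q_smul, hμ, map_smul, iso]
    field_simp
    linear_combination (Q₀ (τ' v)) * h2k
  have hu0 : τ' (v + μ • x₀) ≠ 0 := by
    intro h'
    have e1 := congrArg (fun y => B Q₀ y x₀) h'
    simp only [map_add, map_smul, LinearMap.add_apply, LinearMap.smul_apply, sym v x₀, h1, f1,
      smul_eq_mul, map_zero, LinearMap.zero_apply, zero_add, mul_eq_zero, hx₀, or_false] at e1
    simp [e1, h3] at h'
  have d1 := h.ker_ge h2 htt hτ
  obtain ⟨e, he1, he0, he⟩ := exists_sing_of_three (Q := Q₀) (LinearMap.ker τ) (by omega)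
  obtain ⟨f, -, hef⟩ := exists_partner' h.nd0 he0 he
  have d2 := finrank_inf_perp_ge (Q := Q₀) (LinearMap.ker τ) (k ∙ f)
  have d3 := finrank_span_singleton_le (F := k) f
  obtain ⟨e', ⟨he'1, he'2⟩, he'0, he'⟩ := exists_sing_of_three (Q := Q₀)
    (LinearMap.ker τ ⊓ perp Q₀ (k ∙ f)) (by omega)
  have f4 : ∀ c, ∀ v ∈ LinearMap.ker τ, B Q (g (j (τ' c))) (j v) = 0 := fun c v hv => by
    rw [← hτ', inv_perp ht htt]
    rw [← sub_eq_zero, hτ, hv]; simp
  obtain ⟨y₀, hy⟩ := C.rat_of_two (mem_of_sq h2) (y := g (j (τ' (v + μ • x₀))))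
    (z := g (j (τ' x₀))) (by rw [C.Q_g hg, hu]; simp) (by rw [C.B_g hg, iso]; simp)
    (C.conj hg hu (iso _ _)) (by simp [C.Q_g hg]) (by simpa [C.Q_g hg] using hx₀) he he'0 he' hef
    (by rw [B_comm]; exact mem_perp_span_singleton.1 he'2) (f4 _ _ he1) (f4 _ _ he1) (f4 _ _ he'1)
    (f4 _ _ he'1)
  exact C.PH_of_point hg one_ne_zero hu0 hu (by rw [one_smul, hy])

/-- characteristic two -/
theorem Ctx.PH_of_char_two (h2 : (2 : K) = 0) {g : V ≃ₗ[K] V} (hg : g ∈ M) : PH K j g := by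
  have h := C.toRS
  have hn := C.hn
  have : Finite V := Module.finite_of_finite K
  have : Finite (V ≃ₗ[K] V) :=
    Finite.of_injective (fun g : V ≃ₗ[K] V => (g : V → V)) DFunLike.coe_injective
  obtain ⟨e, f, he, hf, hef, -⟩ := exists_hyp_perp h.nd0 hn 0 0
  obtain ⟨x, x', hx, -, hxx, h1, h3, h4, -⟩ := exists_hyp_perp h.nd0 hn e f
  obtain ⟨p, q, hp, hq, hpq, k1, k2, k3, k4⟩ := exists_hyp_perp h.nd0 hn e x
  have he0 : e ≠ 0 := by rintro rfl; simp at hef
  have hx0 : x ≠ 0 := by rintro rfl; simp at hxx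
  have hw : Q₀ (p + q) = 1 := by rw [Q_add, hp, hq, hpq]; simp
  have hew : B Q₀ e (p + q) = 0 := by simp [k1, k2]
  have hxw : B Q₀ x (p + q) = 0 := by simp [k3, k4]
  have qe : Q (j e) = 0 := by simp [h.form, he]
  have qx : Q (j x) = 0 := by simp [h.form, hx]
  have bex : B Q (j e) (j x) = 0 := by simp [h.B_j, h1]
  have bew : B Q (j e) (j (p + q)) = 0 := by rw [h.B_j, hew]; simp
  have qge : Q (g (j e)) = 0 := by simp [C.Q_g hg, he]
  have bgew : B Q (g (j e)) (g (j (p + q))) = 0 := by rw [C.B_g hg, hew]; simp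
  rcases dihedral (eich_sq h2 qe bex) (eich_sq h2 qge bgew) (C.hT e x he h1) (C.conj hg he hew) with
    ⟨s, hs, hs'⟩ | ⟨t, htM, ht1, htt, c1, c2, s, hs, hs'⟩
  · exfalso
    have e1 := Q_eich_sub (Q := Q) (u := s (j e)) (w := s (j x)) (by rw [C.hM hs, qe])
      (by rw [O_B (C.hM hs), bex]) (g (j f))
    rw [← conj_eich (C.hM hs), hs', Q_eich_sub qge bgew, C.B_g hg, C.Q_g hg, C.hM hs, qx, hef,
      hw] at e1
    simp at e1
  have ht := C.hM htM
  have fix : ∀ v, B Q₀ e v = 0 → B Q₀ x v = 0 →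
      B Q (t (j v)) (j e) = 0 ∧ B Q (t (j v)) (j x) = 0 := by
    intro v hv1 hv2
    have e1 := conj_apply_eq c1 (j v)
    rw [eich_apply_of_perp (x := j v) (by simp [h.B_j, hv1]) (by simp [h.B_j, hv2]),
      eich_apply qe bex, add_sub_assoc, add_eq_left] at e1
    have e2 := congrArg (B Q (j x')) e1
    have e3 := congrArg (B Q (j f)) e1
    simp only [map_sub, map_smul, h.B_j, B_comm Q₀ x' x, hxx, B_comm Q₀ x' e, h3, B_comm Q₀ f e,
      hef, h4, qx, smul_eq_mul, map_zero] at e2 e3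
    rw [B_comm, B_comm Q (t (j v))]
    exact ⟨by simpa using e2, by simpa using e3⟩
  obtain ⟨y₀, hy⟩ := C.rat_of_two (mem_of_sq h2) (y := t (j e)) (z := t (j (p + q)))
    (by rw [ht, qe]) (by rw [O_B ht, bew]) (C.conj htM he hew) (by rw [C.Q_g htM]; simp)
    (by rw [C.Q_g htM, hw]; simp) he hx0 hx hef (by rw [B_comm, h4])
    (fix e (B_self_of_sing Q₀ he) (by rw [B_comm, h1])).1 (fix _ hew hxw).1
    (fix e (B_self_of_sing Q₀ he) (by rw [B_comm, h1])).2 (fix _ hew hxw).2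
  obtain ⟨τ, hτ⟩ := h.exists_lin (t := t) fun a => by
    simpa using C.rat_of_point htM one_ne_zero he0 he (y₀ := y₀) (by rw [one_smul, hy]) a
  have ht'M : g⁻¹ * t * g ∈ M := mul_mem (mul_mem (inv_mem hg) htM) hg
  have ht't' : g⁻¹ * t * g * (g⁻¹ * t * g) = 1 := by
    calc g⁻¹ * t * g * (g⁻¹ * t * g) = g⁻¹ * (t * t) * g := by group
      _ = 1 := by rw [htt]; group
  have hte : t (g (j e)) = g (j e) := by
    have e1 := conj_apply_eq c2 (g (j p))
    rw [eich_apply_of_perp_left (x := g (j p)) qge bgew (by simp [C.B_g hg, k1]), C.B_g hg] at e1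
    simp only [map_add (B Q₀), LinearMap.add_apply, B_self_of_sing Q₀ hp, B_comm Q₀ q p, hpq,
      zero_add, Subfield.coe_one, one_smul, map_sub] at e1
    have e2 := Q_eich_sub qge bgew (t (g (j p)))
    rw [e1, sub_sub_cancel_left, Q_neg, ht, qge, C.Q_g hg, hw] at e2
    have e3 : B Q (g (j e)) (t (g (j p))) = 0 := by simpa using e2.symm
    rw [eich_apply_of_perp_left qge bgew e3, sub_right_inj] at e1
    have e4 := congrArg t e1
    rw [map_smul, ← mul_app t t, htt, one_app, ← e1, smul_smul] at e4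
    have e5 : g (j e) ≠ 0 := by simpa using h.j_ne he0
    have e6 := smul_left_injective K e5 (e4.trans (one_smul K _).symm)
    rw [← e1, sq_inj h2 (e6.trans (mul_one 1).symm), one_smul]
  obtain ⟨τ', hτ'⟩ := h.exists_lin (t := g⁻¹ * t * g) fun a => by
    simpa using C.rat_of_point ht'M one_ne_zero he0 he (y₀ := e) (by simp [mul_app, hte]) a
  have hτ'' : ∀ x, t (g (j x)) - g (j x) = g (j (τ' x)) := fun x => by
    rw [← hτ']; simp [mul_app]
  by_cases hA : ∃ x₀, Q₀ (τ' x₀) ≠ 0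
  · obtain ⟨x₀, hx₀⟩ := hA
    rcases C.optA h2 hg ht htt hτ hτ'' hx₀ with h5 | h5
    · exact h5
    exfalso
    have h6 : Q (g (j (τ' x₀))) ≠ 0 := by simpa [C.Q_g hg] using hx₀
    rw [h5] at c1 c2 hs'
    rcases hs' with hs' | hs'
    · exact not_refl h.nd h2 h6 qe bex c1 qe qx bex (C.hM hs) hs'
    · exact not_refl h.nd h2 h6 qge bgew c2 qe qx bex (C.hM hs) hs'
  push Not at hA
  have hR : ∀ v, Q (t (g v) - g v) = 0 := by
    let Y : Submodule K V :=
      { carrier := {v | Q (t (g v) - g v) = 0}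
        add_mem' := fun {a b} ha hb => by
          have e1 : t (g (a + b)) - g (a + b) = (t (g a) - g a) + (t (g b) - g b) := by
            simp only [map_add]; abel
          rw [Set.mem_ofPred_eq, e1, Q_add, ha, hb, inv_perp ht htt _ (inv_fix h2 htt _)]
          simp
        zero_mem' := by simp
        smul_mem' := fun c a ha => by
          rw [Set.mem_ofPred_eq, map_smul, map_smul, ← smul_sub, Q_smul, ha, mul_zero] }
    have : Submodule.span K (Set.range j) ≤ Y := Submodule.span_le.2 (by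
      rintro _ ⟨x, rfl⟩
      change Q _ = 0
      rw [hτ'', C.Q_g hg, hA]; simp)
    exact fun v => this (h.span ▸ trivial)
  by_cases hB : TS Q₀ (LinearMap.ker τ')
  swap
  · simp only [TS, not_forall] at hB
    obtain ⟨w, hw, hw0⟩ := hB
    exact C.optB h2 hg ht htt ht1 hτ hτ'' (fun v => by simpa using hR (g⁻¹ v)) hw hw0
  by_cases hB' : TS Q₀ (LinearMap.ker τ)
  · exact C.optC h2 hg ht htt hτ hτ'' hB' hB
  simp only [TS, not_forall] at hB'
  obtain ⟨w, hw, hw0⟩ := hB'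
  refine h.PH_inv (C.optB h2 (inv_mem hg) (C.hM ht'M) ht't' (fun h' => ht1 ?_) hτ' (τ' := τ)
    (fun x => by simp [mul_app, ← hτ]) (fun v => ?_) hw hw0)
  · calc t = g * (g⁻¹ * t * g) * g⁻¹ := by group
      _ = 1 := by rw [h']; group
  · rw [← C.hM hg, map_sub, mul_app, mul_app, apply_inv_apply, hR]

end Cfsg.Agent.H1
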