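import Cfsg.Agent.H1.OSub4
import Cfsg.Agent.H1.FrameMain
import Cfsg.Agent.H7.AschSubfield

/-! Subfield subgroups of orthogonal groups, part 5: maximality. -/

set_option autoImplicit false
set_option linter.unusedSimpArgs false
set_option linter.unusedSectionVars false
set_option linter.unusedVariables false

namespace Cfsg.Agent.H1

open Module Cfsg.Agent.Orth

section Core

variable {K : Type*} [Field K] {k : Subfield K}
  {V₀ : Type*} [AddCommGroup V₀] [Module k V₀]
  {V : Type*} [AddCommGroup V] [Module K V]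
variable {Q₀ : QuadraticForm k V₀} {Q : QuadraticForm K V} {j : V₀ →+ V}
  {M : Subgroup (V ≃ₗ[K] V)}
variable [Finite K] [FiniteDimensional k V₀] [FiniteDimensional K V]

theorem not_five_dvd (hr : Odd (finrank k K)) (hk : Nat.card k < 4) :
    ¬ 5 ∣ Nat.card (GL (Fin 2) K) := by
  have := Fintype.ofFinite K
  have h1 := Module.natCard_eq_pow_finrank (K := k) (V := K)
  have h2 : 1 < Nat.card k := Finite.one_lt_card
  have h3 : ((Fintype.card K : ℕ) : ZMod 5) ^ 2 = -1 := by
    rw [← Nat.card_eq_fintype_card, h1, Nat.cast_pow, ← pow_mul, mul_comm, pow_mul]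
    have : ((Nat.card k : ℕ) : ZMod 5) ^ 2 = -1 := by
      obtain h | h : Nat.card k = 2 ∨ Nat.card k = 3 := by omega
      all_goals rw [h]; decide
    rw [this, hr.neg_one_pow]
  rw [Matrix.card_GL_field, Fin.prod_univ_two, ← ZMod.natCast_eq_zero_iff]
  have h4 : 1 ≤ Fintype.card K := Fintype.card_pos
  simp only [Fin.val_zero, pow_zero, Fin.val_one, pow_one, Nat.cast_mul]
  rw [Nat.cast_sub (Nat.one_le_pow _ _ h4), Nat.cast_sub (by nlinarith), Nat.cast_pow, Nat.cast_one]
  generalize ((Fintype.card K : ℕ) : ZMod 5) = q at *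
  revert q
  decide

/-- A subgroup of the orthogonal group containing the rational Eichler transformations either
preserves the rational structure up to scalars or contains `Ω`. -/
theorem RS.core (h : RS Q₀ Q j) (hr : (finrank k K).Prime) (hn : 7 ≤ finrank k V₀)
    (hd : 5 ≤ finrank K V) (hM : M ≤ O Q)
    (hT : ∀ e w, Q₀ e = 0 → B Q₀ e w = 0 → eich Q (j e) (j w) ∈ M) :
    (∀ g ∈ M, PH K j g) ∨ EO Q ≤ M := by
  by_cases hE : EO Q ≤ M
  · exact Or.inr hE
  left
  have C : Ctx Q₀ Q j M := ⟨h, hM, hT, hn, fun l hl => h.lam_rat hM hT hn hr hE hd hl⟩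
  intro g hg
  by_cases h2 : (2 : K) = 0
  · exact C.PH_of_char_two h2 hg
  rcases hr.eq_two_or_odd' with h3 | h3
  · exact C.PH_of_two h2 h3 hg
  refine C.PH_of_odd h2 ?_ hg
  by_cases h4 : 4 ≤ Nat.card k
  · exact Or.inl h4
  · exact Or.inr (not_five_dvd h3 (by omega))

theorem RS.proper (h : RS Q₀ Q j) (hr : (finrank k K).Prime) (hn : 7 ≤ finrank k V₀) :
    ∃ g ∈ EO Q, ¬ PH K j g := by
  obtain ⟨c, hc⟩ : ∃ c : K, c ∉ (⊥ : Subalgebra k K) := by
    by_contra! h'
    have : (⊥ : Subalgebra k K) = ⊤ := eq_top_iff.2 fun c _ => h' c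
    exact hr.one_lt.ne' (Subalgebra.bot_eq_top_iff_finrank_eq_one.1 this)
  obtain ⟨e, f, he, hf, hef, -⟩ := exists_hyp_perp h.nd0 hn 0 0
  obtain ⟨x, x', hx, -, hxx, h1, h3, h4, h5⟩ := exists_hyp_perp h.nd0 hn e f
  refine ⟨eich Q (j e) (c • j x), eich_mem_EO _ _, ?_⟩
  rintro ⟨l, hl, h'⟩
  obtain ⟨y, hy⟩ := h' f
  rw [eich_apply (by simp [h.form, he]) (by simp [h.B_j, h1])] at hy
  have e1 := congrArg (B Q (j e)) hy
  have e2 := congrArg (B Q (j x')) hy
  simp only [map_add, map_sub, map_smul, h.B_j, hef, h1, B_self_of_sing Q₀ he, B_comm Q₀ x' f, h5,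
    B_comm Q₀ x' x, hxx, B_comm Q₀ x' e, h3, smul_eq_mul] at e1 e2
  push_cast at e1 e2
  apply hc
  rw [Algebra.mem_bot]
  refine ⟨B Q₀ x' y / B Q₀ e y, ?_⟩
  change ((B Q₀ x' y / B Q₀ e y : k) : K) = c
  push_cast
  rw [← e1, ← e2]; field_simp; ring

end Core

open Matrix Cfsg.Geo

theorem subfield_maximal {ι : Type} [Fintype ι] [DecidableEq ι] {F : Type*} [Field F] [Fintype F]
    {Q : (ι → F) → F} (hQ : IsNondegenerateQuadraticForm Q) (hn : 7 ≤ Fintype.card ι)
    (F₀ : Subfield F) (r : ℕ) (hr : r.Prime)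
    (hcard : Fintype.card F = Nat.card F₀ ^ r) (P : GL ι F) (ζ : F) (hζ : ζ ≠ 0)
    (hP : IsQuadFormRationalStructure (fun v => ζ * Q v) F₀ P) :
    IsMaximalIn (omegaGL Q) (subfieldSubgroup F₀ P ⊓ omegaGL Q) := by
  have : Nonempty ι := Fintype.card_pos_iff.1 (by omega)
  have hr' : finrank F₀ F = r := by
    have h1 := Module.natCard_eq_pow_finrank (K := F₀) (V := F)
    rw [Nat.card_eq_fintype_card, hcard] at h1
    exact (Nat.pow_right_injective (Finite.one_lt_card (α := F₀)) h1).symm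
  let j : (ι → F₀) →+ (ι → F) :=
    { toFun := fun x => (P : Matrix _ _ F) *ᵥ fun i => (x i : F)
      map_add' := fun x y => by rw [← Matrix.mulVec_add]; rfl
      map_zero' := Matrix.mulVec_zero _ }
  have hj : ∀ x, j x = (P : Matrix _ _ F) *ᵥ fun i => (x i : F) := fun _ => rfl
  have hsm : ∀ (a : F₀) x, j (a • x) = (a : F) • j x := fun a x => by
    rw [hj, hj, ← Matrix.mulVec_smul]; rfl
  let Q' := ζ • toQF hQ
  let Q₀ : QuadraticForm F₀ (ι → F₀) := QuadraticMap.ofPolar
    (fun x => ⟨Q' (j x), hP _ fun i => (x i).2⟩)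
    (fun a x => Subtype.ext (by simp only [hsm, Q_smul]; rfl))
    (fun x x' y => Subtype.ext (by
      have := QuadraticMap.polar_add_left Q' (j x) (j x') (j y)
      simpa [QuadraticMap.polar] using this))
    (fun a x y => Subtype.ext (by
      have := QuadraticMap.polar_smul_left Q' (a : F) (j x) (j y)
      simpa [QuadraticMap.polar, hsm] using this))
  have hnd : Nd Q' := Nd_scale hζ (nd_toQF hQ)
  have hspan : Submodule.span F (Set.range j) = ⊤ := by
    rw [eq_top_iff]
    intro v _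
    obtain ⟨v, rfl⟩ := (phi P).surjective v
    rw [pi_eq_sum_univ v, map_sum]
    refine Submodule.sum_mem _ fun i _ => ?_
    rw [map_smul]
    refine Submodule.smul_mem _ _ (Submodule.subset_span ⟨fun l => if i = l then 1 else 0, ?_⟩)
    rw [hj, phi_apply]
    congr 1
    ext l; split_ifs <;> rfl
  have hB : ∀ x y, B Q' (j x) (j y) = (B Q₀ x y : F) := fun x y => by
    simp only [B_eq_polar, QuadraticMap.polar, ← map_add]
    rfl
  have hRS : RS Q₀ Q' j := ⟨fun z hz => by
    have : j z = 0 := hnd _ fun x => by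
      have : Submodule.span F (Set.range j) ≤ LinearMap.ker (B Q' (j z)) :=
        Submodule.span_le.2 (by
          rintro _ ⟨y, rfl⟩
          rw [SetLike.mem_coe, LinearMap.mem_ker, B_comm, hB, hz]; rfl)
      rw [B_comm]
      exact this (hspan ▸ trivial)
    have h2 : (fun i => (z i : F)) = 0 := (phi P).injective (by rw [map_zero]; exact this)
    ext i; exact congrFun h2 i, hnd, hsm, fun _ => rfl, hspan⟩
  have hn' : 7 ≤ finrank F₀ (ι → F₀) := by simpa using hn
  have hEO : EO Q' = EO (toQF hQ) := EO_scale hζ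
  refine isMaximalIn_of hQ (by omega) _ (PH F j) (fun g _ => ?_)
    (hEO ▸ hRS.proper (hr' ▸ hr) hn') fun M hM h1 => ?_
  · rw [H7.mem_subfieldSubgroup_iff]
    have key : ∀ (c : F) (x : ι → F₀), c • phi g (j x) =
        (P : Matrix _ _ F) *ᵥ ((c • H7.cj P⁻¹ g) *ᵥ fun i => (x i : F)) := by
      intro c x
      rw [hj, phi_apply, Matrix.smul_mulVec, Matrix.mulVec_smul, H7.cj_apply, inv_inv]
      simp only [Matrix.mulVec_mulVec, ← mul_assoc, Units.mul_inv, one_mul]
    refine exists_congr fun c => and_congr_right fun hc => ⟨fun h x => ?_, fun h a b => ?_⟩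
    · refine ⟨fun a => ⟨((c • H7.cj P⁻¹ g) *ᵥ fun i => (x i : F)) a, ?_⟩, key c x⟩
      change ∑ b, c * H7.cj P⁻¹ g a b * (x b : F) ∈ F₀
      exact F₀.sum_mem fun b _ => F₀.mul_mem (h a b) (x b).2
    · obtain ⟨y, hy⟩ := h (Pi.single b 1)
      rw [key, hj] at hy
      have h2 : ((c • H7.cj P⁻¹ g) *ᵥ fun i => ((Pi.single b (1 : F₀) : ι → F₀) i : F)) =
          fun i => (y i : F) := (phi P).injective hy
      have h3 : (fun i => ((Pi.single b (1 : F₀) : ι → F₀) i : F)) = Pi.single b 1 := by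
        ext i; by_cases hi : i = b <;> simp [hi]
      rw [h3, Matrix.mulVec_single_one] at h2
      have h4 : c * H7.cj P⁻¹ g a b = y a := congrFun h2 a
      rw [h4]; exact (y a).2
  · rw [← hEO] at hM h1 ⊢
    exact hRS.core (hr' ▸ hr) hn' (by simp; omega) (hM.trans EO_le_O) fun e w he hw =>
      h1 _ (eich_mem_EO _ _) ⟨1, one_ne_zero, fun x => ⟨_, by rw [one_smul, hRS.eich_j he hw]⟩⟩

end Cfsg.Agent.H1
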