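import Mathlib

/-! Polynomial functions on `ZMod p` with values in a field of characteristic `p`. -/

set_option autoImplicit false

namespace Cfsg.Agent.H1

open Polynomial

variable {p : ℕ} [Fact p.Prime] {K : Type*} [Field K] [CharP K p]

theorem zcast_injective : Function.Injective (fun j : ZMod p => (ZMod.cast j : K)) :=
  (ZMod.castHom (dvd_refl p) K).injective

theorem poly_eq_of_eval_eq {P Q : K[X]} (hP : P.degree < p) (hQ : Q.degree < p)
    (h : ∀ j : ZMod p, P.eval (ZMod.cast j : K) = Q.eval (ZMod.cast j : K)) : P = Q := by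
  apply Polynomial.eq_of_degrees_lt_of_eval_index_eq (Finset.univ : Finset (ZMod p))
    (v := fun j : ZMod p => (ZMod.cast j : K)) zcast_injective.injOn
  · rwa [Finset.card_univ, ZMod.card]
  · rwa [Finset.card_univ, ZMod.card]
  · exact fun j _ => h j

theorem exists_poly_eval_eq (f : ZMod p → K) :
    ∃ P : K[X], P.degree < p ∧ ∀ j : ZMod p, f j = P.eval (ZMod.cast j : K) := by
  classical
  refine ⟨Lagrange.interpolate Finset.univ (fun j : ZMod p => (ZMod.cast j : K)) f, ?_, ?_⟩
  · have := Lagrange.degree_interpolate_lt (s := (Finset.univ : Finset (ZMod p)))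
      (v := fun j : ZMod p => (ZMod.cast j : K)) f zcast_injective.injOn
    rwa [Finset.card_univ, ZMod.card] at this
  · intro j
    exact (Lagrange.eval_interpolate_at_node (s := (Finset.univ : Finset (ZMod p)))
      (v := fun j : ZMod p => (ZMod.cast j : K)) f zcast_injective.injOn (Finset.mem_univ j)).symm

omit [Fact p.Prime] in
theorem natDegree_taylor_sub {P : K[X]} {d : ℕ} (hd : P.natDegree = d + 1) (hdp : d + 1 < p) :
    taylor (-1) P - P ≠ 0 ∧ (taylor (-1) P - P).natDegree = d := by
  have hP0 : P ≠ 0 := by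
    rintro rfl
    simp at hd
  have hc : (taylor (-1) P - P).coeff d ≠ 0 := by
    rw [coeff_sub, taylor_coeff]
    have h1 : (hasseDeriv d P).natDegree ≤ 1 := by
      have := natDegree_hasseDeriv_le P d
      omega
    rw [eq_X_add_C_of_natDegree_le_one h1, hasseDeriv_coeff, hasseDeriv_coeff]
    have h2 : P.coeff (1 + d) ≠ 0 := by
      rw [add_comm, ← hd]
      exact mt leadingCoeff_eq_zero.1 hP0
    have h3 : ((1 + d : ℕ) : K) ≠ 0 := by
      rw [Ne, CharP.cast_eq_zero_iff K p]
      exact Nat.not_dvd_of_pos_of_lt (by omega) (by omega)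
    have h4 : (1 + d).choose d = 1 + d := by
      rw [add_comm]; exact Nat.choose_succ_self_right d
    rw [h4]
    simp only [eval_add, eval_mul, eval_C, eval_X, zero_add, Nat.choose_self, Nat.cast_one, one_mul,
      add_sub_cancel_right]
    simp only [mul_neg, mul_one, ne_eq, neg_eq_zero, mul_eq_zero, not_or]
    exact ⟨h3, h2⟩
  have hlt : (taylor (-1) P - P).degree < P.degree := by
    rw [← degree_taylor P (-1)]
    exact degree_sub_lt_left (degree_taylor P (-1)) (mt (taylor_eq_zero _ _).1 hP0)
      (leadingCoeff_taylor _ _)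
  have hne : taylor (-1) P - P ≠ 0 := by
    intro h
    rw [h] at hc
    exact hc (coeff_zero _)
  refine ⟨hne, le_antisymm ?_ (le_natDegree_of_ne_zero hc)⟩
  have := natDegree_lt_natDegree hne hlt
  omega

/-- Translation invariant spaces of functions on `ZMod p`. -/
theorem translation_invariant_classify (W : Submodule K (ZMod p → K))
    (hW : ∀ f ∈ W, (fun j => f (j - 1)) ∈ W) :
    ∃ r : ℕ, r ≤ p ∧ Module.finrank K W = r ∧ ∀ f : ZMod p → K, f ∈ W ↔
      ∃ P : Polynomial K, P.degree < r ∧ ∀ j : ZMod p, f j = P.eval (ZMod.cast j : K) := by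
  classical
  let ev : K[X] →ₗ[K] (ZMod p → K) :=
    { toFun := fun P j => P.eval (ZMod.cast j : K)
      map_add' := fun P Q => by funext j; simp
      map_smul' := fun c P => by funext j; simp }
  have hev : ∀ P j, ev P j = P.eval (ZMod.cast j : K) := fun _ _ => rfl
  have hex : ∃ n : ℕ, ∀ P : K[X], P.degree < p → ev P ∈ W → P.degree < n :=
    ⟨p, fun P h _ => h⟩
  set r := Nat.find hex with hr
  have hr1 : ∀ P : K[X], P.degree < p → ev P ∈ W → P.degree < r := Nat.find_spec hex
  have hrp : r ≤ p := Nat.find_min' hex (fun P h _ => h)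
  have claim1 : ∀ n : ℕ, n < p → ∀ P : K[X], ev P ∈ W → P ≠ 0 → P.natDegree = n →
      ∀ d ≤ n, ∃ Q : K[X], ev Q ∈ W ∧ Q ≠ 0 ∧ Q.natDegree = d := by
    intro n
    induction n with
    | zero =>
      intro _ P h1 h2 h3 d hd
      exact ⟨P, h1, h2, by omega⟩
    | succ n ih =>
      intro hn P h1 h2 h3 d hd
      rcases Nat.eq_or_lt_of_le hd with h | h
      · exact ⟨P, h1, h2, by omega⟩
      · obtain ⟨h4, h5⟩ := natDegree_taylor_sub h3 hn
        refine ih (by omega) _ ?_ h4 h5 d (by omega)
        rw [map_sub]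
        refine W.sub_mem ?_ h1
        have : ev (taylor (-1) P) = fun j => ev P (j - 1) := by
          funext j
          rw [hev, hev, taylor_eval, ZMod.cast_sub (dvd_refl p), ZMod.cast_one (dvd_refl p),
            sub_eq_add_neg]
        rw [this]
        exact hW _ h1
  have claim2 : ∀ d < r, ∃ Q : K[X], ev Q ∈ W ∧ Q ≠ 0 ∧ Q.natDegree = d := by
    intro d hd
    have h1 := Nat.find_min hex hd
    push Not at h1
    obtain ⟨P, h1, h2, h3⟩ := h1
    have hP0 : P ≠ 0 := by
      rintro rfl
      simp at h3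
    rw [degree_eq_natDegree hP0] at h1 h3
    exact claim1 _ (by exact_mod_cast h1) P h2 hP0 rfl d (by exact_mod_cast h3)
  have claim3 : ∀ n ≤ r, ∀ P : K[X], P.degree < n → ev P ∈ W := by
    intro n
    induction n with
    | zero =>
      intro _ P hP
      have : P = 0 := by
        rw [← degree_eq_bot]
        simpa using hP
      rw [this, map_zero]
      exact W.zero_mem
    | succ n ih =>
      intro hn P hP
      obtain ⟨Q, h1, h2, h3⟩ := claim2 n (by omega)
      have h4 : (P - (P.coeff n / Q.coeff n) • Q).degree < n := by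
        rw [degree_lt_iff_coeff_zero]
        intro m hm
        have hQn : Q.coeff n ≠ 0 := by
          rw [← h3]; exact mt leadingCoeff_eq_zero.1 h2
        rcases Nat.eq_or_lt_of_le hm with h | h
        · subst h
          simp [hQn]
        · have h5 : P.coeff m = 0 := (degree_lt_iff_coeff_zero P (n + 1)).1 hP m h
          have h6 : Q.coeff m = 0 := coeff_eq_zero_of_natDegree_lt (by omega)
          simp [h5, h6]
      have h5 := ih (by omega) _ h4
      have h6 : ev P = ev (P - (P.coeff n / Q.coeff n) • Q) + (P.coeff n / Q.coeff n) • ev Q := by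
        rw [map_sub, map_smul, sub_add_cancel]
      rw [h6]
      exact W.add_mem h5 (W.smul_mem _ h1)
  have hiff : ∀ f : ZMod p → K, f ∈ W ↔
      ∃ P : Polynomial K, P.degree < r ∧ ∀ j : ZMod p, f j = P.eval (ZMod.cast j : K) := by
    intro f
    constructor
    · intro hf
      obtain ⟨P, h1, h2⟩ := exists_poly_eval_eq f
      have : ev P = f := funext fun j => (h2 j).symm
      exact ⟨P, hr1 P h1 (this ▸ hf), h2⟩
    · rintro ⟨P, h1, h2⟩
      have : ev P = f := funext fun j => (h2 j).symm
      exact this ▸ claim3 r le_rfl P h1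
  refine ⟨r, hrp, ?_, hiff⟩
  have hrange : LinearMap.range (ev ∘ₗ (degreeLT K r).subtype) = W := by
    ext f
    rw [hiff]
    constructor
    · rintro ⟨⟨P, hP⟩, rfl⟩
      exact ⟨P, mem_degreeLT.1 hP, fun j => rfl⟩
    · rintro ⟨P, h1, h2⟩
      exact ⟨⟨P, mem_degreeLT.2 h1⟩, funext fun j => (h2 j).symm⟩
  have hinj : Function.Injective (ev ∘ₗ (degreeLT K r).subtype) := by
    rintro ⟨P, hP⟩ ⟨Q, hQ⟩ h
    have hrp' : (r : WithBot ℕ) ≤ p := by exact_mod_cast hrp
    exact Subtype.ext (poly_eq_of_eval_eq ((mem_degreeLT.1 hP).trans_le hrp')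
      ((mem_degreeLT.1 hQ).trans_le hrp') (fun j => congrFun h j))
  rw [← hrange, LinearMap.finrank_range_of_inj hinj, (degreeLTEquiv K r).finrank_eq]
  simp

/-- A map of `ZMod p` preserving (under composition) the polynomial functions of degree `≤ d`,
where `1 ≤ d` and `2 d < p`, is affine. -/
theorem affine_of_preserves {d : ℕ} (hd : 1 ≤ d) (hdp : 2 * d < p) (γ : ZMod p → ZMod p)
    (hγ : ∀ k ≤ d, ∃ P : K[X], P.degree < (d + 1 : ℕ) ∧
      ∀ j : ZMod p, (ZMod.cast (γ j) : K) ^ k = P.eval (ZMod.cast j : K)) :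
    ∀ j, γ j = (γ 1 - γ 0) * j + γ 0 := by
  obtain ⟨P, hP1, hP2⟩ := hγ 1 hd
  simp only [pow_one] at hP2
  have hPd : P.natDegree ≤ d := by
    by_cases h0 : P = 0
    · simp [h0]
    · rw [degree_eq_natDegree h0] at hP1
      exact Nat.lt_succ_iff.1 (by exact_mod_cast hP1)
  have hm : P.natDegree ≤ 1 := by
    by_contra hm
    push Not at hm
    set m := P.natDegree with hmdef
    have h1 : d / m + 1 ≤ d := Nat.div_lt_self hd hm
    obtain ⟨Q, hQ1, hQ2⟩ := hγ _ h1
    have h2 : (P ^ (d / m + 1)).natDegree = (d / m + 1) * m := natDegree_pow _ _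
    have h3 : d < (d / m + 1) * m := by
      rw [mul_comm]; exact Nat.lt_mul_div_succ d (by omega)
    have h4 : (d / m + 1) * m ≤ d + m := by
      rw [add_mul, one_mul]
      exact Nat.add_le_add_right (Nat.div_mul_le_self d m) m
    have h5 : P ^ (d / m + 1) = Q := by
      apply poly_eq_of_eval_eq (p := p)
      · refine degree_le_natDegree.trans_lt ?_
        rw [h2]
        exact_mod_cast (by omega : (d / m + 1) * m < p)
      · refine hQ1.trans_le ?_
        exact_mod_cast (by omega : d + 1 ≤ p)
      · intro j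
        rw [← hQ2, eval_pow, hP2]
    rw [h5] at h2
    have hQ0 : Q ≠ 0 := by
      rintro rfl
      simp only [natDegree_zero] at h2
      omega
    rw [degree_eq_natDegree hQ0, h2] at hQ1
    have : (d / m + 1) * m < d + 1 := by exact_mod_cast hQ1
    omega
  intro j
  apply zcast_injective (K := K)
  simp only
  rw [ZMod.cast_add (dvd_refl p), ZMod.cast_mul (dvd_refl p), ZMod.cast_sub (dvd_refl p),
    hP2, hP2, hP2, eq_X_add_C_of_natDegree_le_one hm]
  simp [ZMod.cast_one (dvd_refl p)]

end Cfsg.Agent.H1
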