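import Mathlib
import Cfsg.Agent.H1.PermMod
import Cfsg.Agent.H1.PolyFun
import Cfsg.Agent.S0671

/-! Transitive permutation groups of prime degree. -/

set_option autoImplicit false
set_option linter.unusedSectionVars false

namespace Cfsg.Agent.H1

open Cfsg Polynomial

section Pow

variable {p : ℕ} [Fact p.Prime] {G : Type*} [Group G]

theorem zpw_add {g : G} (hg : orderOf g = p) (i j : ZMod p) :
    g ^ (i + j).val = g ^ i.val * g ^ j.val := by
  rw [ZMod.val_add, ← pow_add]
  have := pow_mod_orderOf g (i.val + j.val)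
  rwa [hg] at this

theorem zpw_one {g : G} : g ^ (1 : ZMod p).val = g := by
  rw [ZMod.val_one, pow_one]

theorem zpw_natCast {g : G} (hg : orderOf g = p) (n : ℕ) : g ^ (n : ZMod p).val = g ^ n := by
  rw [ZMod.val_natCast, ← hg, pow_mod_orderOf]

theorem zpw_inj {Ω : Type*} [MulAction G Ω] {g : G} (hg : orderOf g = p) {a : Ω}
    (ha : g • a ≠ a) : Function.Injective fun j : ZMod p => g ^ j.val • a := by
  intro i j hij
  simp only at hij
  by_contra hne
  have h1 : g ^ (i - j).val • a = a := by
    have : g ^ j.val • g ^ (i - j).val • a = g ^ j.val • a := by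
      rw [← mul_smul, ← zpw_add hg, add_sub_cancel, hij]
    exact MulAction.injective _ this
  have h2 : (i - j).val.Coprime (orderOf g) := by
    rw [hg]
    refine ((Nat.Prime.coprime_iff_not_dvd Fact.out).2 ?_).symm
    refine Nat.not_dvd_of_pos_of_lt ?_ (ZMod.val_lt _)
    exact Nat.pos_of_ne_zero (fun h => hne (sub_eq_zero.1 ((ZMod.val_eq_zero _).1 h)))
  obtain ⟨k, hk⟩ := exists_pow_eq_self_of_coprime h2
  apply ha
  have h3 : g ^ (i - j).val ∈ MulAction.stabilizer G a := h1
  have h4 := (MulAction.stabilizer G a).pow_mem h3 k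
  rw [hk] at h4
  exact h4

end Pow

variable {p : ℕ} [Fact p.Prime] {α : Type*} [Fintype α] {G : Type*} [Group G]
  [MulAction G α] [FaithfulSMul G α]

theorem exists_smul_ne {g : G} (hg : g ≠ 1) : ∃ a : α, g • a ≠ a := by
  by_contra hn
  push Not at hn
  exact hg (FaithfulSMul.eq_of_smul_eq_smul (α := α) fun x => by rw [hn, one_smul])

theorem exists_coord (hα : Fintype.card α = p) {σ : G} (hσ : orderOf σ = p) :
    ∃ e : ZMod p ≃ α, ∀ j, σ • e j = e (j + 1) := by
  have h1 : σ ≠ 1 := by
    rintro rfl
    rw [orderOf_one] at hσ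
    exact (Fact.out : p.Prime).one_lt.ne hσ
  obtain ⟨a, ha⟩ := exists_smul_ne (α := α) h1
  have hbij : Function.Bijective fun j : ZMod p => σ ^ j.val • a := by
    rw [Fintype.bijective_iff_injective_and_card]
    exact ⟨zpw_inj hσ ha, by rw [ZMod.card, hα]⟩
  refine ⟨Equiv.ofBijective _ hbij, fun j => ?_⟩
  simp only [Equiv.ofBijective_apply]
  rw [add_comm, zpw_add hσ, zpw_one, mul_smul]

theorem coord_pow {σ : G} {e : ZMod p ≃ α} (he : ∀ j, σ • e j = e (j + 1)) (n : ℕ) (j : ZMod p) :
    σ ^ n • e j = e (j + n) := by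
  induction n with
  | zero => simp
  | succ n ih => rw [pow_succ', mul_smul, ih, he, Nat.cast_succ, add_assoc]

theorem card_dvd_factorial : Nat.card G ∣ (Fintype.card α).factorial := by
  classical
  rw [← Fintype.card_perm, ← Nat.card_eq_fintype_card]
  exact Subgroup.card_dvd_of_injective (MulAction.toPermHom G α) MulAction.toPerm_injective

theorem finite_of_faithful (G α : Type*) [Group G] [Finite α] [MulAction G α] [FaithfulSMul G α] :
    Finite G :=
  Finite.of_injective (MulAction.toPermHom G α) MulAction.toPerm_injective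

theorem prime_dvd_card (hα : Fintype.card α = p) [MulAction.IsPretransitive G α] :
    p ∣ Nat.card G := by
  have hpos : 0 < Fintype.card α := hα ▸ (Fact.out : p.Prime).pos
  obtain ⟨a⟩ := Fintype.card_pos_iff.1 hpos
  rw [← hα, ← Nat.card_eq_fintype_card, ← MulAction.index_stabilizer_of_transitive G a]
  exact Subgroup.index_dvd_card _

theorem not_sq_dvd_card (hα : Fintype.card α = p) : ¬ p ^ 2 ∣ Nat.card G := by
  intro h
  have h1 := h.trans (card_dvd_factorial (G := G) (α := α))
  rw [hα] at h1
  have hp : p.Prime := Fact.out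
  obtain ⟨q, rfl⟩ : ∃ q, p = q + 1 := ⟨p - 1, (Nat.succ_pred_eq_of_pos hp.pos).symm⟩
  rw [Nat.factorial_succ, pow_two, Nat.mul_dvd_mul_iff_left hp.pos, hp.dvd_factorial] at h1
  omega

theorem sylow_card (hα : Fintype.card α = p) [MulAction.IsPretransitive G α] (P : Sylow p G) :
    Nat.card P = p := by
  have := finite_of_faithful G α
  obtain ⟨n, hn⟩ := P.isPGroup'.exists_card_eq
  have h1 : p ∣ Nat.card P := P.dvd_card_of_dvd_card (prime_dvd_card hα)
  have h2 : ¬ p ^ 2 ∣ Nat.card P := fun h =>
    not_sq_dvd_card (G := G) hα (h.trans (Subgroup.card_subgroup_dvd_card (P : Subgroup G)))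
  have hn' : Nat.card P = p ^ n := hn
  rw [hn'] at h1 h2 ⊢
  rcases n with _ | _ | n
  · exact absurd (Nat.eq_one_of_dvd_one h1) (Fact.out : p.Prime).one_lt.ne'
  · simp
  · exact absurd (pow_dvd_pow p (by omega)) h2

theorem sylow_eq_zpowers (hα : Fintype.card α = p) [MulAction.IsPretransitive G α]
    (P : Sylow p G) : ∃ σ : G, orderOf σ = p ∧ (P : Subgroup G) = Subgroup.zpowers σ := by
  have := finite_of_faithful G α
  have h1 := sylow_card hα P
  obtain ⟨σ, hσ⟩ := exists_prime_orderOf_dvd_card' (G := (P : Subgroup G)) p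
    (dvd_of_eq h1.symm)
  refine ⟨σ, by rw [Subgroup.orderOf_coe, hσ], ?_⟩
  symm
  apply Subgroup.eq_of_le_of_card_ge (Subgroup.zpowers_le_of_mem σ.2)
  rw [Nat.card_zpowers, Subgroup.orderOf_coe, hσ]
  exact h1.le

theorem solvable_of_affine (e : ZMod p ≃ α)
    (h : ∀ g : G, ∃ a b : ZMod p, ∀ j, g • e j = e (a * j + b)) : Group.IsSolvable G := by
  choose a b hab using h
  have huniq : ∀ (g : G) (a' b' : ZMod p), (∀ j, g • e j = e (a' * j + b')) → a g = a' := by
    intro g a' b' h
    have h0 := e.injective ((hab g 0).symm.trans (h 0))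
    have h1 := e.injective ((hab g 1).symm.trans (h 1))
    simp only [mul_zero, zero_add, mul_one] at h0 h1
    rw [h0] at h1
    exact add_right_cancel h1
  let φ : G →* ZMod p :=
    { toFun := a
      map_one' := huniq 1 1 0 (by simp)
      map_mul' := fun g k => huniq (g * k) _ (a g * b k + b g) (fun j => by
        rw [mul_smul, hab, hab]
        congr 1
        ring) }
  have : Group.IsSolvable φ.toHomUnits.ker := by
    apply Group.isSolvable_of_comm
    rintro ⟨g, hg⟩ ⟨k, hk⟩
    have hg' : a g = 1 := congrArg Units.val hg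
    have hk' : a k = 1 := congrArg Units.val hk
    apply Subtype.ext
    apply FaithfulSMul.eq_of_smul_eq_smul (α := α)
    intro x
    obtain ⟨j, rfl⟩ := e.surjective x
    change (g * k) • e j = (k * g) • e j
    rw [mul_smul, mul_smul, hab, hab, hab, hab, hg', hk']
    congr 1
    ring
  exact Group.isSolvable_of_ker_le_range φ.toHomUnits.ker.subtype φ.toHomUnits (by simp)

variable {K : Type*} [Field K] [CharP K p]

theorem classify_coord {σ : G} {e : ZMod p ≃ α} (he : ∀ j, σ • e j = e (j + 1))
    (W : Submodule K (α → K)) (hW : ∀ f ∈ W, permRep K G α σ f ∈ W) :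
    ∃ r : ℕ, r ≤ p ∧ Module.finrank K W = r ∧ ∀ f : α → K, f ∈ W ↔
      ∃ P : Polynomial K, P.degree < r ∧ ∀ j : ZMod p, f (e j) = P.eval (ZMod.cast j : K) := by
  let L : (α → K) ≃ₗ[K] (ZMod p → K) := LinearEquiv.funCongrLeft K K e
  obtain ⟨r, h1, h2, h3⟩ := translation_invariant_classify (W.map L.toLinearMap) (by
    rintro _ ⟨f, hf, rfl⟩
    refine ⟨_, hW f hf, ?_⟩
    funext j
    change f (σ⁻¹ • e j) = f (e (j - 1))
    congr 1
    rw [inv_smul_eq_iff, he, sub_add_cancel])
  refine ⟨r, h1, ?_, fun f => ?_⟩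
  · rw [← h2, LinearEquiv.finrank_map_eq]
  · have : f ∈ W ↔ L f ∈ W.map L.toLinearMap := by
      constructor
      · exact fun hf => ⟨f, hf, rfl⟩
      · rintro ⟨f', hf', h⟩
        rwa [← L.injective h]
    rw [this, h3]
    rfl

theorem affine_of_small {σ : G} {e : ZMod p ≃ α} (he : ∀ j, σ • e j = e (j + 1))
    (W : Submodule K (α → K)) (hW : ∀ g : G, ∀ f ∈ W, permRep K G α g f ∈ W)
    (h2 : 2 ≤ Module.finrank K W) (h3 : 2 * Module.finrank K W ≤ p + 1) :
    ∀ g : G, ∃ a b : ZMod p, ∀ j, g • e j = e (a * j + b) := by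
  intro g
  obtain ⟨r, -, hr2, hr3⟩ := classify_coord he W (hW σ)
  rw [hr2] at h2 h3
  obtain ⟨d, rfl⟩ : ∃ d, r = d + 1 := ⟨r - 1, by omega⟩
  have := affine_of_preserves (K := K) (d := d) (by omega) (by omega)
    (fun j => e.symm (g • e j)) (by
      intro k hk
      have h4 : (fun x => (ZMod.cast (e.symm x) : K) ^ k) ∈ W := by
        rw [hr3]
        refine ⟨X ^ k, ?_, fun j => by simp⟩
        rw [degree_X_pow]
        exact_mod_cast Nat.lt_succ_of_le hk
      have h5 := (hr3 _).1 (hW g⁻¹ _ h4)
      simpa [permRep_apply] using h5)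
  exact ⟨_, _, fun j => by rw [← this j, Equiv.apply_symm_apply]⟩

theorem finrank_permSumZero [Nonempty α] :
    Module.finrank K (permSumZero K G α).toSubmodule + 1 = Fintype.card α := by
  classical
  let s : (α → K) →ₗ[K] K := ∑ x, LinearMap.proj x
  have h1 : (permSumZero K G α).toSubmodule = LinearMap.ker s := by
    ext f
    rw [mem_permSumZero, LinearMap.mem_ker]
    simp [s]
  have h2 : LinearMap.range s = ⊤ := by
    rw [eq_top_iff]
    intro c _
    obtain ⟨a⟩ := ‹Nonempty α›
    exact ⟨Pi.single a c, by simp [s]⟩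
  have h3 := LinearMap.finrank_range_add_finrank_ker s
  rw [h2, finrank_top, Module.finrank_self, Module.finrank_fintype_fun_eq_card] at h3
  rw [h1]
  omega

theorem finrank_permConstants [Nonempty α] :
    Module.finrank K (permConstants K G α).toSubmodule = 1 := by
  apply finrank_span_singleton
  obtain ⟨a⟩ := ‹Nonempty α›
  intro h
  exact one_ne_zero (congrFun h a)

/-- If the heart is reducible, the group consists of affine maps. -/
theorem affine_of_heart_reducible (hα : Fintype.card α = p) {σ : G} {e : ZMod p ≃ α}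
    (he : ∀ j, σ • e j = e (j + 1)) (W : Subrepresentation (permRep K G α))
    (h₁ : (permConstants K G α).toSubmodule ≤ W.toSubmodule)
    (h₂ : W.toSubmodule ≤ (permSumZero K G α).toSubmodule)
    (h₃ : W ≠ permConstants K G α) (h₄ : W ≠ permSumZero K G α) :
    ∀ g : G, ∃ a b : ZMod p, ∀ j, g • e j = e (a * j + b) := by
  classical
  have : Nonempty α := ⟨e 0⟩
  have h5 : 1 < Module.finrank K W.toSubmodule := by
    rw [← finrank_permConstants (K := K) (G := G) (α := α)]
    apply Submodule.finrank_lt_finrank_of_lt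
    exact lt_of_le_of_ne h₁ fun h => h₃ (Subrepresentation.toSubmodule_injective h.symm)
  have h6 : Module.finrank K W.toSubmodule + 1 < p := by
    rw [← hα, ← finrank_permSumZero (K := K) (G := G) (α := α), Nat.add_lt_add_iff_right]
    apply Submodule.finrank_lt_finrank_of_lt
    exact lt_of_le_of_ne h₂ fun h => h₄ (Subrepresentation.toSubmodule_injective h)
  by_cases h7 : 2 * Module.finrank K W.toSubmodule ≤ p + 1
  · exact affine_of_small he W.toSubmodule (fun g f hf => W.apply_mem_toSubmodule g hf) h5 h7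
  · let B : LinearMap.BilinForm K (α → K) := dotProductBilin K K
    have hB : B.Nondegenerate := by
      constructor
      · intro v hv
        exact dotProduct_eq_zero_iff.1 hv
      · intro v hv
        refine dotProduct_eq_zero_iff.1 fun w => ?_
        rw [dotProduct_comm]
        exact hv w
    have h8 := LinearMap.BilinForm.finrank_orthogonal hB W.toSubmodule
    rw [Module.finrank_fintype_fun_eq_card, hα] at h8
    refine affine_of_small he (B.orthogonal W.toSubmodule) ?_ (by omega) (by omega)
    intro g f hf v hv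
    have h9 := hf _ (W.apply_mem_toSubmodule g⁻¹ hv)
    change ∑ x, _ = 0 at h9 ⊢
    rw [← h9, ← sum_smul_eq g]
    simp [permRep_apply]

theorem heart_irreducible (hα : Fintype.card α = p) [MulAction.IsPretransitive G α]
    (hG : ¬ Group.IsSolvable G) (W : Subrepresentation (permRep K G α))
    (h₁ : (permConstants K G α).toSubmodule ≤ W.toSubmodule)
    (h₂ : W.toSubmodule ≤ (permSumZero K G α).toSubmodule) :
    W = permConstants K G α ∨ W = permSumZero K G α := by
  by_contra hn
  rw [not_or] at hn
  have := finite_of_faithful G α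
  obtain ⟨σ, hσ⟩ := exists_prime_orderOf_dvd_card' (G := G) p (prime_dvd_card hα)
  obtain ⟨e, he⟩ := exists_coord hα hσ
  exact hG (solvable_of_affine e (affine_of_heart_reducible hα he W h₁ h₂ hn.1 hn.2))

theorem affine_of_le_three (hp : p ≤ 3) (e : ZMod p ≃ α) :
    ∀ g : G, ∃ a b : ZMod p, ∀ j, g • e j = e (a * j + b) := by
  intro g
  have key : ∀ γ : ZMod p → ZMod p, Function.Injective γ → ∀ j, γ j = (γ 1 - γ 0) * j + γ 0 := by
    have h2 := (Fact.out : p.Prime).two_le
    have k2 : ∀ γ : ZMod 2 → ZMod 2, Function.Injective γ →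
      ∀ j, γ j = (γ 1 - γ 0) * j + γ 0 := by decide
    have k3 : ∀ γ : ZMod 3 → ZMod 3, Function.Injective γ →
      ∀ j, γ j = (γ 1 - γ 0) * j + γ 0 := by decide
    interval_cases p
    · exact k2
    · exact k3
  have := key (fun j => e.symm (g • e j))
    (e.symm.injective.comp ((MulAction.injective g).comp e.injective))
  exact ⟨_, _, fun j => by rw [← this j, Equiv.apply_symm_apply]⟩

/-- Burnside's dichotomy in coordinates: affine, or doubly transitive. -/
theorem affine_or_two_transitive (hα : Fintype.card α = p) [MulAction.IsPretransitive G α]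
    {σ : G} {e : ZMod p ≃ α} (he : ∀ j, σ • e j = e (j + 1)) :
    (∀ g : G, ∃ a b : ZMod p, ∀ j, g • e j = e (a * j + b)) ∨
      MulAction.IsMultiplyPretransitive G α 2 := by
  classical
  by_cases hp : p ≤ 3
  · exact Or.inl (affine_of_le_three hp e)
  rw [or_iff_not_imp_left]
  intro hn
  have := finite_of_faithful G α
  have hp4 : p ≠ 4 := by
    rintro rfl
    exact absurd (Fact.out : (4 : ℕ).Prime) (by norm_num)
  refine Cfsg.Agent.S0671.result (K := ZMod p) (p := p) (f := 1) le_rfl (by simpa using hα) ?_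
  intro W W' h1 h2 h3
  have hW : W = permConstants (ZMod p) G α := by
    by_contra hW
    refine hn (affine_of_heart_reducible hα he W h1 (h2.le.trans h3) hW ?_)
    rintro rfl
    exact absurd h3 (not_le_of_gt h2)
  have hW' : W' = permSumZero (ZMod p) G α := by
    by_contra hW'
    refine hn (affine_of_heart_reducible hα he W' (h1.trans h2.le) h3 ?_ hW')
    rintro rfl
    exact absurd h1 (not_le_of_gt h2)
  subst hW hW'
  refine ⟨σ, Pi.single (e 0) 1 - Pi.single (e 1) 1, ?_, ?_⟩
  · rw [mem_permSumZero]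
    simp [Finset.sum_sub_distrib]
  · rw [mem_permConstants, map_sub, permRep_single, permRep_single, he, he]
    rintro ⟨c, hc⟩
    have hne : ∀ a b : ℕ, a < 4 → b < 4 → a ≠ b → e (a : ZMod p) ≠ e (b : ZMod p) := by
      intro a b ha hb hab h
      have := (ZMod.natCast_eq_natCast_iff' a b p).1 (e.injective h)
      rw [Nat.mod_eq_of_lt (by omega), Nat.mod_eq_of_lt (by omega)] at this
      exact hab this
    have h01 := hne 0 1 (by norm_num) (by norm_num) (by norm_num)
    have h02 := hne 0 2 (by norm_num) (by norm_num) (by norm_num)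
    have h30 := hne 3 0 (by norm_num) (by norm_num) (by norm_num)
    have h31 := hne 3 1 (by norm_num) (by norm_num) (by norm_num)
    have h32 := hne 3 2 (by norm_num) (by norm_num) (by norm_num)
    simp only [Nat.cast_zero, Nat.cast_one, Nat.cast_ofNat] at h01 h02 h30 h31 h32
    have h4 := hc (e 0)
    have h5 := hc (e 3)
    have h11 : (1 + 1 : ZMod p) = 2 := by norm_num
    simp only [zero_add, h11, Pi.sub_apply, Pi.single_apply, h01, h02, h30, h31, h32,
      if_true, if_false] at h4 h5
    rw [← h5] at h4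
    simp at h4

theorem solvable_or_two_transitive (hα : Fintype.card α = p) [MulAction.IsPretransitive G α] :
    Group.IsSolvable G ∨ MulAction.IsMultiplyPretransitive G α 2 := by
  have := finite_of_faithful G α
  obtain ⟨σ, hσ⟩ := exists_prime_orderOf_dvd_card' (G := G) p (prime_dvd_card hα)
  obtain ⟨e, he⟩ := exists_coord hα hσ
  exact (affine_or_two_transitive hα he).imp (solvable_of_affine e) id

end Cfsg.Agent.H1
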