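import Mathlib
import Cfsg.Agent.H1.PrimeDeg
import Cfsg.Agent.S0672

/-! Transitive permutation groups of prime degree whose Sylow normaliser has even order. -/

set_option autoImplicit false
set_option linter.unusedSectionVars false

namespace Cfsg.Agent.H1

open Cfsg

variable {p : ℕ} [Fact p.Prime] {α : Type*} [Fintype α] {G : Type*} [Group G]
  [MulAction G α] [FaithfulSMul G α]

/-- An element normalising the translation subgroup is affine. -/
theorem affine_of_mem_normalizer {σ : G} (hσ : orderOf σ = p) {e : ZMod p ≃ α}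
    (he : ∀ j, σ • e j = e (j + 1)) {t : G}
    (ht : t ∈ Subgroup.normalizer (Subgroup.zpowers σ : Set G)) :
    ∃ a b : ZMod p, ∀ j, t • e j = e (a * j + b) := by
  have h1 : t * σ * t⁻¹ ∈ Subgroup.zpowers σ :=
    (Subgroup.mem_normalizer_iff.1 ht σ).1 (Subgroup.mem_zpowers σ)
  have := finite_of_faithful G α
  obtain ⟨k, hk⟩ := (mem_powers_iff_mem_zpowers.2 h1)
  simp only at hk
  refine ⟨k, e.symm (t • e 0), fun j => ?_⟩
  have h2 : ∀ n : ℕ, t • e n = e (k * n + e.symm (t • e 0)) := by
    intro n
    induction n with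
    | zero => simp
    | succ n ih =>
      rw [Nat.cast_succ, ← he, ← mul_smul, show t * σ = σ ^ k * t by rw [hk]; group, mul_smul,
        ih, coord_pow he]
      congr 1
      ring
  have := h2 j.val
  rwa [ZMod.natCast_zmod_val] at this

theorem exists_coord_neg (hα : Fintype.card α = p) (hp : p ≠ 2) [MulAction.IsPretransitive G α]
    (P : Sylow p G) (heven : Even (Nat.card (Subgroup.normalizer ((P : Subgroup G) : Set G)))) :
    ∃ (σ t : G) (e : ZMod p ≃ α), orderOf σ = p ∧ (∀ j, σ • e j = e (j + 1)) ∧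
      ∀ j, t • e j = e (-j) := by
  have := finite_of_faithful G α
  obtain ⟨σ, hσ, hP⟩ := sylow_eq_zpowers hα P
  obtain ⟨e, he⟩ := exists_coord hα hσ
  rw [hP] at heven
  obtain ⟨⟨t, ht⟩, ht2⟩ := exists_prime_orderOf_dvd_card'
    (G := Subgroup.normalizer (Subgroup.zpowers σ : Set G)) 2 (even_iff_two_dvd.1 heven)
  rw [Subgroup.orderOf_mk] at ht2
  obtain ⟨a, b, hab⟩ := affine_of_mem_normalizer hσ he ht
  have htt : t * t = 1 := by rw [← pow_two, ← ht2, pow_orderOf_eq_one]
  have h1 : ∀ j, a * (a * j + b) + b = j := by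
    intro j
    apply e.injective
    rw [← hab, ← hab, ← mul_smul, htt, one_smul]
  have h2 : (2 : ZMod p) ≠ 0 := by
    intro h
    have : ((2 : ℕ) : ZMod p) = 0 := by exact_mod_cast h
    rw [ZMod.natCast_eq_zero_iff] at this
    exact hp ((Nat.prime_dvd_prime_iff_eq Fact.out Nat.prime_two).1 this)
  have h3 : a * b + b = 0 := by simpa using h1 0
  have h4 : a * a = 1 := by
    have := h1 1
    linear_combination this - h3
  have h5 : a = -1 := by
    rcases mul_self_eq_one_iff.1 h4 with h | h
    · exfalso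
      subst h
      have hb : b = 0 := by
        have : 2 * b = 0 := by linear_combination h3
        exact (mul_eq_zero.1 this).resolve_left h2
      have : t = 1 := by
        apply FaithfulSMul.eq_of_smul_eq_smul (α := α)
        intro x
        obtain ⟨j, rfl⟩ := e.surjective x
        rw [hab, hb]
        simp
      rw [this, orderOf_one] at ht2
      exact absurd ht2 (by norm_num)
    · exact h
  subst h5
  refine ⟨σ, t, (Equiv.addRight (b / 2)).trans e, hσ, fun j => ?_, fun j => ?_⟩
  · simp only [Equiv.trans_apply, Equiv.coe_addRight, he]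
    congr 1
    ring
  · simp only [Equiv.trans_apply, Equiv.coe_addRight, hab]
    congr 1
    field_simp
    ring

theorem three_transitive_of_even_normalizer (hα : Fintype.card α = p)
    [MulAction.IsPretransitive G α] (hG : ¬ Group.IsSolvable G) (P : Sylow p G)
    (heven : Even (Nat.card (Subgroup.normalizer ((P : Subgroup G) : Set G)))) :
    MulAction.IsMultiplyPretransitive G α 3 := by
  classical
  have := finite_of_faithful G α
  have hp3 : ¬ p ≤ 3 := by
    intro hp
    obtain ⟨σ, hσ, hP⟩ := sylow_eq_zpowers hα P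
    obtain ⟨e, he⟩ := exists_coord hα hσ
    exact hG (solvable_of_affine e (affine_of_le_three hp e))
  have hp2 : p ≠ 2 := by omega
  obtain ⟨σ, t, e, hσ, he, ht⟩ := exists_coord_neg hα hp2 P heven
  have h2 : MulAction.IsMultiplyPretransitive G α 2 :=
    (solvable_or_two_transitive hα).resolve_left hG
  have htwo : (2 : ZMod p) ≠ 0 := by
    intro h
    have : ((2 : ℕ) : ZMod p) = 0 := by exact_mod_cast h
    rw [ZMod.natCast_eq_zero_iff] at this
    exact hp2 ((Nat.prime_dvd_prime_iff_eq Fact.out Nat.prime_two).1 this)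
  have ht1 : t ≠ 1 := by
    intro h
    have := ht 1
    rw [h, one_smul] at this
    have h3 := e.injective this
    apply htwo
    linear_combination h3
  have ht2 : orderOf t = 2 := by
    apply orderOf_eq_prime _ ht1
    apply FaithfulSMul.eq_of_smul_eq_smul (α := α)
    intro x
    obtain ⟨j, rfl⟩ := e.surjective x
    rw [pow_two, mul_smul, ht, ht, neg_neg, one_smul]
  refine Cfsg.Agent.S0672.result (K := ZMod p) (p := p) h2 (dvd_of_eq hα.symm) ?_ ?_
  · intro a
    obtain ⟨g, hg⟩ := MulAction.exists_smul_eq G (e 0) a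
    have h3 : g * t * g⁻¹ ∈ MulAction.stabilizer G a := by
      rw [MulAction.mem_stabilizer_iff, mul_smul, mul_smul, ← hg, inv_smul_smul, ht, neg_zero]
    have h4 : orderOf (⟨_, h3⟩ : MulAction.stabilizer G a) = 2 := by
      rw [Subgroup.orderOf_mk, ← ht2]
      exact (MulAut.conj g).orderOf_eq t
    rw [even_iff_two_dvd, ← h4]
    exact orderOf_dvd_natCard _
  · intro f hf
    let X : α → ZMod p := fun x => e.symm x
    have hX : X ∈ (permSumZero (ZMod p) G α).toSubmodule := by
      rw [mem_permSumZero, Fintype.sum_equiv e.symm X (fun j => j) (fun _ => rfl)]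
      have := FiniteField.sum_pow_lt_card_sub_one (K := ZMod p) 1 (by rw [ZMod.card]; omega)
      simpa using this
    have hone : (fun _ => (1 : ZMod p)) ∈ (permSumZero (ZMod p) G α).toSubmodule := by
      rw [mem_permSumZero]
      simp [hα]
    let W : Subrepresentation (permRep (ZMod p) G α) :=
      ⟨(LinearMap.ker f.toLinearMap).map (permSumZero (ZMod p) G α).toSubmodule.subtype, by
        rintro g _ ⟨v, hv, rfl⟩
        refine ⟨(permSumZero (ZMod p) G α).toRepresentation g v, ?_, rfl⟩
        have hv' : f v = 0 := hv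
        change f _ = 0
        rw [f.isIntertwining, hv', map_zero]⟩
    have hf1 : f ⟨_, hone⟩ = 0 := hf _ ((mem_permConstants _).2 ⟨1, fun _ => rfl⟩)
    have hfσ : permRep (ZMod p) G _ σ (f ⟨X, hX⟩) = f ⟨X, hX⟩ := by
      rw [← f.isIntertwining]
      have : (permSumZero (ZMod p) G α).toRepresentation σ ⟨X, hX⟩ = ⟨X, hX⟩ - ⟨_, hone⟩ := by
        apply Subtype.ext
        funext x
        obtain ⟨j, rfl⟩ := e.surjective x
        change e.symm (σ⁻¹ • e j) = e.symm (e j) - 1
        rw [Equiv.symm_apply_eq, Equiv.symm_apply_apply, inv_smul_eq_iff, he, sub_add_cancel]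
      rw [this, map_sub, hf1, sub_zero]
    have hft : permRep (ZMod p) G _ t (f ⟨X, hX⟩) = - f ⟨X, hX⟩ := by
      rw [← f.isIntertwining]
      have : (permSumZero (ZMod p) G α).toRepresentation t ⟨X, hX⟩ = - ⟨X, hX⟩ := by
        apply Subtype.ext
        funext x
        obtain ⟨j, rfl⟩ := e.surjective x
        change e.symm (t⁻¹ • e j) = - e.symm (e j)
        rw [Equiv.symm_apply_eq, Equiv.symm_apply_apply, inv_smul_eq_iff, ht, neg_neg]
      rw [this, map_neg]
    have hfσ' : ∀ (n : ℕ) T, f ⟨X, hX⟩ (σ ^ n • T) = f ⟨X, hX⟩ T := by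
      intro n T
      induction n with
      | zero => simp
      | succ n ih =>
        have := congrFun hfσ (σ ^ (n + 1) • T)
        rw [permRep_apply, pow_succ', mul_smul, inv_smul_smul, ih] at this
        rw [pow_succ', mul_smul, ← this]
    have hfX : f ⟨X, hX⟩ = 0 := by
      funext T
      obtain ⟨x, y, hxy, hT⟩ := Finset.card_eq_two.1 T.2
      obtain ⟨i, rfl⟩ := e.surjective x
      obtain ⟨j, rfl⟩ := e.surjective y
      have h3 : σ ^ (i + j).val • t • T = T := by
        apply Subtype.ext
        rw [Set.powersetCard.coe_smul, Set.powersetCard.coe_smul, hT]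
        simp only [Finset.smul_finset_insert, Finset.smul_finset_singleton, ht, coord_pow he,
          ZMod.natCast_zmod_val]
        rw [Finset.pair_comm]
        congr 2 <;> ring_nf
      have h4 := congrFun hft (t • T)
      rw [permRep_apply, inv_smul_smul, Pi.neg_apply, ← hfσ' (i + j).val (t • T), h3] at h4
      have h5 : 2 * f ⟨X, hX⟩ T = 0 := by linear_combination h4
      exact (mul_eq_zero.1 h5).resolve_left htwo
    rcases heart_irreducible hα hG W (by
      rw [permConstants_le_iff]
      exact ⟨⟨_, hone⟩, hf1, rfl⟩) (by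
      rintro _ ⟨v, -, rfl⟩
      exact v.2) with h | h
    · exfalso
      have h3 : X ∈ W.toSubmodule := ⟨⟨X, hX⟩, hfX, rfl⟩
      rw [h, mem_permConstants] at h3
      obtain ⟨c, hc⟩ := h3
      have h4 := (hc (e 0)).trans (hc (e 1)).symm
      simp [X] at h4
    · ext v : 2
      have h3 : (v : α → ZMod p) ∈ W.toSubmodule := by rw [h]; exact v.2
      obtain ⟨w, hw, hwv⟩ := h3
      have : w = v := Subtype.ext hwv
      subst this
      exact hw

theorem not_dvd_card_of_index (hα : Fintype.card α = p) (H : Subgroup G) (hH : H.index = p) :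
    ¬ p ∣ Nat.card H := by
  intro h
  apply not_sq_dvd_card (G := G) hα
  rw [← H.card_mul_index, hH, pow_two]
  exact Nat.mul_dvd_mul_right h p

theorem fixed_of_affine (hα : Fintype.card α = p) (e : ZMod p ≃ α)
    (h : ∀ g : G, ∃ a b : ZMod p, ∀ j, g • e j = e (a * j + b)) (H : Subgroup G)
    (hH : H.index = p) : ∃ x : α, H ≤ MulAction.stabilizer G x := by
  have hnd := not_dvd_card_of_index hα H hH
  have htr : ∀ k ∈ H, ∀ δ : ZMod p, (∀ j, k • e j = e (j + δ)) → δ = 0 := by
    intro k hk δ hδ
    by_contra h0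
    have h1 : ∀ (n : ℕ) j, k ^ n • e j = e (j + n * δ) := by
      intro n j
      induction n with
      | zero => simp
      | succ n ih =>
        rw [pow_succ', mul_smul, ih, hδ]
        congr 1
        push_cast
        ring
    have h2 : orderOf k = p := by
      apply orderOf_eq_prime
      · apply FaithfulSMul.eq_of_smul_eq_smul (α := α)
        intro x
        obtain ⟨j, rfl⟩ := e.surjective x
        rw [h1]
        simp
      · rintro rfl
        have := e.injective ((one_smul G (e 0)).symm.trans (hδ 0))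
        exact h0 (by simpa using this.symm)
    apply hnd
    rw [← h2]
    exact Subgroup.orderOf_dvd_natCard H hk
  by_cases hall : ∀ k ∈ H, k • e 0 = e 0
  · exact ⟨e 0, hall⟩
  push Not at hall
  obtain ⟨k0, hk0, hk0'⟩ := hall
  obtain ⟨a0, b0, h0⟩ := h k0
  have ha0 : 1 - a0 ≠ 0 := by
    intro h1
    have h2 : a0 = 1 := by linear_combination -h1
    have h3 := htr k0 hk0 b0 (by simpa [h2] using h0)
    apply hk0'
    rw [h0, h3]
    simp
  refine ⟨e (b0 / (1 - a0)), fun k hk => ?_⟩
  obtain ⟨a, b, hab⟩ := h k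
  have h1 := htr (k * k0 * (k0 * k)⁻¹) (H.mul_mem (H.mul_mem hk hk0) (H.inv_mem (H.mul_mem hk0 hk)))
    ((a * b0 + b) - (a0 * b + b0)) (by
      intro j
      obtain ⟨j', hj'⟩ := e.surjective ((k0 * k)⁻¹ • e j)
      have h2 : j = a0 * (a * j' + b) + b0 := by
        apply e.injective
        rw [← h0, ← hab, ← mul_smul, hj', smul_inv_smul]
      rw [mul_smul, ← hj', mul_smul, h0, hab, h2]
      congr 1
      ring)
  rw [MulAction.mem_stabilizer_iff, hab]
  congr 1
  field_simp
  linear_combination h1

theorem symmetric_difference_set (hp : p ≠ 2) (m : ZMod p → ZMod p) (hm : ∀ d, m (-d) = m d)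
    (hk : ∑ d, m d ≠ 0) (lam : ZMod p)
    (hN : ∀ i j, i ≠ j → ∑ n, m (i - n) * m (j - n) = lam) {a b : ZMod p} (ha : a ≠ 0)
    (hb : b ≠ 0) : m a = m b := by
  classical
  have htwo : (2 : ZMod p) ≠ 0 := by
    intro h
    have : ((2 : ℕ) : ZMod p) = 0 := by exact_mod_cast h
    rw [ZMod.natCast_eq_zero_iff] at this
    exact hp ((Nat.prime_dvd_prime_iff_eq Fact.out Nat.prime_two).1 this)
  set k := ∑ d, m d with hkdef
  set κ := ∑ d, m d * m d with hκdef
  let A : Matrix (ZMod p) (ZMod p) (ZMod p) := Matrix.of fun i j => m (j - i)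
  have hA1 : A.mulVec (fun _ => 1) = fun _ => k := by
    funext i
    simp only [A, Matrix.mulVec, dotProduct, Matrix.of_apply, mul_one]
    exact Fintype.sum_equiv (Equiv.subRight i) _ _ (fun _ => rfl)
  have hAA : ∀ i j, (A * A) i j = lam + if i = j then κ - lam else 0 := by
    intro i j
    have : (A * A) i j = ∑ n, m (i - n) * m (j - n) := by
      simp only [A, Matrix.mul_apply, Matrix.of_apply]
      refine Finset.sum_congr rfl fun n _ => ?_
      rw [← hm (n - i), neg_sub]
    rw [this]
    split_ifs with hij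
    · subst hij
      rw [add_sub_cancel]
      exact Fintype.sum_equiv (Equiv.subLeft i) _ _ (fun _ => rfl)
    · rw [hN i j hij, add_zero]
  have hAAf : ∀ f : ZMod p → ZMod p, ∀ i,
      A.mulVec (A.mulVec f) i = lam * ∑ j, f j + (κ - lam) * f i := by
    intro f i
    rw [Matrix.mulVec_mulVec]
    simp only [Matrix.mulVec, dotProduct, hAA, add_mul, Finset.sum_add_distrib, Finset.mul_sum]
    simp
  have hkk : κ - lam = k * k := by
    have h1 := hAAf (fun _ => 1) 0
    rw [hA1, show (fun _ : ZMod p => k) = k • (fun _ : ZMod p => (1 : ZMod p)) by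
      funext; simp, Matrix.mulVec_smul, hA1] at h1
    simpa using h1.symm
  have hker : LinearMap.ker (A.mulVecLin + k • LinearMap.id) = ⊥ := by
    by_contra hne
    obtain ⟨r, -, hr2, hr3⟩ := translation_invariant_classify
      (LinearMap.ker (A.mulVecLin + k • LinearMap.id)) (by
        intro f hf
        rw [LinearMap.mem_ker] at hf ⊢
        funext i
        have := congrFun hf (i - 1)
        simp only [LinearMap.add_apply, Matrix.mulVecLin_apply, LinearMap.smul_apply,
          LinearMap.id_apply, Pi.add_apply, Pi.smul_apply, Matrix.mulVec, dotProduct, A,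
          Matrix.of_apply, Pi.zero_apply] at this ⊢
        rw [← this]
        congr 1
        refine Fintype.sum_equiv (Equiv.subRight 1) _ _ (fun j => ?_)
        simp)
    have hr0 : r ≠ 0 := by
      rintro rfl
      exact hne (Submodule.finrank_eq_zero.1 hr2)
    have h1 := (hr3 (fun _ => 1)).2 ⟨1, by
      rw [Polynomial.degree_one]; exact_mod_cast Nat.pos_of_ne_zero hr0, fun j => by simp⟩
    rw [LinearMap.mem_ker] at h1
    have h2 := congrFun h1 0
    simp only [LinearMap.add_apply, Matrix.mulVecLin_apply, hA1] at h2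
    simp only [LinearMap.smul_apply, LinearMap.id_apply, Pi.add_apply, Pi.smul_apply,
      smul_eq_mul, mul_one, Pi.zero_apply] at h2
    have h3 : 2 * k = 0 := by linear_combination h2
    exact hk ((mul_eq_zero.1 h3).resolve_left htwo)
  let f : ZMod p → ZMod p := Pi.single a 1 - Pi.single b 1
  have hf : ∑ j, f j = 0 := by simp [f, Finset.sum_sub_distrib]
  have h1 : A.mulVec f - k • f ∈ LinearMap.ker (A.mulVecLin + k • LinearMap.id) := by
    rw [LinearMap.mem_ker]
    funext i
    simp only [LinearMap.add_apply, Matrix.mulVecLin_apply, LinearMap.smul_apply,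
      LinearMap.id_apply, Matrix.mulVec_sub, Matrix.mulVec_smul, Pi.add_apply, Pi.sub_apply,
      Pi.smul_apply, hAAf, hf, hkk, smul_eq_mul, Pi.zero_apply]
    ring
  rw [hker, Submodule.mem_bot] at h1
  have h2 := congrFun h1 0
  simpa [f, Matrix.mulVec_sub, A, Pi.single_apply, ha.symm, hb.symm, sub_eq_zero] using h2

theorem index_prime_subgroup (hα : Fintype.card α = p) [MulAction.IsPretransitive G α]
    (P : Sylow p G) (heven : Even (Nat.card (Subgroup.normalizer ((P : Subgroup G) : Set G))))
    (H : Subgroup G) (hH : H.index = p) : ∃ a : α, H = MulAction.stabilizer G a := by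
  classical
  have := finite_of_faithful G α
  suffices hs : ∃ x : α, H ≤ MulAction.stabilizer G x by
    obtain ⟨x, hx⟩ := hs
    refine ⟨x, Subgroup.eq_of_le_of_card_ge hx (le_of_eq ?_)⟩
    have h1 := (MulAction.stabilizer G x).card_mul_index
    rw [MulAction.index_stabilizer_of_transitive, Nat.card_eq_fintype_card (α := α), hα,
      ← H.card_mul_index, hH] at h1
    exact Nat.eq_of_mul_eq_mul_right (Fact.out : p.Prime).pos h1
  by_cases hp3 : p ≤ 3
  · obtain ⟨σ, hσ, hP⟩ := sylow_eq_zpowers hα P
    obtain ⟨e, he⟩ := exists_coord hα hσ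
    exact fixed_of_affine hα e (affine_of_le_three hp3 e) H hH
  have hp2 : p ≠ 2 := by omega
  obtain ⟨σ, t, e, hσ, he, ht⟩ := exists_coord_neg hα hp2 P heven
  rcases affine_or_two_transitive hα he with h | h2
  · exact fixed_of_affine hα e h H hH
  have hstab : ∀ y : G ⧸ H, ¬ p ∣ Nat.card (MulAction.stabilizer G y) := fun y =>
    not_dvd_card_of_index hα _ (by rw [MulAction.index_stabilizer_of_transitive]; exact hH)
  have hcardQ : Nat.card (G ⧸ H) = p := hH
  -- a coset fixed by `t`
  obtain ⟨y0, hy0⟩ : ∃ y0 : G ⧸ H, t • y0 = y0 := by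
    have htt : t ^ 2 = 1 := by
      apply FaithfulSMul.eq_of_smul_eq_smul (α := α)
      intro x
      obtain ⟨j, rfl⟩ := e.surjective x
      rw [pow_two, mul_smul, ht, ht, neg_neg, one_smul]
    have hpg : IsPGroup 2 (Subgroup.zpowers t) := by
      apply IsPGroup.of_card_dvd_pow (n := 1)
      rw [Nat.card_zpowers, pow_one]
      exact orderOf_dvd_of_pow_eq_one htt
    obtain ⟨y0, hy0⟩ := hpg.nonempty_fixed_point_of_prime_not_dvd_card (G ⧸ H) (by
      rw [hcardQ]
      exact fun h => hp2 ((Nat.prime_dvd_prime_iff_eq Nat.prime_two Fact.out).1 h).symm)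
    exact ⟨y0, hy0 ⟨t, Subgroup.mem_zpowers t⟩⟩
  have hσy : σ • y0 ≠ y0 := by
    intro h
    apply hstab y0
    rw [← hσ]
    exact Subgroup.orderOf_dvd_natCard _ h
  have : Fintype (G ⧸ H) := Fintype.ofFinite _
  have hbij : Function.Bijective fun j : ZMod p => σ ^ j.val • y0 := by
    rw [Fintype.bijective_iff_injective_and_card]
    exact ⟨zpw_inj hσ hσy, by rw [ZMod.card, ← Nat.card_eq_fintype_card, hcardQ]⟩
  let R : α → G ⧸ H → Prop := fun x y => ∃ g : G, g • e 0 = x ∧ g • y0 = y
  have hR : ∀ (g : G) x y, R (g • x) (g • y) ↔ R x y := by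
    intro g x y
    constructor
    · rintro ⟨k, h1, h2⟩
      exact ⟨g⁻¹ * k, by simp [mul_smul, h1], by simp [mul_smul, h2]⟩
    · rintro ⟨k, h1, h2⟩
      exact ⟨g * k, by simp [mul_smul, h1], by simp [mul_smul, h2]⟩
  let r : α → G ⧸ H → ZMod p := fun x y => if R x y then 1 else 0
  have hr : ∀ (g : G) x y, r (g • x) (g • y) = r x y := by
    intro g x y
    simp only [r, hR]
  let m : ZMod p → ZMod p := fun d => r (e d) y0
  have hm : ∀ d, m (-d) = m d := by
    intro d
    change r (e (-d)) y0 = r (e d) y0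
    rw [← ht, ← hr t (e d), hy0]
  have hm0 : R (e 0) y0 := ⟨1, by simp, by simp⟩
  have hnotall : ¬ ∀ d, R (e d) y0 := by
    intro hall
    have : MulAction.IsPretransitive (MulAction.stabilizer G y0) α := by
      rw [MulAction.isPretransitive_iff_base (e 0)]
      intro x
      obtain ⟨d, rfl⟩ := e.surjective x
      obtain ⟨g, h1, h2⟩ := hall d
      exact ⟨⟨g, h2⟩, h1⟩
    exact hstab y0 (prime_dvd_card hα)
  have hk : ∑ d, m d ≠ 0 := by
    have h1 : ∑ d, m d = ((Finset.univ.filter fun d => R (e d) y0).card : ZMod p) := by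
      simp [m, r]
    rw [h1, Ne, ZMod.natCast_eq_zero_iff]
    apply Nat.not_dvd_of_pos_of_lt
    · exact Finset.card_pos.2 ⟨0, by simpa using hm0⟩
    · conv_rhs => rw [← ZMod.card p]
      apply Finset.card_lt_univ_of_notMem (x := (not_forall.1 hnotall).choose)
      simpa using (not_forall.1 hnotall).choose_spec
  have hN1 : ∀ i j, ∑ n, m (i - n) * m (j - n) = ∑ y, r (e i) y * r (e j) y := by
    intro i j
    refine Fintype.sum_bijective _ hbij _ _ fun n => ?_
    have h1 : ∀ i, m (i - n) = r (e i) (σ ^ n.val • y0) := by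
      intro i
      change r (e (i - n)) y0 = _
      rw [← hr (σ ^ n.val) (e (i - n)), coord_pow he, ZMod.natCast_zmod_val, sub_add_cancel]
    rw [h1, h1]
  have h01 : e 0 ≠ e 1 := e.injective.ne zero_ne_one
  have hN : ∀ i j, i ≠ j → ∑ n, m (i - n) * m (j - n) = ∑ y, r (e 0) y * r (e 1) y := by
    intro i j hij
    obtain ⟨g, h1, h2⟩ := MulAction.is_two_pretransitive_iff.1 h2 h01 (e.injective.ne hij)
    rw [hN1, ← h1, ← h2, ← sum_smul_eq g]
    simp only [hr]
  have hmain : ∀ d, d ≠ 0 → ¬ R (e d) y0 := by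
    intro d hd hRd
    apply hnotall
    intro d'
    by_cases hd' : d' = 0
    · rw [hd']; exact hm0
    have := symmetric_difference_set hp2 m hm hk _ hN hd hd'
    by_contra hn
    simp [m, r, hRd, hn] at this
  obtain ⟨g, hg⟩ := MulAction.exists_smul_eq G ((1 : G) : G ⧸ H) y0
  refine ⟨g⁻¹ • e 0, fun h hh => ?_⟩
  have h1 : (g * h * g⁻¹) • y0 = y0 := by
    rw [mul_smul, mul_smul, ← hg, inv_smul_smul]
    congr 1
    have : h ∈ MulAction.stabilizer G ((1 : G) : G ⧸ H) := by
      rwa [MulAction.stabilizer_quotient]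
    exact this
  obtain ⟨d, hd⟩ := e.surjective ((g * h * g⁻¹) • e 0)
  have h3 : d = 0 := by
    by_contra h3
    exact hmain d h3 ⟨_, hd.symm, h1⟩
  rw [MulAction.mem_stabilizer_iff, eq_inv_smul_iff, ← mul_smul, ← mul_smul, ← hd, h3]

end Cfsg.Agent.H1
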