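import Cfsg.Agent.H6.S4.If
import Cfsg.Agent.H2.SP5

/-! Residual subgroups of `Sp₄(q)`: passage to the algebraic closure and the final assembly. -/

set_option autoImplicit false
set_option linter.unusedSimpArgs false
set_option linter.unusedSectionVars false
set_option linter.unusedVariables false

namespace Cfsg.Agent.H1.S4

open Module Matrix Cfsg.Agent.H9.Sp Cfsg.Geo Cfsg.Agent.H6.S4 Cfsg.Agent.H2.SP
open scoped MatrixGroups

abbrev I4 := Fin 2 ⊕ Fin 2

variable {F : Type*} [Field F] (k : Type*) [Field k] [Algebra F k]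

/-- extension of scalars on matrices -/
noncomputable def fm : Matrix I4 I4 F →+* End k (I4 → k) :=
  (Matrix.toLinAlgEquiv' (R := k) (n := I4)).toRingEquiv.toRingHom.comp
    (algebraMap F k).mapMatrix

theorem fm_apply (A : Matrix I4 I4 F) (v : I4 → k) : fm k A v = A.map (algebraMap F k) *ᵥ v := rfl

theorem fm_single (A : Matrix I4 I4 F) (i j : I4) :
    fm k A (Pi.single j 1) i = algebraMap F k (A i j) := by
  simp [fm_apply]

theorem fm_inj : Function.Injective (fm k (F := F)) := fun A A' e => by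
  ext i j
  apply (algebraMap F k).injective
  rw [← fm_single, ← fm_single, e]

theorem fm_smul (c : F) (A : Matrix I4 I4 F) : fm k (c • A) = algebraMap F k c • fm k A := by
  refine LinearMap.ext fun v => ?_
  rw [LinearMap.smul_apply, fm_apply, fm_apply, ← smul_mulVec]
  congr 1
  ext i j
  simp

theorem fm_trace (A : Matrix I4 I4 F) :
    LinearMap.trace k _ (fm k A) = algebraMap F k A.trace := by
  have : fm k A = Matrix.toLin' (A.map (algebraMap F k)) := rfl
  rw [this, Matrix.trace_toLin'_eq]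
  simp [Matrix.trace]

/-- extension of scalars on invertible matrices -/
noncomputable def fg : GL I4 F →* (End k (I4 → k))ˣ := Units.map (fm k (F := F)).toMonoidHom

theorem fg_val (A : GL I4 F) : (fg k A).1 = fm k A.1 := rfl

theorem fg_inj : Function.Injective (fg k (F := F)) := Units.map_injective (fm_inj k)

theorem fg_neg (A : GL I4 F) : fg k (-A) = -fg k A := Units.ext (by simp [fg_val])

theorem fg_sp {A : GL I4 F} (hA : A ∈ spGL 2 F) : IsSp (B0 2 k) (fg k A) := by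
  have h : ∀ u v, B0 2 F (A.1 *ᵥ u) (A.1 *ᵥ v) = B0 2 F u v := hA
  have : (B0 2 k).compl₁₂ (fg k A).1 (fg k A).1 = B0 2 k := by
    refine LinearMap.ext_basis (Pi.basisFun k I4) (Pi.basisFun k I4) fun i j => ?_
    have := congrArg (algebraMap F k) (h (Pi.single i 1) (Pi.single j 1))
    simp only [B0_apply, sympForm_eq, map_sum, map_sub, map_mul, mulVec_single_one, col_apply]
      at this
    simp only [LinearMap.compl₁₂_apply, Pi.basisFun_apply, B0_apply, sympForm_eq, fg_val,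
      fm_single]
    rw [this]
    refine Finset.sum_congr rfl fun l _ => ?_
    simp only [Pi.single_apply]
    split_ifs <;> simp
  exact fun u v => LinearMap.congr_fun (LinearMap.congr_fun this u) v

theorem nm (a b : (End k (I4 → k))ˣ) : a * -b = -(a * b) ∧ -a * b = -(a * b) ∧ - -a = a ∧
    (-a)⁻¹ = -a⁻¹ := ⟨mul_neg a b, neg_mul a b, neg_neg a, inv_neg (a := a)⟩

theorem nm1 (a b : (End k (I4 → k))ˣ) : a * -b = -(a * b) := (nm k a b).1
theorem nm2 (a b : (End k (I4 → k))ˣ) : -a * b = -(a * b) := (nm k a b).2.1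
theorem nm3 (a : (End k (I4 → k))ˣ) : - -a = a := (nm k a a).2.2.1
theorem nm4 (a : (End k (I4 → k))ˣ) : (-a)⁻¹ = -a⁻¹ := (nm k a a).2.2.2
theorem nm5 {a b : (End k (I4 → k))ˣ} : -a = -b ↔ a = b := neg_inj (a := a)
theorem nm6 {a b : (End k (I4 → k))ˣ} : -a = b ↔ a = -b := neg_eq_iff_eq_neg (a := a)

/-- the extended group `± P` -/
def Ph (P : Subgroup (GL I4 F)) : Subgroup (End k (I4 → k))ˣ where
  carrier := {g | ∃ A ∈ P, g = fg k A ∨ g = -fg k A}
  one_mem' := ⟨1, P.one_mem, Or.inl (map_one _).symm⟩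
  mul_mem' := by
    rintro a b ⟨A, hA, rfl | rfl⟩ ⟨A', hA', rfl | rfl⟩ <;>
      exact ⟨A * A', P.mul_mem hA hA', by simp [nm1, nm2, nm3]⟩
  inv_mem' := by
    rintro a ⟨A, hA, rfl | rfl⟩ <;> exact ⟨A⁻¹, P.inv_mem hA, by simp [nm4]⟩

theorem mem_Ph {P : Subgroup (GL I4 F)} {A : GL I4 F} (hA : A ∈ P) : fg k A ∈ Ph k P :=
  ⟨A, hA, Or.inl rfl⟩

variable [Fintype F] {H P : Subgroup (GL (Fin 2 ⊕ Fin 2) F)}

theorem mk_eq_one (hP : P ≤ spGL 2 F) {A : P} : (A : MS P) = 1 ↔ A.1 = 1 ∨ A.1 = -1 := by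
  rw [QuotientGroup.eq_one_iff, Subgroup.mem_subgroupOf, mem_scalars_iff]
  constructor
  · rintro ⟨c, hc⟩
    obtain ⟨e, f, hef⟩ := exists_hyp (symp_B0 2 F) (by simp)
    have := (mem_spGL _).1 (hP A.2) e f
    simp [H6.gl0_apply, hc, smul_mulVec, hef] at this
    exact (mul_self_eq_one_iff.1 this).imp (fun e => Units.ext (by simp [hc, e])) fun e =>
      Units.ext (by simp [hc, e])
  · rintro (e | e)
    · exact ⟨1, by simp [e]⟩
    · exact ⟨-1, by simp [e]⟩

theorem exists_pi (hP : P ≤ spGL 2 F) : ∃ π : Ph k P →* MS P,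
    ∀ (g : Ph k P) (A : P), g.1 = fg k A.1 ∨ g.1 = -fg k A.1 → π g = A := by
  have key : ∀ (g : (End k (I4 → k))ˣ) (A A' : P), g = fg k A.1 ∨ g = -fg k A.1 →
      g = fg k A'.1 ∨ g = -fg k A'.1 → (A : MS P) = A' := by
    intro g A A' h h'
    rw [QuotientGroup.eq, ← QuotientGroup.eq_one_iff, mk_eq_one hP]
    have : fg k A'.1 = fg k A.1 ∨ fg k A'.1 = fg k (-A.1) := by
      rw [fg_neg]
      rcases h with rfl | rfl <;> rcases h' with e | e
      · exact Or.inl e.symm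
      · exact Or.inr (by rw [e, nm3])
      · exact Or.inr e.symm
      · exact Or.inl ((nm5 k).1 e).symm
    exact this.imp (fun e => by simp [fg_inj k e]) fun e => by simp [fg_inj k e]
  choose a ha ha' using fun g : Ph k P => g.2
  refine ⟨MonoidHom.mk' (fun g => ((⟨a g, ha g⟩ : P) : MS P)) fun g g' => ?_,
    fun g A h => key g.1 _ _ (ha' g) h⟩
  rw [← QuotientGroup.mk_mul]
  refine key (g * g').1 _ _ (ha' _) ?_
  have e := ha' g
  have e' := ha' g'
  simp only [Subgroup.coe_mul, map_mul]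
  generalize fg k (a g) = x, fg k (a g') = y, g.1 = z, g'.1 = w at e e'
  rcases e with rfl | rfl <;> rcases e' with rfl | rfl <;> simp [nm1, nm2, nm3]

theorem two_ne' (hodd : Odd (Fintype.card F)) : (2 : k) ≠ 0 := fun e =>
  two_ne hodd ((algebraMap F k).injective (by rw [map_ofNat, e, map_zero]))

theorem exists_st (hodd : Odd (Fintype.card F)) (hP : P ≤ spGL 2 F) (hc : IsResidualCore H P) :
    ∃ π : Ph k P →* MS P, St (B0 2 k) (Q0 k) (ι0 k) (Ph k P) π := by
  obtain ⟨π, hπ⟩ := exists_pi k hP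
  have c := cl0 (two_ne' k hodd)
  refine ⟨π, c, ?_, ?_, ⟨1, P.one_mem, Or.inr (by simp)⟩, fun U hU => ?_, fun x => ?_,
    fun g => ?_, hc.simple, fun h => hc.nonabelian ⟨⟨h⟩⟩⟩
  · refine Set.Finite.to_subtype (((Set.finite_range (fg k (F := F))).union
      (Set.finite_range fun A : GL I4 F => -fg k A)).subset ?_)
    rintro g ⟨A, -, rfl | rfl⟩
    exacts [Or.inl ⟨A, rfl⟩, Or.inr ⟨A, rfl⟩]
  · rintro g ⟨A, hA, rfl | rfl⟩
    exacts [fg_sp k (hP hA), isSp_neg c (fg_sp k (hP hA))]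
  · have h1 : ∀ X : Matrix I4 I4 F, ∀ v ∈ U, fm k X v ∈ U := fun X => by
      have hX : X ∈ Submodule.span F (matrixSet P) := (H7.absIrr_iff.2 hc.absIrred).mem_span X
      induction hX using Submodule.span_induction with
      | mem x hx =>
        obtain ⟨A, hA, rfl⟩ := hx
        exact hU _ (mem_Ph k hA)
      | zero => intro v hv; simp
      | add x y _ _ hx hy => intro v hv; simpa using U.add_mem (hx v hv) (hy v hv)
      | smul c x _ hx => intro v hv; rw [fm_smul]; exact U.smul_mem _ (hx v hv)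
    by_cases h0 : U = ⊥
    · exact Or.inl h0
    obtain ⟨v, hv, hv0⟩ := (Submodule.ne_bot_iff U).1 h0
    obtain ⟨j, hj⟩ := Function.ne_iff.1 hv0
    refine Or.inr (eq_top_iff.2 ?_)
    rw [← (Pi.basisFun k I4).span_eq, Submodule.span_le]
    rintro _ ⟨i, rfl⟩
    have h2 := U.smul_mem (v j)⁻¹ (h1 (Matrix.single i j 1) v hv)
    have hj' : v j ≠ 0 := hj
    refine (?_ : (v j)⁻¹ • fm k (Matrix.single i j (1 : F)) v = Pi.basisFun k I4 i) ▸ h2
    ext l
    simp only [fm_apply, Matrix.map_single, map_one, Matrix.single_mulVec, Pi.basisFun_apply,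
      Pi.smul_apply, Pi.single_apply, Function.update_apply, smul_eq_mul]
    split_ifs <;> simp [hj']
  · obtain ⟨A, rfl⟩ := QuotientGroup.mk_surjective x
    exact ⟨⟨_, mem_Ph k A.2⟩, hπ _ A (Or.inl rfl)⟩
  · obtain ⟨A, hA, e⟩ := g.2
    rw [hπ g ⟨A, hA⟩ e, mk_eq_one hP]
    have e1 : fg k (-1 : GL I4 F) = -1 := by rw [fg_neg, map_one]
    have e2 : ∀ A : GL I4 F, fg k A = 1 ↔ A = 1 := fun A => map_eq_one_iff _ (fg_inj k)
    have e3 : ∀ A : GL I4 F, fg k A = -1 ↔ A = -1 := fun A => by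
      rw [← e1]; exact (fg_inj k).eq_iff
    rcases e with e | e <;> rw [e]
    · simp only [e2, e3]
    · rw [nm6, nm5, e2, e3, or_comm]

theorem tv_plus (hodd : Odd (Fintype.card F)) (hH : H < spGL 2 F) (hc : IsResidualCore H P)
    {A : GL I4 F} (hA : A ∈ P) {v : I4 → k} (h : ∀ x, ∃ c : k, (fg k A).1 x - x = c • v) :
    A = 1 := by
  by_contra hne
  obtain ⟨i0, j0, h0⟩ : ∃ i j, (A.1 - 1) i j ≠ 0 := by
    by_contra! e
    exact hne (Units.ext (sub_eq_zero.1 (Matrix.ext e)))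
  choose c hc' using fun j => h (Pi.single j 1)
  have h1 : ∀ i j, algebraMap F k ((A.1 - 1) i j) = c j * v i := fun i j => by
    rw [← fm_single, map_sub, map_one]
    exact congrFun (hc' j) i
  have h2 : ∀ i j, (A.1 - 1) i j * (A.1 - 1) i0 j0 = (A.1 - 1) i0 j * (A.1 - 1) i j0 :=
    fun i j => (algebraMap F k).injective (by simp only [map_mul, h1]; ring)
  refine hne (no_transv' hodd hH hc hA (v := fun i => (A.1 - 1) i j0)
    (((A.1 - 1) i0 j0)⁻¹ • (LinearMap.proj i0 ∘ₗ Matrix.toLin' (A.1 - 1))) fun x => ?_)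
  rw [← sub_eq_iff_eq_add', show A.1 *ᵥ x - x = (A.1 - 1) *ᵥ x by rw [sub_mulVec, one_mulVec]]
  generalize A.1 - 1 = N at h0 h2
  ext i
  simp only [LinearMap.smul_apply, LinearMap.comp_apply, toLin'_apply, LinearMap.proj_apply,
    Pi.smul_apply, smul_eq_mul, mulVec, dotProduct, Finset.mul_sum, Finset.sum_mul]
  refine Finset.sum_congr rfl fun j _ => ?_
  field_simp
  linear_combination x j * h2 i j

theorem noTv (hodd : Odd (Fintype.card F)) (hH : H < spGL 2 F) (hc : IsResidualCore H P) :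
    NoTv (Ph k P) := by
  have c := cl0 (two_ne' k hodd)
  rintro g ⟨A, hA, rfl | e⟩ v h
  · rw [tv_plus k hodd hH hc hA h, map_one]
  have sg : IsSp (B0 2 k) g := e ▸ isSp_neg c (fg_sp k (hH.le (hc.le hA)))
  have e2 : fg k (A * A) = g * g := by rw [e]; simp [nm1, nm2, nm3]
  obtain ⟨cv, hv⟩ := h v
  have h1 : A * A = 1 := tv_plus k hodd hH hc (P.mul_mem hA hA) (v := v) fun x => by
    obtain ⟨cx, hx⟩ := h x
    refine ⟨cx * (cv + 2), ?_⟩
    rw [e2, um, sub_eq_iff_eq_add.1 hx, map_add, map_smul, sub_eq_iff_eq_add.1 hv,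
      sub_eq_iff_eq_add.1 hx]
    module
  rw [h1, map_one] at e2
  refine Units.ext (LinearMap.ext fun x => ?_)
  by_cases v0 : v = 0
  · obtain ⟨cx, hx⟩ := h x
    rw [v0, smul_zero, sub_eq_zero] at hx
    exact hx
  obtain ⟨w, hw⟩ := c.symp.exists_one v0
  obtain ⟨cw, hw'⟩ := h w
  have h3 := sg v w
  rw [sub_eq_iff_eq_add.1 hv, sub_eq_iff_eq_add.1 hw'] at h3
  simp only [map_add, map_smul, LinearMap.add_apply, LinearMap.smul_apply, c.symp.alt, hw,
    smul_eq_mul] at h3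
  have cv0 : cv = 0 := by linear_combination h3
  obtain ⟨cx, hx⟩ := h x
  have h4 : (g * g).1 x = x := by rw [← e2]; rfl
  rw [um, sub_eq_iff_eq_add.1 hx, map_add, map_smul, sub_eq_iff_eq_add.1 hv,
    sub_eq_iff_eq_add.1 hx, cv0] at h4
  have h5 : (2 * cx) • v = 0 := by linear_combination (norm := module) h4
  have h6 : cx = 0 := by simpa [v0, two_ne' k hodd] using h5
  rw [h6, zero_smul, sub_eq_zero] at hx
  exact hx

variable {p : ℕ} [Fact p.Prime] [CharP F p]

theorem card_eq (hc : IsResidualCore H P)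
    (h : ∀ g ∈ Ph k P, LinearMap.trace k _ g.1 ^ p = LinearMap.trace k _ g.1) :
    Fintype.card F = p := by
  have hp : p.Prime := Fact.out
  refine le_antisymm ?_ ?_
  · by_contra! lt
    obtain ⟨τ, hτ⟩ := H7.exists_powHom (F := F) (p := p) (k := 1)
    rw [pow_one] at hτ
    obtain ⟨a, ha⟩ := H7.exists_pow_ne hp.two_le lt
    refine hc.no_subfield _ (H7.fixField_ne_top ⟨a, by rwa [hτ]⟩)
      ((H7.absIrr_iff.2 hc.absIrred).realisableOver _ fun A hA => H7.mem_fixField.2 ?_)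
    apply (algebraMap F k).injective
    have := h _ (mem_Ph k hA)
    rwa [fg_val, fm_trace, ← map_pow, ← hτ] at this
  · obtain ⟨n, -, hn⟩ := FiniteField.card F p
    rw [hn]
    exact Nat.le_self_pow n.ne_zero p

theorem reg_of_beta (hodd : Odd (Fintype.card F)) (hP : P ≤ spGL 2 F) (h : Beta (Ph k P)) :
    Reg P p := by
  intro u hu h1 h2 h3
  have c := cl0 (two_ne' k hodd)
  have e := T2_of_cube c (fg_sp k (hP hu)) (by
    rw [fg_val, ← map_one (fm k (F := F)), ← map_sub, ← map_pow, h3, map_zero])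
  rcases h.2 _ (mem_Ph k hu) _ e with e | e | e
  · exact h2 ((map_eq_one_iff _ (fg_inj k)).1 e)
  · have hp2 : p ≠ 2 := by
      rintro rfl
      exact two_ne hodd (CharP.cast_eq_zero F 2)
    have h4 := congrArg (fg k) h1
    rw [map_pow, e, map_one] at h4
    exact neg_ne_one c ((Odd.neg_one_pow (α := (End k (I4 → k))ˣ)
      ((Fact.out : p.Prime).odd_of_ne_two hp2)).symm.trans h4)
  · exact c.two e

theorem final (hodd : Odd (Fintype.card F)) (hH : IsMaximalIn (spGL 2 F) H)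
    (hc : IsResidualCore H P)
    (hC : ∀ π : Ph k P →* MS P, St (B0 2 k) (Q0 k) (ι0 k) (Ph k P) π → NoTv (Ph k P) →
      (5 ≤ p ∧ ∀ g ∈ Ph k P, T g = (2 : k) • 1 → g = 1) ∨ (p = 3 ∧ ¬ 9 ∣ Nat.card (Ph k P)))
    (hM : ∀ π : Ph k P →* MS P, S2 p (B0 2 k) (Q0 k) (ι0 k) (Ph k P) π →
      (5 ≤ p ∧ (∀ g ∈ Ph k P, LinearMap.trace k _ g.1 ^ p = LinearMap.trace k _ g.1) ∧
        (Nonempty (MS P ≃* alternatingGroup (Fin 6)) ∨
          p = 7 ∧ Nonempty (MS P ≃* alternatingGroup (Fin 7)))) ∨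
      (Beta (Ph k P) ∧ (Nonempty (MS P ≃* alternatingGroup (Fin 5)) ∨
        (p ∣ Nat.card (MS P) ∧ ∀ S : Sylow p (MS P), Nat.card (Sylow p (MS P)) ≤ Nat.card S + 1))))
    (h5 : MS P ≃* alternatingGroup (Fin 5) → False)
    (h6 : p = 7 → MS P ≃* alternatingGroup (Fin 6) → False)
    (h7 : 5 ≤ p → MS P ≃* PSL(2, F) → 7 < Fintype.card F) :
    (Nonempty (MS P ≃* alternatingGroup (Fin 6)) ∧ Fintype.card F = p ∧ 5 ≤ p ∧ p ≠ 7) ∨
     (Nonempty (MS P ≃* alternatingGroup (Fin 7)) ∧ Fintype.card F = 7) ∨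
     (Nonempty (MS P ≃* PSL(2, F)) ∧ 5 ≤ p ∧ 7 < Fintype.card F) := by
  have hP : P ≤ spGL 2 F := hc.le.trans hH.1.le
  obtain ⟨π, h⟩ := exists_st k hodd hP hc
  have tv := noTv k hodd hH.1 hc
  rcases hM π ⟨h, tv, hC π h tv⟩ with ⟨a, b, ⟨⟨e⟩⟩ | ⟨e, e'⟩⟩ | ⟨a, ⟨⟨e⟩⟩ | ⟨b, b'⟩⟩
  · exact Or.inl ⟨⟨e⟩, card_eq k hc b, a, fun h7 => h6 h7 e⟩
  · exact Or.inr (Or.inl ⟨e', (card_eq k hc b).trans e⟩)
  · exact (h5 e).elim
  · obtain ⟨S⟩ := (inferInstance : Nonempty (Sylow p (MS P)))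
    obtain ⟨c1, -, ⟨e⟩⟩ := psl_of_reg hodd hP hc (reg_of_beta k hodd hP a) b S (b' S)
    exact Or.inr (Or.inr ⟨⟨e⟩, c1, h7 c1 e⟩)

end Cfsg.Agent.H1.S4
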