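import Cfsg.Agent.H5.T3.Conc
import Cfsg.Agent.H7.AschDensity

/-! An absolutely irreducible group `3^{1+4}` in dimension nine is a Weyl system. -/

set_option autoImplicit false
set_option linter.unusedSectionVars false

namespace Cfsg.Agent.H1.T3

open Matrix Cfsg.Agent.H5.T3 Cfsg.Agent.H7 Subgroup
open scoped commutatorElement

theorem symp_comm {G : Type*} [Group G] [Finite G] {p : ℕ} [Fact p.Prime] (hp : IsPGroup p G)
    (h : ∀ A : Subgroup G, A.Characteristic → IsMulCommutative A → IsCyclic A)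
    (he : Monoid.exponent G = Nat.card (center G)) (x y : G) : ⁅x, y⁆ ∈ center G := by
  have h1 : ∀ A : Subgroup G, A.Characteristic → (∀ a ∈ A, ∀ b ∈ A, a * b = b * a) →
      A ≤ center G := fun A hA hc => by
    have : IsCyclic (A ⊔ center G : Subgroup G) := h _ (characteristic_iff_map_eq.2 fun φ => by
      rw [Subgroup.map_sup, characteristic_iff_map_eq.1 hA, characteristic_iff_map_eq.1 inferInstance])
      ⟨⟨fun a b => Subtype.ext (by
        obtain ⟨a, ha, z, hz, e⟩ := mem_sup_of_normal_right.1 a.2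
        obtain ⟨b, hb, w, hw, e'⟩ := mem_sup_of_normal_right.1 b.2
        rw [coe_mul, coe_mul, ← e, ← e', mul_assoc, mul_assoc, ← mul_assoc z, ← mul_assoc w,
          ← mem_center_iff.1 hz, ← mem_center_iff.1 hw, mul_assoc, mul_assoc, mem_center_iff.1 hz w,
          ← mul_assoc, hc a ha b hb, mul_assoc])⟩⟩
    refine le_sup_left.trans (eq_of_le_of_card_ge le_sup_right ?_).ge
    rw [← he, ← IsCyclic.exponent_eq_card]
    exact Nat.le_of_dvd (he ▸ Nat.card_pos) (Monoid.exponent_dvd_of_monoidHom _ (subtype_injective _))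
  have := hp.isNilpotent
  let C := centralizer (Subgroup.upperCentralSeries G 2 : Set G)
  have k1 : C ⊓ Subgroup.upperCentralSeries G 2 ≤ center G := h1 _ (characteristic_iff_map_eq.2 fun φ => by
    rw [Subgroup.map_inf _ _ _ φ.injective, characteristic_iff_map_eq.1 inferInstance,
      characteristic_iff_map_eq.1 inferInstance]) fun a ha b hb => (ha.1 b hb.2).symm
  have k2 : ∀ n, C ⊓ Subgroup.upperCentralSeries G n ≤ center G := fun n => by
    induction n with
    | zero => simp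
    | succ n ih =>
      refine fun a ha => k1 ⟨ha.1, Subgroup.mem_upperCentralSeries_succ_iff.2 fun b => ?_⟩
      rw [Subgroup.upperCentralSeries_one]
      refine ih ⟨?_, Subgroup.mem_upperCentralSeries_succ_iff.1 ha.2 b⟩
      rw [commutatorElement_def, mul_assoc, mul_assoc, ← mul_assoc b]
      exact C.mul_mem ha.1 (Normal.conj_mem inferInstance _ (C.inv_mem ha.1) b)
  obtain ⟨n, hn⟩ := Group.IsNilpotent.nilpotent G
  refine k2 n ⟨fun z hz => ?_, hn ▸ mem_top _⟩
  have k3 := fun b => mem_center_iff.1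
    (Subgroup.upperCentralSeries_one G ▸ Subgroup.mem_upperCentralSeries_succ_iff.1 hz b)
  have k4 : ∀ b, z * b * z⁻¹ = ⁅z, b⁆ * b := fun b => by simp [commutatorElement_def]
  rw [← mul_inv_eq_iff_eq_mul, conjugate_commutatorElement, k4, k4]
  generalize ⁅z, x⁆ = c, ⁅z, y⁆ = d, k3 x = hc, k3 y = hd
  have hc' : ∀ g, c * g = g * c := fun g => (hc g).symm
  have hd' : ∀ g, d * g = g * d := fun g => (hd g).symm
  calc c * x * (d * y) * (c * x)⁻¹ * (d * y)⁻¹ = c * (x * (d * y) * x⁻¹) * c⁻¹ * (d * y)⁻¹ := by group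
    _ = x * d * (y * x⁻¹ * y⁻¹) * d⁻¹ := by rw [hc']; group
    _ = _ := by rw [mul_assoc x, hd']; group

variable {F : Type*} [Field F] [Om F] {ι : Type} [Fintype ι] [DecidableEq ι]

/-- twisted commutation -/
def Tw (A B : Matrix ι ι F) (k : Z3) : Prop := A * B = χ F k • (B * A)

variable {A B C X Y : Matrix ι ι F} {k l : Z3}

theorem Tw.symm (h : Tw A B k) : Tw B A (-k) := by
  unfold Tw at *
  rw [h, smul_smul, χ_neg_mul, one_smul]

theorem Tw.mul (h : Tw A C k) (h' : Tw B C l) : Tw (A * B) C (k + l) := by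
  unfold Tw at *
  rw [Matrix.mul_assoc, h', mul_smul_comm, ← Matrix.mul_assoc, h, smul_mul_assoc, smul_smul,
    Matrix.mul_assoc, χ_add, mul_comm]

theorem Tw.smul (h : Tw A B k) (c : F) : Tw (c • A) B k := by
  unfold Tw at *
  rw [smul_mul_assoc, h, mul_smul_comm, smul_comm]

theorem Tw.congr (h : Tw A B k) (e : k = l) : Tw A B l := e ▸ h

theorem tw_zero : Tw A B 0 ↔ A * B = B * A := by simp [Tw]

/-- powers indexed by `ZMod 3` -/
def pw (A : Matrix ι ι F) (a : Z3) : Matrix ι ι F := A ^ a.val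

theorem pw_add (h : A ^ 3 = 1) (a b : Z3) : pw A (a + b) = pw A a * pw A b := by
  rw [pw, ZMod.val_add, pw, pw, ← pow_add]
  conv_rhs => rw [← Nat.mod_add_div (a.val + b.val) 3, pow_add, pow_mul, h, one_pow, mul_one]

theorem Tw.pw (h : Tw A B k) (a : Z3) : Tw (pw A a) B (a * k) := by
  rcases z3 a with rfl | rfl | rfl
  · simp [T3.pw, Tw]
  · simpa [T3.pw, ZMod.val_one] using h
  · exact ((h.mul h).congr (two_mul k).symm : Tw (A * A) B _).congr rfl |> fun e => by
      rwa [T3.pw, show (2 : Z3).val = 2 from rfl, sq]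

/-- the Weyl operators of a pair -/
def PP (X Y : Matrix ι ι F) (a : W3) : Matrix ι ι F := χ F (a.1 * a.2) • (pw X a.1 * pw Y a.2)

theorem PP_zero : PP X Y 0 = 1 := by simp [PP, pw]

theorem Tw.PP (h : Tw X A k) (h' : Tw Y A l) (a : W3) : Tw (PP X Y a) A (a.1 * k + a.2 * l) :=
  ((h.pw _).mul (h'.pw _)).smul _

theorem PP_mul (hX : X ^ 3 = 1) (hY : Y ^ 3 = 1) (h : Tw X Y 1) (a b : W3) :
    PP X Y a * PP X Y b = χ F (β3 a b) • PP X Y (a + b) := by
  have e : pw Y a.2 * pw X b.1 = _ := ((h.pw b.1).symm.pw a.2)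
  simp only [PP, smul_mul_smul_comm, Prod.fst_add, Prod.snd_add, pw_add hX, pw_add hY, smul_smul]
  rw [Matrix.mul_assoc, ← Matrix.mul_assoc (pw Y a.2), e, smul_mul_assoc, mul_smul_comm, smul_smul,
    ← χ_add, ← χ_add, ← χ_add, β3_apply]
  simp only [Matrix.mul_assoc]
  congr 2
  have : (3 : Z3) = 0 := rfl
  linear_combination (-(a.2 * b.1)) * this

theorem PP_neg (hX : X ^ 3 = 1) (hY : Y ^ 3 = 1) (h : Tw X Y 1) (a : W3) :
    PP X Y a * PP X Y (-a) = 1 := by
  rw [PP_mul hX hY h, add_neg_cancel, PP_zero, map_neg, symp3.alt, neg_zero, χ_zero, one_smul]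

/-- the data extracted from the group -/
structure Ex (R : Subgroup (GL ι F)) : Prop where
  abs : AbsIrr R
  cube : ∀ A, InM R A → A ^ 3 = 1
  tw : ∀ A B, InM R A → InM R B → ∃ k, Tw A B k
  sc : ∀ k, InM R (χ F k • 1)

variable {R : Subgroup (GL ι F)}

theorem Ex.smul (h : Ex R) (hA : InM R A) (k : Z3) : InM R (χ F k • A) :=
  ((h.sc k).mul hA).congr (by simp)

theorem Ex.PP (h : Ex R) (hX : InM R X) (hY : InM R Y) (a : W3) : InM R (PP X Y a) :=
  h.smul ((hX.pow _).mul (hY.pow _)) _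

theorem Ex.pair (h : Ex R) (hA : InM R A) (hB : InM R B) (hne : A * B ≠ B * A) :
    Tw A B 1 ∨ Tw B A 1 := by
  obtain ⟨k, hk⟩ := h.tw A B hA hB
  rcases z3 k with rfl | rfl | rfl
  · exact absurd (tw_zero.1 hk) hne
  · exact Or.inl hk
  · exact Or.inr (hk.symm.congr rfl)

theorem Ex.split (h : Ex R) (hX : InM R X) (hY : InM R Y) (hxy : Tw X Y 1) (hA : InM R A) :
    ∃ a C, InM R C ∧ Tw X C 0 ∧ Tw Y C 0 ∧ A = C * T3.PP X Y a := by
  obtain ⟨i, hi⟩ := h.tw A X hA hX
  obtain ⟨j, hj⟩ := h.tw A Y hA hY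
  refine ⟨-(-j, i), A * T3.PP X Y (-j, i), hA.mul (h.PP hX hY _), ?_, ?_, ?_⟩
  · exact (hi.mul ((tw_zero.2 rfl).PP hxy.symm _)).symm.congr (by simp)
  · exact (hj.mul (hxy.PP (tw_zero.2 rfl) _)).symm.congr (by simp)
  · rw [Matrix.mul_assoc, PP_neg (h.cube _ hX) (h.cube _ hY) hxy, Matrix.mul_one]

theorem Ex.main [Finite F] (h : Ex R) (hι : Fintype.card ι = 9) :
    ∃ D : W9 → Matrix ι ι F, Wy β9 D ∧ ∀ X, InM R X ↔ ∃ a k, X = χ F k • D a := by
  have : Nonempty ι := Fintype.card_pos_iff.1 (by omega)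
  have hsp : ∀ {κ : Type} [Fintype κ] (b : κ → Matrix ι ι F),
      (∀ A, InM R A → ∃ (c : F) (a : κ), A = c • b a) → 81 ≤ Fintype.card κ := by
    intro κ _ b hb
    have h1 : Submodule.span F (Set.range b) = ⊤ := by
      rw [eq_top_iff]
      intro x _
      refine spanAlg_induction (h.abs.mem_span x) (fun g hg => ?_) (zero_mem _)
        (fun _ _ _ _ => add_mem) (fun c _ _ => Submodule.smul_mem _ c)
      obtain ⟨c, a, e⟩ := hb _ (InM.of hg)
      exact e ▸ Submodule.smul_mem _ c (Submodule.subset_span ⟨a, rfl⟩)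
    have h2 := finrank_range_le_card (R := F) b
    rwa [Set.finrank, h1, finrank_top, Module.finrank_matrix, hι, Module.finrank_self] at h2
  have hsc : ∀ A : Matrix ι ι F, (∀ B, InM R B → A * B = B * A) → IsScal A := fun A hA =>
    h.abs.2 A fun g hg => hA _ (InM.of hg)
  obtain ⟨X, Y, hX, hY, hxy⟩ : ∃ X Y, InM R X ∧ InM R Y ∧ Tw X Y 1 := by
    by_contra! hcon
    have := hsp (fun _ : Unit => (1 : Matrix ι ι F)) fun A hA => by
      obtain ⟨c, hc⟩ := hsc A fun B hB => by
        by_contra hne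
        rcases h.pair hA hB hne with e | e
        exacts [hcon _ _ hA hB e, hcon _ _ hB hA e]
      exact ⟨c, (), hc⟩
    simp at this
  obtain ⟨X', Y', hX', hY', h1, h2, h3, h4, hxy'⟩ : ∃ X' Y', InM R X' ∧ InM R Y' ∧ Tw X X' 0 ∧
      Tw Y X' 0 ∧ Tw X Y' 0 ∧ Tw Y Y' 0 ∧ Tw X' Y' 1 := by
    by_contra! hcon
    have := hsp (T3.PP X Y) fun A hA => by
      obtain ⟨a, C, hC, c1, c2, rfl⟩ := h.split hX hY hxy hA
      obtain ⟨c, hc⟩ := hsc C fun B hB => by
        obtain ⟨b, C', hC', c1', c2', rfl⟩ := h.split hX hY hxy hB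
        have e1 : C * C' = C' * C := by
          by_contra hne
          rcases h.pair hC hC' hne with e | e
          exacts [hcon _ _ hC hC' c1 c2 c1' c2' e, hcon _ _ hC' hC c1' c2' c1 c2 e]
        have e2 : T3.PP X Y b * C = C * T3.PP X Y b := tw_zero.1 ((c1.PP c2 b).congr (by simp))
        rw [← Matrix.mul_assoc, e1, Matrix.mul_assoc, Matrix.mul_assoc, e2]
      exact ⟨c, a, by rw [hc, smul_mul_assoc, Matrix.one_mul]⟩
    simp at this
  let D : W9 → Matrix ι ι F := fun a => T3.PP X Y a.1 * T3.PP X' Y' a.2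
  have hc : ∀ a b, T3.PP X' Y' a * T3.PP X Y b = T3.PP X Y b * T3.PP X' Y' a := fun a b =>
    tw_zero.1 (((h1.PP h2 b).symm.PP (h3.PP h4 b).symm a).congr (by simp))
  have hD : Wy β9 D :=
    { symp := symp9
      zero := by simp [D, PP_zero]
      mul := fun a b => by
        simp only [D]
        rw [Matrix.mul_assoc, ← Matrix.mul_assoc (T3.PP X' Y' a.2), hc, Matrix.mul_assoc,
          ← Matrix.mul_assoc, PP_mul (h.cube _ hX) (h.cube _ hY) hxy,
          PP_mul (h.cube _ hX') (h.cube _ hY') hxy', smul_mul_smul_comm, ← χ_add]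
        rfl
      card := by simp [hι]
      ne := by
        rw [hι]
        simpa [show (3 : F) * 3 = 9 by norm_num] using mul_ne_zero (H5.T3.h3 (F := F)) H5.T3.h3 }
  have hDR : ∀ a, InM R (D a) := fun a => (h.PP hX hY _).mul (h.PP hX' hY' _)
  refine ⟨D, hD, fun A => ⟨fun hA => ?_, ?_⟩⟩
  · by_contra! hcon
    have h0 : ∀ a, (A * D (-a)).trace = 0 := by
      intro a
      have hm := hA.mul (hDR (-a))
      by_contra hne
      obtain ⟨c, hc⟩ := hsc _ fun B hB => by
        obtain ⟨k, hk⟩ := h.tw _ _ hB hm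
        have e3 := h.cube _ hB
        have e4 : B * (A * D (-a)) * B ^ 2 = χ F k • (A * D (-a)) := by
          rw [hk, smul_mul_assoc, Matrix.mul_assoc, ← pow_succ', e3, Matrix.mul_one]
        have e5 := congrArg trace e4
        rw [trace_mul_cycle, ← pow_succ, e3, Matrix.one_mul, trace_smul, smul_eq_mul] at e5
        have e6 : k = 0 := χ_eq_one (F := F) (mul_right_cancel₀ hne (by rw [← e5, one_mul]))
        exact (tw_zero.1 (hk.congr e6)).symm
      have e7 := h.cube _ hm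
      rw [hc, _root_.smul_pow, one_pow] at e7
      obtain ⟨i⟩ := this
      obtain ⟨k, hk⟩ := exists_χ (F := F) (c := c) (by simpa using congrFun (congrFun e7 i) i)
      apply hcon a k
      rw [← hk, ← Matrix.mul_one A, ← hD.neg_mul a, ← Matrix.mul_assoc, hc, smul_mul_assoc,
        Matrix.one_mul]
    have := hD.expand A
    simp only [h0, mul_zero, zero_smul, Finset.sum_const_zero] at this
    obtain ⟨g, -, hg⟩ := hA
    exact g.ne_zero (hg.trans this)
  · rintro ⟨a, k, rfl⟩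
    exact h.smul (hDR a) k

end Cfsg.Agent.H1.T3

namespace Cfsg.Agent.H1

open Matrix Cfsg.Agent.H5.T3 Cfsg.Agent.H7 Subgroup T3
open scoped commutatorElement

theorem bridge (F : Type*) [Field F] [Finite F] : Bridge F := by
  intro R h1 h2 h3
  have habs : AbsIrr R := absIrr_iff.2 h2
  have hexp : Monoid.exponent R = 3 := h1.exponent_eq
  have hcube : ∀ A, InM R A → A ^ 3 = 1 := by
    rintro _ ⟨g, hg, rfl⟩
    have := Monoid.pow_exponent_eq_one (⟨g, hg⟩ : R)
    rw [hexp] at this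
    exact congrArg (fun x : R => ((x : GL (Fin 9) F) : Matrix (Fin 9) (Fin 9) F)) this
  have hz : ∀ z ∈ center R, ∃ c : F, c ^ 3 = 1 ∧
      ((z : GL (Fin 9) F) : Matrix (Fin 9) (Fin 9) F) = c • 1 := by
    intro z hz
    obtain ⟨c, hc⟩ := habs.2 ((z : GL (Fin 9) F) : Matrix (Fin 9) (Fin 9) F) fun g hg =>
      congrArg (fun x : R => ((x : GL (Fin 9) F) : Matrix (Fin 9) (Fin 9) F))
        (mem_center_iff.1 hz ⟨g, hg⟩).symm
    have := hcube _ (InM.of z.2)
    rw [hc, _root_.smul_pow, one_pow] at this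
    exact ⟨c, by simpa using congrFun (congrFun this 0) 0, hc⟩
  obtain ⟨z, hz1, hz2⟩ : ∃ z ∈ center R, z ≠ 1 :=
    (Subgroup.bot_or_exists_ne_one _).resolve_left fun e => by simp [e] at h3
  obtain ⟨w, hw, hzw⟩ := hz z hz1
  have hw1 : w - 1 ≠ 0 := fun e => hz2 (Subtype.ext (Units.ext (by
    rw [hzw, sub_eq_zero.1 e]; simp)))
  have hq : w ^ 2 + w + 1 = 0 := mul_left_cancel₀ hw1 (by linear_combination hw)
  let om : Om F := ⟨w, hq, fun e => hw1 (pow_eq_zero_iff (two_ne_zero) |>.1 (by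
    linear_combination hq - w * e))⟩
  have hE : Ex R :=
    { abs := habs
      cube := hcube
      tw := by
        rintro _ _ ⟨a, ha, rfl⟩ ⟨b, hb, rfl⟩
        obtain ⟨c, hc, e⟩ := hz _ (symp_comm h1.pGroup h1.cyclic_of_characteristic
          (hexp.trans h3.symm) ⟨a, ha⟩ ⟨b, hb⟩)
        obtain ⟨k, rfl⟩ := exists_χ hc
        refine ⟨k, ?_⟩
        have e1 : a * b = ⁅a, b⁆ * (b * a) := by simp [commutatorElement_def]
        have e2 := congrArg Units.val e1
        rw [Units.val_mul ⁅a, b⁆, show ((⁅a, b⁆ : GL (Fin 9) F) : Matrix (Fin 9) (Fin 9) F) = _ from e,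
          smul_mul_assoc, Matrix.one_mul] at e2
        exact e2
      sc := fun k => ((InM.of z.2).pow k.val).congr (by
        rw [hzw, _root_.smul_pow, one_pow]; rfl) }
  exact ⟨om, hE.main (by simp)⟩

end Cfsg.Agent.H1
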