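import Cfsg.Agent.H5.T3.Conc
import Cfsg.Agent.H6.Basic

/-! The overgroup with a block transvection contains `SL₉`. -/

set_option autoImplicit false
set_option linter.unusedSectionVars false

namespace Cfsg.Agent.H1.T3

open Matrix Cfsg.Agent.H5.T3 Cfsg.Agent.H6 Module

variable {F : Type*} [Field F] [Om F]

local notation "ω" => (Om.om : F)

theorem inM_map {M : Subgroup (GL W3 F)} {X : Matrix W3 W3 F} (h : InM M X) :
    ∃ g ∈ M.map gl0.toMonoidHom, ∀ x, g x = X *ᵥ x := by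
  obtain ⟨k, hk, rfl⟩ := h
  exact ⟨gl0 k, ⟨k, hk, rfl⟩, fun _ => rfl⟩

theorem perm_mulVec (σ : W3 ≃ W3) (x : W3 → F) (P : W3) :
    ((of fun P Q => if P = σ Q then (1 : F) else 0) *ᵥ x) P = x (σ.symm P) := by
  rw [mulVec, dotProduct, Finset.sum_eq_single (σ.symm P)]
  · simp
  · intro Q _ h
    simp [show P ≠ σ Q from fun e => h (by simp [e])]
  · simp

/-- the abstract form of the hypotheses -/
structure Nine' (M : Subgroup ((W3 → F) ≃ₗ[F] (W3 → F))) : Prop where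
  diag : ∀ i : Z3, ∃ g ∈ M, ∀ x P, g x P = (if P.1 = i then ω else 1) * x P
  shift : ∀ a : W3, ∃ g ∈ M, ∀ x P, g x P = x (P - a)
  neg : ∃ g ∈ M, ∀ x P, g x P = x (-P.1, P.2)
  swap : ∃ g ∈ M, ∀ x P, g x P = x P.swap
  four : ∃ g ∈ M, ∀ x P, g x P = x P + (ω - 1) / 3 * (x (0, P.2) + x (1, P.2) + x (2, P.2))
  tv : ∃ v φ : W3 → F, v ≠ 0 ∧ φ ≠ 0 ∧ φ ⬝ᵥ v = 0 ∧ (∀ P, P.2 ≠ 0 → v P = 0 ∧ φ P = 0) ∧
    ∃ g ∈ M, ∀ x, g x = x + (φ ⬝ᵥ x) • v

theorem nine' {M : Subgroup (GL W3 F)} (h : Nine M) : Nine' (M.map gl0.toMonoidHom) where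
  diag i := by
    obtain ⟨g, hg, e⟩ := inM_map (h.diag i)
    exact ⟨g, hg, fun x P => by rw [e, mulVec_diagonal]⟩
  shift a := by
    obtain ⟨g, hg, e⟩ := inM_map (h.shift a)
    exact ⟨g, hg, fun x P => by rw [e]; exact perm_mulVec (Equiv.addRight a) x P |>.trans (by
      simp [sub_eq_add_neg])⟩
  neg := by
    obtain ⟨g, hg, e⟩ := inM_map h.neg
    exact ⟨g, hg, fun x P => by
      rw [e]; exact perm_mulVec ((Equiv.neg Z3).prodCongr (Equiv.refl Z3)) x P⟩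
  swap := by
    obtain ⟨g, hg, e⟩ := inM_map h.swap
    exact ⟨g, hg, fun x P => by rw [e]; exact perm_mulVec (Equiv.prodComm Z3 Z3) x P⟩
  four := by
    obtain ⟨g, hg, e⟩ := inM_map h.four
    refine ⟨g, hg, fun x P => ?_⟩
    rw [e, add_mulVec, one_mulVec, smul_mulVec]
    simp [mulVec, dotProduct, Fintype.sum_prod_type, sum3]
  tv := by
    obtain ⟨v, φ, h1, h2, h3, h4, h5⟩ := h.tv
    obtain ⟨g, hg, e⟩ := inM_map h5
    exact ⟨v, φ, h1, h2, h3, h4, g, hg, fun x => by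
      rw [e, add_mulVec, one_mulVec, vecMulVec_mulVec, op_smul_eq_smul]⟩

/-- the functional attached to a vector -/
def dl (φ : W3 → F) : Dual F (W3 → F) where
  toFun x := φ ⬝ᵥ x
  map_add' := dotProduct_add φ
  map_smul' c x := dotProduct_smul c φ x

@[simp] theorem dl_apply (φ x : W3 → F) : dl φ x = φ ⬝ᵥ x := rfl

variable {M : Subgroup ((W3 → F) ≃ₗ[F] (W3 → F))}

theorem hasT_all (hF : ∀ c : F, ∃ n : ℕ, c = n) {v : W3 → F} {φ : Dual F (W3 → F)}
    (h : HasT M v φ) (h0 : φ v = 0) (c : F) : HasT M v (c • φ) := by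
  obtain ⟨n, rfl⟩ := hF c
  induction n with
  | zero => simpa using HasT.zero_right v
  | succ n ih => simpa [add_smul] using ih.add_right h (by simp [h0])

/-- block transvection -/
def BT (M : Subgroup ((W3 → F) ≃ₗ[F] (W3 → F))) (v φ : W3 → F) : Prop :=
  v ≠ 0 ∧ φ ≠ 0 ∧ φ ⬝ᵥ v = 0 ∧ (∀ P, P.2 ≠ 0 → v P = 0 ∧ φ P = 0) ∧ HasT M v (dl φ)

theorem Nine'.conj (h : Nine' M) {v φ : W3 → F} (hs : ∀ P, P.2 ≠ 0 → v P = 0 ∧ φ P = 0)
    (hT : HasT M v (dl φ)) (i : Z3) :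
    HasT M (v + ((ω - 1) * v (i, 0)) • Pi.single (i, 0) 1)
      (dl (φ + ((ω ^ 2 - 1) * φ (i, 0)) • Pi.single (i, 0) 1)) := by
  obtain ⟨g, hg, e⟩ := h.diag i
  have key : ∀ (u : W3 → F) (c : F), (∀ P, P.2 ≠ 0 → u P = 0) → ∀ P,
      (u + ((c - 1) * u (i, 0)) • (Pi.single (i, 0) 1 : W3 → F)) P = (if P.1 = i then c else 1) * u P := by
    rintro u c hu ⟨a, b⟩
    by_cases hb : b = 0
    · subst hb
      by_cases ha : a = i
      · subst ha; simp; ring
      · simp [ha]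
    · simp [hu (a, b) hb, hb]
  have := hT.conj hg (ψ := dl (φ + ((ω ^ 2 - 1) * φ (i, 0)) • Pi.single (i, 0) 1)) (fun x => by
    simp only [dl_apply, dotProduct, e, key φ _ (fun P hP => (hs P hP).2)]
    refine Finset.sum_congr rfl fun P _ => ?_
    split_ifs
    · linear_combination φ P * x P * om_cube (F := F)
    · ring)
  convert this using 1
  ext P
  rw [e, key v _ (fun P hP => (hs P hP).1)]

theorem exists_supp {v : W3 → F} (hv : v ≠ 0) (hs : ∀ P, P.2 ≠ 0 → v P = 0) : ∃ i, v (i, 0) ≠ 0 := by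
  obtain ⟨⟨i, b⟩, h⟩ := Function.ne_iff.1 hv
  by_cases hb : b = 0
  · exact ⟨i, hb ▸ h⟩
  · exact absurd (hs (i, b) hb) h

theorem Nine'.disj (h : Nine' M) (hF : ∀ c : F, ∃ n : ℕ, c = n) :
    ∃ v φ, BT M v φ ∧ ∀ i, v (i, 0) * φ (i, 0) = 0 := by
  obtain ⟨v, φ, h1, h2, h3, h4, h5⟩ := h.tv
  have h5 : HasT M v (dl φ) := h5
  by_cases hd : ∀ i, v (i, 0) * φ (i, 0) = 0
  · exact ⟨v, φ, ⟨h1, h2, h3, h4, h5⟩, hd⟩
  push Not at hd
  obtain ⟨i, hi⟩ := hd
  obtain ⟨hv, hφ⟩ := mul_ne_zero_iff.1 hi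
  have hw := om_sub (F := F)
  have hw2 : ω ^ 2 - 1 ≠ 0 := sub_ne_zero.2 om_sq_ne_one
  have h6 := h.conj h4 h5 i
  set v' := v + ((ω - 1) * v (i, 0)) • (Pi.single (i, 0) 1 : W3 → F) with hv'
  set φ' := φ + ((ω ^ 2 - 1) * φ (i, 0)) • (Pi.single (i, 0) 1 : W3 → F) with hφ'
  have a1 : φ' ⬝ᵥ v = (ω ^ 2 - 1) * φ (i, 0) * v (i, 0) := by simp [hφ', h3]
  have a2 : φ ⬝ᵥ v' = (ω - 1) * v (i, 0) * φ (i, 0) := by simp [hv', h3]
  have a3 : φ' ⬝ᵥ v' = 0 := by
    simp only [hv', hφ', add_dotProduct, dotProduct_add, h3, dotProduct_smul, smul_dotProduct,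
      dotProduct_single, single_dotProduct, smul_eq_mul, Pi.single_eq_same, Pi.add_apply,
      Pi.smul_apply]
    linear_combination v (i, 0) * φ (i, 0) * om_cube (F := F)
  obtain ⟨c, hc⟩ : ∃ c, c * ((ω ^ 2 - 1) * φ (i, 0) * v (i, 0)) = -1 :=
    ⟨-((ω ^ 2 - 1) * φ (i, 0) * v (i, 0))⁻¹, by field_simp⟩
  have h7 := h5.conjT (hasT_all hF h6 a3 c) (by simp [a3])
  simp only [LinearMap.smul_apply, dl_apply, a1, a2, smul_eq_mul, hc] at h7
  set d := (ω - 1) * v (i, 0) * φ (i, 0) * c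
  have hψ : (φ - d • φ') (i, 0) = 0 := by
    have hq := om_eq (F := F)
    have : (ω + 1) * (φ - d • φ') (i, 0) = 0 := by
      simp only [hφ', d, Pi.sub_apply, Pi.smul_apply, Pi.add_apply, Pi.single_eq_same, smul_eq_mul]
      linear_combination (-ω ^ 2 * φ (i, 0)) * hc + φ (i, 0) * hq
    exact (mul_eq_zero.1 this).resolve_left fun e => om_ne (F := F)
      (pow_eq_zero_iff two_ne_zero |>.1 (by linear_combination hq - e))
  refine ⟨(-((ω - 1) * v (i, 0))) • Pi.single (i, 0) 1, φ - d • φ', ⟨?_, ?_, ?_, ?_, ?_⟩, fun j => ?_⟩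
  · simp [hw, hv]
  · intro e
    have := congrArg (· ⬝ᵥ v) e
    simp only [sub_dotProduct, smul_dotProduct, h3, a1, zero_dotProduct, smul_eq_mul, d, mul_assoc _ c,
      hc] at this
    simp [hw, hv, hφ] at this
  · rw [dotProduct_smul, dotProduct_single, hψ]; simp
  · rintro ⟨a, b⟩ hb
    have hb : b ≠ 0 := hb
    simp [hφ', (h4 (a, b) hb).2, hb]
  · convert h7 using 1
    · simp [hv']
    · ext x; simp [d, mul_assoc]
  · by_cases hj : j = i
    · rw [hj, hψ, mul_zero]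
    · simp [hj]

/-- all elementary transvections in position `P, Q` -/
def EE (M : Subgroup ((W3 → F) ≃ₗ[F] (W3 → F))) (P Q : W3) : Prop :=
  ∀ c : F, HasT M (Pi.single P 1) (c • dl (Pi.single Q 1))

theorem Nine'.elem (h : Nine' M) (hF : ∀ c : F, ∃ n : ℕ, c = n) :
    ∃ i j : Z3, i ≠ j ∧ EE M (i, 0) (j, 0) := by
  obtain ⟨v, φ, ⟨h1, h2, h3, h4, h5⟩, hd⟩ := h.disj hF
  obtain ⟨i, hi⟩ := exists_supp h1 fun P hP => (h4 P hP).1
  obtain ⟨j, hj⟩ := exists_supp h2 fun P hP => (h4 P hP).2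
  have hvj : v (j, 0) = 0 := (mul_eq_zero.1 (hd j)).resolve_right hj
  have hij : i ≠ j := fun e => hi (e ▸ hvj)
  have hw := om_sub (F := F)
  have hw2 : ω ^ 2 - 1 ≠ 0 := sub_ne_zero.2 om_sq_ne_one
  have a1 := h.conj h4 h5 j
  rw [hvj, mul_zero, zero_smul, add_zero] at a1
  set c := (ω ^ 2 - 1) * φ (j, 0) with hc
  have a2 : HasT M v (dl (c • Pi.single (j, 0) 1)) :=
    (a1.sub_right h5 (by simp [h3, hvj]) h3).congr fun x => by simp
  have a3 := h.conj (fun P hP => ⟨(h4 P hP).1, by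
    simp [show P ≠ (j, 0) from fun e => hP (by rw [e])]⟩) a2 i
  rw [Pi.smul_apply, Pi.single_eq_of_ne (by simpa using hij), smul_zero, mul_zero, zero_smul,
    add_zero] at a3
  have a4 := a3.sub_left a2 (by simp [hvj])
  rw [add_sub_cancel_left, hasT_smul] at a4
  refine ⟨i, j, hij, fun d => ?_⟩
  have hc0 : c ≠ 0 := mul_ne_zero hw2 hj
  refine (hasT_all hF a4 (by simp [hij.symm]) (d / ((ω - 1) * v (i, 0) * c))).congr fun x => ?_
  congr 1
  simp
  field_simp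

theorem EE.perm {P Q : W3} (h : EE M P Q) {σ : W3 ≃ W3} (hσ : ∃ g ∈ M, ∀ x P, g x P = x (σ.symm P)) :
    EE M (σ P) (σ Q) := by
  obtain ⟨g, hg, e⟩ := hσ
  intro c
  have := (h c).conj hg (ψ := c • dl (Pi.single (σ Q) 1)) (fun x => by simp [e])
  convert this using 1
  ext R
  simp [e, Pi.single_apply, Equiv.symm_apply_eq]

theorem EE.trans {P Q R : W3} (h : EE M P Q) (h' : EE M Q R) (h1 : P ≠ Q) (h2 : Q ≠ R) (h3 : P ≠ R) :
    EE M P R := fun c => by
  simpa using (h 1).comm (h' c) (by simp [h1.symm]) (by simp [h2.symm]) (by simp [h3.symm])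

theorem Nine'.all (h : Nine' M) (hF : ∀ c : F, ∃ n : ℕ, c = n) (P Q : W3) (hPQ : P ≠ Q) : EE M P Q := by
  obtain ⟨i, j, hij, hE⟩ := h.elem hF
  have sh : ∀ {P Q : W3}, EE M P Q → ∀ a, EE M (P + a) (Q + a) := fun hE a =>
    hE.perm (σ := Equiv.addRight a) (by simpa [sub_eq_add_neg] using h.shift a)
  have ng : ∀ {P Q : W3}, EE M P Q → EE M (-P.1, P.2) (-Q.1, Q.2) := fun hE =>
    hE.perm (σ := (Equiv.neg Z3).prodCongr (Equiv.refl Z3)) h.neg
  have sw : ∀ {P Q : W3}, EE M P Q → EE M P.swap Q.swap := fun hE =>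
    hE.perm (σ := Equiv.prodComm Z3 Z3) h.swap
  have row : ∀ a b c : Z3, a ≠ b → EE M (a, c) (b, c) := by
    intro a b c hab
    have : b - a = j - i ∨ b - a = -(j - i) :=
      (by decide : ∀ a b i j : Z3, a ≠ b → i ≠ j → b - a = j - i ∨ b - a = -(j - i)) a b i j hab hij
    rcases this with e | e
    · convert sh hE (a - i, c) using 2 <;> simp
      linear_combination e
    · convert sh (ng hE) (a + i, c) using 2 <;> simp
      linear_combination e
  have col : ∀ a b c : Z3, a ≠ b → EE M (c, a) (c, b) := fun a b c hab =>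
    sw (P := (a, c)) (Q := (b, c)) (row a b c hab)
  obtain ⟨a, b⟩ := P
  obtain ⟨c, d⟩ := Q
  by_cases h1 : b = d
  · subst h1
    exact row _ _ _ fun e => hPQ (by rw [e])
  · by_cases h2 : a = c
    · subst h2
      exact col b d a h1
    · exact (row a c b h2).trans (col b d c h1) (by simp [h2]) (by simp [h1]) hPQ

theorem Nine'.SL (h : Nine' M) (hF : ∀ c : F, ∃ n : ℕ, c = n) : SLV F (W3 → F) ≤ M := by
  have h1 : ∀ P, Full M (Pi.single P 1) := by
    intro P φ hφ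
    have key : ∀ s : Finset W3, HasT M (Pi.single P 1)
        (∑ Q ∈ s, φ (Pi.single Q 1) • dl (Pi.single Q 1)) := by
      intro s
      induction s using Finset.induction_on with
      | empty => simpa using HasT.zero_right _
      | insert Q s hQ ih =>
        rw [Finset.sum_insert hQ]
        by_cases e : P = Q
        · rwa [← e, hφ, zero_smul, zero_add]
        · exact (h.all hF P Q e _).add_right ih (by simp [Ne.symm e])
    refine (key Finset.univ).congr fun x => ?_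
    congr 1
    conv_rhs => rw [pi_eq_sum_univ' x]
    simp [mul_comm]
  refine SLV_le_of_full fun v => ?_
  rw [pi_eq_sum_univ' v]
  exact (fullSub M).sum_mem fun P _ => (fullSub M).smul_mem _ (h1 P)

end Cfsg.Agent.H1.T3

namespace Cfsg.Agent.H1

open Matrix Cfsg.Agent.H5.T3 Cfsg.Agent.H6 T3

theorem bigSL (F : Type*) [Field F] [Om F] : BigSL F := by
  intro hF M h g hg
  obtain ⟨k, hk, e⟩ := (nine' h).SL hF (show gl0 g ∈ _ by rw [mem_SLV', det_glEquiv, hg])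
  exact gl0.injective e ▸ hk

end Cfsg.Agent.H1
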