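import Cfsg.Agent.H1.T3SL
import Cfsg.Agent.H5.U.Frame4

/-! The overgroup with a block transvection contains `SU₉`. -/

set_option autoImplicit false
set_option linter.unusedSectionVars false

namespace Cfsg.Agent.H1.T3

open Matrix Cfsg.Agent.H5.T3 Cfsg.Agent.H6 Module Cfsg.Agent.H5.U Cfsg.Agent.H5.U.HF

section Gen

variable {F : Type*} {V : Type*} [Field F] [StarRing F] [AddCommGroup V] [Module F V]
  [NStar F] [Finite F] [FiniteDimensional F V]
  {h : HF F V} {M : Subgroup (V ≃ₗ[F] V)} {ι : Type*} [Fintype ι] [DecidableEq ι] {b : ι → V}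

theorem mem_of_pt (hb : h.ONB b) {i j : ι} (hij : i ≠ j) (p : h.Pt b M i j) {g : V ≃ₗ[F] V}
    (hg : g ∈ h.SU) (hf : ∀ m, m ≠ i → m ≠ j → g (b m) = b m) : g ∈ M := by
  refine SUW_le_of_XIn (hb.ndOn_pair hij).1 (by rw [(hb.ndOn_pair hij).2]; omega) (fun v hv hvv => ?_)
    (mem_SUW.2 ⟨hg, fun x hx => ?_⟩)
  · obtain ⟨s, t, rfl⟩ := Submodule.mem_span_pair.1 hv
    exact p s t (by rw [← hb.wt2 hij, hvv])
  · rw [hb.span x, map_sum]
    refine Finset.sum_congr rfl fun m _ => ?_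
    by_cases hi : m = i
    · rw [hi, hx _ (Submodule.subset_span (by simp))]; simp
    by_cases hj : m = j
    · rw [hj, hx _ (Submodule.subset_span (by simp))]; simp
    rw [map_smul, hf m hi hj]

theorem transp_of_pt (hb : h.ONB b) {i j : ι} (hij : i ≠ j) (p : h.Pt b M i j) :
    ∃ s ∈ M, Mono b s ∧ s (b i) = b j ∧ ∀ m, m ≠ i → m ≠ j → s (b m) = b m := by
  obtain ⟨s, hs, h1, h2, h3⟩ := hb.exists_transp hij
  have h4 : Mono b s := fun m => by
    by_cases hi : m = i
    · exact ⟨j, 1, by rw [hi, h1, one_smul]⟩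
    by_cases hj : m = j
    · exact ⟨i, 1, by rw [hj, h2, one_smul]⟩
    exact ⟨m, 1, by rw [h3 m hi hj, one_smul]⟩
  have h6 : ∀ m, m ≠ i → m ≠ j →
      (s * h.R (b j) (star (LinearMap.det (s : V →ₗ[F] V)))) (b m) = b m := fun m hi hj => by
    rw [mul_app, R_apply_of_perp (hb.ne hj), h3 m hi hj]
  refine ⟨_, mem_of_pt hb hij p (mul_R_mem_SU hs (z := b j) (by simp [hb.self])) h6,
    h4.mul (hb.mono_R j _), ?_, h6⟩
  rw [mul_app, R_apply_of_perp (hb.ne hij), h1]

theorem pt_trans (hb : h.ONB b) (hM : M ≤ h.SU) {i j l : ι} (hij : i ≠ j) (hil : i ≠ l) (hjl : j ≠ l)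
    (p : h.Pt b M i j) (p' : h.Pt b M j l) : h.Pt b M i l := by
  obtain ⟨g, hg, -, h1, h2⟩ := transp_of_pt hb hjl p'
  intro s t hst
  have := (p s t hst).map hM ((hb.wt2 hij s t).trans hst) hg
  rwa [map_add, map_smul, map_smul, h1, h2 i hij hil] at this

theorem fr_of_pt (hb : h.ONB b) (hM : M ≤ h.SU) (p : ∀ i j, i ≠ j → h.Pt b M i j) : h.Fr b M := by
  classical
  refine ⟨hb, hM, fun g hg hm => ?_⟩
  induction hn : (Finset.univ.filter fun i => g (b i) ≠ b i).card using Nat.strong_induction_on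
    generalizing g with | _ n ih =>
  by_cases h0 : ∀ i, g (b i) = b i
  · have : g = 1 := LinearEquiv.ext fun x => by
      rw [hb.span x, map_sum, map_sum]; simp [h0]
    exact this ▸ M.one_mem
  push Not at h0
  obtain ⟨i, hi⟩ := h0
  obtain ⟨k, c, hk⟩ := hm i
  have hc : c * star c = 1 := by
    have := hg.1 (b i) (b i)
    rw [hk] at this
    simpa [hb.self, mul_comm] using this
  obtain ⟨j, hji, hj, s, hs, hsm, h1, h2⟩ : ∃ j, j ≠ i ∧ g (b j) ≠ b j ∧ ∃ s ∈ M, Mono b s ∧
      s (b k) = b i ∧ ∀ m, m ≠ i → m ≠ j → s (b m) = b m := by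
    by_cases hki : k = i
    · subst hki
      by_contra! hcon
      have h3 : ∀ j, j ≠ k → g (b j) = b j := fun j hj => by
        by_contra h4
        obtain ⟨m, -, -, h5⟩ := hcon j hj h4 1 M.one_mem (fun m => ⟨m, 1, by simp⟩) rfl
        exact h5 rfl
      have h4 : g = h.R (b k) c := LinearEquiv.ext fun x => by
        rw [hb.span x, map_sum, map_sum]
        refine Finset.sum_congr rfl fun m _ => ?_
        rw [map_smul, map_smul]
        by_cases hmk : m = k
        · rw [hmk, hk, R_self (by simp [hb.self]) hc]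
        · rw [h3 m hmk, R_apply_of_perp (hb.ne hmk)]
      have h5 := (mem_SU.1 hg).2
      rw [h4, det_R (by simp [hb.self]) hc] at h5
      exact hi (by rw [hk, h5, one_smul])
    · obtain ⟨s, hs, h1, h2, h3⟩ := transp_of_pt hb hki (p k i hki)
      exact ⟨k, hki, fun e => hki (hb.mono_inj (c := 1) (by rw [e, one_smul]) hk), s, hs, h1, h2,
        fun m h4 h5 => h3 m h5 h4⟩
  have hc' := norm_one_star hc
  have hr : ∀ m, m ≠ i → m ≠ j → h.rr (b i) (b j) (star c) (b m) = b m := fun m h3 h4 => by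
    rw [rr_apply (hb.self i) (hb.self j) (hb.ne hji) hc', hb.ne h3, hb.ne h4]; simp
  have hrM := mem_of_pt hb hji.symm (p i j hji.symm) (rr_mem_SU (hb.self i) (hb.self j) hc') hr
  have ht := M.mul_mem hrM hs
  refine (M.mul_mem_cancel_left ht).1 (ih _ ?_ _ (h.SU.mul_mem (hM ht) hg)
    ((((hb.mono_R i _).mul (hb.mono_R j _)).mul hsm).mul hm) rfl)
  rw [← hn]
  refine Finset.card_lt_card ⟨fun m hm' => ?_, fun hsub => ?_⟩
  · simp only [Finset.mem_filter, Finset.mem_univ, true_and] at hm' ⊢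
    intro e
    have h3 : m ≠ i := fun e' => hi (e' ▸ e)
    have h4 : m ≠ j := fun e' => hj (e' ▸ e)
    exact hm' (by rw [mul_app, mul_app, e, h2 m h3 h4, hr m h3 h4])
  · have := hsub (Finset.mem_filter.2 ⟨Finset.mem_univ i, hi⟩)
    refine (Finset.mem_filter.1 this).2 ?_
    rw [mul_app, mul_app, hk, map_smul, h1, map_smul,
      rr_apply (hb.self i) (hb.self j) (hb.ne hji) hc', hb.self, hb.ne hji.symm]
    match_scalars
    · linear_combination hc
    · ring

end Gen

variable {F : Type*} [Field F] [Om F] [StarRing F] [NStar F] [Finite F]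

local notation "ω" => (Om.om : F)
local notation "hh" => stdHF W3 F

/-- the standard frame -/
def bb (P : W3) : W3 → F := Pi.single P 1

theorem hh_def (x y : W3 → F) : hh x y = ∑ P, x P * star (y P) := rfl

@[simp] theorem hh_bb (x : W3 → F) (P : W3) : hh x (bb P) = x P := by
  simp [hh_def, bb, Pi.single_apply, apply_ite star]

@[simp] theorem bb_hh (x : W3 → F) (P : W3) : hh (bb P) x = star (x P) := by
  rw [← conj, hh_bb]

theorem bb_apply (P Q : W3) : (bb P : W3 → F) Q = if Q = P then 1 else 0 := Pi.single_apply _ _ _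

theorem onb : (hh).ONB bb :=
  ⟨fun i j => by rw [hh_bb, bb_apply]; simp [eq_comm], fun x => by
    simp only [hh_bb]; exact pi_eq_sum_univ' x⟩

variable {M : Subgroup ((W3 → F) ≃ₗ[F] (W3 → F))}

theorem xG {u : W3 → F} (hu : hh u u = 0) (hX : (hh).XIn (M ⊓ (hh).SU) u) {g : (W3 → F) ≃ₗ[F] (W3 → F)}
    (hg : g ∈ M) (hg' : g ∈ (hh).GU) : (hh).XIn (M ⊓ (hh).SU) (g u) := by
  intro c hc
  refine ⟨?_, T_mem_SU _ _⟩
  rw [← conj_T hg' hu hc]
  exact M.mul_mem (M.mul_mem hg (hX c hc).1) (M.inv_mem hg)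

theorem ptG {P Q : W3} (hPQ : P ≠ Q) (p : (hh).Pt bb (M ⊓ (hh).SU) P Q) {σ : W3 ≃ W3}
    (hσ : ∃ g ∈ M, ∀ x P, g x P = x (σ.symm P)) : (hh).Pt bb (M ⊓ (hh).SU) (σ P) (σ Q) := by
  obtain ⟨g, hg, e⟩ := hσ
  have hg' : g ∈ (hh).GU := fun x y => by
    simp only [hh_def, e]
    exact Equiv.sum_comp σ.symm fun P => x P * star (y P)
  have e' : ∀ R, g (bb R) = bb (σ R) := fun R => by
    ext T
    simp [e, bb_apply, Equiv.symm_apply_eq]
  intro s t hst
  have := xG ((onb.wt2 hPQ s t).trans hst) (p s t hst) hg hg'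
  rwa [map_add, map_smul, map_smul, e', e'] at this

/-- isotropic vectors of the block which are centres of root groups -/
def SS (M : Subgroup ((W3 → F) ≃ₗ[F] (W3 → F))) (u : W3 → F) : Prop :=
  (∀ P, P.2 ≠ 0 → u P = 0) ∧ hh u u = 0 ∧ (hh).XIn (M ⊓ (hh).SU) u

theorem SS.step (h : Nine' M) (hω : star ω = ω ^ 2) {u : W3 → F} (hu : SS M u) (i : Z3) {l : F}
    (hl : l * star l = 1) : SS M (u + ((l - 1) * u (i, 0)) • bb (i, 0)) := by
  by_cases h0 : u (i, 0) = 0
  · simpa [h0] using hu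
  obtain ⟨h1, h2, h3⟩ := hu
  have hn : ∀ l : F, l * star l = 1 →
      hh (u + ((l - 1) * u (i, 0)) • bb (i, 0)) (u + ((l - 1) * u (i, 0)) • bb (i, 0)) = 0 := by
    intro l hl
    simp [h2, bb_apply]
    linear_combination u (i, 0) * star (u (i, 0)) * hl
  have hω1 : ω * star ω = 1 := by rw [hω]; linear_combination om_cube (F := F)
  refine ⟨fun P hP => ?_, hn l hl, ?_⟩
  · simp [h1 P hP, bb_apply, show P ≠ (i, 0) from fun e => hP (by rw [e])]
  obtain ⟨g, hg, e⟩ := h.diag i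
  have hg' : g ∈ (hh).GU := fun x y => by
    simp only [hh_def, e]
    refine Finset.sum_congr rfl fun P _ => ?_
    split_ifs
    · rw [star_mul']; linear_combination x P * star (y P) * hω1
    · simp
  have e' : g u = u + ((ω - 1) * u (i, 0)) • bb (i, 0) := by
    ext ⟨a, b⟩
    rw [e]
    by_cases hb : b = 0
    · subst hb
      by_cases ha : a = i
      · subst ha; simp [bb_apply]; ring
      · simp [ha, bb_apply]
    · simp [h1 (a, b) hb, hb, bb_apply]
  have h4 := xG h2 h3 hg hg'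
  rw [e'] at h4
  have hw := om_sub (F := F)
  have e2 : (1 - (l - 1) / (ω - 1)) • u + ((l - 1) / (ω - 1)) • (u + ((ω - 1) * u (i, 0)) • bb (i, 0)) =
      u + ((l - 1) * u (i, 0)) • bb (i, 0) := by
    match_scalars <;> field_simp <;> ring
  have := XIn.line inf_le_right h2 (hn _ hω1) (by simp [h2, hw, h0]) h3 h4
    (1 - (l - 1) / (ω - 1)) ((l - 1) / (ω - 1))
  rw [e2] at this
  exact this (hn l hl)

theorem SS.pt (h : Nine' M) (hω : star ω = ω ^ 2) {u : W3 → F} (hu : SS M u) (h0 : u ≠ 0) :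
    ∃ i j : Z3, i ≠ j ∧ (hh).Pt bb (M ⊓ (hh).SU) (i, 0) (j, 0) := by
  obtain ⟨i, hi⟩ := exists_supp h0 hu.1
  obtain ⟨⟨j, c⟩, hji, hj⟩ := onb.exists_two_coord hu.2.1 (i := (i, 0)) (by simpa using hi)
  rw [hh_bb] at hj
  obtain rfl : c = 0 := by
    by_contra e
    exact hj (hu.1 _ e)
  have hij : i ≠ j := fun e => hji (by rw [e])
  have hb := onb (F := F)
  obtain ⟨l, m, h1, h2, h3, h4, h5, h6⟩ := exists_wt2 (A := u (i, 0) * star (u (i, 0)))
    (B := u (j, 0) * star (u (j, 0))) (star_norm _) (norm_ne_zero hi) (star_norm _) (norm_ne_zero hj)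
  have h7 := (hu.step h hω i h1).step h hω j h3
  rw [Pi.add_apply, Pi.smul_apply, bb_apply, if_neg hji, smul_zero, add_zero] at h7
  set s := (l - 1) * u (i, 0) with hs
  set t := (m - 1) * u (j, 0) with ht
  have hst : s * star s + t * star t = 0 := by
    simp only [hs, ht, star_mul']; linear_combination h5
  have h8 := XIn.line inf_le_right hu.2.1 h7.2.1 (by
    simp only [add_left, smul_left, hu.2.1, bb_hh, hs, ht]; convert h6 using 1; ring) hu.2.2 h7.2.2 (-1) 1
  have h9 : (-1 : F) • u + (1 : F) • (u + s • bb (i, 0) + t • bb (j, 0)) =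
      s • bb (i, 0) + t • bb (j, 0) := by module
  rw [h9] at h8
  have hw : SS M (s • bb (i, 0) + t • bb (j, 0)) := by
    refine ⟨fun P hP => ?_, (hb.wt2 hji.symm s t).trans hst, h8 ((hb.wt2 hji.symm s t).trans hst)⟩
    simp [bb_apply, show P ≠ (i, 0) from fun e => hP (by rw [e]),
      show P ≠ (j, 0) from fun e => hP (by rw [e])]
  have hs0 : s ≠ 0 := mul_ne_zero (sub_ne_zero.2 h2) hi
  have ht0 : t ≠ 0 := mul_ne_zero (sub_ne_zero.2 h4) hj
  refine ⟨i, j, hij, fun s' t' hst' => ?_⟩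
  by_cases hs' : s' = 0
  · have : t' = 0 := by
      by_contra h0; exact norm_ne_zero h0 (by simpa [hs'] using hst')
    rw [hs', this]; simpa using xIn_zero
  have a1 := star_ne_zero' hs0
  have a2 := star_ne_zero' ht0
  have a4 := star_ne_zero' hs'
  have hl : s * t' / (s' * t) * star (s * t' / (s' * t)) = 1 := by
    simp only [star_div₀, star_mul']
    field_simp
    linear_combination (s * star s) * hst' - (s' * star s') * hst
  have h10 := hw.step h hω j hl
  have h11 := h10.2.2.smul h10.2.1 (s' / s)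
  convert h11 using 1
  simp only [Pi.add_apply, Pi.smul_apply, bb_apply, if_neg hji, if_true]
  match_scalars <;> field_simp <;> ring

theorem Nine'.ss (h : Nine' M) (hF : ∀ c : F0 F, ∃ n : ℕ, c = n)
    (hM : ∀ g ∈ M, ∃ c : F, ∀ x y, hh (g x) (g y) = c * hh x y) : ∃ u, u ≠ 0 ∧ SS M u := by
  obtain ⟨v, φ, h1, h2, h3, h4, g, hg, e⟩ := h.tv
  obtain ⟨c, hc⟩ := hM g hg
  have hc1 : c = 1 := by
    have := hc (bb (0, 1)) (bb (0, 1))
    have e1 : g (bb (0, 1)) = bb (0, 1) := by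
      rw [e, bb, dotProduct_single, (h4 (0, 1) (by decide)).2]; simp
    rw [e1, onb.self] at this
    simpa using this.symm
  subst hc1
  obtain ⟨P, hP⟩ := Function.ne_iff.1 h2
  have hP : φ ⬝ᵥ bb P ≠ 0 := by simpa [bb] using hP
  have hv : hh v v = 0 := by
    have := hc (bb P) v
    rw [e, e, h3, zero_smul, add_zero, add_left, smul_left, one_mul] at this
    exact (mul_eq_zero.1 (add_eq_left.1 this)).resolve_left hP
  have key : ∀ x y, (φ ⬝ᵥ x) * hh v y + star (φ ⬝ᵥ y) * hh x v = 0 := by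
    intro x y
    have := hc x y
    rw [e, e] at this
    simp only [add_left, add_right, smul_left, smul_right, hv] at this
    linear_combination this
  obtain ⟨y, hy⟩ := (hh).exists_ne h1
  have hy' := symm_ne hy
  set d := -star (φ ⬝ᵥ y) / hh v y with hd
  have hφ : ∀ x, φ ⬝ᵥ x = d * hh x v := fun x => by
    rw [hd]; field_simp; linear_combination key x y
  have hd0 : d ≠ 0 := by
    intro e0
    exact hP (by rw [hφ, e0, zero_mul])
  have hd1 : d + star d = 0 := by
    have := key y y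
    rw [hφ, star_mul', HF.conj] at this
    exact mul_right_cancel₀ (mul_ne_zero hy hy') (by linear_combination this)
  have hT : (hh).T v d ∈ M := by
    have : g = (hh).T v d := LinearEquiv.ext fun x => by rw [e, T_apply hv hd1, hφ]
    exact this ▸ hg
  refine ⟨v, h1, fun P hP => (h4 P hP).1, hv, fun c hc => ⟨?_, T_mem_SU _ _⟩⟩
  have hd' : star d = -d := by linear_combination hd1
  obtain ⟨n, hn⟩ := hF ⟨c / d, by
    rw [mem_F0, star_div₀, hd', show star c = -c by linear_combination hc, neg_div_neg_eq]⟩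
  have hn' : c = n * d := by
    have := congrArg Subtype.val hn
    simp only [SubringClass.coe_natCast] at this
    rw [← this, div_mul_cancel₀ _ hd0]
  rw [hn']
  clear hn hn' hc
  induction n with
  | zero => simpa [T_zero] using M.one_mem
  | succ n ih =>
    rw [Nat.cast_succ, add_mul, one_mul, ← T_mul hv (by simp [hd']) hd1]
    exact M.mul_mem ih hT

theorem Nine'.notMono (h : Nine' M) (hω : star ω = ω ^ 2) : ∃ g ∈ M ⊓ (hh).SU, ¬ Mono bb g := by
  obtain ⟨g, hg, e⟩ := h.four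
  have hω1 : ω * star ω = 1 := by rw [hω]; linear_combination om_cube (F := F)
  let w : Z3 → W3 → F := fun j => bb (0, j) + bb (1, j) + bb (2, j)
  have hw : ∀ j x, hh x (w j) = x (0, j) + x (1, j) + x (2, j) := fun j x => by simp [w]
  have hw' : ∀ j P, w j P = if P.2 = j then 1 else 0 := by
    rintro j ⟨a, b⟩
    by_cases hb : b = j
    · rcases z3 a with rfl | rfl | rfl <;>
        simp [w, bb_apply, hb, show (1 : Z3) ≠ 2 by decide, show (2 : Z3) ≠ 1 by decide,
          show (0 : Z3) ≠ 2 by decide, show (2 : Z3) ≠ 0 by decide]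
    · simp [w, bb_apply, hb]
  have hww : ∀ j, hh (w j) (w j) = 3 := fun j => by rw [hw]; simp [hw']; norm_num
  have hw3 : ∀ j, hh (w j) (w j) ≠ 0 := fun j => by rw [hww]; exact h3
  have e1 : g = (hh).R (w 0) ω * (hh).R (w 1) ω * (hh).R (w 2) ω := LinearEquiv.ext fun x => by
    ext ⟨a, b⟩
    rw [e, mul_app, mul_app, R_apply (hw3 _) hω1, R_apply (hw3 _) hω1, R_apply (hw3 _) hω1]
    simp only [hww, hw, Pi.add_apply, Pi.smul_apply, hw', smul_eq_mul]
    rcases z3 b with rfl | rfl | rfl <;>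
      simp [show (1 : Z3) ≠ 2 by decide, show (2 : Z3) ≠ 1 by decide, show (0 : Z3) ≠ 2 by decide,
        show (2 : Z3) ≠ 0 by decide] <;> ring
  refine ⟨g, ⟨hg, ?_⟩, fun hm => ?_⟩
  · rw [e1]
    refine mem_SU.2 ⟨mul_mem (mul_mem (R_mem_GU _ _) (R_mem_GU _ _)) (R_mem_GU _ _), ?_⟩
    rw [det_mul', det_mul', det_R (hw3 _) hω1, det_R (hw3 _) hω1, det_R (hw3 _) hω1]
    linear_combination om_cube (F := F)
  · obtain ⟨P, c, hP⟩ := hm (0, 0)
    have key : ∀ a : Z3, a ≠ 0 → P = (a, 0) := by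
      intro a ha
      by_contra hne
      have := congrFun hP (a, 0)
      rw [e] at this
      simp [bb_apply, ha, Ne.symm hne, om_sub, h3, show (2 : Z3) ≠ 0 by decide] at this
    exact absurd ((key 1 (by decide)).symm.trans (key 2 (by decide))) (by decide)

theorem Nine'.SU (h : Nine' M) (hF : ∀ c : F0 F, ∃ n : ℕ, c = n) (hω : star ω = ω ^ 2)
    (hM : ∀ g ∈ M, ∃ c : F, ∀ x y, hh (g x) (g y) = c * hh x y) : (hh).SU ≤ M := by
  obtain ⟨u, h0, hu⟩ := h.ss hF hM
  obtain ⟨i, j, hij, hE⟩ := hu.pt h hω h0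
  have hij' : ((i, 0) : W3) ≠ (j, 0) := by simpa using hij
  have row : ∀ a b c : Z3, a ≠ b → (hh).Pt bb (M ⊓ (hh).SU) (a, c) (b, c) := by
    intro a b c hab
    have sh : ∀ {P Q : W3}, P ≠ Q → (hh).Pt bb (M ⊓ (hh).SU) P Q → ∀ a,
        (hh).Pt bb (M ⊓ (hh).SU) (P + a) (Q + a) := fun hne hE a =>
      ptG hne hE (σ := Equiv.addRight a) (by simpa [sub_eq_add_neg] using h.shift a)
    have : b - a = j - i ∨ b - a = i - j :=
      (by decide : ∀ a b i j : Z3, a ≠ b → i ≠ j → b - a = j - i ∨ b - a = i - j) a b i j hab hij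
    rcases this with e | e
    · convert sh hij' hE (a - i, c) using 2 <;> simp
      linear_combination e
    · convert sh hij'.symm hE.symm (a - j, c) using 2 <;> simp
      linear_combination e
  have col : ∀ a b c : Z3, a ≠ b → (hh).Pt bb (M ⊓ (hh).SU) (c, a) (c, b) := fun a b c hab =>
    ptG (P := (a, c)) (Q := (b, c)) (by simpa using hab) (row a b c hab)
      (σ := Equiv.prodComm Z3 Z3) h.swap
  have all : ∀ P Q, P ≠ Q → (hh).Pt bb (M ⊓ (hh).SU) P Q := by
    rintro ⟨a, b⟩ ⟨c, d⟩ hPQ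
    by_cases h1 : b = d
    · subst h1
      exact row _ _ _ fun e => hPQ (by rw [e])
    · by_cases h2 : a = c
      · subst h2
        exact col b d a h1
      · exact pt_trans onb inf_le_right (by simp [h2]) hPQ (by simp [h1]) (row a c b h2) (col b d c h1)
  exact ((fr_of_pt onb inf_le_right all).core (by simp) (Or.inl (by simp)) (h.notMono hω)).trans
    inf_le_left

theorem hh_mulVec {A : Matrix W3 W3 F} {c : F} (hA : Aᴴ * A = c • 1) (x y : W3 → F) :
    hh (A *ᵥ x) (A *ᵥ y) = c * hh x y := by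
  have e : ∀ u v : W3 → F, hh u v = star v ⬝ᵥ u := fun u v => by
    simp [hh_def, dotProduct, mul_comm]
  rw [e, e, star_mulVec, ← dotProduct_mulVec, mulVec_mulVec, hA, smul_mulVec, one_mulVec,
    dotProduct_smul, smul_eq_mul]

end Cfsg.Agent.H1.T3

namespace Cfsg.Agent.H1

open Matrix Cfsg.Agent.H5.T3 Cfsg.Agent.H6 T3 Cfsg.Agent.H5.U

theorem bigSU (F : Type*) [Field F] [Finite F] [Om F] [StarRing F] : BigSU F := by
  intro hF hω M h hM g hg hd
  have : NStar F := ⟨⟨Om.om, fun e => om_ne_one (F := F) (mul_left_cancel₀ om_ne (by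
    rw [hω] at e; linear_combination e))⟩⟩
  obtain ⟨k, hk, e⟩ := (nine' h).SU hF hω (by
    rintro _ ⟨k, hk, rfl⟩
    obtain ⟨c, hc⟩ := hM k hk
    exact ⟨c, hh_mulVec hc⟩) (show gl0 g ∈ _ from HF.mem_SU.2 ⟨fun x y => by
      simpa [gl0_apply] using hh_mulVec (c := 1) (by rw [hg, one_smul]) x y, by rw [det_glEquiv, hd]⟩)
  exact gl0.injective e ▸ hk

end Cfsg.Agent.H1
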