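import Cfsg.Agent.H1.TW5

set_option autoImplicit false
set_option linter.unusedSectionVars false

/-! Frames compatible with a skew-hermitian form on the small space and an adjoint on the big one. -/

namespace Cfsg.Agent.H1.TF

open Module TW

/-- a non-degenerate skew-hermitian form -/
structure SF (F U : Type*) [Field F] [StarRing F] [AddCommGroup U] [Module F U] where
  fl : U → Dual F U
  fl_add : ∀ a b, fl (a + b) = fl a + fl b
  fl_smul : ∀ (c : F) a, fl (c • a) = star c • fl a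
  skew' : ∀ a b, star (fl b a) = -fl a b
  surj : Function.Surjective fl

variable {F : Type*} [Field F] [StarRing F] {U V : Type*} [AddCommGroup U] [Module F U]
  [AddCommGroup V] [Module F V] [FiniteDimensional F U]

namespace SF

def form (f : SF F U) (a b : U) : F := f.fl b a

instance instCoeFunSF : CoeFun (SF F U) (fun _ => U → U → F) := ⟨SF.form⟩

variable (f : SF F U)

@[simp] theorem fl_apply (a b : U) : f.fl b a = f a b := rfl
@[simp] theorem skew (a b : U) : star (f a b) = -f b a := f.skew' a b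
@[simp] theorem add_left (a b c : U) : f (a + b) c = f a c + f b c := map_add (f.fl c) a b
@[simp] theorem sub_left (a b c : U) : f (a - b) c = f a c - f b c := map_sub (f.fl c) a b
@[simp] theorem neg_left (a c : U) : f (-a) c = -f a c := map_neg (f.fl c) a
@[simp] theorem zero_left (c : U) : f 0 c = 0 := map_zero (f.fl c)
@[simp] theorem smul_left (s : F) (a c : U) : f (s • a) c = s * f a c := map_smul (f.fl c) s a
@[simp] theorem add_right (a b c : U) : f c (a + b) = f c a + f c b := by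
  rw [form, f.fl_add]; rfl
@[simp] theorem smul_right (s : F) (a c : U) : f c (s • a) = star s * f c a := by
  rw [form, f.fl_smul]; rfl
theorem fl_zero : f.fl 0 = 0 := by simpa using f.fl_smul 0 0
theorem fl_neg (a : U) : f.fl (-a) = -f.fl a := by
  rw [← neg_one_smul F a, f.fl_smul, star_neg, star_one]
  ext x; simp
theorem fl_sub (a b : U) : f.fl (a - b) = f.fl a - f.fl b := by
  rw [sub_eq_add_neg, f.fl_add, f.fl_neg, sub_eq_add_neg]
@[simp] theorem zero_right (c : U) : f c 0 = 0 := by rw [form, f.fl_zero]; rfl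
@[simp] theorem neg_right (a c : U) : f c (-a) = -f c a := by rw [form, f.fl_neg]; rfl
@[simp] theorem sub_right (a b c : U) : f c (a - b) = f c a - f c b := by rw [form, f.fl_sub]; rfl

variable {f}

theorem symm0 {a b : U} (h : f a b = 0) : f b a = 0 := by
  rw [← neg_eq_zero, ← f.skew, h, star_zero]

theorem symm_ne {a b : U} (h : f a b ≠ 0) : f b a ≠ 0 := fun e => h (symm0 e)

theorem symm1 {a b : U} (h : f a b = 1) : f b a = -1 := by
  rw [← neg_eq_iff_eq_neg, ← f.skew, h, star_one]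

theorem ne_left {a b : U} (h : f a b ≠ 0) : a ≠ 0 := by rintro rfl; simp at h
theorem ne_right {a b : U} (h : f a b ≠ 0) : b ≠ 0 := by rintro rfl; simp at h

variable (f)

theorem exists_right {a : U} (ha : a ≠ 0) : ∃ w, f a w = 1 := by
  obtain ⟨φ, hφ⟩ := H6.exists_dual_one' (F := F) ha
  obtain ⟨w, rfl⟩ := f.surj φ
  exact ⟨w, hφ⟩

theorem exists_left {a : U} (ha : a ≠ 0) : ∃ w, f w a = 1 := by
  obtain ⟨w, hw⟩ := f.exists_right ha
  exact ⟨-w, by simp [symm1 hw]⟩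

theorem fl_ne {a : U} (ha : a ≠ 0) : f.fl a ≠ 0 := by
  obtain ⟨w, hw⟩ := f.exists_left ha
  intro e
  have : f.fl a w = 1 := hw
  simp [e] at this

theorem exists_pair {u v : U} (hv : ∀ c : F, v ≠ c • u) : ∃ w, f u w = 0 ∧ f v w = 1 := by
  obtain ⟨φ, h1, h2⟩ := H6.exists_dual_pair hv
  obtain ⟨w, rfl⟩ := f.surj φ
  exact ⟨w, h1, h2⟩

theorem exists_perp_two (h3 : 3 ≤ finrank F U) (a b : U) : ∃ w, w ≠ 0 ∧ f w a = 0 ∧ f w b = 0 :=
  exists_vec_two h3 (f.fl a) (f.fl b)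

theorem exists_of_notMem {S : Submodule F U} {x : U} (hx : x ∉ S) :
    ∃ w, (∀ s ∈ S, f s w = 0) ∧ f x w = 1 := by
  obtain ⟨φ, h1, h2⟩ := H6.exists_dual_one hx
  obtain ⟨w, rfl⟩ := f.surj φ
  exact ⟨w, h1, h2⟩

/-- in dimension two the perp of an isotropic vector is its span -/
theorem perp_two (h2 : finrank F U ≤ 2) {u b : U} (hu : u ≠ 0) (h0 : f u u = 0) (hb : f b u = 0) :
    ∃ c : F, b = c • u := by
  by_contra! h
  obtain ⟨v, hv⟩ := f.exists_left hu
  obtain ⟨α, β, h4, h5, h6, h7⟩ := exists_dual_basis_two hu h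
  have : LinearIndependent F ![u, b, v] := by
    rw [Fintype.linearIndependent_iff]
    intro g hg
    simp only [Fin.sum_univ_three, Matrix.cons_val_zero, Matrix.cons_val_one, Matrix.cons_val_two,
      Matrix.head_cons, Matrix.tail_cons] at hg
    have e1 : g 2 = 0 := by simpa [h0, hb, hv] using congrArg (f.fl u) hg
    have e2 : g 1 = 0 := by simpa [h4, h5, e1] using congrArg α hg
    have e3 : g 0 = 0 := by simpa [h6, h7, e1] using congrArg β hg
    intro i; fin_cases i <;> assumption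
  have := this.fintype_card_le_finrank
  simp at this; omega

/-- the matrix units of a frame -/
def R (ρ : Fr F U V) (a b : U) : End F V := ρ (r1 a (f.fl b))

variable {f} {ρ : Fr F U V}

theorem RR_mul (a b c d : U) : f.R ρ a b * f.R ρ c d = f c b • f.R ρ a d := rho_r1_mul ρ _ _ _ _
theorem RR_mul' (a b c d : U) (z : End F V) :
    f.R ρ a b * (f.R ρ c d * z) = f c b • (f.R ρ a d * z) := by
  rw [← mul_assoc, RR_mul, smul_mul_assoc]
theorem R_R (a b c d : U) (v : V) : f.R ρ a b (f.R ρ c d v) = f c b • f.R ρ a d v :=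
  rho_r1_apply ρ _ _ _ _ _
theorem R_add_left (a a' b : U) : f.R ρ (a + a') b = f.R ρ a b + f.R ρ a' b := by
  rw [R, r1_add_left, map_add]; rfl
theorem R_sub_left (a a' b : U) : f.R ρ (a - a') b = f.R ρ a b - f.R ρ a' b := by
  rw [R, r1_sub_left, map_sub]; rfl
theorem R_smul_left (s : F) (a b : U) : f.R ρ (s • a) b = s • f.R ρ a b := by
  rw [R, r1_smul_left, map_smul]; rfl
theorem R_add_right (a b b' : U) : f.R ρ a (b + b') = f.R ρ a b + f.R ρ a b' := by
  rw [R, f.fl_add, r1_add_right, map_add]; rfl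
theorem R_sub_right (a b b' : U) : f.R ρ a (b - b') = f.R ρ a b - f.R ρ a b' := by
  rw [R, f.fl_sub, r1_sub_right, map_sub]; rfl
theorem R_smul_right (s : F) (a b : U) : f.R ρ a (s • b) = star s • f.R ρ a b := by
  rw [R, f.fl_smul, r1_smul_right, map_smul]; rfl
@[simp] theorem R_zero_left (b : U) : f.R ρ 0 b = 0 := by simp [R]
@[simp] theorem R_zero_right (a : U) : f.R ρ a 0 = 0 := by simp [R, f.fl_zero]
theorem R_neg_left (a b : U) : f.R ρ (-a) b = -f.R ρ a b := by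
  simpa using R_smul_left (f := f) (ρ := ρ) (-1) a b
theorem R_neg_right (a b : U) : f.R ρ a (-b) = -f.R ρ a b := by
  simpa using R_smul_right (f := f) (ρ := ρ) (-1) a b

theorem R_mem (a b : U) (v : V) : f.R ρ a b v ∈ Ln ρ a := r1_mem_Ln _ _ _
theorem R_Ln {u : U} {v : V} (hv : v ∈ Ln ρ u) (b : U) : f.R ρ u b v = f u b • v := r1_Ln hv _
theorem R_one {u b : U} {v : V} (hv : v ∈ Ln ρ u) (h : f u b = 1) : f.R ρ u b v = v := r1_Ln_one hv h
theorem R_zero {u b : U} {v : V} (hv : v ∈ Ln ρ u) (a : U) (h : f u b = 0) : f.R ρ a b v = 0 :=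
  r1_Ln_zero hv _ h
theorem R_cf (g : (End F V)ˣ) (a b : U) : f.R (cf g ρ) a b = g * f.R ρ a b * ↑g⁻¹ := rfl
theorem rho_mul_R (x : End F U) (a b : U) : ρ x * f.R ρ a b = f.R ρ (x a) b := by
  rw [R, ← map_mul, mul_r1]; rfl
theorem range_R {a b : U} (ha : a ≠ 0) (hb : b ≠ 0) : LinearMap.range (f.R ρ a b) = Ln ρ a :=
  range_r1 ha (f.fl_ne hb)
theorem _root_.Cfsg.Agent.H1.TW.Cm.R {c : End F V} (h : Cm ρ c) (a b : U) :
    c * f.R ρ a b = f.R ρ a b * c := h _
theorem _root_.Cfsg.Agent.H1.TW.Cm.R' {c : End F V} (h : Cm ρ c) (a b : U) (z : End F V) :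
    c * (f.R ρ a b * z) = f.R ρ a b * (c * z) := by rw [← mul_assoc, h.R, mul_assoc]
theorem _root_.Cfsg.Agent.H1.TW.Cm.neg {c : End F V} (h : Cm ρ c) : Cm ρ (-c) := by
  simpa using Cm.zero.sub h

theorem mem_Ln_of' {u : U} (hu : u ≠ 0) {v : V} (h : ∀ b, f u b = 0 → f.R ρ u b v = 0) :
    v ∈ Ln ρ u := mem_Ln_of hu fun φ hφ => by
  obtain ⟨b, rfl⟩ := f.surj φ
  exact h b hφ

theorem R_eq_zero {a b : U} (ha : a ≠ 0) {v : V} (h : f.R ρ a b v = 0) (a' : U) : f.R ρ a' b v = 0 := by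
  obtain ⟨w, hw⟩ := f.exists_right ha
  have := R_R (f := f) (ρ := ρ) a' w a b v
  rwa [h, map_zero, hw, one_smul, eq_comm] at this

theorem eq_zero_of_R {u : U} (hu : u ≠ 0) {v : V} (h : ∀ b, f.R ρ u b v = 0) : v = 0 := by
  obtain ⟨w, hw⟩ := f.exists_right hu
  rw [← R_one (mem_Ln_of' hu fun b _ => h b) hw, h]

theorem cm_eq_zero {c : End F V} (hc : Cm ρ c) {a b : U} (ha : a ≠ 0) (hb : b ≠ 0)
    (h : f.R ρ a b * c = 0) : c = 0 := hc.eq_zero' ha (f.fl_ne hb) h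

theorem R_ne [Nontrivial V] {a b : U} (ha : a ≠ 0) (hb : b ≠ 0) : f.R ρ a b ≠ 0 := fun h =>
  one_ne_zero (cm_eq_zero (f := f) (ρ := ρ) Cm.one ha hb (by rwa [mul_one]))

/-- the kernel of `R u u` is spanned by the lines orthogonal to `u` -/
theorem ker_le {u : U} (hu : u ≠ 0) {S : Submodule F V} (h : ∀ b, f b u = 0 → Ln ρ b ≤ S) {v : V}
    (hv : f.R ρ u u v = 0) : v ∈ S := by
  obtain ⟨w, hw⟩ := f.exists_left hu
  have e : v = ρ (1 - r1 w (f.fl u)) v := by
    rw [map_sub, map_one, LinearMap.sub_apply]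
    change v = v - f.R ρ w u v
    rw [R_eq_zero hu hv, sub_zero]
  rw [e, eq_sum_r1 (1 - r1 w (f.fl u)), map_sum, LinearMap.sum_apply]
  exact S.sum_mem fun i _ => h _ (by simp [hw]) (r1_mem_Ln _ _ _)

theorem decomp_K {u w : U} (hw : f w u = 1) {a : U} (ha : f u a = 1) (v : V) :
    f.R ρ u u (v - f.R ρ w u v) = 0 ∧ f.R ρ w u v = f.R ρ w a (f.R ρ u u v) := by
  rw [map_sub, R_R, R_R, hw, ha, one_smul, one_smul, sub_self]; exact ⟨rfl, rfl⟩

/-- a map from `V / K` to `L` is `N * s` -/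
theorem exists_cm {u : U} (hu : u ≠ 0) {Z : End F V} (h1 : ∀ v, Z v ∈ Ln ρ u)
    (h2 : ∀ v, f.R ρ u u v = 0 → Z v = 0) : ∃ s, Cm ρ s ∧ Z = f.R ρ u u * s := by
  obtain ⟨w, hw⟩ := f.exists_left hu
  obtain ⟨a, ha⟩ := f.exists_right hu
  refine ⟨blk ρ Z (f.fl a) w, cm_blk _ _ _, ?_⟩
  rw [R, r1_mul_blk]
  ext v
  have := h2 _ (decomp_K (ρ := ρ) hw ha v).1
  rw [map_sub, sub_eq_zero] at this
  rw [this]
  exact (R_one (h1 _) ha).symm

theorem cm_of_row {u : U} (hu : u ≠ 0) {c : End F V} (h : ∀ b, c * f.R ρ u b = f.R ρ u b * c) :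
    Cm ρ c := by
  intro x
  ext v
  rw [← sub_eq_zero]
  refine eq_zero_of_R (f := f) (ρ := ρ) hu fun b => ?_
  obtain ⟨b', hb'⟩ := f.surj (f.fl b ∘ₗ x)
  have e : f.R ρ u b * ρ x = f.R ρ u b' := by rw [R, ← map_mul, r1_mul', ← hb']; rfl
  rw [map_sub, ← End.mul_apply, ← End.mul_apply, ← mul_assoc, ← h, mul_assoc, e, ← mul_assoc, e, h, sub_self]

theorem rank_one_range [FiniteDimensional F V] [Nontrivial V] {x : End F U} {ρ' : Fr F U V} {u : U}
    (hu : u ≠ 0) (h : LinearMap.range (ρ x) = Ln ρ' u) : ∃ z, z ≠ 0 ∧ Ln ρ z = Ln ρ' u := by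
  obtain ⟨a, ha⟩ : ∃ a, x a ≠ 0 := by
    by_contra! h0
    obtain ⟨v, hv, hv0⟩ := Ln_ne_bot (ρ := ρ') hu
    rw [← h, (LinearMap.ext h0 : x = 0), map_zero] at hv
    exact hv0 (by simpa using hv)
  refine ⟨x a, ha, Submodule.eq_of_le_of_finrank_le ?_ (finrank_Ln_eq hu ha).le⟩
  intro v hv
  obtain ⟨ψ, hψ⟩ := H6.exists_dual_one' (F := F) ha
  rw [← h]
  exact ⟨ρ (r1 a ψ) v, by rw [← End.mul_apply, ← map_mul, mul_r1, r1_Ln_one hv hψ]⟩

/-- the monoid generated by the Eichler elements -/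
def Gen (f : SF F U) : Submonoid (End F U) := Submonoid.closure
  {x | ∃ (u b : U) (c : F), f u u = 0 ∧ f b u = 0 ∧ c - star c = f b b ∧
    x = 1 + (r1 u (f.fl b) + r1 b (f.fl u) + c • r1 u (f.fl u))}

structure Tor (f : SF F U) (u : U) (t : End F U) (α β γ : F) : Prop where
  gen : t ∈ f.Gen
  h1 : t u = α • u
  h2 : ∀ x, f x u = 0 → ∃ s : F, t x = β • x + s • u
  h3 : ∀ x, f (t x) u = γ * f x u
  ab : α ≠ β
  ac : α ≠ γ
  bc : β ≠ γ

/-- the geometric hypotheses -/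
structure Geo (f : SF F U) : Prop where
  two : 2 ≤ finrank F U
  iso2 : ∀ x y, x ≠ 0 → y ≠ 0 → ∃ v, f v v = 0 ∧ f v x ≠ 0 ∧ f v y ≠ 0
  perp2 : 4 ≤ finrank F U → ∀ u x y, u ≠ 0 → f u u = 0 → f x u = 0 → f y u = 0 → (∀ c : F, x ≠ c • u) →
    (∀ c : F, y ≠ c • u) → ∃ b, f b b = 0 ∧ f b u = 0 ∧ f b x ≠ 0 ∧ f b y ≠ 0
  sol : ∀ b, ∃ c : F, c - star c = f b b
  norm : ∀ c : F, star c = c → ∃ l m : F, c = l * star l - m * star m
  type : ((∀ b, f b b = 0) ∧ ∀ c : F, star c = c) ∨ ∃ θ : F, star θ ≠ θ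
  tor : finrank F U ≤ 3 → ∀ u, u ≠ 0 → f u u = 0 → ∃ t α β γ, f.Tor u t α β γ
  small : finrank F U ≤ 3 → ∃ l : F, star l = l ∧ l ≠ 0 ∧ l ≠ 1
  dim2 : finrank F U = 2 → (∀ b, f b b = 0) ∧ (∀ c : F, star c = c) ∧ (2 : F) ≠ 0 ∧ 4 ≤ Nat.card F
  dim3 : finrank F U = 3 → ∃ θ : F, star θ ≠ θ
  dim4 : finrank F U = 4 → (∀ c : F, star c = c) → (2 : F) ≠ 0

namespace Geo

variable (G : f.Geo)
include G

theorem exists_iso : ∃ u, u ≠ 0 ∧ f u u = 0 := by
  obtain ⟨x, hx⟩ : ∃ x : U, x ≠ 0 := (finrank_pos_iff_exists_ne_zero (R := F)).mp (by have := G.two; omega)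
  obtain ⟨v, h1, h2, -⟩ := G.iso2 x x hx hx
  exact ⟨v, ne_left h2, h1⟩

theorem partner {u : U} (hu : u ≠ 0) : ∃ v, f v v = 0 ∧ f v u = 1 := by
  obtain ⟨v, h1, h2, -⟩ := G.iso2 u u hu hu
  exact ⟨(f v u)⁻¹ • v, by simp [h1], by simp [h2]⟩

theorem span_iso {u : U} (hu : u ≠ 0) {S : Submodule F U} (h : ∀ v, f v v = 0 → f v u ≠ 0 → v ∈ S)
    (x : U) : x ∈ S := by
  by_contra hx
  obtain ⟨w, h1, h2⟩ := f.exists_of_notMem hx
  obtain ⟨v, h3, h4, h5⟩ := G.iso2 u w hu (ne_right (by rw [h2]; exact one_ne_zero))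
  exact h5 (h1 v (h v h3 h4))

theorem span_perp (h4 : 4 ≤ finrank F U) {u : U} (hu : u ≠ 0) (h0 : f u u = 0) {S : Submodule F U}
    (h : ∀ b, f b b = 0 → f b u = 0 → b ∈ S) {x : U} (hx : f x u = 0) : x ∈ S := by
  by_contra hx'
  obtain ⟨w, h1, h2⟩ := f.exists_of_notMem hx'
  have h3 : ∀ c : F, w ≠ c • u := by rintro c rfl; simp [hx] at h2
  obtain ⟨b, h5, h6, h7, -⟩ := G.perp2 h4 u w w hu h0 (symm0 (h1 u (h u h0 h0))) (symm0 (h1 u (h u h0 h0))) h3 h3
  exact h7 (h1 b (h b h5 h6))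

theorem exists_perp_iso (h4 : 4 ≤ finrank F U) {u : U} (hu : u ≠ 0) (h0 : f u u = 0) :
    ∃ b, f b b = 0 ∧ f b u = 0 ∧ ∀ c : F, b ≠ c • u := by
  obtain ⟨v, hv⟩ := f.exists_left hu
  obtain ⟨x, hx, h1, h2⟩ := f.exists_perp_two (by omega) u v
  have h3 : ∀ c : F, x ≠ c • u := by
    rintro c rfl
    simp [symm1 hv] at h2
    simp [h2] at hx
  obtain ⟨b, h5, h6, h7, -⟩ := G.perp2 h4 u x x hu h0 h1 h1 h3 h3
  exact ⟨b, h5, h6, by rintro c rfl; simp [symm0 h1] at h7⟩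

/-- a multiplicatively closed subspace containing the long roots contains the frame -/
theorem mem_of_N {I : Submodule F (End F V)} (hm : ∀ x ∈ I, ∀ y ∈ I, x * y ∈ I)
    (h : ∀ a, f a a = 0 → f.R ρ a a ∈ I) (x : End F U) : ρ x ∈ I := by
  have s1 : ∀ u, u ≠ 0 → f u u = 0 → ∀ a, f.R ρ u a ∈ I := fun u hu h0 =>
    G.span_iso hu (S :=
      { carrier := {a | f.R ρ u a ∈ I}
        add_mem' := fun ha hb => by simp only [Set.mem_ofPred_eq, R_add_right]; exact I.add_mem ha hb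
        zero_mem' := by simp
        smul_mem' := fun c a ha => by simp only [Set.mem_ofPred_eq, R_smul_right]; exact I.smul_mem _ ha })
      fun v h1 h2 => by
        have := hm _ (h u h0) _ (h v h1)
        rwa [RR_mul, I.smul_mem_iff h2] at this
  obtain ⟨u₀, hu₀, -⟩ := G.exists_iso
  have s2 : ∀ a u, f.R ρ u a ∈ I := fun a =>
    G.span_iso hu₀ (S :=
      { carrier := {u | f.R ρ u a ∈ I}
        add_mem' := fun ha hb => by simp only [Set.mem_ofPred_eq, R_add_left]; exact I.add_mem ha hb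
        zero_mem' := by simp
        smul_mem' := fun c a ha => by simp only [Set.mem_ofPred_eq, R_smul_left]; exact I.smul_mem _ ha })
      fun v h1 h2 => s1 v (ne_left h2) h1 a
  rw [eq_sum_r1 x, map_sum]
  refine I.sum_mem fun i _ => ?_
  obtain ⟨a, ha⟩ := f.surj ((bs F U).coord i)
  rw [← ha]
  exact s2 _ _

theorem cm_of_N {c : End F V} (h : ∀ a, f a a = 0 → c * f.R ρ a a = f.R ρ a a * c) : Cm ρ c := fun x =>
  G.mem_of_N (ρ := ρ) (I := (Subalgebra.centralizer F {c}).toSubmodule)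
    (fun _ hx _ hy => Subalgebra.mul_mem _ hx hy) (fun a ha z hz => by rw [hz]; exact h a ha) x c rfl

theorem exists_partner {a : U} (ha : a ≠ 0) :
    ∃ (b : U) (α β : Dual F U), α a = 1 ∧ α b = 0 ∧ β a = 0 ∧ β b = 1 := by
  obtain ⟨b, -, hb⟩ : ∃ b ∈ (⊤ : Submodule F U), b ∉ Submodule.span F {a} := by
    by_contra! h
    have h1 := Submodule.finrank_mono (show (⊤ : Submodule F U) ≤ _ from h)
    have h2 := finrank_span_singleton (K := F) ha
    have := G.two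
    rw [finrank_top] at h1
    omega
  obtain ⟨β, α, h1, h2, h3, h4⟩ := exists_dual_basis_two ha (a := b) fun s e =>
    hb (e ▸ Submodule.smul_mem _ _ (Submodule.mem_span_singleton_self a))
  exact ⟨b, α, β, h4, h3, h2, h1⟩

theorem not_comm_self [Nontrivial V] : ¬ Comm ρ ρ := by
  intro h
  obtain ⟨a, ha, h0⟩ := G.exists_iso
  exact R_ne (f := f) (ρ := ρ) ha ha ((h _).eq_zero ha fun v hv => R_zero hv _ h0)

theorem not_comm [Nontrivial V] {ρ' : Fr F U V} (h : Same ρ ρ') : ¬ Comm ρ ρ' :=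
  fun hc => G.not_comm_self (h.comm hc)

/-- transitivity on isotropic points -/
theorem iso_trans (P : U → Prop) (hs : ∀ (c : F) a, c ≠ 0 → P a → P (c • a))
    (ht : ∀ a z, f a a = 0 → f z z = 0 → P a → P (a - f a z • z)) {a : U} (ha : a ≠ 0) (h0 : f a a = 0)
    (h : P a) {y : U} (hy : y ≠ 0) (hy0 : f y y = 0) : P y := by
  have s : ∀ a y, f a a = 0 → f y y = 0 → f a y ≠ 0 → P a → P y := by
    intro a y h0 hy0 hay h
    have hs' : star (f a y) ≠ 0 := star_ne_zero.mpr hay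
    have := ht a (y + (f a y)⁻¹ • a) h0 (by
      have := symm_ne hay
      simp [h0, hy0]; field_simp; ring) h
    have e : a - f a (y + (f a y)⁻¹ • a) • (y + (f a y)⁻¹ • a) = (-f a y) • y := by
      simp [h0, smul_add, smul_smul, hay]
    have := hs (-f a y)⁻¹ _ (by simpa using hay) (e ▸ this)
    rwa [smul_smul, inv_mul_cancel₀ (by simpa using hay), one_smul] at this
  obtain ⟨v, h1, h2, h3⟩ := G.iso2 a y ha hy
  exact s v y h1 hy0 h3 (s a v h0 h1 (symm_ne h2) h)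

end Geo

end SF

end Cfsg.Agent.H1.TF
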