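import Cfsg.Agent.H1.TF9

set_option autoImplicit false
set_option linter.unusedSectionVars false

/-! The coefficient spaces of the unipotent radical attached to an isotropic line of a frame. -/

namespace Cfsg.Agent.H1.TF

open Module TW SF

variable {F : Type*} [Field F] [StarRing F] {U V : Type*} [AddCommGroup U] [Module F U]
  [AddCommGroup V] [Module F V] [FiniteDimensional F U] [FiniteDimensional F V] [Nontrivial V]
  [StarRing (End F V)] [StarModule F (End F V)]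

variable {f : SF F U} {ρ : Fr F U V} {M : Subgroup (End F V)ˣ}

structure Rt (f : SF F U) (M : Subgroup (End F V)ˣ) (ρ : Fr F U V) : Prop where
  ad : Ad f ρ
  root : ∀ u b c, f u u = 0 → f b u = 0 → c - star c = f b b → IM M (1 + Ee f ρ u b c)

theorem Rt.mem (h : Rt f M ρ) {u : U} (h0 : f u u = 0) {l : F} (hl : star l = l) :
    un _ (N_sq (ρ := ρ) h0 l) ∈ M := (im_iff _).mp (rootN h.root h0 hl)

theorem Rt.cj (h : Rt f M ρ) {u : U} (h0 : f u u = 0) {l : F} (hl : star l = l) {Z : End F V}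
    (hZ : IM M (1 + Z)) : IM M (1 + (1 + l • f.R ρ u u) * Z * (1 - l • f.R ρ u u)) := hZ.conj' (h.mem h0 hl)

theorem Nc_sq {u : U} (h0 : f u u = 0) {c : End F V} (hc : Cm ρ c) (d : End F V) (l m : F) :
    l • (f.R ρ u u * c) * (m • (f.R ρ u u * d)) = 0 := by
  simp [mul_assoc, hc.R', RR_mul', h0]

/-- coefficients of the centre -/
def Sg (f : SF F U) (M : Subgroup (End F V)ˣ) (ρ : Fr F U V) : AddSubgroup (End F V) where
  carrier := {s | Cm ρ s ∧ ∀ u, f u u = 0 → ∀ l : F, star l = l → IM M (1 + l • (f.R ρ u u * s))}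
  zero_mem' := ⟨Cm.zero, fun u _ l _ => by simpa using IM.one⟩
  add_mem' := fun hc hd => ⟨hc.1.add hd.1, fun u h0 l hl => by
    rw [mul_add, smul_add]
    exact (hc.2 u h0 l hl).add (hd.2 u h0 l hl) (Nc_sq h0 hc.1 _ _ _)⟩
  neg_mem' := fun hc => ⟨hc.1.neg, fun u h0 l hl => by simpa using hc.2 u h0 (-l) (by simp [hl])⟩

theorem Sg_smul {l : F} (hl : star l = l) {s : End F V} (hs : s ∈ Sg f M ρ) : l • s ∈ Sg f M ρ :=
  ⟨hs.1.smul l, fun u h0 m hm => by
    rw [mul_smul_comm, smul_smul]; exact hs.2 u h0 _ (by simp [hl, hm, mul_comm])⟩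

theorem Sg_one (h : Rt f M ρ) : 1 ∈ Sg f M ρ := ⟨Cm.one, fun u h0 l hl => by simpa using rootN h.root h0 hl⟩

theorem Sg_cf {g : (End F V)ˣ} (hg : g ∈ M) {s : End F V} (hs : s ∈ Sg f M ρ) :
    g * s * ↑g⁻¹ ∈ Sg f M (cf g ρ) := ⟨hs.1.cf g, fun u h0 l hl => by
  convert (hs.2 u h0 l hl).conj' hg using 2
  simp [R_cf, mul_assoc]⟩

theorem Sg_im {s : End F V} (hs : s ∈ Sg f M ρ) {u : U} (h0 : f u u = 0) : IM M (1 + f.R ρ u u * s) := by
  simpa using hs.2 u h0 1 (star_one F)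

theorem Sg_sa (G : f.Geo) (hM : Uni M) (h : Rt f M ρ) {s : End F V} (hs : s ∈ Sg f M ρ) : star s = s := by
  obtain ⟨u, hu, h0⟩ := G.exists_iso
  have := hM.mul (Sg_im hs h0)
  rw [star_add, star_one, h.ad.mul hs.1] at this
  simp only [add_mul, mul_add, one_mul, mul_one, neg_mul, mul_assoc, (h.ad.cm hs.1).R', RR_mul', h0, zero_smul,
    neg_zero, add_zero] at this
  refine (sub_eq_zero.mp (cm_eq_zero (f := f) (hs.1.sub (h.ad.cm hs.1)) hu hu ?_)).symm
  rw [mul_sub]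
  linear_combination (norm := abel) this

theorem sq_diff [Finite F] {c : F} (hc : star c = c) : ∃ l m : F, star l = l ∧ star m = m ∧ c = l * l - m * m := by
  by_cases h2 : (2 : F) = 0
  · have inj : Function.Injective fun x : F => x * x := fun x y (e : x * x = y * y) => by
      have : (x - y) * (x - y) = 0 := by linear_combination e - (x * y - y * y) * h2
      exact sub_eq_zero.mp (mul_self_eq_zero.mp this)
    obtain ⟨l, rfl⟩ := Finite.injective_iff_surjective.mp inj c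
    exact ⟨l, 0, inj (by simpa using hc), by simp, by simp⟩
  · exact ⟨(c + 1) / 2, (c - 1) / 2, by simp [hc], by simp [hc], by field_simp; ring⟩

theorem mem_Sg [Finite F] (G : f.Geo) (h : Rt f M ρ) {s : End F V} (hs : Cm ρ s) {u : U} (hu : u ≠ 0)
    (h0 : f u u = 0) (hm : IM M (1 + f.R ρ u u * s)) : s ∈ Sg f M ρ := by
  have st : ∀ a y, f a a = 0 → f y y = 0 → f a y ≠ 0 → star (f a y) = f a y → IM M (1 + f.R ρ a a * s) →
      IM M (1 + f.R ρ y y * s) := fun a y h1 h2 h3 h4 h5 => by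
    have := h.cj (u := y - a) (by rw [f.skew] at h4; simp [h1, h2, ← h4]) (l := (f a y)⁻¹) (by rw [star_inv₀, h4]) h5
    rw [cj_Rc (by rw [star_inv₀, h4]) _ _ hs] at this
    simpa [h1, h3] using this
  have sc : ∀ l : F, star l = l → IM M (1 + (l * l) • (f.R ρ u u * s)) := fun l hl => by
    by_cases hl0 : l = 0
    · simpa [hl0] using IM.one
    obtain ⟨v, h1, h2⟩ := G.partner hu
    have := st v (l • u) h1 (by simp [h0]) (by simp [h2, hl0]) (by simp [h2, hl])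
      (st u v h0 h1 (by simp [symm1 h2]) (by simp [symm1 h2]) hm)
    rwa [R_smul_left, R_smul_right, hl, smul_smul, smul_mul_assoc] at this
  refine ⟨hs, fun y hy => ?_⟩
  by_cases hy0 : y = 0
  · intro l _; simpa [hy0] using IM.one
  refine G.iso_trans (fun a => ∀ l : F, star l = l → IM M (1 + l • (f.R ρ a a * s))) (fun c a _ h1 l hl => ?_)
    (fun a z _ hz h1 l hl => ?_) hu h0 (fun l hl => ?_) hy0 hy
  · rw [R_smul_left, R_smul_right, smul_smul, smul_mul_assoc, smul_smul]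
    exact h1 _ (by simp [hl, mul_comm])
  · have := h.cj hz (l := -1) (by simp) (h1 l hl)
    rwa [mul_smul_comm, smul_mul_assoc, cj_Rc (by simp) _ _ hs, neg_one_mul, neg_smul, ← sub_eq_add_neg] at this
  · obtain ⟨a, b, ha, hb, rfl⟩ := sq_diff hl
    have := (sc b hb).neg (Nc_sq h0 hs _ _ _)
    rw [sub_eq_add_neg, ← neg_smul] at this
    rw [sub_eq_add_neg, add_smul]
    exact (sc a ha).add this (Nc_sq h0 hs _ _ _)

section tor
variable {s : End F V} (hs : s ∈ Sg f M ρ) (hss : s * s = 0) {u v : U} (h0 : f u u = 0) (h1 : f v v = 0)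
  (h2 : f v u = 1)
include hs hss h0 h1 h2

theorem tor_sq : -((f.R ρ u v + f.R ρ v u) * s) * -((f.R ρ u v + f.R ρ v u) * s) = 0 := by
  simp [mul_add, add_mul, mul_assoc, hs.1.R', hss]

theorem tor_mem : un _ (tor_sq hs hss h0 h1 h2) ∈ M := by
  have := ((hs.2 (u + v) (by simp [h0, h1, h2, symm1 h2]) (-1) (by simp)).add (Sg_im hs h0)
    (by simp [mul_assoc, hs.1.R', hss])).add (Sg_im hs h1) (by simp [add_mul, mul_assoc, hs.1.R', hss])
  refine (im_iff _).mp ?_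
  convert this using 2
  simp only [R_add_left, R_add_right, add_mul, neg_smul, one_smul]; abel

theorem tor_R (x : U) : (un _ (tor_sq hs hss h0 h1 h2) : End F V) * f.R ρ u x = f.R ρ u x * (1 + s) := by
  simp [add_mul, mul_add, mul_assoc, hs.1.R, RR_mul', h0, symm1 h2]

theorem R_tor : f.R ρ u u * ↑(un _ (tor_sq hs hss h0 h1 h2))⁻¹ = f.R ρ u u * (1 + s) := by
  simp [add_mul, mul_add, mul_sub, RR_mul', h0, h2]

end tor

theorem Sg_jor (G : f.Geo) (h2 : (2 : F) ≠ 0) {s t : End F V} (hs : s ∈ Sg f M ρ) (hss : s * s = 0)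
    (ht : t ∈ Sg f M ρ) : s * t + t * s ∈ Sg f M ρ := by
  have k : ∀ s ∈ Sg f M ρ, s * s = 0 → (1 + s) * t * (1 + s) ∈ Sg f M ρ := fun s hs hss =>
    ⟨((Cm.one.add hs.1).mul ht.1).mul (Cm.one.add hs.1), fun u h0 l hl => by
      by_cases hu : u = 0
      · simpa [hu] using IM.one
      obtain ⟨v, h1, h3⟩ := G.partner hu
      have := (ht.2 u h0 l hl).conj' (tor_mem hs hss h0 h1 h3)
      rwa [mul_smul_comm, smul_mul_assoc, ← mul_assoc, tor_R hs hss h0 h1 h3, ← (Cm.one.add hs.1).R,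
        mul_assoc _ _ t, ← ht.1.R, mul_assoc, mul_assoc, R_tor hs hss h0 h1 h3, ht.1.R', (Cm.one.add hs.1).R',
        ← mul_assoc (1 + s)] at this⟩
  have := Sg_smul (l := (2 : F)⁻¹) (by simp) (sub_mem (k s hs hss) (k _ (neg_mem hs) (by simp [hss])))
  convert this using 1
  rw [eq_inv_smul_iff₀ h2]
  simp only [two_smul, mul_add, add_mul, one_mul, mul_one, mul_neg, neg_mul]; abel

/-- the unipotent radical -/
structure Qu (f : SF F U) (M : Subgroup (End F V)ˣ) (ρ : Fr F U V) (u : U) (Z : End F V) : Prop where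
  im : IM M (1 + Z)
  L : ∀ v ∈ Ln ρ u, Z v = 0
  K : ∀ v, f.R ρ u u v = 0 → Z v ∈ Ln ρ u

variable {u : U} {Z Z' Z'' : End F V}

theorem Qu.R (hZ : Qu f M ρ u Z) (x : U) : Z * f.R ρ u x = 0 := LinearMap.ext fun _ => hZ.L _ (R_mem _ _ _)

theorem Qu.N (hM : Uni M) (h : Rt f M ρ) (hZ : Qu f M ρ u Z) : f.R ρ u u * Z = 0 := by
  have e1 := congrArg star (hZ.R u)
  rw [star_mul, h.ad, neg_mul, star_zero, neg_eq_zero] at e1
  have e2 := congrArg (f.R ρ u u * ·) (hM.mul hZ.im)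
  simpa [mul_add, add_mul, ← mul_assoc, e1] using e2

theorem Qu.cube (hM : Uni M) (h : Rt f M ρ) (hZ : Qu f M ρ u Z) (hZ' : Qu f M ρ u Z') (hZ'' : Qu f M ρ u Z'') :
    Z * (Z' * Z'') = 0 := LinearMap.ext fun v => hZ.L _ (hZ'.K _ (congrArg (fun z => z v) (hZ''.N hM h)))

theorem Qu.star (hM : Uni M) (h : Rt f M ρ) (hZ : Qu f M ρ u Z) : star Z = Z * Z - Z := by
  have := congrArg (· * (1 - Z + Z * Z)) (hM.mul hZ.im)
  have e : (1 + Z) * (1 - Z + Z * Z) = 1 := by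
    simp only [mul_add, add_mul, mul_sub, one_mul, mul_one, hZ.cube hM h hZ hZ]; abel
  simp only [mul_assoc, e, mul_one, one_mul, star_add, star_one] at this
  linear_combination (norm := abel) this

theorem Qu.inv (hM : Uni M) (h : Rt f M ρ) (hZ : Qu f M ρ u Z) : Qu f M ρ u (Z * Z - Z) :=
  ⟨by rw [← hZ.star hM h]; simpa using hM.star hZ.im, fun v hv => by simp [hZ.L v hv], fun v hv => by
    simpa [hZ.L _ (hZ.K v hv)] using hZ.K v hv⟩

theorem Qu.mul (hZ : Qu f M ρ u Z) (hZ' : Qu f M ρ u Z') : Qu f M ρ u (Z + Z' + Z * Z') :=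
  ⟨by convert hZ.im.mul hZ'.im using 1; simp only [mul_add, add_mul, one_mul, mul_one]; abel,
    fun v hv => by simp [hZ.L v hv, hZ'.L v hv], fun v hv => by
    simpa [hZ.L _ (hZ'.K v hv)] using add_mem (hZ.K v hv) (hZ'.K v hv)⟩

theorem Qu.comm (hM : Uni M) (h : Rt f M ρ) (hZ : Qu f M ρ u Z) (hZ' : Qu f M ρ u Z') {c : End F V}
    (hc : Cm ρ c) (e : Z * Z' = f.R ρ u u * c) : IM M (1 + f.R ρ u u * (c + Star.star c)) := by
  have c1 := fun {A B} => hZ.cube hM h (Z' := A) (Z'' := B)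
  have c2 := fun {A B} => hZ'.cube hM h (Z' := A) (Z'' := B)
  have e1 := congrArg Star.star e
  rw [star_mul, h.ad.mul hc, hZ.star hM h, hZ'.star hM h] at e1
  have := ((hZ.im.mul hZ'.im).mul (hZ.inv hM h).im).mul (hZ'.inv hM h).im
  convert this using 1
  rw [mul_add, ← e, ← neg_neg (_ * Star.star c), ← e1]
  simp only [mul_add, add_mul, mul_sub, sub_mul, one_mul, mul_one, mul_assoc, c1 hZ hZ, c1 hZ hZ', c1 hZ' hZ,
    c1 hZ' hZ', c2 hZ hZ, c2 hZ hZ', c2 hZ' hZ, c2 hZ' hZ', mul_zero, zero_mul]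
  abel

theorem Qu.conj (hM : Uni M) (h : Rt f M ρ) (hu : u ≠ 0) (hZ : Qu f M ρ u Z) {g : (End F V)ˣ} (hg : g ∈ M)
    (hs : ∀ v ∈ Ln ρ u, (g : End F V) v ∈ Ln ρ u) : Qu f M ρ u (g * Z * ↑g⁻¹) :=
  ⟨hZ.im.conj' hg, fun v hv => by simp [hZ.L _ (inv_mem_of g hs hv)], fun v hv =>
    hs _ (hZ.K _ (stab_K hM h.ad hu (M.inv_mem hg) (fun v => inv_mem_of g hs) hv))⟩

theorem Rt.qu (h : Rt f M ρ) (hu : u ≠ 0) (h0 : f u u = 0) {b : U} {c : F} (hb : f b u = 0)
    (hc : c - star c = f b b) : Qu f M ρ u (Ee f ρ u b c) :=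
  ⟨h.root u b c h0 hb hc, fun _ => Ee_L c h0 hb, fun v hv => Ee_K hu b c hv ▸ R_mem _ _ _⟩

theorem Qu.bt (hZ : Qu f M ρ u Z) {w : U} (hw : f u w = 1) {b : U} (hb : f b u = 0) (x : U) :
    Z * f.R ρ b x = f.R ρ u x * bt f ρ Z w b := by
  rw [R_bt]
  ext v
  exact (R_one (hZ.K _ (by rw [R_R, hb, zero_smul])) hw).symm

/-- coefficients of the radical -/
def Cs (f : SF F U) (M : Subgroup (End F V)ˣ) (ρ : Fr F U V) (u : U) : Submodule F (End F V) :=
  Submodule.span F {c | Cm ρ c ∧ ∃ Z b, Qu f M ρ u Z ∧ f b u = 0 ∧ ∀ x, Z * f.R ρ b x = f.R ρ u x * c}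

theorem mem_Cs {c : End F V} (hc : Cm ρ c) (hZ : Qu f M ρ u Z) {b : U} (hb : f b u = 0)
    (e : ∀ x, Z * f.R ρ b x = f.R ρ u x * c) : c ∈ Cs f M ρ u := Submodule.subset_span ⟨hc, Z, b, hZ, hb, e⟩

theorem Cs_le {X : Submodule F (End F V)} (h : ∀ c Z b, Cm ρ c → Qu f M ρ u Z → f b u = 0 →
    (∀ x, Z * f.R ρ b x = f.R ρ u x * c) → c ∈ X) : Cs f M ρ u ≤ X :=
  Submodule.span_le.mpr fun c ⟨hc, Z, b, h1, h2, h3⟩ => h c Z b hc h1 h2 h3

theorem Cs_cm {c : End F V} (hc : c ∈ Cs f M ρ u) : Cm ρ c :=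
  Cs_le (X :=
    { carrier := {c | Cm ρ c}
      add_mem' := Cm.add
      zero_mem' := Cm.zero
      smul_mem' := fun s _ h => h.smul s }) (fun _ _ _ h _ _ _ => h) hc

theorem Cs_le4 (G : f.Geo) (h4 : 4 ≤ finrank F U) (hu : u ≠ 0) (h0 : f u u = 0) {X : Submodule F (End F V)}
    (h : ∀ c Z b, Cm ρ c → Qu f M ρ u Z → Gp f u b → (∀ x, Z * f.R ρ b x = f.R ρ u x * c) → c ∈ X) :
    Cs f M ρ u ≤ X := Cs_le fun c Z b hc hZ hb e => by
  obtain ⟨w, hw⟩ := f.exists_right hu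
  have e1 : c = bt f ρ Z w b := sub_eq_zero.mp (cm_eq_zero (f := f) (hc.sub (cm_bt _ _ _)) hu hu (by
    rw [mul_sub, ← e, ← hZ.bt hw hb, sub_self]))
  rw [e1]
  refine G.span_perp h4 hu h0 (S :=
    { carrier := {b | bt f ρ Z w b ∈ X}
      add_mem' := fun ha hb => by simp only [Set.mem_ofPred_eq, bt_add_right]; exact X.add_mem ha hb
      zero_mem' := by simp
      smul_mem' := fun c a ha => by simp only [Set.mem_ofPred_eq, bt_smul_right]; exact X.smul_mem _ ha })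
    (fun b h1 h2 => ?_) hb
  by_cases h3 : ∀ s : F, b ≠ s • u
  · exact h _ Z b (cm_bt _ _ _) hZ ⟨h0, h1, h2, hu, h3⟩ (hZ.bt hw h2)
  push Not at h3
  obtain ⟨s, rfl⟩ := h3
  change bt f ρ Z w _ ∈ X
  rw [bt_smul_right, cm_eq_zero (f := f) (cm_bt Z w u) hu hu (by rw [← hZ.bt hw h0, hZ.R]), smul_zero]
  exact X.zero_mem

theorem Cs_two (h2 : finrank F U ≤ 2) (hu : u ≠ 0) (h0 : f u u = 0) {c : End F V} (hc : c ∈ Cs f M ρ u) :
    c = 0 := Cs_le (X := ⊥) (fun c Z b hc hZ hb e => by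
  obtain ⟨s, rfl⟩ := f.perp_two h2 hu h0 hb
  exact cm_eq_zero (f := f) hc hu hu (by rw [← e, R_smul_left, mul_smul_comm, hZ.R, smul_zero])) hc

theorem Cs_one (G : f.Geo) (h3 : 3 ≤ finrank F U) (h : Rt f M ρ) (hu : u ≠ 0) (h0 : f u u = 0) :
    1 ∈ Cs f M ρ u := by
  obtain ⟨v, hv⟩ := f.exists_left hu
  obtain ⟨b, hb, h1, h2⟩ := f.exists_perp_two h3 u v
  obtain ⟨y, hy⟩ := f.exists_left hb
  obtain ⟨c, hc⟩ := G.sol b
  refine mem_Cs Cm.one (h.qu hu h0 h1 hc) (b := y - f y u • v) (by simp [hv]) fun x => ?_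
  simp [Ee, add_mul, RR_mul, hv, hy, symm0 h2]

theorem Cs_cj (hM : Uni M) (h : Rt f M ρ) (hu : u ≠ 0) {g : (End F V)ˣ} (hg : g ∈ M) (hc : Cm ρ (g : End F V))
    {c : End F V} (hm : c ∈ Cs f M ρ u) : g * c * ↑g⁻¹ ∈ Cs f M ρ u := by
  have hc' : Cm ρ (↑g⁻¹ : End F V) := fun x => by
    rw [Units.inv_mul_eq_iff_eq_mul, ← mul_assoc, hc x, Units.mul_inv_cancel_right]
  refine Cs_le (X := (Cs f M ρ u).comap (LinearMap.mulLeftRight F ((g : End F V), (↑g⁻¹ : End F V))))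
    (fun c Z b h1 h2 h3 h4 => ?_) hm
  refine mem_Cs ((hc.mul h1).mul hc') (h2.conj hM h hu hg fun v => hc.mem_Ln) h3 fun x => ?_
  rw [mul_assoc, hc'.R, mul_assoc, ← mul_assoc Z, h4, ← mul_assoc, hc.R', LinearMap.mulLeftRight_apply, mul_assoc]

theorem Cs_S [Finite F] (G : f.Geo) (hM : Uni M) (h : Rt f M ρ) (hu : u ≠ 0) (h0 : f u u = 0) {c : End F V}
    (hc : c ∈ Cs f M ρ u) : c + star c ∈ Sg f M ρ := by
  have := Cs_le (X :=
    { carrier := {c | ∀ l : F, l • c + star (l • c) ∈ Sg f M ρ}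
      add_mem' := fun ha hb l => by
        convert add_mem (ha l) (hb l) using 1; simp only [smul_add, star_add]; abel
      zero_mem' := fun l => by simp
      smul_mem' := fun c a ha l => by rw [smul_smul]; exact ha _ }) (fun c Z b h1 h2 h3 h4 l => by
    obtain ⟨s, hs⟩ := G.sol (l • b)
    refine mem_Sg G h ((h1.smul l).add (h.ad.cm (h1.smul l))) hu h0
      (h2.comm hM h (h.qu hu h0 (by simp [h3]) hs) (h1.smul l) ?_)
    simp [Ee, mul_add, h2.R, R_smul_left, h4]) hc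
  simpa using this 1

theorem Cs_tor (G : f.Geo) (hM : Uni M) (h : Rt f M ρ) (hu : u ≠ 0) (h0 : f u u = 0) {s : End F V}
    (hs : s ∈ Sg f M ρ) (hss : s * s = 0) {c : End F V} (hc : c ∈ Cs f M ρ u) : s * c ∈ Cs f M ρ u := by
  obtain ⟨v, h1, h2⟩ := G.partner hu
  refine Cs_le (X := (Cs f M ρ u).comap (LinearMap.mulLeft F s)) (fun c Z b h3 h4 h5 h6 => ?_) hc
  have := mem_Cs ((Cm.one.add hs.1).mul h3) (h4.conj hM h hu (tor_mem hs hss h0 h1 h2) fun y hy => by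
      rw [← R_one (f := f) hy (b := -v) (by simp [symm1 h2]), ← End.mul_apply, tor_R hs hss h0 h1 h2]
      exact R_mem _ _ _)
    (b := b + f b v • u) (by simp [h5, h0]) fun x => by
      have e : (↑(un _ (tor_sq hs hss h0 h1 h2))⁻¹ : End F V) * f.R ρ (b + f b v • u) x = f.R ρ (b + f b v • u) x := by
        simp [add_mul, sub_mul, mul_assoc, hs.1.R, RR_mul', h0, h5, symm1 h2]
      rw [mul_assoc, e, mul_assoc, R_add_left, R_smul_left, mul_add Z, mul_smul_comm, h4.R, smul_zero, add_zero, h6,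
        ← mul_assoc, tor_R hs hss h0 h1 h2, mul_assoc]
  simpa [add_mul] using sub_mem this (mem_Cs h3 h4 h5 h6)

theorem perp_trans (G : f.Geo) (h4 : 4 ≤ finrank F U) (P : U → Prop) (hs : ∀ (c : F) b, c ≠ 0 → P b → P (c • b))
    (ht : ∀ b z, f z z = 0 → f u z = 0 → P b → P (b - f b z • z)) {b b' : U} (h1 : Gp f u b) (h2 : Gp f u b')
    (h : P b) : P b' := by
  have s : ∀ b y, f b b = 0 → f y y = 0 → f u b = 0 → f u y = 0 → f b y ≠ 0 → P b → P y := by
    intro b y h0 hy0 h5 h6 hay h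
    have hs'' : star (f b y) ≠ 0 := star_ne_zero.mpr hay
    have := ht b (y + (f b y)⁻¹ • b) (by
      have := symm_ne hay
      simp [h0, hy0]; field_simp; ring) (by simp [h5, h6]) h
    have e : b - f b (y + (f b y)⁻¹ • b) • (y + (f b y)⁻¹ • b) = (-f b y) • y := by
      simp [h0, smul_add, smul_smul, hay]
    have := hs (-f b y)⁻¹ _ (by simpa using hay) (e ▸ this)
    rwa [smul_smul, inv_mul_cancel₀ (by simpa using hay), one_smul] at this
  obtain ⟨z, h5, h6, h7, h8⟩ := G.perp2 h4 u b b' h1.ne h1.aa h1.ba h2.ba h1.ind h2.ind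
  exact s z b' h5 h2.bb (symm0 h6) h2.ab h8 (s b z h1.bb h5 h1.ab (symm0 h6) (symm_ne h7) h)

/-- `Sg` as a subspace when the involution is trivial -/
def Sm (hst : ∀ c : F, star c = c) (f : SF F U) (M : Subgroup (End F V)ˣ) (ρ : Fr F U V) :
    Submodule F (End F V) where
  carrier := Sg f M ρ
  add_mem' := add_mem
  zero_mem' := zero_mem _
  smul_mem' := fun c _ h => Sg_smul (hst c) h

theorem Cs_pure [Finite F] (G : f.Geo) (hM : Uni M) (h : Rt f M ρ) {z : U} (hz : Gp f u z) {c d : End F V}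
    (hc : Cm ρ c) (hd : Cm ρ d) (hZ : Qu f M ρ u Z) (hZ' : Qu f M ρ u Z')
    (e : ∀ x, Z * f.R ρ z x = f.R ρ u x * c) (e' : ∀ x, Z' * f.R ρ z x = f.R ρ u x * d) :
    c * star d + d * star c ∈ Sg f M ρ := by
  have h1 := (hZ.conj hM h hz.ne (h.mem hz.bb (star_one F)) fun v hv => by
    simpa [R_zero hv _ hz.ab] using hv).mul (hZ.inv hM h)
  have e1 := congrArg star (e' u)
  rw [star_mul, h.ad, hZ'.star hM h, h.ad.mul hd] at e1
  have e2 : f.R ρ z z * (Z * Z') = 0 := LinearMap.ext fun v =>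
    R_zero (hZ.K _ (congrArg (fun z => z v) (hZ'.N hM h))) _ hz.ab
  have e3 : f.R ρ u z * (Z' * Z') = 0 := LinearMap.ext fun v =>
    R_zero (hZ'.K _ (congrArg (fun z => z v) (hZ'.N hM h))) _ hz.ab
  have e4 : f.R ρ u z * Z' = -(f.R ρ u u * star d) := by
    rw [← e1, neg_mul, mul_sub, e3]; simp
  have e6 : f.R ρ u z * (Z * Z') = 0 := LinearMap.ext fun v =>
    R_zero (hZ.K _ (congrArg (fun z => z v) (hZ'.N hM h))) _ hz.ab
  have e5 : ∀ y, Z * (f.R ρ z z * y) = f.R ρ u z * (c * y) := fun y => by rw [← mul_assoc, e, mul_assoc]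
  have := mem_Sg G h ((hc.mul (h.ad.cm hd)).add (h.ad.cm (hc.mul (h.ad.cm hd)))) hz.ne hz.aa
    (h1.comm hM h hZ' (hc.mul (h.ad.cm hd)) (by
      simp only [un_val, un_inv, one_smul, add_mul, mul_add, sub_mul, mul_sub, one_mul, mul_one, mul_assoc,
        hZ.cube hM h hZ hZ', e2, e5, mul_zero, RR_mul', hz.ab, zero_smul]
      rw [← hc.R', e4, mul_neg, hc.R', ← hc.R' u z, e6, mul_zero]; abel))
  rwa [star_mul, star_star] at this

theorem Cs_cd [Finite F] (G : f.Geo) (h4 : 4 ≤ finrank F U) (hst : ∀ c : F, star c = c) (hM : Uni M)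
    (h : Rt f M ρ) (hu : u ≠ 0) (h0 : f u u = 0) {c d : End F V} (hc : c ∈ Cs f M ρ u) (hd : d ∈ Cs f M ρ u) :
    c * star d + d * star c ∈ Sg f M ρ := by
  let X : End F V → Submodule F (End F V) := fun d =>
    { carrier := {c | c * star d + d * star c ∈ Sm hst f M ρ}
      add_mem' := fun ha hb => by
        have := (Sm hst f M ρ).add_mem ha hb
        simp only [Set.mem_ofPred_eq, star_add, mul_add, add_mul]
        convert this using 1; abel
      zero_mem' := by simp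
      smul_mem' := fun c a ha => by simpa [hst] using (Sm hst f M ρ).smul_mem c ha }
  refine Cs_le4 G h4 hu h0 (X := X d) (fun c Z b h1 h2 h3 h5 => ?_) hc
  change _ + _ ∈ Sm hst f M ρ
  rw [add_comm]
  refine Cs_le4 G h4 hu h0 (X := X c) (fun d Z' b' h6 h7 h8 h9 => ?_) hd
  obtain ⟨Z₁, s, hs, h10, h11⟩ := perp_trans G h4
    (fun b => ∃ (Z : End F V) (s : F), s ≠ 0 ∧ Qu f M ρ u Z ∧ ∀ x, Z * f.R ρ b x = f.R ρ u x * (s • c))
    (fun t b ht ⟨Z, s, h1, h2, h3⟩ => ⟨Z, t * s, mul_ne_zero ht h1, h2, fun x => by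
      simp [R_smul_left, h3, smul_smul]⟩)
    (fun b z hz hz' ⟨Z, s, h1, h2, h3⟩ => ⟨_, s, h1, h2.conj hM h hu (h.mem hz (l := -1) (by simp)) fun v hv => by
      simpa [R_zero hv _ hz'] using hv, fun x => by
      have e : (1 - (-1 : F) • f.R ρ z z) * f.R ρ (b - f b z • z) x = f.R ρ b x := by
        simp [add_mul, mul_sub, RR_mul, hz, R_sub_left, R_smul_left]
      rw [un_val, un_inv, mul_assoc, e, mul_assoc, h3]
      simp [add_mul, RR_mul', hz']⟩) h3 h8 ⟨Z, 1, one_ne_zero, h2, by simpa using h5⟩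
  have := (Sm hst f M ρ).smul_mem s⁻¹ (Cs_pure G hM h h8 h6 (h1.smul s) h7 h10 h9 h11)
  change _ + _ ∈ Sm hst f M ρ
  simpa [hst, smul_smul, hs] using this

theorem not_qt [Finite F] (G : f.Geo) (hM : Uni M) (h : Rt f M ρ) (hn : ¬ Good f M ρ) :
    (∃ s ∈ Sg f M ρ, ∀ l : F, s ≠ l • 1) ∨ ∃ u, u ≠ 0 ∧ f u u = 0 ∧ ∃ c ∈ Cs f M ρ u, ∀ l : F, c ≠ l • 1 := by
  by_contra! hcon
  refine hn ⟨h.ad, h.root, fun u hu h0 Z h1 h2 h3 => ?_⟩
  have hZ : Qu f M ρ u Z := ⟨h1, h2, h3⟩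
  obtain ⟨w, hw⟩ := f.exists_right hu
  obtain ⟨v, hv⟩ := f.exists_left hu
  obtain ⟨y₀, hy₀⟩ := exists_ne (0 : V)
  obtain ⟨ξ, hξ⟩ := H6.exists_dual_one' (F := F) hy₀
  obtain ⟨b, hb⟩ := f.surj
    { toFun := fun y => ξ (bt f ρ Z w (y - f y u • v) y₀)
      map_add' := fun x y => by
        rw [← map_add, ← LinearMap.add_apply, ← bt_add_right]; congr 3; simp [add_smul]; abel
      map_smul' := fun c x => by
        rw [RingHom.id_apply, ← map_smul, ← LinearMap.smul_apply, ← bt_smul_right]; congr 3; simp [smul_sub, smul_smul] }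
  have hb1 : ∀ y, f y u = 0 → ∀ x, Z * f.R ρ y x = f y b • f.R ρ u x := fun y hy x => by
    obtain ⟨l, hl⟩ := hcon.2 u hu h0 _ (mem_Cs (cm_bt _ _ _) hZ hy (hZ.bt hw hy))
    have : f y b = l := by
      rw [← fl_apply, hb]; simp [hy, hl, hξ]
    rw [hZ.bt hw hy, hl, this]; simp
  have hb2 : f b u = 0 := symm0 (by
    have := hb1 u h0 u
    rw [hZ.R, eq_comm] at this
    exact (smul_eq_zero.mp this).resolve_right (R_ne hu hu))
  obtain ⟨c, hc⟩ := G.sol b
  have hE := h.qu hu h0 hb2 hc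
  set E := Ee f ρ u b c with hE'
  have h4 := (hE.inv hM h).mul hZ
  set Z' := E * E - E + Z + (E * E - E) * Z with hZ'
  have h5 : ∀ y, f y u = 0 → ∀ x, Z' * f.R ρ y x = 0 := fun y hy x => by
    have e : E * f.R ρ y x = f y b • f.R ρ u x := by simp [hE', Ee, add_mul, RR_mul, hy]
    simp [hZ', add_mul, sub_mul, mul_assoc, hb1 y hy, e, hE.R]
  have h6 : ∀ y, f.R ρ u u y = 0 → Z' y = 0 := fun y hy =>
    ker_le hu (S := LinearMap.ker Z') (fun a ha z hz => by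
      by_cases ha0 : a = 0
      · have : z = 0 := by simpa using hz 1 (by simp [ha0])
        simp [this]
      obtain ⟨x, hx⟩ := f.exists_right ha0
      rw [LinearMap.mem_ker, ← R_one hz hx]
      exact congrArg (fun z' => z' z) (h5 a ha x)) hy
  have h7 : Z' * Z' = 0 := LinearMap.ext fun y => h6 _ (congrArg (fun z => z y) (h4.N hM h))
  obtain ⟨s, hs, e⟩ := exists_cm (f := f) (ρ := ρ) hu (Z := Z') (fun y => mem_Ln_of' hu fun a ha => by
    have := congrArg star (h5 a (symm0 ha) u)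
    rw [star_mul, h.ad, h4.star hM h, h7] at this
    simpa using congrArg (fun z => z y) this) h6
  obtain ⟨l, rfl⟩ := hcon.1 s (mem_Sg G h hs hu h0 (e ▸ h4.im))
  refine ⟨b, c + l, hb2, ?_⟩
  have e2 : (1 + E) * (1 + Z') = 1 + Z := by
    simp only [hZ', mul_add, add_mul, mul_sub, sub_mul, one_mul, mul_one, mul_assoc, hE.cube hM h hE hE,
      hE.cube hM h hE hZ, mul_zero]
    abel
  rw [e, mul_smul_comm, mul_one, add_mul, mul_add, mul_add, mul_smul_comm, mul_smul_comm, hE.R] at e2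
  simp only [hE', Ee, add_smul, mul_one, one_mul, smul_zero, add_zero] at e2 ⊢
  linear_combination (norm := abel) -e2

end Cfsg.Agent.H1.TF
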