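import Cfsg.Agent.H1.TF10

set_option autoImplicit false
set_option linter.unusedSectionVars false

/-! If some frame is not good then the centre of the radical is full. -/

namespace Cfsg.Agent.H1.TF

open Module TW SF

variable {F : Type*} [Field F] [StarRing F] {U V : Type*} [AddCommGroup U] [Module F U]
  [AddCommGroup V] [Module F V] [FiniteDimensional F U] [FiniteDimensional F V] [Nontrivial V]
  [StarRing (End F V)] [StarModule F (End F V)]

variable {f : SF F U} {T : Type*} [Fintype T] [DecidableEq T] {ρ : T → Fr F U V} {M : Subgroup (End F V)ˣ}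

structure Sys (f : SF F U) (M : Subgroup (End F V)ˣ) (ρ : T → Fr F U V) : Prop where
  G : f.Geo
  uni : Uni M
  fam : Fam ρ
  rt : ∀ i, Rt f M (ρ i)
  perm : ∀ i j k, i ≠ j → k ≠ i → k ≠ j → ∃ g ∈ M, cf g (ρ i) = ρ k ∧ cf g (ρ j) = ρ i ∧
    ∀ l, l ≠ i → l ≠ j → l ≠ k → cf g (ρ l) = ρ l

theorem Gp.indep' {σ : Fr F U V} {a b : U} (h : Gp f a b) {c c' : End F V} (hc : Cm σ c) (hc' : Cm σ c') {y : U}
    (hy : y ≠ 0) (e : f.R σ y a * c + f.R σ y b * c' = 0) : c' = 0 := by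
  obtain ⟨w, h1, h2⟩ := f.exists_pair h.ind
  have := congrArg (· * f.R σ w y) e
  simp only [add_mul, mul_assoc, hc.R, hc'.R, RR_mul', symm0 h1, symm1 h2, zero_smul, zero_add, zero_mul, neg_smul,
    one_smul, neg_eq_zero] at this
  exact cm_eq_zero hc' hy hy this

theorem not_cm {σ : Fr F U V} {c : End F V} (hc : c ≠ 0) {a : U} (ha : a ≠ 0) (h : ∀ v ∈ Ln σ a, c v = 0) :
    ¬ Cm σ c := fun h1 => hc (h1.eq_zero ha h)

namespace Sys

variable (P : Sys f M ρ)
include P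

theorem cmu {i l : T} (h : i ≠ l) {a : U} (ha : f a a = 0) (s : F) :
    Cm (ρ i) (un _ (N_sq (ρ := ρ l) ha s) : End F V) := Cm.one.add ((P.fam.cm h a a).smul s)

theorem iv_S (i l : T) : Iv f (ρ l) (Sg f M (ρ i)) := ⟨fun s hs z => Sg_smul hs, fun a ha s hs z hz => by
  by_cases h : i = l
  · subst h; rwa [cj_cm hz.1 ha]
  · have := Sg_cf ((P.rt l).mem ha hs) hz
    rwa [cf_of_cm (P.cmu h ha s)] at this⟩

theorem iv_C (i : T) {u : U} (hu : u ≠ 0) (l : T) : Iv f (ρ l) (Cs f M (ρ i) u).toAddSubgroup := by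
  by_cases h : i = l
  · subst h; exact iv_cm fun z => Cs_cm
  · exact iv_sub fun a ha s hs z => Cs_cj P.uni (P.rt i) hu ((P.rt l).mem ha hs) (P.cmu h ha s)

variable [Finite F]

theorem no_clifford (h4 : 4 ≤ finrank F U) (hst : ∀ c : F, star c = c) {C : Submodule F (End F V)}
    (hiv : ∀ l, Iv f (ρ l) C.toAddSubgroup) (h1 : ∀ c ∈ C, ∃ l : F, c + star c = l • 1)
    (h2 : ∀ c ∈ C, ∀ d ∈ C, ∃ l : F, c * star d + d * star c = l • 1) {e : End F V} (he : e ∈ C) :
    ∃ l : F, e = l • 1 := by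
  have G := P.G
  refine P.fam.scal e fun j => ?_
  by_contra hj
  have had := (P.rt j).ad
  have sk : ∀ x y, f x y = -f y x := fun x y => by rw [← f.skew, hst]
  have hJ := J4_ne G h4 (hiv j) he hj
  have iJ := P.fam.iv (J := J4 f (ρ j) C) hiv (fun c hc => hc.1) fun p q hp hq h c => J4_cj hp hq h
  set J := J4 f (ρ j) C
  have k1 : ∀ c ∈ J, ∀ a b, Gp f a b → f.R (ρ j) b a * c + f.R (ρ j) a b * star c ∈ C := fun c hc a b hab => by
    obtain ⟨c', h3, h5⟩ := hc.2 a b hab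
    obtain ⟨l, hl⟩ := h1 _ h5
    rw [star_add, had.mul hc.1, had.mul h3] at hl
    have e1 := congrArg (· * f.R (ρ j) a a) hl
    simp only [add_mul, neg_mul, mul_assoc, hc.1.R, h3.R, (had.cm hc.1).R, (had.cm h3).R, RR_mul', hab.aa, hab.ab,
      zero_smul, neg_zero, add_zero, smul_mul_assoc, one_mul] at e1
    rw [(smul_eq_zero.mp e1.symm).resolve_right (R_ne hab.ne hab.ne), zero_smul] at hl
    have := hab.symm.indep (h3.sub (had.cm hc.1)) (c' := c - star c') (by
      rw [mul_sub, mul_sub]; linear_combination (norm := abel) hl)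
    rwa [← sub_eq_zero.mp this]
  have k2 : ∀ c ∈ J, ∀ d ∈ J, ∀ a b a' b', Gp f a b → Gp f a' b' → ∃ κ : F,
      (f.R (ρ j) b a * c + f.R (ρ j) a b * star c) * (f.R (ρ j) b' a' * d + f.R (ρ j) a' b' * star d) +
      (f.R (ρ j) b' a' * d + f.R (ρ j) a' b' * star d) * (f.R (ρ j) b a * c + f.R (ρ j) a b * star c) = κ • 1 :=
    fun c hc d hd a b a' b' hab hab' => by
      obtain ⟨l, hl⟩ := h2 _ (k1 c hc a b hab) _ (k1 d hd a' b' hab')
      refine ⟨-l, ?_⟩
      rw [star_add, star_add, had.mul hc.1, had.mul hd.1, had.mul (had.cm hc.1), had.mul (had.cm hd.1), star_star,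
        star_star] at hl
      rw [neg_smul, ← hl]
      simp only [mul_add, add_mul, mul_neg]; abel
  have k3 : ∀ c ∈ J, ∀ d ∈ J, ∀ a b a' b', Gp f a b → Gp f a' b' → ∀ κ : F,
      (f.R (ρ j) b a * c + f.R (ρ j) a b * star c) * (f.R (ρ j) b' a' * d + f.R (ρ j) a' b' * star d) +
      (f.R (ρ j) b' a' * d + f.R (ρ j) a' b' * star d) * (f.R (ρ j) b a * c + f.R (ρ j) a b * star c) = κ • 1 →
      (f b' b * f a' b) • ((d + star d) * c) = 0 ∧
        (f b' b * f a a') • (d * star c) + (f a' b * f a b') • (star d * star c) = κ • 1 :=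
    fun c hc d hd a b a' b' hab hab' κ e => by
      have e1 := congrArg (f.R (ρ j) a b * ·) e
      simp only [mul_add, add_mul, mul_assoc, hc.1.R', hd.1.R', (had.cm hc.1).R', (had.cm hd.1).R', RR_mul', hab.bb,
        hab.ab, zero_smul, zero_add, add_zero, mul_smul_comm, mul_one, smul_zero, sk b a', sk b b'] at e1
      have m1 := ((hd.1.add (had.cm hd.1)).mul hc.1).smul (-(f b' b * f a' b))
      have m2 := (((hd.1.mul (had.cm hc.1)).smul (f b' b * f a a')).add
        (((had.cm hd.1).mul (had.cm hc.1)).smul (f a' b * f a b'))).sub (Cm.one.smul κ)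
      have e2 : f.R (ρ j) a a * (-(f b' b * f a' b) • ((d + star d) * c)) + f.R (ρ j) a b *
          ((f b' b * f a a') • (d * star c) + (f a' b * f a b') • (star d * star c) - κ • 1) = 0 := by
        simp only [mul_add, add_mul, mul_sub, mul_smul_comm, mul_one]
        linear_combination (norm := module) e1
      exact ⟨by simpa using hab.symm.indep' m2 m1 hab.ne (by rwa [add_comm]),
        sub_eq_zero.mp (hab.indep' m1 m2 hab.ne e2)⟩
  obtain ⟨b, hb, hb0⟩ := G.exists_iso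
  obtain ⟨a, hab⟩ := exists_gp G h4 hb hb0
  replace hab := hab.symm
  have k4 : ∀ d ∈ J, star d = -d := fun d hd => by
    obtain ⟨v, h3, h5⟩ := G.partner hb
    obtain ⟨y, hy⟩ := exists_gp G h4 (ne_left (by rw [h5]; exact one_ne_zero)) h3
    have hy' : Gp f v (y + (1 - f y b) • v) := ⟨h3, by simp [h3, hy.bb, hy.ab, hy.ba], by simp [h3, hy.ba], hy.ne,
      fun c e => hy.ind (c - (1 - f y b)) (by rw [sub_smul, ← e]; simp)⟩
    refine eq_neg_of_add_eq_zero_right (P.fam.ann G iJ hJ fun c hc => ?_)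
    obtain ⟨κ, hκ⟩ := k2 c hc d hd _ _ _ _ hab hy'
    simpa [h5] using (k3 c hc d hd _ _ _ _ hab hy' κ hκ).1
  obtain ⟨a', h5, h6, h7, -⟩ := G.perp2 h4 b a a hb hb0 hab.ab hab.ab hab.symm.ind hab.symm.ind
  have h8 : ∀ c : F, b ≠ c • a' := by
    rintro c rfl
    have := hab.ba
    simp [h7] at this
    simp [this] at hb
  obtain ⟨b', h9, h10, h11, -⟩ := G.perp2 h4 a' b b (ne_left h7) h5 (symm0 h6) (symm0 h6) h8 h8
  have hab' : Gp f a' b' := ⟨h5, h9, h10, ne_left h7, by rintro c rfl; simp [h6] at h11⟩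
  have hm : f b' b * f a a' ≠ 0 := mul_ne_zero h11 (symm_ne h7)
  have k5 : ∀ d ∈ J, ∀ c ∈ J, ∃ κ : F, d * c = κ • 1 := fun d hd c hc => by
    obtain ⟨κ, hκ⟩ := k2 c hc d hd _ _ _ _ hab hab'
    have := (k3 c hc d hd _ _ _ _ hab hab' κ hκ).2
    rw [h6, zero_mul, zero_smul, add_zero, k4 c hc, mul_neg, smul_neg, neg_eq_iff_eq_neg, ← eq_inv_smul_iff₀ hm,
      ← neg_smul, smul_smul] at this
    exact ⟨_, this⟩
  obtain ⟨c, hc, hc0⟩ := Submodule.exists_mem_ne_zero_of_ne_bot hJ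
  obtain ⟨l, rfl⟩ := P.fam.scal c fun l => by
    by_contra hl
    obtain ⟨s, h12, h13, h14⟩ := (iJ l).sq G hc hl
    refine h14 ((P.fam.ann G iJ hJ (e := s) fun c hc => ?_).symm ▸ Cm.zero)
    obtain ⟨κ, hκ⟩ := k5 s h12 c hc
    have := congrArg (s * ·) hκ
    simp only [← mul_assoc, h13, zero_mul, mul_smul_comm, mul_one] at this
    rcases smul_eq_zero.mp this.symm with h | h
    · rw [hκ, h, zero_smul]
    · rw [h, zero_mul]
  by_cases h5' : finrank F U = 4
  · have := k4 _ hc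
    rw [star_smul, hst, star_one, eq_neg_iff_add_eq_zero, ← two_smul F] at this
    exact hc0 ((smul_eq_zero.mp this).resolve_left (G.dim4 h5' hst))
  obtain ⟨z, w, h12, -, h13⟩ := exists_perp_notMem f ![a, b, a', b'] ⊥ (by rw [finrank_bot]; omega)
  obtain ⟨κ, hκ⟩ := k2 _ hc _ hc _ _ _ _ hab hab'
  have e1 := (k3 _ hc _ hc _ _ _ _ hab hab' κ hκ).2
  have e2 := congrArg (· * f.R (ρ j) z z) hκ
  have z1 : f z a = 0 := h12 0
  have z2 : f z b = 0 := h12 1
  have z3 : f z a' = 0 := h12 2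
  have z4 : f z b' = 0 := h12 3
  have hz : z ≠ 0 := ne_left (by rw [h13]; exact one_ne_zero)
  simp only [star_smul, star_one, mul_smul_comm, mul_one, mul_assoc, add_mul, smul_mul_assoc, RR_mul, z1, z2, z3, z4,
    zero_smul, smul_zero, add_zero, mul_zero, one_mul] at e2
  rw [(smul_eq_zero.mp e2.symm).resolve_right (R_ne hz hz), h6] at e1
  simp [hm, hst] at e1
  simp [e1] at hc0

theorem step1 {i : T} (hn : ¬ Good f M (ρ i)) : ∃ s ∈ Sg f M (ρ i), ∀ l : F, s ≠ l • 1 := by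
  have G := P.G
  refine (not_qt G P.uni (P.rt i) hn).elim id ?_
  rintro ⟨u, hu, h0, c, hc, hne⟩
  by_contra! hS
  have h1 : ∀ c ∈ Cs f M (ρ i) u, ∃ l : F, c + star c = l • 1 := fun c hc => hS _ (Cs_S G P.uni (P.rt i) hu h0 hc)
  by_cases hθ : ∃ θ : F, star θ ≠ θ
  · obtain ⟨θ, hθ⟩ := hθ
    obtain ⟨a, ha⟩ := h1 c hc
    obtain ⟨b, hb⟩ := h1 _ (Submodule.smul_mem _ θ hc)
    rw [star_smul] at hb
    refine hne ((θ - star θ)⁻¹ * (b - star θ * a)) ?_
    rw [mul_smul, eq_inv_smul_iff₀ (sub_ne_zero.mpr hθ.symm)]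
    linear_combination (norm := module) hb - star θ • ha
  have hst : ∀ c : F, star c = c := by simpa using hθ
  by_cases h2 : finrank F U ≤ 2
  · exact hne 0 (by simpa using Cs_two h2 hu h0 hc)
  have h4 : 4 ≤ finrank F U := by
    by_contra h4
    exact hθ (G.dim3 (by omega))
  obtain ⟨l, hl⟩ := P.no_clifford h4 hst (P.iv_C i hu) h1
    (fun c hc d hd => hS _ (Cs_cd G h4 hst P.uni (P.rt i) hu h0 hc hd)) hc
  exact hne l hl

omit P in
/-- left multipliers -/
def Oc (σ : Fr F U V) (C : Submodule F (End F V)) : Submodule F (End F V) where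
  carrier := {a | Cm σ a ∧ ∀ c ∈ C, a * c ∈ C}
  zero_mem' := ⟨Cm.zero, by simp⟩
  add_mem' := fun ha hb => ⟨ha.1.add hb.1, fun c hc => by rw [add_mul]; exact C.add_mem (ha.2 c hc) (hb.2 c hc)⟩
  smul_mem' := fun s a ha => ⟨ha.1.smul s, fun c hc => by rw [smul_mul_assoc]; exact C.smul_mem _ (ha.2 c hc)⟩

omit P in
theorem Oc_mul {σ : Fr F U V} {C : Submodule F (End F V)} : ∀ x ∈ Oc σ C, ∀ y ∈ Oc σ C, x * y ∈ Oc σ C :=
  fun x hx y hy => ⟨hx.1.mul hy.1, fun c hc => by rw [mul_assoc]; exact hx.2 _ (hy.2 c hc)⟩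

theorem frame_O {i j : T} {s : End F V} (hs : s ∈ Sg f M (ρ i)) (hne : ¬ Cm (ρ j) s) {u : U} (hu : u ≠ 0)
    (h0 : f u u = 0) (x : End F U) : ρ j x ∈ Oc (ρ i) (Cs f M (ρ i) u) := by
  obtain ⟨e, h1, h2, h3⟩ := (P.iv_S i j).sq P.G hs hne
  refine P.fam.frame_mem P.G Oc_mul (fun l => ?_) ⟨h1.1, fun c => Cs_tor P.G P.uni (P.rt i) hu h0 h1 h2⟩ h3 x
  by_cases h : i = l
  · subst h; exact iv_cm fun z hz => hz.1
  refine iv_sub fun a ha t ht z hz => ⟨((P.cmu h ha t).mul hz.1).mul (Cm.one.sub ((P.fam.cm h a a).smul t)),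
    fun c hc => ?_⟩
  have hg := (P.rt l).mem ha ht
  have hc' := P.cmu h ha t
  have := Cs_cj P.uni (P.rt i) hu hg hc' (hz.2 _ (Cs_cj P.uni (P.rt i) hu (M.inv_mem hg)
    (Cm.one.sub ((P.fam.cm h a a).smul t)) hc))
  simp only [inv_inv, mul_assoc, Units.mul_inv, mul_one] at this
  simpa [mul_assoc] using this

theorem symm (h3 : 3 ≤ finrank F U) {i j : T} (h : ∃ s ∈ Sg f M (ρ i), ¬ Cm (ρ j) s) :
    ∃ s ∈ Sg f M (ρ j), ¬ Cm (ρ i) s := by
  have G := P.G
  obtain ⟨s, hs, hne⟩ := h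
  have hij : i ≠ j := by rintro rfl; exact hne hs.1
  obtain ⟨u, hu, h0⟩ := G.exists_iso
  have k : ∀ (l : F) a b, l • f.R (ρ j) a b - star l • f.R (ρ j) b a ∈ Sg f M (ρ i) := fun l a b => by
    have := Cs_S G P.uni (P.rt i) hu h0 (Submodule.smul_mem _ l
      ((P.frame_O hs hne hu h0 (r1 a (f.fl b))).2 1 (Cs_one G h3 (P.rt i) hu h0)))
    rw [mul_one, star_smul] at this
    change l • f.R _ a b + _ • star (f.R _ a b) ∈ _ at this
    rwa [(P.rt j).ad, smul_neg, ← sub_eq_add_neg] at this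
  by_cases hθ : ∃ θ : F, star θ ≠ θ
  · obtain ⟨θ, hθ⟩ := hθ
    refine ⟨(θ - star θ) • f.R (ρ i) u u, ⟨(P.fam.cm hij.symm _ _).smul _, fun a ha l hl => ?_⟩,
      not_cm (smul_ne_zero (sub_ne_zero.mpr hθ.symm) (R_ne hu hu)) hu fun v hv => by simp [R_zero hv _ h0]⟩
    have := (k θ a a).2 u h0 l hl
    rwa [← sub_smul, mul_smul_comm, (P.fam.cm hij.symm _ _).R, ← mul_smul_comm] at this
  have hst : ∀ c : F, star c = c := by simpa using hθ
  have h4 : 4 ≤ finrank F U := by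
    by_contra h4
    exact hθ (G.dim3 (by omega))
  obtain ⟨b, hb⟩ := exists_gp G h4 hu h0
  obtain ⟨y, h5, h6⟩ := f.exists_pair hb.ind
  have k2 : ∀ a, f a a = 0 → f.R (ρ i) a a ∈ Cs f M (ρ j) u := fun a ha => by
    have hc := P.fam.cm (f := f) hij.symm a a
    refine mem_Cs hc (Z := f.R (ρ i) a a * (f.R (ρ j) u b - f.R (ρ j) b u)) ⟨by simpa using Sg_im (k 1 u b) ha,
      fun v hv => by simp [R_zero hv _ h0, R_zero hv _ hb.ab], fun v hv => ?_⟩ (b := -y) (by simp [symm0 h5])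
      fun x => ?_
    · simpa [R_eq_zero hu hv] using hc.mem_Ln (R_mem u b v)
    · simp [mul_assoc, sub_mul, RR_mul, symm0 h5, symm1 h6, hc.R]
  obtain ⟨v, h7, h8⟩ := G.partner hu
  obtain ⟨z, hz, h9, h10⟩ := f.exists_perp_two h3 u v
  have := Cs_cd G h4 hst P.uni (P.rt j) hu h0 (k2 u h0) (k2 v h7)
  refine ⟨_, this, not_cm (fun e => ?_) hz fun w hw => by
    simp [(P.rt i).ad _ _, R_zero hw _ h9, R_zero hw _ h10]⟩
  have e1 := congrArg (· * f.R (ρ i) u u) e
  simp [(P.rt i).ad _ _, add_mul, mul_assoc, RR_mul, h0, h8, symm1 h8, R_ne hu hu] at e1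

theorem full3 (h3 : 3 ≤ finrank F U) {i : T} (hn : ¬ Good f M (ρ i)) {c : End F V} (hc : Cm (ρ i) c) :
    c + star c ∈ Sg f M (ρ i) := by
  have G := P.G
  obtain ⟨s, hs, hne⟩ := P.step1 hn
  obtain ⟨j, hj⟩ : ∃ j, ¬ Cm (ρ j) s := by
    by_contra! h
    obtain ⟨l, hl⟩ := P.fam.scal s h
    exact hne l hl
  have hij : i ≠ j := by rintro rfl; exact hj hs.1
  obtain ⟨u, hu, h0⟩ := G.exists_iso
  have := P.fam.mem_of (I := Oc (ρ i) (Cs f M (ρ i) u)) ⟨Cm.one, by simp⟩ Oc_mul (Finset.univ.erase i)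
    (fun k hk => by
      have hki : k ≠ i := by simpa using hk
      by_cases hkj : k = j
      · exact hkj ▸ P.frame_O hs hj hu h0
      obtain ⟨g, hg, e1, e2, -⟩ := P.perm i j k hij hki hkj
      obtain ⟨t, ht, h1⟩ := P.symm h3 (i := k) (j := i) ⟨_, e1 ▸ Sg_cf hg hs, fun h => hj (by
        have := h.cf g⁻¹
        rw [← e2, ← cf_mul, inv_mul_cancel, cf_one] at this
        simpa [mul_assoc] using this)⟩
      exact P.frame_O ht h1 hu h0) c fun l hl => by
      have : l = i := by simpa using hl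
      rwa [this]
  exact Cs_S G P.uni (P.rt i) hu h0 (by simpa using this.2 1 (Cs_one G h3 (P.rt i) hu h0))

theorem full2 (h2 : finrank F U = 2) {i : T} (hn : ¬ Good f M (ρ i)) {c : End F V} (hc : Cm (ρ i) c) :
    c + star c ∈ Sg f M (ρ i) := by
  have G := P.G
  obtain ⟨hal, hst, h20, -⟩ := G.dim2 h2
  obtain ⟨s, hs, hne⟩ := P.step1 hn
  obtain ⟨j, hj, k, hk, hjk, h1⟩ := Jnv.pair G h2 P.fam (fun l => (P.rt l).ad) (S := Finset.univ.erase i)
    (I := Sm hst f M (ρ i)) ⟨fun s hs hss t ht => Sg_jor G h20 hs hss ht, fun z hz => Sg_sa G P.uni (P.rt i) hz,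
      P.iv_S i, fun l hl z hz => by
        have : l = i := by simpa using hl
        exact this ▸ hz.1⟩ hs hne
  set S := Sm hst f M (ρ i) with hS
  let R : T → T → Prop := fun j k => ∀ a b, f.R (ρ j) a a * f.R (ρ k) b b ∈ S
  have sy : ∀ j k, j ≠ k → R j k → R k j := fun j k h h1 a b => by rw [(P.fam.cm h _ _).R]; exact h1 b a
  have mv : ∀ j k k', j ≠ k → j ≠ i → k ≠ i → k' ≠ i → k' ≠ j → R j k → R j k' := fun j k k' e1 e2 e3 e4 e5 h1 => by
    by_cases e6 : k' = k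
    · exact e6 ▸ h1
    obtain ⟨g, hg, g1, g2, g3⟩ := P.perm j k k' e1 e5 e6
    refine sy _ _ e5 fun a b => ?_
    have := Sg_cf hg (h1 a b)
    rw [g3 i e2.symm e3.symm e4.symm] at this
    have e : f.R (cf g (ρ j)) a a * f.R (cf g (ρ k)) b b = g * (f.R (ρ j) a a * f.R (ρ k) b b) * ↑g⁻¹ := by
      simp [R_cf, mul_assoc]
    rwa [← e, g1, g2] at this
  have hj' : j ≠ i := by simpa using hj
  have hk' : k ≠ i := by simpa using hk
  have all : ∀ j' k', j' ≠ i → k' ≠ i → j' ≠ k' → R j' k' := fun j' k' e1 e2 e3 => by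
    by_cases e4 : j' = j
    · subst e4; exact mv _ _ _ hjk hj' hk' e2 e3.symm h1
    · exact mv _ _ _ e4 e1 hj' e2 e3.symm (sy _ _ (Ne.symm e4) (mv _ _ _ hjk hj' hk' e1 e4 h1))
  let X : Finset T → Submodule F (End F V) := fun A =>
    { carrier := {c | c + star c ∈ S ∧ ∀ l, l ∉ A → l ≠ i → ∀ a, f.R (ρ l) a a * (c - star c) ∈ S}
      zero_mem' := by simp
      add_mem' := fun ha hb => ⟨by convert S.add_mem ha.1 hb.1 using 1; rw [star_add]; abel, fun l h1 h2 a => by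
        convert S.add_mem (ha.2 l h1 h2 a) (hb.2 l h1 h2 a) using 1; simp only [star_add, mul_sub, mul_add]; abel⟩
      smul_mem' := fun t c hc => ⟨by simpa [hst] using S.smul_mem t hc.1, fun l h1 h2 a => by
        simpa [hst, smul_sub, mul_sub] using S.smul_mem t (hc.2 l h1 h2 a)⟩ }
  have key : ∀ A : Finset T, i ∉ A → ∀ c, (∀ l, l ∉ A → Cm (ρ l) c) → c ∈ X A := by
    intro A
    induction A using Finset.induction_on with
    | empty =>
      intro _ c hc
      obtain ⟨t, rfl⟩ := P.fam.scal c fun l => hc l (by simp)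
      exact Submodule.smul_mem _ _ ⟨S.add_mem (Sg_one (P.rt i)) (by rw [star_one]; exact Sg_one (P.rt i)), by simp⟩
    | insert l A hl ih =>
      intro hi c hc
      have hli : l ≠ i := fun e => hi (by simp [e])
      have k0 : ∀ d, (∀ k, k ∉ A → Cm (ρ k) d) → ∀ a b, f.R (ρ l) a b * d ∈ X (insert l A) := fun d hd => by
        have h3 := ih (fun e => hi (by simp [e])) d hd
        have hdl := hd l hl
        have k1 : d ∈ X (insert l A) := ⟨h3.1, fun k hk => h3.2 k fun e => hk (by simp [e])⟩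
        have k2 : ∀ a, f.R (ρ l) a a * d ∈ X (insert l A) := fun a => ⟨by
          rw [(P.rt l).ad.mul hdl, ← sub_eq_add_neg, ← mul_sub]; exact h3.2 l hl hli a, fun k hk hki b => by
          have hkl : k ≠ l := fun e => hk (by simp [e])
          have hdk := hd k fun e => hk (by simp [e])
          have m1 := hdl.add ((P.rt l).ad.cm hdl)
          have m2 := hdk.add ((P.rt k).ad.cm hdk)
          have := S.smul_mem (2 : F)⁻¹ (Sg_jor G h20 (all k l hki hli hkl b a) (by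
            rw [mul_assoc, (P.fam.cm hkl _ _).R', RR_mul', hal, zero_smul]) h3.1)
          rw [m2.R', m1.R, mul_assoc, ← two_smul F, smul_smul, inv_mul_cancel₀ h20, one_smul] at this
          rwa [(P.rt l).ad.mul hdl, sub_neg_eq_add, ← mul_add]⟩
        intro a b
        have := (X _).smul_mem (2 : F)⁻¹ ((X _).add_mem ((X _).sub_mem ((X _).sub_mem (k2 (a + b)) (k2 a)) (k2 b))
          ((X _).smul_mem (f a b) k1))
        convert this using 1
        have e := congrArg (· * d) (R_two G h2 (ρ l) a b)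
        simp only [sub_mul, smul_mul_assoc, one_mul] at e
        rw [eq_inv_smul_iff₀ h20, ← e]
        simp only [R_add_left, R_add_right, add_mul, two_smul]; abel
      rw [eq_sum_blk (ρ l) c]
      refine Submodule.sum_mem _ fun a _ => Submodule.sum_mem _ fun b _ => ?_
      obtain ⟨y, hy⟩ := f.surj ((bs F U).coord b)
      rw [← hy]
      refine k0 _ (fun k hk => ?_) _ _
      by_cases hkl : k = l
      · rw [hkl]; exact cm_blk _ _ _
      · exact fun y => blk_comm (P.fam.comm l k (Ne.symm hkl) y) (hc k (by simp [hkl, hk]) y) _ _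
  refine (key (Finset.univ.erase i) (by simp) c fun l hl => ?_).1
  have : l = i := by simpa using hl
  rwa [this]

/-- the dichotomy -/
theorem dich : (∀ g ∈ M, Nm ρ (g : End F V)) ∨ ∃ i, ∀ u, u ≠ 0 → f u u = 0 → ∀ Z : End F V,
    (∀ v, Z v ∈ Ln (ρ i) u) → (∀ v, f.R (ρ i) u u v = 0 → Z v = 0) → IM M (1 + (Z - star Z)) := by
  by_cases hgood : ∀ i, Good f M (ρ i)
  · refine Or.inl fun g hg => ?_
    have h := fun i j => rel_of_good P.G P.uni (hgood j) ((hgood i).cf P.uni hg)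
    have : ∀ i, ∃ j, Same (ρ j) (cf g (ρ i)) := by
      intro i
      by_contra! hcon
      refine P.G.not_comm_self (ρ := cf g (ρ i)) fun x y => ?_
      obtain ⟨s, hs⟩ := P.fam.scal (cf g (ρ i) x) fun j => (h i j).resolve_left (hcon j) x
      rw [hs]; simp
    choose π hπ using this
    have hi : Function.Injective π := by
      intro i i' e
      by_contra hne
      exact P.G.not_comm ((hπ i).symm.trans (e ▸ hπ i')) ((P.fam.comm i i' hne).cf g)
    refine ⟨Equiv.ofBijective π (Finite.injective_iff_bijective.mp hi), fun i x => ?_⟩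
    obtain ⟨k, hk⟩ := hπ i
    exact ⟨_, by rw [Equiv.ofBijective_apply, ← hk, cf_apply, Units.inv_mul_cancel_right]⟩
  push Not at hgood
  obtain ⟨i, hi⟩ := hgood
  refine Or.inr ⟨i, fun u hu h0 Z h1 h2 => ?_⟩
  obtain ⟨c, hc, rfl⟩ := exists_cm hu h1 h2
  rw [(P.rt i).ad.mul hc, sub_neg_eq_add, ← mul_add]
  refine Sg_im ?_ h0
  rcases Nat.eq_or_lt_of_le P.G.two with h | h
  · exact P.full2 h.symm hi hc
  · exact P.full3 h hi hc

end Sys

end Cfsg.Agent.H1.TF
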