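import Cfsg.Agent.H1.TF11
import Cfsg.Agent.H5.U.Gen

set_option autoImplicit false
set_option linter.unusedSectionVars false

/-! The geometric hypotheses for symplectic and unitary spaces. -/

namespace Cfsg.Agent.H1.TF

open Module TW SF H5.U

variable {F : Type*} [Field F] [StarRing F] {U : Type*} [AddCommGroup U] [Module F U] [FiniteDimensional F U]

theorem exists_ne₂ {W : Type*} [AddCommGroup W] [Module F W] (S : Submodule F W) (φ ψ : Dual F W) {x y : W}
    (hx : x ∈ S) (hy : y ∈ S) (h1 : φ x ≠ 0) (h2 : ψ y ≠ 0) : ∃ v ∈ S, φ v ≠ 0 ∧ ψ v ≠ 0 := by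
  by_cases h3 : ψ x = 0
  · by_cases h4 : φ y = 0
    · exact ⟨x + y, S.add_mem hx hy, by simpa [h4], by simpa [h3]⟩
    · exact ⟨y, hy, h4, h2⟩
  · exact ⟨x, hx, h1, h3⟩

theorem gen_N (f : SF F U) {u : U} (h0 : f u u = 0) {c : F} (hc : star c = c) : 1 + c • r1 u (f.fl u) ∈ f.Gen :=
  Submonoid.subset_closure ⟨u, 0, c, h0, by simp, by simp [hc], by simp [f.fl_zero]⟩

theorem geo_of_alt [Finite F] {f : SF F U} (hal : ∀ b, f b b = 0) (hst : ∀ c : F, star c = c)
    (h2 : 2 ≤ finrank F U) (hd2 : finrank F U = 2 → (2 : F) ≠ 0 ∧ 4 ≤ Nat.card F)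
    (hd4 : finrank F U = 4 → (2 : F) ≠ 0) : f.Geo := by
  have h3 : finrank F U ≠ 3 := by
    intro h3
    obtain ⟨a, ha⟩ : ∃ x : U, x ≠ 0 := (finrank_pos_iff_exists_ne_zero (R := F)).mp (by omega)
    obtain ⟨b, hb⟩ := f.exists_left ha
    obtain ⟨z, hz, h4, h5⟩ := f.exists_perp_two h3.ge a b
    obtain ⟨x, hx⟩ := f.exists_left hz
    have : LinearIndependent F ![a, b, z, x] := by
      rw [Fintype.linearIndependent_iff]
      intro g hg
      simp only [Fin.sum_univ_four, Matrix.cons_val_zero, Matrix.cons_val_one, Matrix.cons_val] at hg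
      have e1 : g 3 = 0 := by simpa [hal, hx, symm0 h4, symm0 h5] using congrArg (f.fl z) hg
      have e2 : g 1 = 0 := by simpa [hal, hb, h4, e1] using congrArg (f.fl a) hg
      have e3 : g 0 = 0 := by simpa [hal, symm1 hb, h5, e1] using congrArg (f.fl b) hg
      have e4 : g 2 = 0 := by simpa [e1, e2, e3, hz] using hg
      intro i; fin_cases i <;> assumption
    have := this.fintype_card_le_finrank
    simp at this; omega
  refine ⟨h2, fun x y hx hy => ?_, fun _ u x y _ _ _ _ hx hy => ?_, fun b => ⟨0, by simp [hal]⟩,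
    fun c hc => ?_, Or.inl ⟨hal, hst⟩, fun h u hu h0 => ?_, fun h => ?_,
    fun h => ⟨hal, hst, hd2 h⟩, fun h => absurd h h3, fun h _ => hd4 h⟩
  · obtain ⟨a, ha⟩ := f.exists_left hx
    obtain ⟨b, hb⟩ := f.exists_left hy
    obtain ⟨v, -, h⟩ := exists_ne₂ ⊤ (f.fl x) (f.fl y) (x := a) (y := b) trivial trivial (by simp [ha]) (by simp [hb])
    exact ⟨v, hal v, h⟩
  · obtain ⟨a, ha, ha'⟩ := f.exists_pair hx
    obtain ⟨b, hb, hb'⟩ := f.exists_pair hy
    obtain ⟨v, h1, h⟩ := exists_ne₂ (LinearMap.ker (f.fl u)) (f.fl x) (f.fl y) (x := a) (y := b) (symm0 ha) (symm0 hb)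
      (by simp [symm1 ha']) (by simp [symm1 hb'])
    exact ⟨v, hal v, h1, h⟩
  · obtain ⟨l, m, h4, h5, rfl⟩ := sq_diff hc
    exact ⟨l, m, by rw [h4, h5]⟩
  · obtain ⟨α, hα, hα1⟩ := exists_sq_ne (hd2 (by omega)).2
    obtain ⟨v, hv⟩ := f.exists_left hu
    have sk : ∀ x y, f x y = -f y x := fun x y => by rw [← f.skew, hst]
    have e : ∀ x, ((1 + α • r1 u (f.fl u)) * (1 + α⁻¹ • r1 v (f.fl v)) * (1 + α • r1 u (f.fl u)) *
        ((1 + (-1 : F) • r1 u (f.fl u)) * (1 + (-1 : F) • r1 v (f.fl v)) * (1 + (-1 : F) • r1 u (f.fl u))) : End F U) x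
        = x - ((α - 1) * f x v) • u + ((α⁻¹ - 1) * f x u) • v := fun x => by
      simp [hal, hv, symm1 hv]
      match_scalars <;> field_simp <;> ring
    refine ⟨_, α, 0, α⁻¹, mul_mem (mul_mem (mul_mem (gen_N f h0 (hst α)) (gen_N f (hal v) (hst α⁻¹)))
      (gen_N f h0 (hst α))) (mul_mem (mul_mem (gen_N f h0 (hst (-1))) (gen_N f (hal v) (hst (-1))))
      (gen_N f h0 (hst (-1)))), ?_, fun x hx => ?_, fun x => ?_, hα, fun e => hα1 ?_, (inv_ne_zero hα).symm⟩
    · rw [e]; simp [h0, symm1 hv, sub_smul]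
    · obtain ⟨c, rfl⟩ := f.perp_two (by omega) hu h0 hx
      exact ⟨c * α, by rw [e]; simp [h0, symm1 hv]; module⟩
    · rw [e]; simp [h0, hv]; ring
    · nth_rw 2 [e]; exact mul_inv_cancel₀ hα
  · obtain ⟨α, hα, hα1⟩ := exists_sq_ne (hd2 (by omega)).2
    exact ⟨α, hst α, hα, by rintro rfl; simp at hα1⟩

variable [NStar F] [Finite F]

/-- the skew-hermitian form of a hermitian form -/
noncomputable def sfH (h : HF F U) : SF F U where
  fl b := del F • h.lin b
  fl_add a b := by ext x; simp [mul_add]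
  fl_smul c a := by ext x; simp [mul_left_comm]
  skew' a b := by simp
  surj φ := by
    obtain ⟨v, hv⟩ := h.riesz φ
    exact ⟨star (del F)⁻¹ • v, by ext x; simp [hv, del_ne]⟩

@[simp] theorem sfH_apply (h : HF F U) (a b : U) : sfH h a b = del F * h a b := rfl

theorem gen_SU (h : HF F U) {g : U ≃ₗ[F] U} (hg : g ∈ h.SU) : (g : End F U) ∈ (sfH h).Gen := by
  let M : Subgroup (U ≃ₗ[F] U) :=
    { carrier := {g | (g : End F U) ∈ (sfH h).Gen ∧ ((g⁻¹ : U ≃ₗ[F] U) : End F U) ∈ (sfH h).Gen}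
      one_mem' := ⟨one_mem _, one_mem _⟩
      mul_mem' := fun ha hb => ⟨mul_mem ha.1 hb.1, by rw [mul_inv_rev]; exact mul_mem hb.2 ha.2⟩
      inv_mem' := fun ha => ⟨ha.2, ha.1⟩ }
  have k : ∀ e w c, h.Ok e w c → (h.E e w c : End F U) ∈ (sfH h).Gen := fun e w c o => by
    have := del_ne (F := F)
    refine Submonoid.subset_closure ⟨e, (del F)⁻¹ • w, -c / del F, by simp [o.ee], by simp [o.we], ?_, ?_⟩
    · simp [o.star_eq]; field_simp; ring
    · ext x
      simp [HF.E_apply o]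
      match_scalars <;> field_simp <;> ring
  exact (HF.SUW_le_of_QIn (M := M) HF.ndOn_top (fun e _ w _ c o => ⟨k e w c o, HF.E_inv o ▸ k _ _ _ o.neg⟩)
    (HF.SUW_top (h := h) ▸ hg)).1

theorem geo_of_herm (h : HF F U) (h3 : 3 ≤ finrank F U)
    (hs : finrank F U = 3 → ∃ l : F, star l = l ∧ l ≠ 0 ∧ l ≠ 1) : (sfH h).Geo := by
  have hθ : ∃ θ : F, star θ ≠ θ := NStar.exists_ne
  have hd := del_ne (F := F)
  refine ⟨by omega, fun x y hx hy => ?_, fun h4 u x y hu h0 h1 h2 hx hy => ?_, fun b => ?_, fun c hc => ?_,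
    Or.inr hθ, fun h5 u hu h0 => ?_, fun h5 => hs (by omega), fun h5 => by omega, fun _ => hθ,
    fun _ h5 => absurd (h5 _) hθ.choose_spec⟩
  · obtain ⟨v, -, h4⟩ := (HF.ndOn_top (h := h)).exists_iso_ne₂' (by simp; omega) trivial hx trivial hy
    exact ⟨v, by simpa [hd] using h4⟩
  · simp only [sfH_apply, mul_eq_zero, hd, false_or] at h0 h1 h2
    obtain ⟨v, h5, h6⟩ := HF.exists_partner_top hu h0
    have h7 := HF.finrank_inf_pv₂ (h := h) ⊤ u v
    obtain ⟨b, hb, h8, h9, h10⟩ := (HF.ndOn_top.inf_pv₂ trivial trivial h0 h5 h6).exists_iso_ne₂'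
      (by simp only [finrank_top] at h7; omega) (x := x - h x v • u) (y := y - h y v • u)
      (by simp [h0, h1, h6]) (sub_ne_zero.mpr (hx _)) (by simp [h0, h2, h6]) (sub_ne_zero.mpr (hy _))
    have h11 : h b u = 0 := hb.1.2
    exact ⟨b, by simp [h8], by simp [h11], by simpa [h11, hd] using h9, by simpa [h11, hd] using h10⟩
  · obtain ⟨a, ha⟩ := exists_tr_one F
    exact ⟨sfH h b b * a, by simp; linear_combination del F * h b b * ha⟩
  · obtain ⟨l, m, h4, h5, rfl⟩ := sq_diff hc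
    exact ⟨l, m, by rw [h4, h5]⟩
  · simp only [sfH_apply, mul_eq_zero, hd, false_or] at h0
    obtain ⟨l, h6, h7, h8⟩ := hs (by omega)
    obtain ⟨m, hm, rfl⟩ := exists_norm' h6 h7
    have hm' := star_ne_zero' hm
    obtain ⟨v, h9, h10⟩ := HF.exists_partner_top hu h0
    have h11 := HF.finrank_inf_hyp (h := h) (W := ⊤) trivial trivial h0 h10
    have h12 : finrank F ↥(⊤ ⊓ h.pv u ⊓ h.pv v) = 1 := by simp only [finrank_top] at h11; omega
    obtain ⟨z, hz, h13⟩ := (HF.ndOn_top.inf_pv₂ trivial trivial h0 h9 h10).exists_unit (fun e => by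
      rw [e, finrank_bot] at h12; omega)
    have z1 : h z u = 0 := hz.1.2
    have z2 : h z v = 0 := hz.2
    have h14 := HF.mul_R_mem_SU (HF.D_mem_GU h0 h9 h10 hm) (z := z) (by simp [h13])
    have h15 : star (m * (star m)⁻¹) * star (star (m * (star m)⁻¹)) = 1 := by simp; field_simp
    rw [HF.det_D h0 h9 h10 hm] at h14
    have e : ∀ x, (h.D u v m * h.R z (star (m * (star m)⁻¹))) x = x + ((m - 1) * h x v) • u +
        (((star m)⁻¹ - 1) * h x u) • v + ((star m / m - 1) * h x z) • z := fun x => by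
      rw [H5.U.mul_app, HF.R_apply1 h13 h15, HF.D_apply h0 h9 h10 hm]
      simp [z1, z2, div_eq_mul_inv]; abel
    have ne : m * m ≠ star m := fun e => h8 (by
      have := congrArg star e
      rw [star_mul', star_star] at this
      have h16 : m * (m * star m - 1) = 0 := by linear_combination this + star m * e
      exact sub_eq_zero.mp ((mul_eq_zero.mp h16).resolve_left hm))
    refine ⟨_, m, star m / m, (star m)⁻¹, gen_SU h h14, ?_, fun x hx => ?_, fun x => ?_, fun e => ne ?_,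
      fun e => h8 ?_, fun e => ne ?_⟩
    · rw [LinearEquiv.coe_coe, e]; simp [h0, h10, HF.symm0 z1, sub_smul]
    · simp only [sfH_apply, mul_eq_zero, hd, false_or] at hx
      obtain ⟨c, hc⟩ := (finrank_eq_one_iff_of_nonzero' (⟨z, hz⟩ : ↥(⊤ ⊓ h.pv u ⊓ h.pv v)) (by
        intro e; simp [show z = 0 from congrArg Subtype.val e] at h13)).mp h12
        ⟨x - h x v • u, by simp [h0, hx, h10]⟩
      have hc' : x = c • z + h x v • u := eq_add_of_sub_eq (congrArg Subtype.val hc).symm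
      generalize h x v = s at hc'
      subst hc'
      refine ⟨(m - star m / m) * s, ?_⟩
      rw [LinearEquiv.coe_coe, e]; simp [h0, h10, HF.symm0 z1, z1, z2, h13]; module
    · rw [LinearEquiv.coe_coe, e]; simp [h0, HF.symm1 h10, z1]; ring
    · field_simp at e; linear_combination e
    · field_simp at e; exact e
    · field_simp at e
      have := congrArg star e
      simpa [sq] using this

end Cfsg.Agent.H1.TF
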