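import Cfsg.Agent.H1.TF12

set_option autoImplicit false
set_option linter.unusedSectionVars false

/-! Forms on the big space, the adjoint, and the reduction to the long root elements. -/

namespace Cfsg.Agent.H1.TF

open Module TW SF

/-- a non-degenerate `ε`-hermitian form -/
structure EF (F V : Type*) [Field F] [StarRing F] [AddCommGroup V] [Module F V] where
  fl : V → Dual F V
  fl_add : ∀ a b, fl (a + b) = fl a + fl b
  fl_smul : ∀ (c : F) a, fl (c • a) = star c • fl a
  eps : F
  eps_ne : eps ≠ 0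
  sym' : ∀ a b, star (fl b a) = eps * fl a b
  surj : Function.Surjective fl

variable {F : Type*} [Field F] [StarRing F] {U V : Type*} [AddCommGroup U] [Module F U]
  [AddCommGroup V] [Module F V] [FiniteDimensional F U] [FiniteDimensional F V]

namespace EF

def form (h : EF F V) (a b : V) : F := h.fl b a

instance instCoeFunEF : CoeFun (EF F V) (fun _ => V → V → F) := ⟨EF.form⟩

variable (h : EF F V)

@[simp] theorem fl_apply (a b : V) : h.fl b a = h a b := rfl
theorem sym (a b : V) : star (h a b) = h.eps * h b a := h.sym' a b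
@[simp] theorem add_left (a b c : V) : h (a + b) c = h a c + h b c := map_add (h.fl c) a b
@[simp] theorem sub_left (a b c : V) : h (a - b) c = h a c - h b c := map_sub (h.fl c) a b
@[simp] theorem neg_left (a c : V) : h (-a) c = -h a c := map_neg (h.fl c) a
@[simp] theorem zero_left (c : V) : h 0 c = 0 := map_zero (h.fl c)
@[simp] theorem smul_left (s : F) (a c : V) : h (s • a) c = s * h a c := map_smul (h.fl c) s a
@[simp] theorem add_right (a b c : V) : h c (a + b) = h c a + h c b := by
  rw [form, h.fl_add]; rfl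
@[simp] theorem smul_right (s : F) (a c : V) : h c (s • a) = star s * h c a := by
  rw [form, h.fl_smul]; rfl
@[simp] theorem zero_right (c : V) : h c 0 = 0 := by simpa using h.smul_right 0 0 c
@[simp] theorem neg_right (a c : V) : h c (-a) = -h c a := by simpa using h.smul_right (-1) a c
@[simp] theorem sub_right (a b c : V) : h c (a - b) = h c a - h c b := by
  rw [sub_eq_add_neg, add_right, neg_right, sub_eq_add_neg]

variable {h}

theorem symm0 {a b : V} (e : h a b = 0) : h b a = 0 := by
  have := h.sym a b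
  rw [e, star_zero] at this
  exact (mul_eq_zero.mp this.symm).resolve_left h.eps_ne

theorem nd_left {a : V} (e : ∀ b, h a b = 0) : a = 0 := by
  by_contra ha
  obtain ⟨φ, hφ⟩ := H6.exists_dual_one' (F := F) ha
  obtain ⟨w, rfl⟩ := h.surj φ
  exact zero_ne_one ((e w).symm.trans hφ)

theorem nd_right {a : V} (e : ∀ b, h b a = 0) : a = 0 := nd_left fun b => symm0 (e b)

theorem ext_right {a a' : V} (e : ∀ b, h b a = h b a') : a = a' :=
  sub_eq_zero.mp (nd_right (h := h) fun b => by simp [e b])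

variable (h)

theorem exists_adj (z : End F V) : ∃ w : End F V, ∀ x y, h (z x) y = h x (w y) := by
  choose w hw using fun y => h.surj (h.fl y ∘ₗ z)
  have e : ∀ x y, h x (w y) = h (z x) y := fun x y => congrArg (fun φ : Dual F V => φ x) (hw y)
  exact ⟨⟨⟨w, fun a b => ext_right (h := h) fun x => by simp [e]⟩,
    fun c a => ext_right (h := h) fun x => by simp [e]⟩, fun x y => (e x y).symm⟩

theorem exists_star : ∃ _ : StarRing (End F V), StarModule F (End F V) ∧
    ∀ (z : End F V) x y, h (z x) y = h x (star z y) := by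
  choose w hw using h.exists_adj
  have hw' : ∀ z x y, h (w z x) y = h x (z y) := fun z x y => star_injective (by
    rw [h.sym, h.sym, hw])
  letI : StarRing (End F V) :=
    { star := w
      star_involutive := fun z => LinearMap.ext fun y => ext_right (h := h) fun x => by rw [← hw, hw']
      star_mul := fun z z' => LinearMap.ext fun y => ext_right (h := h) fun x => by
        rw [← hw, End.mul_apply, End.mul_apply, hw, hw]
      star_add := fun z z' => LinearMap.ext fun y => ext_right (h := h) fun x => by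
        rw [← hw]; simp [hw] }
  refine ⟨this, ⟨fun c z => LinearMap.ext fun y => ext_right (h := h) fun x => ?_⟩, hw⟩
  change h x (w _ y) = h x (star c • w z y)
  rw [← hw]; simp [hw]

end EF

variable {f : SF F U} {T : Type*} [Fintype T] [DecidableEq T] {ρ : T → Fr F U V}

theorem nm_rho (P : Fam ρ) (j : T) {k k' : End F U} (hk : k' * k = 1) : Nm ρ (ρ j k) := by
  refine ⟨1, fun i x => ?_⟩
  by_cases hij : i = j
  · subst hij
    exact ⟨k * x * k', by rw [Equiv.Perm.one_apply, ← map_mul, ← map_mul, mul_assoc, hk, mul_one]⟩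
  · exact ⟨x, P.comm i j hij _ x⟩

theorem Ee_cube {σ : Fr F U V} {u b : U} (c : F) (h0 : f u u = 0) (hb : f b u = 0) :
    Ee f σ u b c * Ee f σ u b c * Ee f σ u b c = 0 := by
  simp [Ee, add_mul, mul_add, RR_mul, h0, hb, symm0 hb]

theorem inv_of_cube {A : Type*} [Ring A] {E : A} (h : E * E * E = 0) :
    (1 - E + E * E) * (1 + E) = 1 ∧ (1 + E) * (1 - E + E * E) = 1 := by
  constructor
  · simp only [add_mul, mul_add, sub_mul, one_mul, mul_one, h]; abel
  · simp only [add_mul, mul_add, mul_sub, one_mul, mul_one, ← mul_assoc, h]; abel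

/-- compatibility of a frame with the forms -/
def AdF (h : EF F V) (f : SF F U) (σ : Fr F U V) : Prop :=
  ∀ a b x y, h (f.R σ a b x) y = -h x (f.R σ b a y)

/-- the long root elements attached to the lines of the frame lie in `M` -/
def Tau (h : EF F V) (f : SF F U) (σ : Fr F U V) (M : Subgroup (V ≃ₗ[F] V)) : Prop :=
  ∀ u, u ≠ 0 → f u u = 0 → ∀ y ∈ Ln σ u, ∀ y' ∈ Ln σ u,
    ∃ g ∈ M, ∀ x, g x = x + h x y' • y - star (h y x) • y'

theorem AdF.perp {h : EF F V} {σ : Fr F U V} (A : AdF h f σ) {u : U} (hu : u ≠ 0) {v y : V}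
    (hv : f.R σ u u v = 0) (hy : y ∈ Ln σ u) : h v y = 0 := by
  obtain ⟨w, hw⟩ := f.exists_right hu
  rw [← R_one hy hw, ← neg_eq_zero, ← A, R_eq_zero hu hv, h.zero_left]

theorem core [Finite F] [Nontrivial V] (h : EF F V) (G : f.Geo) (P : Fam ρ) (had : ∀ i, AdF h f (ρ i))
    {K : Subgroup (V ≃ₗ[F] V)} (hK : ∀ g ∈ K, ∀ x y, h (g x) (g y) = h x y)
    (hroot : ∀ i u b c, f u u = 0 → f b u = 0 → c - star c = f b b → ∀ g : V ≃ₗ[F] V,
      (g : End F V) = 1 + Ee f (ρ i) u b c → g ∈ K)
    (s : T → T → V ≃ₗ[F] V)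
    (hs : ∀ a b k x, (s a b : End F V) * ρ k x = ρ (Equiv.swap a b k) x * (s a b : End F V))
    (hs2 : ∀ a b c d, s a b * s c d * (s a b * s c d) ∈ K)
    {M : Subgroup (V ≃ₗ[F] V)} (hMK : M ≤ K) (hM : ∀ g ∈ K, Nm ρ (g : End F V) → g ∈ M)
    (hex : ∃ g ∈ M, ¬ Nm ρ (g : End F V)) : ∃ i, Tau h f (ρ i) M := by
  obtain ⟨_, _, ad⟩ := h.exists_star
  let Φ := LinearMap.GeneralLinearGroup.generalLinearEquiv F V
  let M' : Subgroup (End F V)ˣ := M.comap Φ.toMonoidHom
  have hΦ : ∀ g : (End F V)ˣ, (Φ g : End F V) = (g : End F V) := fun g => rfl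
  have had' : ∀ i, Ad f (ρ i) := fun i a b => LinearMap.ext fun y => EF.ext_right (h := h) fun x => by
    rw [← ad, had i]; simp
  have S : Sys f M' ρ := by
    refine ⟨G, fun g hg => LinearMap.ext fun y => EF.ext_right (h := h) fun x => ?_, P,
      fun i => ⟨had' i, fun u b c h0 hb hc => ?_⟩, fun i j k h1 h2 h4 => ?_⟩
    · rw [← ad, ← hK _ (hMK hg) x]
      exact congrArg _ (app_inv g y).symm
    · obtain ⟨e1, e2⟩ := inv_of_cube (Ee_cube (σ := ρ i) c h0 hb)
      refine ⟨⟨_, _, e2, e1⟩, hM _ (hroot i u b c h0 hb hc _ rfl) ?_, rfl⟩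
      change Nm ρ (1 + Ee f (ρ i) u b c)
      rw [Ee_eq] at e1 ⊢
      rw [← map_one (ρ i), ← map_add]
      exact nm_rho P i (rho_injective (ρ := ρ i) (by
        rwa [← map_one (ρ i), ← map_mul, ← map_add, ← map_sub, ← map_add, ← map_mul] at e1))
    · obtain ⟨g, hg⟩ := Φ.surjective (s i k * s i j * (s i k * s i j))
      have e : ∀ l x, (g : End F V) * ρ l x =
          ρ ((Equiv.swap i k * Equiv.swap i j * (Equiv.swap i k * Equiv.swap i j)) l) x * g := fun l x => by
        rw [← hΦ, hg]
        simp only [LinearEquiv.coe_toLinearMap_mul, Equiv.Perm.mul_apply, mul_assoc, hs]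
        simp only [← mul_assoc, hs]
      have e' : ∀ l, cf g (ρ l) =
          ρ ((Equiv.swap i k * Equiv.swap i j * (Equiv.swap i k * Equiv.swap i j)) l) := fun l => by
        ext x : 1
        rw [cf_apply, e, Units.mul_inv_cancel_right]
      refine ⟨g, hM _ (hg ▸ hs2 _ _ _ _) ⟨_, fun l x => ⟨x, e l x⟩⟩, ?_, ?_, fun l h5 h6 h7 => ?_⟩
      · rw [e']; simp [Equiv.swap_apply_def, h1, h1.symm, h2, h2.symm, h4, h4.symm]
      · rw [e']; simp [Equiv.swap_apply_def, h1, h1.symm, h2, h2.symm, h4, h4.symm]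
      · rw [e']; simp [Equiv.swap_apply_def, h5, h6, h7]
  rcases S.dich with h1 | ⟨i, h1⟩
  · obtain ⟨g, hg, hn⟩ := hex
    obtain ⟨g, rfl⟩ := Φ.surjective g
    exact absurd (h1 g hg) hn
  refine ⟨i, fun u hu h0 y hy y' hy' => ?_⟩
  obtain ⟨g, hg, e⟩ := h1 u hu h0 (r1 y (h.fl y')) (fun v => Submodule.smul_mem _ _ hy)
    (fun v hv => by simp [(had i).perp hu hv hy'])
  refine ⟨Φ g, hg, fun x => ?_⟩
  have e2 : star (r1 y (h.fl y')) x = star (h y x) • y' := EF.ext_right (h := h) fun w => by
    rw [← ad]; simp [mul_comm]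
  change (g : End F V) x = _
  rw [e, ← e2]; simp [add_sub_assoc]

end Cfsg.Agent.H1.TF
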