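import Cfsg.Agent.H1.TF13
import Cfsg.Agent.H9.Sp.Root

set_option autoImplicit false
set_option linter.unusedSectionVars false

/-! From the long root elements of the lines of a frame to the whole group. -/

namespace Cfsg.Agent.H1.TF

open Module TW SF

variable {F : Type*} [Field F] [StarRing F] {U V : Type*} [AddCommGroup U] [Module F U]
  [AddCommGroup V] [Module F V] [FiniteDimensional F U] [FiniteDimensional F V] [Nontrivial V]
  {f : SF F U} {h : EF F V} {σ : Fr F U V} {M : Subgroup (V ≃ₗ[F] V)}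

/-- the vectors whose line lies in `S` -/
def LS (σ : Fr F U V) (S : Submodule F V) : Submodule F U where
  carrier := {b | ∀ φ v, σ (r1 b φ) v ∈ S}
  add_mem' := fun ha hb φ v => by
    rw [r1_add_left, map_add, LinearMap.add_apply]; exact S.add_mem (ha φ v) (hb φ v)
  zero_mem' := fun φ v => by simp
  smul_mem' := fun c a ha φ v => by
    rw [r1_smul_left, map_smul, LinearMap.smul_apply]; exact S.smul_mem c (ha φ v)

theorem mem_LS {S : Submodule F V} {b : U} (hb : Ln σ b ≤ S) : b ∈ LS σ S := fun _ _ => hb (r1_mem_Ln _ _ _)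

theorem mem_of_LS {S : Submodule F V} (hS : ∀ b, b ∈ LS σ S) (v : V) : v ∈ S := by
  rw [← sum_rho_apply σ v]
  exact S.sum_mem fun i _ => hS _ _ _

theorem AdF.perpL (A : AdF h f σ) {a b : U} (hb : b ≠ 0) (hab : f a b = 0) {x y : V} (hx : x ∈ Ln σ a)
    (hy : y ∈ Ln σ b) : h x y = 0 := A.perp hb (R_zero hx _ hab) hy

theorem AdF.proj (A : AdF h f σ) {a b : U} (hab : f a b ≠ 0) (z : V) :
    ∃ y ∈ Ln σ b, ∀ x ∈ Ln σ a, h x y = h x z :=
  ⟨star (-(f a b)⁻¹) • f.R σ b a z, Submodule.smul_mem _ _ (R_mem _ _ _), fun x hx => by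
    have := A a b x z
    rw [R_Ln hx, h.smul_left] at this
    rw [h.smul_right, star_star, ← neg_neg (h x (f.R σ b a z)), ← this]
    field_simp⟩

theorem AdF.pair (A : AdF h f σ) {a b : U} (hab : f a b ≠ 0) {y : V} (hy : y ∈ Ln σ a) (hy0 : y ≠ 0) :
    ∃ w ∈ Ln σ b, h w y = 1 := by
  obtain ⟨z, hz⟩ : ∃ z, h y z ≠ 0 := by
    by_contra! e
    exact hy0 (EF.nd_left e)
  obtain ⟨w, hw, e⟩ := A.proj hab z
  have : h w y ≠ 0 := fun e' => hz (by rw [← e y hy, EF.symm0 e'])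
  exact ⟨(h w y)⁻¹ • w, Submodule.smul_mem _ _ hw, by simp [this]⟩

theorem exists_L {S : Submodule F V} (hd : 3 ≤ finrank F S) (φ ψ : Dual F V) :
    ∃ w ∈ S, w ≠ 0 ∧ φ w = 0 ∧ ψ w = 0 := by
  obtain ⟨w, h0, h1, h2⟩ := exists_vec_two hd (φ ∘ₗ S.subtype) (ψ ∘ₗ S.subtype)
  exact ⟨w, w.2, fun e => h0 (Subtype.ext e), h1, h2⟩

theorem sp_of_tau {B : V →ₗ[F] V →ₗ[F] F} (hB : H9.Sp.Symp B) (hh : ∀ x y, h x y = B x y)
    (hst : ∀ c : F, star c = c) (h2 : (2 : F) ≠ 0) (G : f.Geo) (A : AdF h f σ) (hT : Tau h f σ M)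
    (hM : M ≤ H9.Sp.Sp B) : H9.Sp.Sp B ≤ M := by
  have hP : ∀ u, u ≠ 0 → f u u = 0 → ∀ p ∈ Ln σ u, H9.Sp.Full B M p := fun u hu h0 p hp c => by
    obtain ⟨g, hg, e⟩ := hT u hu h0 _ (Submodule.smul_mem _ (c / 2) hp) p hp
    refine ⟨g, hg, fun x => ?_⟩
    rw [e, hst, h.smul_left, hh, hh, hB.skew p x]
    match_scalars <;> field_simp <;> ring
  obtain ⟨u, hu, h0⟩ := G.exists_iso
  obtain ⟨e, he, he0⟩ := Ln_ne_bot (ρ := σ) hu
  refine H9.Sp.Sp_le hB hM (H9.Sp.full_of_conn hB hM ⟨-1, by simp, fun e => h2 (by linear_combination -e)⟩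
    {p | ∃ u, u ≠ 0 ∧ f u u = 0 ∧ p ∈ Ln σ u} (by rintro p ⟨u, h3, h4, h5⟩; exact hP u h3 h4 p h5)
    (eq_top_iff.mpr fun v _ => mem_of_LS (σ := σ) (G.span_iso hu fun b h3 h4 => mem_LS fun p hp =>
      Submodule.subset_span (by exact ⟨b, ne_left h4, h3, hp⟩)) v) (hP u hu h0 e he) ?_)
  rintro p ⟨b, h3, h4, h5⟩ hp
  obtain ⟨v, h6, h7, h8⟩ := G.iso2 u b hu h3
  obtain ⟨x, hx, e1⟩ := A.pair (symm_ne h7) he he0
  obtain ⟨y, hy, e2⟩ := A.pair (symm_ne h8) h5 hp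
  obtain ⟨w, hw, h9, h10⟩ := exists_ne₂ (Ln σ v) (h.fl e) (h.fl p) hx hy (by simp [e1]) (by simp [e2])
  exact ⟨w, hP v (ne_left h7) h6 w hw, hh w e ▸ h9, hh w p ▸ h10⟩

theorem fill (h1 : ∀ a b, star (h a b) = h b a) (G : f.Geo) (A : AdF h f σ) (hT : Tau h f σ M)
    (hM : ∀ g ∈ M, ∀ x y, h (g x) (g y) = h x y) {u : U} (hu : u ≠ 0) (h0 : f u u = 0)
    (hd : 3 ≤ finrank F (Ln σ u)) {e : V} (he : e ∈ Ln σ u) (he0 : e ≠ 0) (X : AddSubgroup V)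
    (hX1 : ∀ w ∈ Ln σ u, w ∈ X) (hX2 : ∀ g ∈ M, g e = e → ∀ w ∈ X, g w ∈ X) {w : V} (hw : h w e = 0) :
    w ∈ X := by
  let S : Submodule F V :=
    { carrier := {x | h x e = 0 ∧ ∀ c : F, c • x ∈ X}
      add_mem' := fun ha hb => ⟨by simp [ha.1, hb.1], fun c => by
        rw [smul_add]; exact X.add_mem (ha.2 c) (hb.2 c)⟩
      zero_mem' := ⟨by simp, fun c => by simp⟩
      smul_mem' := fun c x hx => ⟨by simp [hx.1], fun d => by rw [smul_smul]; exact hx.2 _⟩ }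
  have hd' : ∀ {a : U}, a ≠ 0 → 3 ≤ finrank F (Ln σ a) := fun ha => finrank_Ln_eq (ρ := σ) hu ha ▸ hd
  have mv : ∀ {g : V ≃ₗ[F] V}, g ∈ M → g e = e → ∀ {x y : V}, x ∈ S → h y e = 0 → g x = x + y → y ∈ S :=
    fun hg hge x y hx hy e => ⟨hy, fun c => by
      have := X.sub_mem (hX2 _ hg hge _ (hx.2 c)) (hx.2 c)
      rwa [map_smul, e, smul_add, add_sub_cancel_left] at this⟩
  have mv' : ∀ {b : U}, b ≠ 0 → f b b = 0 → ∀ {x y y' : V}, x ∈ S → y ∈ Ln σ b → y' ∈ Ln σ b → h y e = 0 →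
      h e y' = 0 → h y x = 0 → h x y' = 1 → y ∈ S := fun hb hbb x y y' hx hy hy' e1 e2 e3 e4 => by
    obtain ⟨g, hg, e⟩ := hT _ hb hbb y hy y' hy'
    exact mv hg (by simp [e, e1, e2]) hx e1 (by simp [e, e3, e4])
  have S0 : Ln σ u ≤ S := fun x hx => ⟨A.perpL hu h0 hx he, fun c => hX1 _ (Submodule.smul_mem _ _ hx)⟩
  have C1 : ∀ {v : U}, f v v = 0 → f v u ≠ 0 → ∀ {y : V}, y ∈ Ln σ v → h y e = 0 → y ∈ S := by
    intro v hv hvu y hy hye
    obtain ⟨ξ, hξ⟩ := H6.exists_dual_one' (F := F) he0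
    obtain ⟨x, hx, hx0, e1, e2⟩ := exists_L hd ξ (h.fl y)
    obtain ⟨φ, e3, e4⟩ := H6.exists_dual_pair (F := F) (u := e) (v := x) (by
      rintro c rfl
      simp only [map_smul, hξ, smul_eq_mul, mul_one] at e1
      simp [e1] at hx0)
    obtain ⟨z, rfl⟩ := h.surj φ
    obtain ⟨y', hy', e5⟩ := A.proj (symm_ne hvu) z
    exact mv' (ne_left hvu) hv (S0 hx) hy hy' hye ((e5 e he).trans e3) (EF.symm0 e2) ((e5 x hx).trans e4)
  have C2 : ∀ {b : U}, f b b = 0 → f b u = 0 → b ∈ LS σ S := by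
    intro b hb hbu
    by_cases hb0 : b = 0
    · rw [hb0]; exact zero_mem _
    refine mem_LS fun y hy => ?_
    obtain ⟨v, hv, e1, e2⟩ := G.iso2 u b hu hb0
    obtain ⟨x, hx, hx0, e3, e4⟩ := exists_L (hd' (ne_left e1)) (h.fl e) (h.fl y)
    obtain ⟨y', hy', e5⟩ := A.pair e2 hx hx0
    exact mv' hb0 hb (C1 hv e1 hx e3) hy hy' (A.perpL hu hbu hy he) (EF.symm0 (A.perpL hu hbu hy' he))
      (EF.symm0 e4) (by rw [← h1, e5, star_one])
  obtain ⟨v₀, hv₀, hv₀u⟩ := G.partner hu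
  have hv₀u' : f v₀ u ≠ 0 := by rw [hv₀u]; exact one_ne_zero
  obtain ⟨y₀, hy₀, hy₀e⟩ := A.pair (symm_ne hv₀u') he he0
  let N := S ⊔ Submodule.span F {y₀}
  have C0 : ∀ {v : U}, f v v = 0 → f v u ≠ 0 → ∀ {y : V}, y ∈ Ln σ v → h y e = 1 → y ∈ N → Ln σ v ≤ N := by
    intro v hv hvu y hy hye hyN x hx
    rw [← sub_add_cancel x (h x e • y)]
    exact N.add_mem (Submodule.mem_sup_left (C1 hv hvu (sub_mem hx (Submodule.smul_mem _ _ hy)) (by simp [hye])))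
      (N.smul_mem _ hyN)
  have N0 : Ln σ v₀ ≤ N := C0 hv₀ hv₀u' hy₀ hy₀e (Submodule.mem_sup_right (Submodule.mem_span_singleton_self _))
  have C2' : ∀ {x : U}, f (x - f x u • v₀) (x - f x u • v₀) = 0 → x ∈ LS σ N := fun {x} hx => by
    rw [← sub_add_cancel x (f x u • v₀)]
    exact add_mem (fun φ v => Submodule.mem_sup_left (C2 hx (by simp [hv₀u]) φ v))
      (Submodule.smul_mem _ _ (mem_LS N0))
  have hN : ∀ x, x ∈ LS σ N := by
    rcases G.type with ⟨hal, -⟩ | ⟨θ, hθ⟩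
    · exact fun x => C2' (hal _)
    refine G.span_iso hu fun v hv hvu => ?_
    by_cases hvv : f v v₀ = 0
    · exact C2' (by simp [hv, hv₀, hvv, symm0 hvv])
    have hc : star θ - θ ≠ 0 := sub_ne_zero.mpr hθ
    have T : ∀ {b : U}, b ≠ 0 → f b b = 0 → ∀ {y : V}, y ∈ Ln σ b →
        ∃ g ∈ M, ∀ x, g x = x + ((star θ - θ) * h x y) • y := fun hb hbb y hy => by
      obtain ⟨g, hg, e⟩ := hT _ hb hbb y hy _ (Submodule.smul_mem _ θ hy)
      exact ⟨g, hg, fun x => by rw [e, h1, h.smul_right]; module⟩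
    obtain ⟨y₁, hy₁, e1⟩ := A.pair (symm_ne hvu) he he0
    obtain ⟨d, hd1, hd0, e2, e3⟩ := exists_L (hd' (ne_left hvu)) (h.fl e) (h.fl y₀)
    simp only [EF.fl_apply] at e2 e3
    obtain ⟨w', hw', e4⟩ := A.pair hvv hd1 hd0
    have e5 : h d w' = 1 := by rw [← h1, e4, star_one]
    set y₂ := y₀ + (w' - h w' e • y₀) with hy2
    have m2 : y₂ ∈ Ln σ v₀ := add_mem hy₀ (sub_mem hw' (Submodule.smul_mem _ _ hy₀))
    have e6 : h y₂ e = 1 := by simp [hy2, hy₀e]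
    have e7 : h d y₂ = 1 := by simp [hy2, e3, e5]
    set y := y₁ + (-(star θ - θ)⁻¹ - h y₁ y₂) • d with hy
    have m1 : y ∈ Ln σ v := add_mem hy₁ (Submodule.smul_mem _ _ hd1)
    have e8 : h y e = 1 := by simp [hy, e1, e2]
    have e9 : h y y₂ = -(star θ - θ)⁻¹ := by simp [hy, e7]
    obtain ⟨g, hg, eg⟩ := T (ne_left hv₀u') hv₀ m2
    obtain ⟨k, hk, ek⟩ := T (ne_left hvu) hv m1
    have e10 : g y = y - y₂ := by rw [eg, e9, mul_neg, mul_inv_cancel₀ hc]; module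
    have e11 : ∀ x, (g * k * g⁻¹) x = x + ((star θ - θ) * h x (y - y₂)) • (y - y₂) := fun x => by
      rw [LinearEquiv.mul_apply, LinearEquiv.mul_apply, ek, map_add, map_smul, ← hM g hg, H6.apply_inv_apply, e10]
    have e12 : h (y - y₂) e = 0 := by simp [e6, e8]
    have := mv (M.mul_mem (M.mul_mem hg hk) (M.inv_mem hg)) (by rw [e11, EF.symm0 e12]; simp)
      (S.smul_mem (-(star θ - θ)⁻¹) (C1 hv hvu hd1 e2)) e12 (by
        rw [e11]; simp [e7, hc, A.perpL (ne_left hvu) hv hd1 m1])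
    refine mem_LS (C0 hv hvu m1 e8 ?_)
    rw [← sub_add_cancel y y₂]
    exact N.add_mem (Submodule.mem_sup_left this) (N0 m2)
  obtain ⟨s, hs, z, hz, rfl⟩ := Submodule.mem_sup.mp (mem_of_LS hN w)
  obtain ⟨c, rfl⟩ := Submodule.mem_span_singleton.mp hz
  have : c = 0 := by simpa [hs.1, hy₀e] using hw
  simpa [this] using hs.2 1

end Cfsg.Agent.H1.TF
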