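import Cfsg.Agent.H1.TW5
import Cfsg.Agent.H7.AschTv

set_option autoImplicit false
set_option linter.unusedSectionVars false

/-! The frames of a tensor power in coordinates. -/

namespace Cfsg.Agent.H1.TW

open Module Matrix

variable {ι : Type} [Fintype ι] [DecidableEq ι] {F : Type*} [Field F] {m t : ℕ}

noncomputable def Psi (e : ι ≃ (Fin t → Fin m)) (P : GL ι F) :
    Matrix (Fin t → Fin m) (Fin t → Fin m) F ≃ₐ[F] End F (ι → F) :=
  (H7.frameEquiv e P).trans Matrix.toLinAlgEquiv'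

noncomputable def fr (e : ι ≃ (Fin t → Fin m)) (P : GL ι F) (i : Fin t) : Fr F (Fin m → F) (ι → F) :=
  (Psi e P).toAlgHom.comp ((H7.slot i).comp
    (LinearMap.toMatrixAlgEquiv' : End F (Fin m → F) ≃ₐ[F] Matrix (Fin m) (Fin m) F).toAlgHom)

variable (e : ι ≃ (Fin t → Fin m)) (P : GL ι F)

theorem fr_apply (i : Fin t) (x : End F (Fin m → F)) :
    fr e P i x = Psi e P (H7.slot i (LinearMap.toMatrixAlgEquiv' x)) := rfl

theorem fr_apply' (i : Fin t) (X : Matrix (Fin m) (Fin m) F) :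
    Psi e P (H7.slot i X) = fr e P i (LinearMap.toMatrixAlgEquiv'.symm X) := by
  rw [fr_apply, AlgEquiv.apply_symm_apply]

theorem fr_comm (i j : Fin t) (h : i ≠ j) : Comm (fr e P i) (fr e P j) := fun x y => by
  rw [fr_apply, fr_apply, ← map_mul, ← map_mul, H7.slot_comm h.symm]

theorem fr_scal [Nonempty (Fin m)] (c : End F (ι → F)) (h : ∀ i, Cm (fr e P i) c) : ∃ s : F, c = s • 1 := by
  obtain ⟨C, rfl⟩ := (Psi e P).surjective c
  obtain ⟨s, hs⟩ := H7.isScal_of_comm_slot (c := C) fun i X => (Psi e P).injective (by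
    rw [map_mul, map_mul, fr_apply', h i])
  exact ⟨s, by rw [hs, map_smul, map_one]⟩

theorem fr_swap (a b : Fin t) :
    ∃ G : (End F (ι → F))ˣ, G * G = 1 ∧ ∀ k, cf G (fr e P k) = fr e P (Equiv.swap a b k) := by
  refine ⟨Units.map (Psi e P).toAlgHom.toRingHom.toMonoidHom (H7.permGL (Equiv.swap a b)), ?_, fun k => ?_⟩
  · rw [← map_mul, mul_eq_one_iff_eq_inv.mpr, map_one]
    apply Units.ext
    change H7.permMat _ = H7.permMat _
    rw [Equiv.symm_swap]
  · ext x : 1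
    rw [cf_apply, Units.mul_inv_eq_iff_eq_mul, fr_apply, fr_apply]
    change Psi e P (H7.permMat _) * _ = _ * Psi e P (H7.permMat _)
    rw [← map_mul, ← map_mul, H7.permMat_mul_slot]

theorem psi_frameGL (g : GL ι F) :
    Psi e P ((H7.frameGL e P).symm g : GL (Fin t → Fin m) F) = Matrix.toLin' (g : Matrix ι ι F) := by
  change Matrix.toLinAlgEquiv' (H7.frameEquiv e P _) = _
  rw [H7.frameEquiv_frameGL_symm]; rfl

theorem mem_wreath_iff [Nonempty (Fin m)] [Nonempty (Fin t)] (g : GL ι F) :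
    g ∈ Geo.tensorWreathSubgroup m t e P ↔ Nm (fr e P) (Matrix.toLin' (g : Matrix ι ι F)) := by
  rw [H7.mem_tensorWreathSubgroup_iff, ← psi_frameGL e P]
  constructor
  · intro h
    obtain ⟨s, hs⟩ := H7.exists_perm_of_mem_standard h
    refine ⟨s, fun i x => ?_⟩
    obtain ⟨Y, hY⟩ := hs i (LinearMap.toMatrixAlgEquiv' x)
    exact ⟨_, by rw [fr_apply, ← map_mul, hY, map_mul, fr_apply']⟩
  · rintro ⟨s, hs⟩
    obtain ⟨a, ha⟩ := H7.exists_perm_pt_of_normalizes ((H7.frameGL e P).symm g) s fun i X => by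
      obtain ⟨y, hy⟩ := hs i (LinearMap.toMatrixAlgEquiv'.symm X)
      exact ⟨_, (Psi e P).injective (by rw [map_mul, map_mul, fr_apply', hy, fr_apply])⟩
    rw [ha]
    exact Subgroup.mul_mem _ (H7.permGL_mem_standard _) (H7.ptGL_mem_standard _)

theorem maximal_SL [Finite F] (hm : 3 ≤ m) (ht : 2 ≤ t) :
    Geo.IsMaximalIn (Geo.specialLinear ι F)
      (Geo.tensorWreathSubgroup m t e P ⊓ Geo.specialLinear ι F) := by
  haveI : Nonempty (Fin m) := ⟨⟨0, by omega⟩⟩
  haveI : Nonempty (Fin t) := ⟨⟨0, by omega⟩⟩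
  haveI : Nonempty ι := e.nonempty
  have hc : Fintype.card ι = m ^ t := by simpa using Fintype.card_congr e
  have hg : ∀ g : GL ι F, (H6.glEquiv (LinearEquiv.refl F (ι → F)) g : (ι → F) →ₗ[F] (ι → F)) =
      Matrix.toLin' (g : Matrix ι ι F) := fun g => rfl
  refine H6.isMaximalIn_of_core (LinearEquiv.refl F (ι → F)) _ (fun g => Nm (fr e P) g)
    (fun g => by rw [hg, mem_wreath_iff]) ?_ fun M _ h1 h2 =>
      core_SL (by simpa using hm) ?_ (fr_comm e P) (fr_scal e P) (fr_swap e P) M h1 h2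
  · have h3 : 3 ≤ Fintype.card ι := by
      rw [hc]
      calc 3 ≤ m := hm
        _ = m ^ 1 := (pow_one m).symm
        _ ≤ m ^ t := Nat.pow_le_pow_right (by omega) (by omega)
    obtain ⟨u, hu⟩ := exists_ne (0 : ι → F)
    obtain ⟨φ, hφ, hφu, -⟩ := H7.exists_dot_eq_zero_two h3 u 0
    refine ⟨_, (H6.glEquiv_mem_SLV (LinearEquiv.refl F (ι → F)) _).2 (H7.tv_mem_SL hφu), fun h => ?_⟩
    rw [hg, ← mem_wreath_iff] at h
    exact H7.tv_not_mem_wreath hφu hu hφ (by omega) ht (Or.inl hm) e P h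
  · rcases Nat.eq_or_lt_of_le hm with rfl | h4
    · right
      rw [finrank_fintype_fun_eq_card, hc]
      exact Odd.pow (by decide)
    · left; rw [finrank_fintype_fun_eq_card, Fintype.card_fin]; omega

end Cfsg.Agent.H1.TW
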