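import Cfsg.Agent.H1.TF14
import Cfsg.Agent.H1.TW6

set_option autoImplicit false
set_option linter.unusedSectionVars false

/-! Tensor powers of forms in coordinates; the symplectic case. -/

namespace Cfsg.Agent.H1.TF

open Module TW SF Matrix

variable {ι : Type} [Fintype ι] [DecidableEq ι] {F : Type*} [Field F] {k t : ℕ}
  (e : ι ≃ (Fin t → Fin k)) (P : GL ι F)

/-- pure tensors -/
def pv (xs : Fin t → Fin k → F) : ι → F := H7.frameVec e P fun a => ∏ i, xs i (a i)

theorem span_pv {S : Submodule F (ι → F)} (hS : ∀ xs, pv e P xs ∈ S) (v : ι → F) : v ∈ S := by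
  obtain ⟨x, rfl⟩ := (H7.frameVec e P).surjective v
  rw [pi_eq_sum_univ x, map_sum]
  refine S.sum_mem fun a _ => ?_
  rw [map_smul]
  refine S.smul_mem _ ?_
  convert hS fun i j => if a i = j then 1 else 0 using 1
  rw [pv]; congr 1
  ext b
  simp [Fintype.prod_boole, funext_iff]

theorem Psi_frameVec (X : Matrix (Fin t → Fin k) (Fin t → Fin k) F) (y : (Fin t → Fin k) → F) :
    Psi e P X (H7.frameVec e P y) = H7.frameVec e P (X *ᵥ y) := H7.frameEquiv_mulVec e P X y

theorem fr_pv (i : Fin t) (x : End F (Fin k → F)) (xs : Fin t → Fin k → F) :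
    fr e P i x (pv e P xs) = pv e P (Function.update xs i (x (xs i))) := by
  rw [pv, fr_apply, Psi_frameVec, pv, H7.slot_eq_pt]
  congr 1
  ext a
  simp only [mulVec, dotProduct, H7.pt_apply, ← Finset.prod_mul_distrib]
  rw [← Fintype.prod_sum fun j b => Function.update (1 : Fin t → Matrix (Fin k) (Fin k) F) i
    (LinearMap.toMatrixAlgEquiv' x) j (a j) b * xs j b]
  refine Finset.prod_congr rfl fun j _ => ?_
  by_cases hj : j = i
  · subst hj
    rw [Function.update_self, Function.update_self, ← LinearMap.toMatrix'_mulVec]; rfl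
  · simp [Function.update_of_ne hj, Matrix.one_apply]

/-- permuting the factors -/
noncomputable def pm (σ : Equiv.Perm (Fin t)) : (ι → F) ≃ₗ[F] (ι → F) :=
  LinearMap.GeneralLinearGroup.generalLinearEquiv F _
    (Units.map (Psi e P).toAlgHom.toRingHom.toMonoidHom (H7.permGL σ))

theorem pm_fr (σ : Equiv.Perm (Fin t)) (i : Fin t) (x : End F (Fin k → F)) :
    (pm e P σ : End F (ι → F)) * fr e P i x = fr e P (σ i) x * (pm e P σ : End F (ι → F)) := by
  change Psi e P (H7.permMat _) * _ = _ * Psi e P (H7.permMat _)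
  rw [fr_apply, fr_apply, ← map_mul, ← map_mul, H7.permMat_mul_slot]

theorem pm_pv (σ : Equiv.Perm (Fin t)) (xs : Fin t → Fin k → F) :
    pm e P σ (pv e P xs) = pv e P (xs ∘ σ.symm) := by
  change Psi e P (H7.permMat _) _ = _
  rw [pv, Psi_frameVec, pv]
  congr 1
  ext a
  simp only [mulVec, dotProduct, H7.permMat, of_apply, ite_mul, one_mul, zero_mul, Finset.sum_ite_eq',
    Finset.mem_univ, if_true, Function.comp_apply]
  exact Fintype.prod_equiv σ _ _ fun i => by simp

theorem pm_sq (a b : Fin t) : pm e P (Equiv.swap a b) * pm e P (Equiv.swap a b) = 1 :=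
  LinearEquiv.ext fun v => span_pv e P (S := LinearMap.eqLocus
    ((pm e P (Equiv.swap a b) : End F (ι → F)) * (pm e P (Equiv.swap a b) : End F (ι → F))) 1) (fun xs => by
      change pm e P _ (pm e P _ _) = pv e P xs
      rw [pm_pv, pm_pv]; congr 1; ext i; simp) v

include e in
theorem nontrivial_of (hk : 0 < k) : Nontrivial (ι → F) :=
  haveI : Nonempty (Fin k) := ⟨⟨0, hk⟩⟩
  haveI : Nonempty ι := e.nonempty
  inferInstance

theorem fam_fr (hk : 0 < k) : Fam (fr e P) :=
  haveI : Nonempty (Fin k) := ⟨⟨0, hk⟩⟩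
  ⟨fr_comm e P, fr_scal e P⟩

theorem finrank_Ln_fr (i : Fin t) {u : Fin k → F} (hu : u ≠ 0) (h : 2 ≤ t ∧ 3 ≤ k ∨ 3 ≤ t ∧ 2 ≤ k) :
    3 ≤ finrank F (Ln (fr e P i) u) := by
  have h1 := finrank_Ln (ρ := fr e P i) hu
  have hc : Fintype.card ι = k ^ t := by simpa using Fintype.card_congr e
  rw [finrank_fintype_fun_eq_card, finrank_fintype_fun_eq_card, hc, Fintype.card_fin] at h1
  by_contra h2
  have h3 : k ^ t ≤ k * 2 := h1 ▸ Nat.mul_le_mul_left _ (by omega)
  rcases h with ⟨h4, h5⟩ | ⟨h4, h5⟩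
  · have := Nat.pow_le_pow_right (n := k) (by omega) h4
    nlinarith
  · have := Nat.pow_le_pow_right (n := k) (by omega) h4
    have e : k ^ 3 = k * (k * k) := by ring
    nlinarith

theorem nm_iff (hk : 0 < k) (ht : 0 < t) (g : GL ι F) :
    g ∈ Geo.tensorWreathSubgroup k t e P ↔ Nm (fr e P) (H6.gl0 g : End F (ι → F)) := by
  haveI : Nonempty (Fin k) := ⟨⟨0, hk⟩⟩
  haveI : Nonempty (Fin t) := ⟨⟨0, ht⟩⟩
  rw [H6.gl0_coe, mem_wreath_iff]

theorem not_nm_tv (hk : 2 ≤ k) (ht : 2 ≤ t) (h3 : 3 ≤ k ∨ 3 ≤ t) {g : (ι → F) ≃ₗ[F] (ι → F)} {u : ι → F}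
    (hu : u ≠ 0) {φ : Dual F (ι → F)} (hφ : φ ≠ 0) (h0 : φ u = 0) (hg : ∀ x, g x = x + φ x • u) :
    ¬ Nm (fr e P) (g : End F (ι → F)) := by
  have key : ∀ v, (fun i => φ (Pi.single i 1)) ⬝ᵥ v = φ v := fun v => by
    conv_rhs => rw [pi_eq_sum_univ' v, map_sum]
    simp [dotProduct, mul_comm]
  have : g = H6.gl0 (H7.tv u _ ((key u).trans h0)) := LinearEquiv.ext fun x => by
    rw [hg, H6.gl0_apply, H7.tv_mulVec, key]
  rw [this, ← nm_iff e P (by omega) (by omega)]
  exact H7.tv_not_mem_wreath _ hu (fun e => hφ (LinearMap.ext fun v => by rw [← key, e]; simp)) hk ht h3 e P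

variable [StarRing F] {h : EF F (ι → F)} {f : SF F (Fin k → F)}

/-- `h` is a tensor power of `f` -/
def TP (h : EF F (ι → F)) (f : SF F (Fin k → F)) : Prop :=
  ∃ c : F, ∀ xs ys, h (pv e P xs) (pv e P ys) = c * ∏ i, f (xs i) (ys i)

theorem tp_of {σ : F → F} {H : (ι → F) → (ι → F) → F} {f₁ : (Fin k → F) → (Fin k → F) → F}
    (hT : Geo.IsTensorPowerFormStructure σ H f₁ e P) (hσ : ∀ x, σ x = star x) (hH : ∀ x y, h x y = H x y)
    {κ : F} (hκ : κ ≠ 0) (hf : ∀ x y, f x y = κ * f₁ x y) : TP e P h f := by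
  obtain ⟨c, -, hc⟩ := hT
  refine ⟨c * (κ ^ t)⁻¹, fun xs ys => ?_⟩
  have e1 : ∀ x y, f x y = κ * ∑ a, ∑ b, x a * Geo.gramMatrix f₁ a b * star (y b) := fun x y => by
    have s : ∀ z, f z y = ∑ b, f z (Pi.single b 1) * star (y b) := fun z => by
      rw [← star_star (f z y), f.skew]
      conv_lhs => rw [pi_eq_sum_univ' y, ← f.fl_apply, map_sum]
      simp [mul_comm]
    conv_lhs => rw [pi_eq_sum_univ' x, ← f.fl_apply, map_sum]
    simp only [f.fl_apply, f.smul_left, s]
    simp only [Finset.mul_sum, hf, Geo.gramMatrix]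
    exact Finset.sum_congr rfl fun a _ => Finset.sum_congr rfl fun b _ => by ring
  rw [hH, pv, pv, H7.frameVec_apply, H7.frameVec_apply, hc]
  simp only [e1, Finset.prod_mul_distrib, Finset.prod_const, Finset.card_univ, Fintype.card_fin, hσ, star_prod,
    Fintype.prod_sum]
  rw [mul_assoc, inv_mul_cancel_left₀ (pow_ne_zero _ hκ)]

variable {e P}

theorem ext_pv (A B C D : End F (ι → F))
    (H : ∀ xs ys, h (A (pv e P xs)) (B (pv e P ys)) = h (C (pv e P xs)) (D (pv e P ys))) (x y : ι → F) :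
    h (A x) (B y) = h (C x) (D y) :=
  span_pv e P (S :=
    { carrier := {y | h (A x) (B y) = h (C x) (D y)}
      add_mem' := fun ha hb => by simp only [Set.mem_ofPred_eq, map_add, EF.add_right] at *; rw [ha, hb]
      zero_mem' := by simp
      smul_mem' := fun c a ha => by simp only [Set.mem_ofPred_eq, map_smul, EF.smul_right] at *; rw [ha] })
    (fun ys => span_pv e P (S := LinearMap.eqLocus (h.fl (B (pv e P ys)) ∘ₗ A) (h.fl (D (pv e P ys)) ∘ₗ C))
      (fun xs => H xs ys) x) y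

theorem TP.ad (T : TP e P h f) (i : Fin t) : AdF h f (fr e P i) := by
  obtain ⟨c, hc⟩ := T
  intro a b x y
  rw [← h.neg_right]
  refine ext_pv (e := e) (P := P) (f.R (fr e P i) a b) 1 1 (-f.R (fr e P i) b a) (fun xs ys => ?_) x y
  simp only [R, End.one_apply, LinearMap.neg_apply, fr_pv, h.neg_right, hc]
  have e1 : ∀ φ : Fin t → F, ∏ j, φ j = φ i * ∏ j ∈ Finset.univ.erase i, φ j := fun φ =>
    (Finset.mul_prod_erase _ _ (Finset.mem_univ i)).symm
  rw [e1, e1 fun j => f (xs j) (Function.update ys i _ j),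
    Finset.prod_congr rfl fun j hj => by rw [Function.update_of_ne (Finset.ne_of_mem_erase hj)],
    Finset.prod_congr (f := fun j => f (xs j) (Function.update ys i _ j)) rfl fun j hj => by
      rw [Function.update_of_ne (Finset.ne_of_mem_erase hj)]]
  simp only [Function.update_self, r1_apply, f.fl_apply, f.smul_left, f.smul_right, f.skew]; ring

theorem TP.pm (T : TP e P h f) (σ : Equiv.Perm (Fin t)) (x y : ι → F) : h (pm e P σ x) (pm e P σ y) = h x y := by
  obtain ⟨c, hc⟩ := T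
  refine ext_pv (e := e) (P := P) (TF.pm e P σ) (TF.pm e P σ) 1 1 (fun xs ys => ?_) x y
  simp only [LinearEquiv.coe_coe, pm_pv, End.one_apply, hc]
  exact congrArg _ (Fintype.prod_equiv σ.symm _ _ fun i => rfl)

section

variable {U V : Type*} [AddCommGroup U] [Module F U] [AddCommGroup V] [Module F V] [FiniteDimensional F U]
  [FiniteDimensional F V]

theorem AdF.root {h : EF F V} {f : SF F U} {σ : Fr F U V} (A : AdF h f σ) {u b : U} {c : F} (h0 : f u u = 0)
    (hb : f b u = 0) (hc : c - star c = f b b) (x y : V) :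
    h ((1 + Ee f σ u b c : End F V) x) ((1 + Ee f σ u b c : End F V) y) = h x y := by
  simp [Ee, A _ _ x, R_R, h0, hb, symm0 hb]
  linear_combination -h x (f.R σ u u y) * hc

theorem surj_flip {B : V →ₗ[F] V →ₗ[F] F} (nd : ∀ z, (∀ x, B x z = 0) → z = 0) : Function.Surjective B.flip :=
  (LinearMap.injective_iff_surjective_of_finrank_eq_finrank (by simp)).1
    ((injective_iff_map_eq_zero _).mpr fun z hz => nd z fun x => LinearMap.congr_fun hz x)

/-- a symmetric or alternating form -/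
def efB (hst : ∀ c : F, star c = c) (B : V →ₗ[F] V →ₗ[F] F) (ε : F) (hε : ε ≠ 0) (hs : ∀ a b, B a b = ε * B b a)
    (nd : ∀ z, (∀ x, B x z = 0) → z = 0) : EF F V where
  fl := B.flip
  fl_add := map_add _
  fl_smul c a := by rw [map_smul, hst]
  eps := ε
  eps_ne := hε
  sym' a b := by rw [hst]; exact hs a b
  surj := surj_flip nd

end

/-- a symplectic form in coordinates -/
def sfB (hst : ∀ c : F, star c = c) {f₁ : (Fin k → F) → (Fin k → F) → F} (hf : Geo.IsSymplecticForm f₁) :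
    SF F (Fin k → F) where
  fl := (LinearMap.mk₂ F f₁ hf.1.1 hf.1.2 hf.1.3 hf.1.4).flip
  fl_add := map_add _
  fl_smul c a := by rw [map_smul, hst]
  skew' a b := by rw [hst]; exact hf.skew a b
  surj := surj_flip fun z hz => by
    by_contra h0
    obtain ⟨x, hx⟩ := (hf.nondegenerate z h0).1
    exact hx (hz x)

end Cfsg.Agent.H1.TF

namespace Cfsg.Agent.H1.TF

open Module TW SF H9.Sp

theorem two_ne_of_odd {F : Type*} [Field F] [Fintype F] (hodd : Odd (Fintype.card F)) : (2 : F) ≠ 0 :=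
  Ring.two_ne_zero fun h => by
    have := FiniteField.even_card_iff_char_two.mp h
    rw [Nat.odd_iff] at hodd; omega

theorem four_le_card {F : Type*} [Field F] [Fintype F] (hodd : Odd (Fintype.card F)) (h : Fintype.card F ≠ 3) :
    4 ≤ Nat.card F := by
  have := Fintype.one_lt_card (α := F)
  rw [Nat.odd_iff] at hodd
  rw [Nat.card_eq_fintype_card]; omega

theorem maximal_Sp {F : Type*} [Field F] [Fintype F] {m : ℕ} (hm : 1 ≤ m) (hodd : Odd (Fintype.card F)) {k t : ℕ}
    (ht3 : 3 ≤ t) (hex : ¬ (Fintype.card F = 3 ∧ k = 2)) (e : (Fin m ⊕ Fin m) ≃ (Fin t → Fin k))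
    (P : GL (Fin m ⊕ Fin m) F) {f₁ : (Fin k → F) → (Fin k → F) → F} (hf₁ : Geo.IsSymplecticForm f₁)
    (hT : Geo.IsTensorPowerFormStructure id (sympForm m F) f₁ e P) :
    Geo.IsMaximalIn (spGL m F) (Geo.tensorWreathSubgroup k t e P ⊓ spGL m F) := by
  letI : StarRing F := starRingOfComm
  have hst : ∀ c : F, star c = c := fun _ => rfl
  have h2 := two_ne_of_odd hodd
  have hk : 2 ≤ k := by
    have hc : m + m = k ^ t := by simpa using Fintype.card_congr e
    by_contra h
    obtain rfl | rfl : k = 0 ∨ k = 1 := by omega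
    · rw [zero_pow (by omega)] at hc; omega
    · rw [one_pow] at hc; omega
  haveI := nontrivial_of (F := F) e (by omega)
  have hB := symp_B0 m F
  let h := efB hst (B0 m F) (-1) (by simp) (fun a b => by rw [hB.skew a b]; ring) hB.nd
  have T : TP e P h (sfB hst hf₁) := tp_of e P hT (fun _ => rfl) (fun _ _ => rfl) one_ne_zero
    fun _ _ => (one_mul _).symm
  have G : (sfB hst hf₁).Geo := geo_of_alt hf₁.alternating hst (by simpa using hk)
    (fun h => ⟨h2, four_le_card hodd fun h3 => hex ⟨h3, by simpa using h⟩⟩) fun _ => h2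
  refine isMaximalIn_transport H6.gl0 _ _ (Sp (B0 m F)) (fun g => Nm (fr e P) (g : End F _)) mem_spGL
    (fun g _ => nm_iff e P (by omega) (by omega) g) ?_ fun M h1 h3 h4 => ?_
  · obtain ⟨u, hu⟩ := exists_ne (0 : Fin m ⊕ Fin m → F)
    exact ⟨_, tvE_mem hB u 1, not_nm_tv e P hk (by omega) (Or.inr ht3) hu (φ := (B0 m F).flip u)
      (fun e => hu (hB.nd u fun x => LinearMap.congr_fun e x)) (hB.alt u) fun x => by simp⟩
  · obtain ⟨i, hi⟩ := core h G (fam_fr e P (by omega)) T.ad (K := Sp (B0 m F)) (fun g hg => hg)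
      (fun i u b c h5 h6 h7 g hg x y => by
        have := (T.ad i).root h5 h6 h7 x y
        rwa [← hg] at this) (fun a b => pm e P (Equiv.swap a b)) (fun a b => pm_fr e P _)
      (fun a b c d => mul_mem (mul_mem (T.pm _) (T.pm _)) (mul_mem (T.pm _) (T.pm _))) h1 h3 h4
    exact sp_of_tau hB (fun _ _ => rfl) hst h2 G (T.ad i) hi h1

end Cfsg.Agent.H1.TF
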