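import Cfsg.Agent.H1.TF15
import Cfsg.Agent.H5.U.C2
import Cfsg.Agent.H6.ELine

set_option autoImplicit false
set_option linter.unusedSectionVars false

/-! Tensor powers of unitary spaces. -/

namespace Cfsg.Agent.H1.TF

open Module TW SF H5.U

section

variable {F : Type*} [Field F] [StarRing F] {U V : Type*} [AddCommGroup U] [Module F U]
  [AddCommGroup V] [Module F V] [FiniteDimensional F U] [FiniteDimensional F V] [NStar F] [Finite F]

/-- a hermitian form -/
def efH (h : HF F V) : EF F V where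
  fl := h.lin
  fl_add a b := by ext x; simp
  fl_smul c a := by ext x; simp
  eps := 1
  eps_ne := one_ne_zero
  sym' a b := by simp
  surj φ := by
    obtain ⟨v, hv⟩ := h.riesz φ
    exact ⟨v, LinearMap.ext fun x => (hv x).symm⟩

@[simp] theorem efH_apply (h : HF F V) (a b : V) : efH h a b = h a b := rfl

theorem su_of_tau [Nontrivial V] {h : HF F V} {f : SF F U} {σ : Fr F U V}
    {M : Subgroup (V ≃ₗ[F] V)} (G : f.Geo) (A : AdF (efH h) f σ) (hT : Tau (efH h) f σ M) (hM : M ≤ h.SU)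
    (hd : ∀ u, u ≠ 0 → 3 ≤ finrank F (Ln σ u)) : h.SU ≤ M := by
  have hX : ∀ {b : U}, b ≠ 0 → f b b = 0 → ∀ {y : V}, y ∈ Ln σ b → h.XIn M y := fun hb hbb y hy c hc => by
    obtain ⟨a, ha⟩ := exists_tr_one F
    obtain ⟨g, hg, e⟩ := hT _ hb hbb y hy _ (Submodule.smul_mem _ (-c * a) hy)
    have hc' : star c = -c := by linear_combination hc
    convert hg using 1
    ext x
    rw [e, HF.T_apply (A.perpL hb hbb hy hy) hc]
    simp only [efH_apply, HF.smul_right, HF.conj, star_mul', star_neg, hc']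
    match_scalars
    · rfl
    · linear_combination -c * h x y * ha
  obtain ⟨u, hu, h0⟩ := G.exists_iso
  obtain ⟨e, he, he0⟩ := Ln_ne_bot (ρ := σ) hu
  obtain ⟨v, hv, hvu⟩ := G.partner hu
  have hvu' : f v u ≠ 0 := by rw [hvu]; exact one_ne_zero
  obtain ⟨y, hy, hye⟩ := A.pair (symm_ne hvu') he he0
  have hee : h e e = 0 := A.perpL hu h0 he he
  refine HF.SU_le_of_Q_X hM hee (HF.qIn_of_ME hee (hX hu h0 he) fun w _ hw => ?_)
    (A.perpL (ne_left hvu') hv hy hy) (by rw [HF.symm1 hye]; exact one_ne_zero) (hX (ne_left hvu') hv hy)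
  refine fill h.conj G A hT (fun g hg => (hM hg).1) hu h0 (hd u hu) he he0 _ (fun w hw => ?_)
    (fun g hg hge w hw => HF.ME_map hM hw hg hge) hw
  have o : h.Ok e w 0 := ⟨hee, A.perpL hu h0 hw he, by simpa using (A.perpL hu h0 hw hw).symm⟩
  obtain ⟨g, hg, e⟩ := hT _ hu h0 w hw e he
  refine ⟨0, o, ?_⟩
  convert hg using 1
  ext x
  rw [e, HF.E_apply o]; simp

end

theorem maximal_SU {F : Type*} [Field F] [Fintype F] {n q : ℕ} (hF : Fintype.card F = q ^ 2) {k t : ℕ} (hk : 3 ≤ k)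
    (ht : 2 ≤ t) (hex : ¬ (q = 2 ∧ k = 3)) (e : Fin n ≃ (Fin t → Fin k)) (P : GL (Fin n) F)
    {f₁ : (Fin k → F) → (Fin k → F) → F} (hf₁ : Geo.IsUnitaryFormPow q f₁)
    (hT : Geo.IsTensorPowerFormStructure (fun x : F => x ^ q) (hermForm n F q) f₁ e P) :
    Geo.IsMaximalIn (GU n F q ⊓ Geo.specialLinear (Fin n) F)
      (Geo.tensorWreathSubgroup k t e P ⊓ (GU n F q ⊓ Geo.specialLinear (Fin n) F)) := by
  letI := powStar hF
  haveI := powStar_nstar hF
  haveI := nontrivial_of (F := F) e (by omega)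
  let h₁ : HF F (Fin k → F) :=
    { toFun := f₁
      add_left' := hf₁.add_left
      smul_left' := hf₁.smul_left
      conj' := fun x y => (hf₁.herm y x).symm
      nd' := fun v hv => by
        by_contra h0
        obtain ⟨x, hx⟩ := (hf₁.nondegenerate v h0).1
        exact hx (hv x) }
  let h := stdHF (Fin n) F
  have T : TP e P (efH h) (sfH h₁) := tp_of e P hT (fun _ => rfl) (fun _ _ => rfl) del_ne fun _ _ => rfl
  have G : (sfH h₁).Geo := geo_of_herm h₁ (by simpa using hk) fun h3 => exists_F0_ne hF (by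
    have := two_le_q hF
    have : k = 3 := by simpa using h3
    omega)
  have hd : ∀ i (u : Fin k → F), u ≠ 0 → 3 ≤ finrank F (Ln (fr e P i) u) := fun i u hu =>
    finrank_Ln_fr e P i hu (Or.inl ⟨ht, hk⟩)
  refine isMaximalIn_of_core (LinearEquiv.refl F _) h _ _ (mem_GU_iff hF n) (fun g => Nm (fr e P) (g : End F _))
    (fun g _ => nm_iff e P (by omega) (by omega) g) ?_ fun M h1 h3 h4 => ?_
  · obtain ⟨w, hw, h0⟩ := G.exists_iso
    obtain ⟨u, hu, hu0⟩ := Ln_ne_bot (ρ := fr e P ⟨0, by omega⟩) hw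
    have huu : h u u = 0 := (T.ad _).perpL hw h0 hu hu
    exact ⟨_, HF.T_mem_SU u (del F), not_nm_tv e P (by omega) ht (Or.inl hk) hu0 (φ := del F • h.lin u)
      (fun e => hu0 (h.nd fun x => by simpa [del_ne] using LinearMap.congr_fun e x)) (by simp [huu])
      (HF.T_apply huu del_tr)⟩
  · obtain ⟨i, hi⟩ := core (efH h) G (fam_fr e P (by omega)) T.ad (K := h.SU) (fun g hg => hg.1)
      (fun i u b c h5 h6 h7 g hg => ⟨fun x y => by
        have := (T.ad i).root h5 h6 h7 x y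
        rwa [← hg] at this, H6.mem_SLV_of_nilpotent (y := Ee (sfH h₁) (fr e P i) u b c)
          ⟨3, by rw [pow_three', Ee_cube c h5 h6]⟩ fun v => LinearMap.congr_fun hg v⟩)
      (fun a b => pm e P (Equiv.swap a b)) (fun a b => pm_fr e P _)
      (fun a b c d => ⟨mul_mem (mul_mem (T.pm _) (T.pm _)) (mul_mem (T.pm _) (T.pm _)), H6.mem_SLV.mpr <| by
        simp only [map_mul]
        rw [mul_mul_mul_comm, ← map_mul, ← map_mul, pm_sq, pm_sq]; simp⟩) h1 h3 h4
    exact su_of_tau G (T.ad i) hi h1 (hd i)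

end Cfsg.Agent.H1.TF
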