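import Cfsg.Agent.H1.TF15
import Cfsg.Agent.Orth.Ext1
import Cfsg.Agent.Orth.Bridge

set_option autoImplicit false
set_option linter.unusedSectionVars false

/-! Tensor powers of symplectic spaces inside orthogonal groups. -/

namespace Cfsg.Agent.H1.TF

open Module TW SF Orth

section

variable {F : Type*} [Field F] [StarRing F] {U V : Type*} [AddCommGroup U] [Module F U]
  [AddCommGroup V] [Module F V] [FiniteDimensional F U] [FiniteDimensional F V] [Nontrivial V]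
  {f : SF F U} {h : EF F V} {σ : Fr F U V} {M : Subgroup (V ≃ₗ[F] V)} {Q : QuadraticForm F V}

theorem AdF.perpL' (A : AdF h f σ) {a b : U} (hab : f a b = 0) {x y : V} (hx : x ∈ Ln σ a)
    (hy : y ∈ Ln σ b) : h x y = 0 := by
  by_cases hb : b = 0
  · have : y = 0 := by simpa using hy 1 hb
    simp [this]
  · exact A.perpL hb hab hx hy

theorem om_of_tau [Finite F] (hQ : Nd Q) (h5 : 5 ≤ finrank F V) (hh : ∀ x y, h x y = B Q x y)
    (hst : ∀ c : F, star c = c) (G : f.Geo) (A : AdF h f σ) (hT : Tau h f σ M) (hM : M ≤ O Q)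
    (hd : ∀ u, u ≠ 0 → 3 ≤ finrank F (Ln σ u)) (hs : ∀ u, f u u = 0 → ∀ y ∈ Ln σ u, Q y = 0) : EO Q ≤ M := by
  have key : ∀ {u : U}, u ≠ 0 → f u u = 0 → ∀ {e : V}, e ∈ Ln σ u → e ≠ 0 → Full Q M e := by
    intro u hu h0 e he he0 w hw
    have hq := hs u h0 e he
    let X : AddSubgroup V :=
      { carrier := {w | B Q e w = 0 ∧ eich Q e w ∈ M}
        add_mem' := fun ha hb => ⟨by simp [ha.1, hb.1], eich_mul hq ha.1 hb.1 ▸ mul_mem ha.2 hb.2⟩
        zero_mem' := ⟨by simp, eich_zero (Q := Q) e ▸ one_mem M⟩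
        neg_mem' := fun ha => ⟨by simp [ha.1], eich_inv hq ha.1 ▸ inv_mem ha.2⟩ }
    refine (fill (fun a b => by rw [hst, hh, hh, B_comm]) G A hT (fun g hg x y => by rw [hh, hh, O_B (hM hg)])
      hu h0 (hd u hu) he he0 X (fun w hw => ?_) (fun g hg hge w hw => ⟨?_, ?_⟩) (by rw [hh, B_comm, hw])).2
    · have e1 : B Q e w = 0 := hh e w ▸ A.perpL hu h0 he hw
      obtain ⟨g, hg, e⟩ := hT _ hu h0 w hw e he
      refine ⟨e1, ?_⟩
      convert hg using 1
      ext x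
      rw [e, eich_apply hq e1, hs u h0 w hw, hst, hh, hh, B_comm Q x]; simp
    · rw [← hge, O_B (hM hg), hw.1]
    · have := eich_conj_mem hM hg hw.2
      rwa [hge] at this
  obtain ⟨u, hu, h0⟩ := G.exists_iso
  obtain ⟨e, he, he0⟩ := Ln_ne_bot (ρ := σ) hu
  obtain ⟨v, hv, hvu⟩ := G.partner hu
  have hvu' : f v u ≠ 0 := by rw [hvu]; exact one_ne_zero
  obtain ⟨y, hy, hye⟩ := A.pair (symm_ne hvu') he he0
  exact EO_le_of_full hQ h5 hM (hs u h0 e he) (hs v hv y hy) (key hu h0 he he0)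
    (key (ne_left hvu') hv hy (by rintro rfl; simp at hye)) (by rw [B_comm, ← hh, hye]; exact one_ne_zero)

theorem root_EO [Finite F] (hQ : Nd Q) (hh : ∀ x y, h x y = B Q x y) (A : AdF h f σ)
    (hs : ∀ u, f u u = 0 → ∀ y ∈ Ln σ u, Q y = 0) {u b : U} {c : F} (h0 : f u u = 0) (hb : f b u = 0)
    (hbb : f b b = 0) {g : V ≃ₗ[F] V} (hg : (g : End F V) = 1 + Ee f σ u b c) (hO : g ∈ O Q) : g ∈ EO Q := by
  refine mem_of_fix_perp hQ (L := Ln σ u ⊔ Ln σ b) (fun v hv => ?_) (fun _ _ _ _ => eich_mem_EO _ _) hO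
    fun x hx => ?_
  · obtain ⟨y, hy, z, hz, rfl⟩ := Submodule.mem_sup.mp hv
    rw [Q_add, hs u h0 y hy, hs b hbb z hz, ← hh, A.perpL' (symm0 hb) hy hz]; simp
  · have e : ∀ a a', Ln σ a ≤ Ln σ u ⊔ Ln σ b → f.R σ a' a x = 0 := fun a a' ha => EF.nd_left (h := h) fun y => by
      rw [A, hh, B_comm, hx _ (ha (R_mem _ _ _)), neg_zero]
    change (g : End F V) x = x
    simp [hg, Ee, e u _ le_sup_left, e b _ le_sup_right]

theorem exists_bad (hh : ∀ x y, h x y = B Q x y) (G : f.Geo) (A : AdF h f σ)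
    (hd : ∀ u, u ≠ 0 → 3 ≤ finrank F (Ln σ u)) (hs : ∀ u, f u u = 0 → ∀ y ∈ Ln σ u, Q y = 0) :
    ∃ v, v ≠ 0 ∧ Q v = 0 ∧ ∀ z, z ≠ 0 → v ∉ Ln σ z := by
  obtain ⟨u, hu, h0⟩ := G.exists_iso
  obtain ⟨e, he, he0⟩ := Ln_ne_bot (ρ := σ) hu
  obtain ⟨v, hv, hvu⟩ := G.partner hu
  have hv0 : v ≠ 0 := ne_left (by rw [hvu]; exact one_ne_zero)
  obtain ⟨ξ, hξ⟩ := H6.exists_dual_one' (F := F) he0
  obtain ⟨y, hy, hy0, e1, e2⟩ := exists_L (hd v hv0) (h.fl e) (ξ ∘ₗ f.R σ u u)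
  have k : ∀ z, z ≠ 0 → e + y ∉ Ln σ z := fun z hz hm => by
    obtain ⟨w, hw⟩ := f.exists_right hz
    have e3 : ∀ a, f.R σ u a (e + y) = f z a • f.R σ u w (e + y) := fun a => by
      conv_lhs => rw [← R_one hm hw, R_R]
    have e4 := e3 v
    have e5 := e3 u
    rw [map_add, R_Ln he, R_zero hy _ hv, symm1 hvu] at e4
    rw [map_add, R_zero he _ h0, zero_add] at e5
    have e6 := congrArg ξ e4
    have e7 : ξ (f.R σ u u y) = 0 := e2
    simp only [e5, map_smul, smul_eq_mul, mul_eq_zero] at e7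
    rcases e7 with e7 | e7
    · rw [e7, zero_smul] at e5
      exact hy0 (by rw [← R_one hy hvu, R_eq_zero hu e5])
    · rw [map_smul, e7] at e6; simp [hξ] at e6
  exact ⟨e + y, fun e0 => k u hu (e0 ▸ zero_mem _), by
    rw [Q_add, hs u h0 e he, hs v hv y hy, B_comm, ← hh]; simpa using e1, k⟩

theorem nm_Ln {T : Type*} [Fintype T] [DecidableEq T] {ρ : T → Fr F U V} {g : V ≃ₗ[F] V}
    (hg : Nm ρ (g : End F V)) {u : U} (hu : u ≠ 0) {v : V} (hv : ∀ i, v ∈ Ln (ρ i) u) (j : T) :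
    ∃ z, z ≠ 0 ∧ g v ∈ Ln (ρ j) z := by
  obtain ⟨π, hπ⟩ := hg
  obtain ⟨i, rfl⟩ := π.surjective j
  obtain ⟨g, rfl⟩ := (LinearMap.GeneralLinearGroup.generalLinearEquiv F V).surjective g
  obtain ⟨ψ, hψ⟩ := H6.exists_dual_one' (F := F) hu
  obtain ⟨y, hy⟩ := hπ i (r1 u ψ)
  obtain ⟨z, hz, e⟩ := rank_one_range (ρ := ρ (π i)) (x := y) (ρ' := cf g (ρ i)) hu (by
    rw [← range_r1 (φ := ψ) hu (by rintro rfl; simp at hψ), cf_apply]
    congr 1
    exact (Units.mul_inv_eq_iff_eq_mul _ |>.mpr hy).symm)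
  exact ⟨z, hz, e ▸ mem_Ln_cf.mpr (hv i)⟩

end

variable {ι : Type} [Fintype ι] [DecidableEq ι] {F : Type*} [Field F] {k t : ℕ}
  {e : ι ≃ (Fin t → Fin k)} {P : GL ι F}

theorem pv_mem (xs : Fin t → Fin k → F) (i : Fin t) : pv e P xs ∈ Ln (fr e P i) (xs i) := fun x hx => by
  rw [fr_pv, hx, pv, LinearEquiv.map_eq_zero_iff]
  ext a
  exact Finset.prod_eq_zero (Finset.mem_univ i) (by simp)

theorem pv_ne {u : Fin k → F} (hu : u ≠ 0) : pv e P (fun _ => u) ≠ 0 := by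
  obtain ⟨j, hj⟩ := Function.ne_iff.mp hu
  rw [pv, Ne, LinearEquiv.map_eq_zero_iff]
  exact fun h => Finset.prod_ne_zero_iff.mpr (fun _ _ => hj) (congrFun h fun _ => j)

theorem Q_of_pure {Q : QuadraticForm F (ι → F)} {z w : End F (ι → F)}
    (hB : ∀ x y, B Q (z x) (z y) = B Q (w x) (w y)) (h : ∀ xs, Q (z (pv e P xs)) = Q (w (pv e P xs))) (v : ι → F) :
    Q (z v) = Q (w v) :=
  span_pv e P (S :=
    { carrier := {v | Q (z v) = Q (w v)}
      add_mem' := fun ha hb => by simp only [Set.mem_ofPred_eq, map_add, Q_add] at *; rw [ha, hb, hB]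
      zero_mem' := by simp
      smul_mem' := fun c a ha => by simp only [Set.mem_ofPred_eq, map_smul, Q_smul] at *; rw [ha] }) h v

theorem maximal_Om [Fintype F] {Q : (ι → F) → F} (hQ : Geo.IsNondegenerateQuadraticForm Q) (hk : 2 ≤ k) (ht : 2 ≤ t)
    (hkt : 3 ≤ k ∨ 3 ≤ t) (hd2 : k = 2 → Odd (Fintype.card F) ∧ Fintype.card F ≠ 3)
    (hd4 : k = 4 → Odd (Fintype.card F)) (e : ι ≃ (Fin t → Fin k)) (P : GL ι F)
    {f₁ : (Fin k → F) → (Fin k → F) → F} (hf₁ : Geo.IsSymplecticForm f₁)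
    (hT : Geo.IsTensorPowerFormStructure id (QuadraticMap.polar Q) f₁ e P) (hpure : ∀ xs, Q (pv e P xs) = 0) :
    Geo.IsMaximalIn (Geo.omegaGL Q) (Geo.tensorWreathSubgroup k t e P ⊓ Geo.omegaGL Q) := by
  letI : StarRing F := starRingOfComm
  have hst : ∀ c : F, star c = c := fun _ => rfl
  haveI := nontrivial_of (F := F) e (by omega)
  haveI : Finite F := Finite.of_fintype F
  have hN := nd_toQF hQ
  let h := efB hst (B (toQF hQ)) 1 one_ne_zero (fun a b => by rw [B_comm, one_mul]) hN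
  have hh : ∀ x y, h x y = B (toQF hQ) x y := fun _ _ => rfl
  have T : TP e P h (sfB hst hf₁) := tp_of e P hT (fun _ => rfl) (fun _ _ => rfl) one_ne_zero
    fun _ _ => (one_mul _).symm
  have G : (sfB hst hf₁).Geo := geo_of_alt hf₁.alternating hst (by simpa using hk)
    (fun h => ⟨two_ne_of_odd (hd2 (by simpa using h)).1, four_le_card (hd2 (by simpa using h)).1
      (hd2 (by simpa using h)).2⟩) fun h => two_ne_of_odd (hd4 (by simpa using h))
  have hd : ∀ i (u : Fin k → F), u ≠ 0 → 3 ≤ finrank F (Ln (fr e P i) u) := fun i u hu =>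
    finrank_Ln_fr e P i hu (by omega)
  have h5 : 5 ≤ Fintype.card ι := by
    obtain ⟨u, hu, -⟩ := G.exists_iso
    have h1 := finrank_Ln (ρ := fr e P ⟨0, by omega⟩) hu
    have h2 := hd ⟨0, by omega⟩ u hu
    rw [finrank_fintype_fun_eq_card, finrank_fintype_fun_eq_card, Fintype.card_fin] at h1
    nlinarith
  have h5' : 5 ≤ finrank F (ι → F) := by rwa [finrank_fintype_fun_eq_card]
  have hp : ∀ xs, toQF hQ (pv e P xs) = 0 := hpure
  have hs : ∀ i u, sfB hst hf₁ u u = 0 → ∀ y ∈ Ln (fr e P i) u, toQF hQ y = 0 := fun i u h0 y hy => by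
    by_cases hu : u = 0
    · have : y = 0 := by simpa using hy 1 hu
      rw [this, map_zero]
    obtain ⟨w, hw⟩ := (sfB hst hf₁).exists_right hu
    rw [← R_one hy hw, Q_of_pure (e := e) (P := P) (w := 0) (fun x y => by
      simpa [← hh] using (T.ad i).perpL hu h0 (R_mem _ _ _) (R_mem _ _ _)) fun xs => by
        rw [R, fr_pv, hp, LinearMap.zero_apply, map_zero], LinearMap.zero_apply, map_zero]
  have hO : ∀ σ, pm e P σ ∈ O (toQF hQ) := fun σ => Q_of_pure (e := e) (P := P) (z := pm e P σ) (w := 1) (T.pm σ)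
    fun xs => by simp [pm_pv, hp]
  refine isMaximalIn_of hQ h5 _ (fun g => Nm (fr e P) (g : End F _))
    (fun g _ => nm_iff e P (by omega) (by omega) g) ?_ fun M h1 h3 => ?_
  · obtain ⟨v, hv0, hv, h2⟩ := exists_bad hh G (T.ad ⟨0, by omega⟩) (hd _) (hs _)
    obtain ⟨u, hu, -⟩ := G.exists_iso
    obtain ⟨g, hg, e1⟩ := hN.EO_trans h5' (pv_ne (e := e) (P := P) hu) hv0 (by rw [hp, hv])
    refine ⟨g, hg, fun hn => ?_⟩
    obtain ⟨z, hz, h4⟩ := nm_Ln hn hu (pv_mem fun _ => u) ⟨0, by omega⟩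
    exact h2 z hz (e1 ▸ h4)
  by_cases h4 : ∀ g ∈ M, Nm (fr e P) (g : End F _)
  · exact Or.inl h4
  push Not at h4
  obtain ⟨i, hi⟩ := core h G (fam_fr e P (by omega)) T.ad (K := EO (toQF hQ)) (fun g hg => O_B (EO_le_O hg))
    (fun i u b c h5 h6 h7 g hg => root_EO hN hh (T.ad i) (hs i) h5 h6 (hf₁.alternating b) hg (by
      refine Q_of_pure (e := e) (P := P) (z := g) (w := 1) (fun x y => ?_) fun xs => ?_
      · rw [hg]; exact (T.ad i).root h5 h6 h7 x y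
      · rw [hg, Ee, R, R, R, ← map_smul, ← map_add, ← map_add, ← map_one (fr e P i), ← map_add, fr_pv, fr_pv, hp, hp]))
    (fun a b => pm e P (Equiv.swap a b)) (fun a b => pm_fr e P _)
    (fun a b c d => by
      have := hN.commutator_mem_EO h5' (hO (Equiv.swap a b)) (hO (Equiv.swap c d))
      rwa [inv_eq_of_mul_eq_one_right (pm_sq e P a b), inv_eq_of_mul_eq_one_right (pm_sq e P c d), mul_assoc] at this)
    h1 h3 h4
  exact Or.inr (om_of_tau hN h5' hh hst G (T.ad i) hi (h1.trans EO_le_O) (hd i) (hs i))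

end Cfsg.Agent.H1.TF
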