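import Cfsg.Agent.H1.TF1

set_option autoImplicit false
set_option linter.unusedSectionVars false

/-! Good frames; an isotropic line determines its frame. -/

namespace Cfsg.Agent.H1.TF

open Module TW SF

variable {F : Type*} [Field F] [StarRing F] {U V : Type*} [AddCommGroup U] [Module F U]
  [AddCommGroup V] [Module F V] [FiniteDimensional F U] [FiniteDimensional F V] [Nontrivial V]
  [StarRing (End F V)] [StarModule F (End F V)]

def Ad (f : SF F U) (ρ : Fr F U V) : Prop := ∀ a b, star (f.R ρ a b) = -f.R ρ b a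

def Uni (M : Subgroup (End F V)ˣ) : Prop := ∀ g ∈ M, star (g : End F V) = ↑g⁻¹

variable {f : SF F U} {ρ ρ' σ σ' : Fr F U V} {M : Subgroup (End F V)ˣ}

theorem Uni.inv (hM : Uni M) {g : (End F V)ˣ} (hg : g ∈ M) : star (↑g⁻¹ : End F V) = g := by
  rw [hM _ (M.inv_mem hg), inv_inv]

theorem Uni.mul (hM : Uni M) {z : End F V} (h : IM M z) : star z * z = 1 := by
  obtain ⟨g, hg, rfl⟩ := h
  rw [hM g hg, Units.inv_mul]

theorem Uni.mul' (hM : Uni M) {z : End F V} (h : IM M z) : z * star z = 1 := by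
  obtain ⟨g, hg, rfl⟩ := h
  rw [hM g hg, Units.mul_inv]

theorem Uni.star (hM : Uni M) {z : End F V} (h : IM M z) : IM M (star z) := by
  obtain ⟨g, hg, rfl⟩ := h
  exact ⟨g⁻¹, M.inv_mem hg, (hM g hg).symm⟩

theorem Ad.cf (h : Ad f ρ) (hM : Uni M) {g : (End F V)ˣ} (hg : g ∈ M) : Ad f (cf g ρ) := fun a b => by
  rw [R_cf, R_cf, star_mul, star_mul, h, hM g hg, hM.inv hg]; simp [mul_assoc]

theorem Ad.cm (h : Ad f ρ) {c : End F V} (hc : Cm ρ c) : Cm ρ (star c) := cm_of_r1 fun a χ => by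
  obtain ⟨b, rfl⟩ := f.surj χ
  change _ * f.R ρ a b = f.R ρ a b * _
  have := congrArg star (hc.R (f := f) b a)
  rw [star_mul, star_mul, h, mul_neg, neg_mul, neg_inj] at this
  exact this.symm

theorem Ad.mul (h : Ad f ρ) {c : End F V} (hc : Cm ρ c) (a b : U) :
    star (f.R ρ a b * c) = -(f.R ρ b a * star c) := by
  rw [star_mul, h, mul_neg, (h.cm hc).R]

theorem perp_symm (h : Ad f ρ) (h' : Ad f ρ') {a b : U} (hb : b ≠ 0)
    (hab : ∀ v ∈ Ln ρ a, f.R ρ' b b v = 0) {v : V} (hv : v ∈ Ln ρ' b) (y : U) : f.R ρ y a v = 0 := by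
  have e : f.R ρ' b b * f.R ρ a y = 0 := LinearMap.ext fun w => hab _ (R_mem _ _ _)
  have := congrArg star e
  rw [star_mul, h, h', neg_mul_neg, star_zero] at this
  rw [← range_R (f := f) hb hb] at hv
  obtain ⟨w, rfl⟩ := hv
  exact congrArg (fun z => z w) this

theorem iso_of_Ln (h : Ad f ρ) (h' : Ad f ρ') {z u : U} (hz : z ≠ 0) (hu : u ≠ 0) (h0 : f u u = 0)
    (hL : Ln ρ z ≤ Ln ρ' u) : f z z = 0 := by
  obtain ⟨v, hv, hv0⟩ := Ln_ne_bot (ρ := ρ) hz
  have := perp_symm h h' hu (fun v hv => R_zero (hL hv) _ h0) (hL hv) z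
  rw [R_Ln hv] at this
  exact (smul_eq_zero.mp this).resolve_right hv0

/-- nilpotent part of an Eichler element -/
def Ee (f : SF F U) (ρ : Fr F U V) (u b : U) (c : F) : End F V :=
  f.R ρ u b + f.R ρ b u + c • f.R ρ u u

theorem Ee_L {u b : U} (c : F) (h0 : f u u = 0) (hb : f b u = 0) {v : V} (hv : v ∈ Ln ρ u) :
    Ee f ρ u b c v = 0 := by
  simp [Ee, R_zero hv _ h0, R_zero hv _ (symm0 hb)]

theorem Ee_K {u : U} (hu : u ≠ 0) (b : U) (c : F) {v : V} (hv : f.R ρ u u v = 0) :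
    Ee f ρ u b c v = f.R ρ u b v := by
  simp [Ee, hv, R_eq_zero hu hv]

theorem Ee_sq {u b : U} (c : F) (h0 : f u u = 0) (hb : f b u = 0) :
    Ee f ρ u b c * Ee f ρ u b c = f b b • f.R ρ u u := by
  simp [Ee, add_mul, mul_add, RR_mul, h0, hb, symm0 hb]

theorem Ee_eq (u b : U) (c : F) :
    Ee f ρ u b c = ρ (r1 u (f.fl b) + r1 b (f.fl u) + c • r1 u (f.fl u)) := by
  simp [Ee, R]

theorem N_sq {u : U} (h0 : f u u = 0) (c : F) : (c • f.R ρ u u) * (c • f.R ρ u u) = 0 := by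
  simp [RR_mul, h0]

structure Good (f : SF F U) (M : Subgroup (End F V)ˣ) (ρ : Fr F U V) : Prop where
  ad : Ad f ρ
  root : ∀ u b c, f u u = 0 → f b u = 0 → c - star c = f b b → IM M (1 + Ee f ρ u b c)
  qt : ∀ u, u ≠ 0 → f u u = 0 → ∀ Z, IM M (1 + Z) → (∀ v ∈ Ln ρ u, Z v = 0) →
    (∀ v, f.R ρ u u v = 0 → Z v ∈ Ln ρ u) → ∃ b c, f b u = 0 ∧ Z = Ee f ρ u b c

theorem rootN (h : ∀ u b c, f u u = 0 → f b u = 0 → c - star c = f b b → IM M (1 + Ee f ρ u b c))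
    {u : U} (h0 : f u u = 0) {l : F} (hl : star l = l) : IM M (1 + l • f.R ρ u u) := by
  simpa [Ee] using h u 0 l h0 (by simp) (by simp [hl])

theorem Good.N (h : Good f M ρ) {u : U} (h0 : f u u = 0) {l : F} (hl : star l = l) :
    IM M (1 + l • f.R ρ u u) := rootN h.root h0 hl

theorem Good.N1 (h : Good f M ρ) {u : U} (h0 : f u u = 0) : IM M (1 + f.R ρ u u) := by
  simpa using h.N h0 (star_one F)

theorem Good.gen (h : Good f M ρ) {t : End F U} (ht : t ∈ f.Gen) : IM M (ρ t) := by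
  induction ht using Submonoid.closure_induction with
  | mem x hx =>
    obtain ⟨u, b, c, h1, h2, h3, rfl⟩ := hx
    rw [map_add, map_one, ← Ee_eq]
    exact h.root u b c h1 h2 h3
  | one => rw [map_one]; exact IM.one
  | mul x y _ _ hx hy => rw [map_mul]; exact hx.mul hy

theorem Ee_cf (g : (End F V)ˣ) (u b : U) (c : F) : Ee f (cf g ρ) u b c = g * Ee f ρ u b c * ↑g⁻¹ := by
  rw [Ee_eq, Ee_eq, cf_apply]

theorem Good.cf (hM : Uni M) (h : Good f M ρ) {g : (End F V)ˣ} (hg : g ∈ M) : Good f M (cf g ρ) := by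
  refine ⟨h.ad.cf hM hg, fun u b c h1 h2 h3 => Ee_cf (f := f) g u b c ▸ (h.root u b c h1 h2 h3).conj' hg,
    fun u hu h0 Z hZ h1 h2 => ?_⟩
  obtain ⟨b, c, h3, h4⟩ := h.qt u hu h0 _ (hZ.conj' (M.inv_mem hg))
    (fun v hv => by simp [h1 _ (mem_Ln_cf.mpr hv)]) (fun v hv => by
      have := h2 ((g : End F V) v) (by simp [R_cf, hv])
      rw [← mem_Ln_cf (g := g)]
      simpa using this)
  exact ⟨b, c, h3, by rw [Ee_cf, ← h4]; simp [mul_assoc]⟩

theorem Good.qtN (hM : Uni M) (h : Good f M ρ) {u : U} (hu : u ≠ 0) (h0 : f u u = 0) {Z : End F V}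
    (hZ : IM M (1 + Z)) (h1 : ∀ v ∈ Ln ρ u, Z v = 0) (h2 : ∀ v, Z v ∈ Ln ρ u) :
    ∃ c : F, star c = c ∧ Z = c • f.R ρ u u := by
  obtain ⟨b, c, h3, rfl⟩ := h.qt u hu h0 Z hZ h1 fun v _ => h2 v
  obtain ⟨s, rfl⟩ : ∃ s : F, b = s • u := by
    by_contra! hb
    obtain ⟨w, h4, h5⟩ := f.exists_pair hb
    refine R_ne (f := f) (ρ := ρ) hu hu (LinearMap.ext fun v => ?_)
    simpa [Ee, R_R, h4, h5] using R_zero (h2 v) u h4
  have e : Ee f ρ u (s • u) c = (star s + s + c) • f.R ρ u u := by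
    simp [Ee, R_smul_left, R_smul_right, add_smul]
  rw [e] at hZ ⊢
  refine ⟨_, ?_, rfl⟩
  generalize star s + s + c = l at hZ
  have := hM.mul hZ
  rw [star_add, star_one, star_smul, h.ad, add_mul, mul_add, mul_add, smul_mul_assoc, smul_mul_assoc,
    mul_smul_comm, neg_mul, neg_mul, mul_smul_comm, RR_mul, h0] at this
  have e2 : (l - star l) • f.R ρ u u = 0 := by
    rw [sub_smul, sub_eq_add_neg, ← smul_neg]
    simpa [add_assoc] using this
  exact (sub_eq_zero.mp ((smul_eq_zero.mp e2).resolve_right (R_ne hu hu))).symm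

theorem Ln_smul_le (s : F) (u : U) : Ln ρ (s • u) ≤ Ln ρ u := fun v hv x hx => hv x (by simp [hx])

theorem N_rel (hM : Uni M) (h : Good f M ρ) (h' : Good f M ρ') {u u' : U} (hu : u ≠ 0) (hu' : u' ≠ 0)
    (h0 : f u u = 0) (h0' : f u' u' = 0) (hL : Ln ρ u = Ln ρ' u') :
    ∃ μ : F, star μ = μ ∧ μ ≠ 0 ∧ f.R ρ' u' u' = μ • f.R ρ u u := by
  obtain ⟨μ, h1, h2⟩ := h.qtN hM hu h0 (h'.N1 h0') (fun v hv => R_zero (hL ▸ hv) _ h0')
    (fun v => hL ▸ R_mem _ _ _)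
  exact ⟨μ, h1, fun e => R_ne hu' hu' (by rw [h2, e, zero_smul]), h2⟩

theorem tor_filt {u : U} (hu : u ≠ 0) {t : End F U} {α β γ : F} (T : f.Tor u t α β γ) :
    (∀ v ∈ Ln ρ u, ρ t v = α • v) ∧ (∀ v, f.R ρ u u v = 0 → ρ t v - β • v ∈ Ln ρ u) ∧
      ∀ v, f.R ρ u u (ρ t v) = γ • f.R ρ u u v := by
  refine ⟨fun v hv => ?_, fun v hv => ?_, fun v => ?_⟩
  · rw [Ln_congr hv (y := α • 1) (by simp [T.h1])]; simp
  · refine ker_le hu (S := (Ln ρ u).comap (ρ t - β • 1)) (fun b hb w hw => ?_) hv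
    obtain ⟨s, hs⟩ := T.h2 b hb
    have := Ln_map hw (t - β • 1)
    rw [map_sub, map_smul, map_one] at this
    exact Ln_smul_le s u (by simpa [hs] using this)
  · have : r1 u (f.fl u) * t = γ • r1 u (f.fl u) := by ext x; simp [T.h3, smul_smul]
    rw [← End.mul_apply, R, ← map_mul, this, map_smul, LinearMap.smul_apply]

theorem mem_of_unit (g : (End F V)ˣ) {A : Submodule F V} (h : ∀ v ∈ A, (g : End F V) v ∈ A) {v : V}
    (hv : (g : End F V) v ∈ A) : v ∈ A := by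
  rw [← map_eq_of_le g h] at hv
  obtain ⟨w, hw, e⟩ := hv
  rwa [← unit_inj g e]

theorem half_tor (G : f.Geo) (h3 : finrank F U ≤ 3) (hM : Uni M) (h : Good f M ρ) (h' : Good f M ρ')
    {u u' : U} (hu : u ≠ 0) (hu' : u' ≠ 0) (h0 : f u u = 0) (h0' : f u' u' = 0)
    (hL : Ln ρ u = Ln ρ' u') {c : End F V} (hc : Cm ρ c) : Cm ρ' c := by
  obtain ⟨μ, -, hμ, hN⟩ := N_rel hM h h' hu hu' h0 h0' hL
  have hK : ∀ v, f.R ρ u u v = 0 → f.R ρ' u' u' v = 0 := fun v hv => by simp [hN, hv]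
  obtain ⟨t, α, β, γ, T⟩ := G.tor h3 u hu h0
  obtain ⟨t', α', β', γ', T'⟩ := G.tor h3 u' hu' h0'
  obtain ⟨a1, a2, a3⟩ := tor_filt (ρ := ρ) hu T
  obtain ⟨b1, b2, b3⟩ := tor_filt (ρ := ρ') hu' T'
  obtain ⟨g, hg, eg⟩ := h.gen T.gen
  obtain ⟨g', hg', eg'⟩ := h'.gen T'.gen
  rw [← eg] at a1 a2 a3
  rw [← eg', ← hL] at b1 b2
  replace b2 := fun v hv => b2 v (hK v hv)
  replace b3 : ∀ v, f.R ρ u u ((g' : End F V) v) = γ' • f.R ρ u u v := fun v => by
    have := b3 v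
    rw [hN, ← eg', LinearMap.smul_apply, LinearMap.smul_apply, smul_comm] at this
    exact smul_right_injective V hμ this
  have sL : ∀ v, (g : End F V) v ∈ Ln ρ u → v ∈ Ln ρ u := fun v =>
    mem_of_unit g fun v hv => a1 v hv ▸ Submodule.smul_mem _ _ hv
  have sL' : ∀ v, (g' : End F V) v ∈ Ln ρ u → v ∈ Ln ρ u := fun v =>
    mem_of_unit g' fun v hv => b1 v hv ▸ Submodule.smul_mem _ _ hv
  have sK : ∀ v, f.R ρ u u ((g : End F V) v) = 0 → f.R ρ u u v = 0 := fun v =>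
    mem_of_unit g (A := LinearMap.ker (f.R ρ u u)) fun v hv => by
      rw [LinearMap.mem_ker] at hv ⊢; rw [a3, hv, smul_zero]
  have sK' : ∀ v, f.R ρ u u ((g' : End F V) v) = 0 → f.R ρ u u v = 0 := fun v =>
    mem_of_unit g' (A := LinearMap.ker (f.R ρ u u)) fun v hv => by
      rw [LinearMap.mem_ker] at hv ⊢; rw [b3, hv, smul_zero]
  have ek : ∀ w, (((g' * g * g'⁻¹ * g⁻¹ : (End F V)ˣ) : End F V) - 1) ((g : End F V) ((g' : End F V) w)) =
      (g' : End F V) ((g : End F V) w) - (g : End F V) ((g' : End F V) w) := fun w => by simp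
  have ev : ∀ v, ∃ w, v = (g : End F V) ((g' : End F V) w) := fun v =>
    ⟨(↑g'⁻¹ : End F V) ((↑g⁻¹ : End F V) v), by simp⟩
  obtain ⟨b, s, -, hk⟩ := h.qt u hu h0 (((g' * g * g'⁻¹ * g⁻¹ : (End F V)ˣ) : End F V) - 1)
    ⟨_, M.mul_mem (M.mul_mem (M.mul_mem hg' hg) (M.inv_mem hg')) (M.inv_mem hg), by simp⟩
    (fun v hv => by
      obtain ⟨w, rfl⟩ := ev v
      have hw := sL' _ (sL _ hv)
      rw [ek, a1 w hw, b1 w hw, map_smul, map_smul, a1 w hw, b1 w hw, smul_comm, sub_self])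
    (fun v hv => by
      obtain ⟨w, rfl⟩ := ev v
      have hw := sK' _ (sK _ hv)
      have e : (g' : End F V) ((g : End F V) w) - (g : End F V) ((g' : End F V) w) =
          (α' - β') • ((g : End F V) w - β • w) - (α - β) • ((g' : End F V) w - β' • w) := by
        have e1 := b1 _ (a2 w hw)
        have e2 := a1 _ (b2 w hw)
        rw [map_sub, map_smul] at e1 e2
        linear_combination (norm := module) e1 - e2
      rw [ek, e]
      exact Submodule.sub_mem _ (Submodule.smul_mem _ _ (a2 w hw)) (Submodule.smul_mem _ _ (b2 w hw)))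
  have cg : c * g = g * c := by rw [eg]; exact hc _
  have ck : c * (g' * g * ↑g'⁻¹) = g' * g * ↑g'⁻¹ * c := by
    have e : (g' * g * ↑g'⁻¹ : End F V) = (1 + Ee f ρ u b s) * g := by rw [← hk]; simp [mul_assoc]
    rw [e, ← mul_assoc, mul_add, Ee_eq, hc, mul_one, mul_assoc, ← cg, add_mul, add_mul, one_mul, mul_assoc]
  set D := (↑g'⁻¹ : End F V) * c * g' - c with hD
  have Dg : ∀ v, D ((g : End F V) v) = (g : End F V) (D v) := fun v => by
    have e1 := congrArg (fun z => (↑g'⁻¹ : End F V) (z ((g' : End F V) v))) ck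
    have e2 := congrArg (fun z => z v) cg
    simp only [End.mul_apply, inv_app] at e1 e2
    simp [hD, e1, e2]
  have eD : ∀ v, (g' : End F V) (D v) = c ((g' : End F V) v) - (g' : End F V) (c v) := fun v => by simp [hD]
  have cN : ∀ v, f.R ρ u u (c v) = c (f.R ρ u u v) := fun v => (hc.apply _ v).symm
  have D1 : ∀ v ∈ Ln ρ u, D v = 0 := fun v hv => unit_eq_zero g' (by
    rw [eD, b1 v hv, b1 _ (hc.mem_Ln hv), map_smul, sub_self])
  have D2 : ∀ v, f.R ρ u u v = 0 → D v = 0 := fun v hv => by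
    have e1 : D v ∈ Ln ρ u := sL' _ (by
      have := (Ln ρ u).sub_mem (hc.mem_Ln (b2 v hv)) (b2 (c v) (by rw [cN, hv, map_zero]))
      rw [eD]; simpa using this)
    have e2 := D1 _ (a2 v hv)
    rw [map_sub, map_smul, Dg, a1 _ e1, ← sub_smul] at e2
    exact (smul_eq_zero.mp e2).resolve_left (sub_ne_zero.mpr T.ab)
  have D3 : ∀ v, D v = 0 := fun v => by
    have e1 : f.R ρ u u (D v) = 0 := sK' _ (by rw [eD, map_sub, cN, b3, b3, cN, map_smul, sub_self])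
    have e2 := D2 ((g : End F V) v - γ • v) (by rw [map_sub, a3, map_smul, sub_self])
    rw [map_sub, map_smul, Dg, sub_eq_zero] at e2
    have e3 := a2 _ e1
    rw [e2, ← sub_smul, Submodule.smul_mem_iff _ (sub_ne_zero.mpr T.bc.symm)] at e3
    rw [a1 _ e3, ← sub_eq_zero, ← sub_smul] at e2
    exact (smul_eq_zero.mp e2).resolve_left (sub_ne_zero.mpr T.ac)
  have ct : c * ρ' t' = ρ' t' * c := LinearMap.ext fun v => by
    have := eD v
    rw [D3, map_zero, eq_comm, sub_eq_zero, eg'] at this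
    exact this
  -- the idempotent
  obtain ⟨w, hw⟩ := f.exists_right hu'
  obtain ⟨a, ha⟩ := f.surj (f.fl w ∘ₗ ((t' - β' • 1) * (t' - γ' • 1)))
  have ea : (t' - β' • 1) * (t' - γ' • 1) = r1 u' (f.fl a) := by
    ext x
    obtain ⟨s, hs⟩ := T'.h2 ((t' - γ' • 1) x) (by simp [T'.h3])
    have e : ((t' - β' • 1) * (t' - γ' • 1) : End F U) x = s • u' := by
      rw [End.mul_apply, LinearMap.sub_apply, hs]; simp
    rw [r1_apply, ha, LinearMap.comp_apply, e]; simp [hw]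
  have ha0 : f u' a ≠ 0 := by
    have := congrArg (fun z => f (z u') w) ea
    simp only [End.mul_apply, LinearMap.sub_apply, T'.h1, map_sub, map_smul, LinearMap.smul_apply,
      End.one_apply, r1_apply, fl_apply, sub_left, smul_left, hw] at this
    intro e
    have e2 : (α' - β') * (α' - γ') = 0 := by rw [e] at this; linear_combination this
    exact (mul_ne_zero (sub_ne_zero.mpr T'.ab) (sub_ne_zero.mpr T'.ac)) e2
  have ca : c * f.R ρ' u' a = f.R ρ' u' a * c := by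
    rw [R, ← ea, map_mul, map_sub, map_sub, map_smul, map_smul, map_one, ← mul_assoc, mul_assoc _ _ c]
    simp only [mul_sub, sub_mul, mul_smul_comm, smul_mul_assoc, mul_one, one_mul, ct, mul_assoc]
  have cN' : c * f.R ρ' u' u' = f.R ρ' u' u' * c := by rw [hN, mul_smul_comm, smul_mul_assoc, hc.R]
  have cb : ∀ b, f b u' = 0 → c * f.R ρ' u' b = f.R ρ' u' b * c := by
    intro b hb
    obtain ⟨s, hs⟩ := G.sol b
    obtain ⟨b₁, s₁, -, e⟩ := h.qt u hu h0 _ (h'.root u' b s h0' hb hs) (fun v hv => Ee_L s h0' hb (hL ▸ hv))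
      (fun v hv => by rw [Ee_K hu' _ _ (hK v hv), hL]; exact R_mem _ _ _)
    have e1 : c * Ee f ρ' u' b s = Ee f ρ' u' b s * c := by rw [e, Ee_eq, hc]
    have e2 : c * (f.R ρ' u' a * Ee f ρ' u' b s) = f.R ρ' u' a * Ee f ρ' u' b s * c := by
      rw [← mul_assoc, ca, mul_assoc, e1, mul_assoc]
    simp only [Ee, mul_add, add_mul, RR_mul, mul_smul_comm, smul_mul_assoc, cN', add_left_inj] at e2
    exact smul_right_injective _ ha0 e2
  refine cm_of_row (f := f) hu' fun b => ?_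
  have e : b = (b - (f b u' / f a u') • a) + (f b u' / f a u') • a := by abel
  rw [e, R_add_right, R_smul_right, mul_add, add_mul, mul_smul_comm, smul_mul_assoc, ca,
    cb _ (by simp [symm_ne ha0])]

theorem line_prop (hM : Uni M) (h : Good f M ρ) (h' : Good f M ρ') {u u' : U} (hu : u ≠ 0)
    (hu' : u' ≠ 0) (h0 : f u u = 0) (h0' : f u' u' = 0) (hL : Ln ρ u = Ln ρ' u') {b' : U} (hb0 : b' ≠ 0)
    (hb : f b' b' = 0) (hbu : f b' u' = 0) :
    (∃ x, ρ x = f.R ρ' b' b') ∧ ∃ z, z ≠ 0 ∧ f z z = 0 ∧ Ln ρ z = Ln ρ' b' := by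
  suffices hx : ∃ x, ρ x = f.R ρ' b' b' by
    obtain ⟨x, hx⟩ := hx
    obtain ⟨z, hz, e⟩ := rank_one_range (ρ := ρ) (x := x) (ρ' := ρ') hb0 (by rw [hx, range_R hb0 hb0])
    exact ⟨⟨x, hx⟩, z, hz, iso_of_Ln h.ad h'.ad hz hb0 hb e.le, e⟩
  obtain ⟨μ, hμs, hμ, hN⟩ := N_rel hM h h' hu hu' h0 h0' hL
  have hK : ∀ v, f.R ρ u u v = 0 → f.R ρ' u' u' v = 0 := fun v hv => by simp [hN, hv]
  obtain ⟨b, c, hb1, e⟩ := h.qt u hu h0 _ (h'.root u' b' 0 h0' hbu (by simp [hb]))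
    (fun v hv => Ee_L 0 h0' hbu (hL ▸ hv))
    (fun v hv => by rw [Ee_K hu' _ _ (hK v hv), hL]; exact R_mem _ _ _)
  have s1 : ∀ v, f.R ρ u u v = 0 → f.R ρ' u' b' v = f.R ρ u b v := fun v hv => by
    rw [← Ee_K hu' b' 0 (hK v hv), e, Ee_K hu _ _ hv]
  have s2 : f b b = 0 := by
    have := Ee_sq (ρ := ρ') 0 h0' hbu
    rw [e, Ee_sq _ h0 hb1, hb, zero_smul] at this
    exact (smul_eq_zero.mp this).resolve_right (R_ne hu hu)
  have s3 : ∀ y, f.R ρ' b' u' y - f.R ρ b u y ∈ Ln ρ u := fun y => by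
    have := congrArg (fun z => z y) e
    simp only [Ee, LinearMap.add_apply, LinearMap.smul_apply, zero_smul, add_zero] at this
    have e2 : f.R ρ' b' u' y - f.R ρ b u y = f.R ρ u b y + c • f.R ρ u u y - f.R ρ' u' b' y := by
      linear_combination (norm := module) this
    rw [e2]
    exact Submodule.sub_mem _ (Submodule.add_mem _ (R_mem _ _ _) (Submodule.smul_mem _ _ (R_mem _ _ _)))
      (hL ▸ R_mem _ _ _)
  have s4 : ∀ v, f.R ρ u u v = 0 → f.R ρ' b' b' v - μ⁻¹ • f.R ρ b b v ∈ Ln ρ u := fun v hv => by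
    obtain ⟨v', hv'⟩ := f.exists_left hu'
    obtain ⟨a', ha'⟩ := f.exists_right hu'
    obtain ⟨a, ha⟩ := f.exists_right hu
    have := s3 (f.R ρ' v' a' (f.R ρ' u' b' v))
    have e1 : f.R ρ u u (f.R ρ' v' a' (f.R ρ' u' b' v)) = μ⁻¹ • f.R ρ u b v := by
      rw [eq_inv_smul_iff₀ hμ, ← LinearMap.smul_apply, ← hN, R_R, R_R, hv', ha', one_smul, one_smul, s1 v hv]
    have e2 := R_R (f := f) (ρ := ρ) b a u u (f.R ρ' v' a' (f.R ρ' u' b' v))
    rw [e1, map_smul, R_R, ha, one_smul, one_smul] at e2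
    rwa [← e2, R_R, R_R, hv', ha', one_smul, one_smul] at this
  have hs : star μ⁻¹ = μ⁻¹ := by rw [star_inv₀, hμs]
  have hn := ((h.N s2 hs).neg (N_sq s2 _)).mul (h'.N1 hb)
  obtain ⟨b₁, c₁, -, e1⟩ := h.qt u hu h0 ((1 - μ⁻¹ • f.R ρ b b) * (1 + f.R ρ' b' b') - 1) (by simpa using hn)
    (fun v hv => by simp [R_zero hv _ (symm0 hb1), R_zero (hL ▸ hv) _ (symm0 hbu)])
    (fun v hv => by
      have e2 := R_zero (s4 v hv) b (symm0 hb1)
      rw [map_sub, map_smul, R_R, s2, zero_smul, smul_zero, sub_zero] at e2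
      have := s4 v hv
      convert this using 1
      simp [e2]; abel)
  refine ⟨(1 + μ⁻¹ • r1 b (f.fl b)) * (1 + (r1 u (f.fl b₁) + r1 b₁ (f.fl u) + c₁ • r1 u (f.fl u))) - 1, ?_⟩
  rw [map_sub, map_mul, map_add, map_add ρ 1, ← Ee_eq, ← e1, map_one, map_smul]
  change (1 + μ⁻¹ • f.R ρ b b) * _ - 1 = _
  rw [add_sub_cancel, ← mul_assoc, add_mul, mul_sub, mul_sub, N_sq s2]
  simp

/-- an isotropic line determines the frame -/
theorem same_of_Ln (G : f.Geo) (hM : Uni M) (h : Good f M ρ) (h' : Good f M ρ') {u u' : U} (hu : u ≠ 0)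
    (hu' : u' ≠ 0) (h0' : f u' u' = 0) (hL : Ln ρ u = Ln ρ' u') : Same ρ ρ' := by
  have h0 := iso_of_Ln h.ad h'.ad hu hu' h0' hL.le
  by_cases h3 : finrank F U ≤ 3
  · exact same_of_range fun x => mem_range_of_comm fun _ hc =>
      (half_tor G h3 hM h h' hu hu' h0 h0' hL hc x).symm
  refine same_of_range fun x => G.mem_of_N (ρ := ρ') (I := ρ.range.toSubmodule)
    (fun _ hx _ hy => Subalgebra.mul_mem _ hx hy) (fun a ha => ?_) x
  by_cases ha0 : a = 0
  · simp [ha0]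
  by_cases hau : f a u' = 0
  · exact (line_prop hM h h' hu hu' h0 h0' hL ha0 ha hau).1
  obtain ⟨b, h1, h2, h4⟩ := G.exists_perp_iso (by omega) hu' h0'
  have hua := symm_ne hau
  obtain ⟨-, z, h5, h6, h7⟩ := line_prop hM h h' hu hu' h0 h0' hL (b' := b - (f b a / f u' a) • u')
    (sub_ne_zero.mpr (h4 _)) (by simp [h1, h2, symm0 h2, h0']) (by simp [h2, h0'])
  exact (line_prop hM h h' h5 (sub_ne_zero.mpr (h4 _)) h6 (by simp [h1, h2, symm0 h2, h0']) h7 ha0 ha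
    (symm0 (by simp [hua]))).1

theorem same_of_stab (G : f.Geo) (hM : Uni M) (h : Good f M ρ) {u : U} (hu : u ≠ 0) (h0 : f u u = 0)
    {g : (End F V)ˣ} (hg : g ∈ M) (hs : ∀ v ∈ Ln ρ u, (g : End F V) v ∈ Ln ρ u) : Same ρ (cf g ρ) :=
  same_of_Ln G hM h (h.cf hM hg) hu hu h0 (by rw [Ln_cf, map_eq_of_le g hs])

end Cfsg.Agent.H1.TF
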