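import Cfsg.Agent.H1.TF2

set_option autoImplicit false
set_option linter.unusedSectionVars false

/-! Long root elements normalising a frame or moving it to a commuting frame. -/

namespace Cfsg.Agent.H1.TF

open Module TW SF

variable {F : Type*} [Field F] [StarRing F] {U V : Type*} [AddCommGroup U] [Module F U]
  [AddCommGroup V] [Module F V] [FiniteDimensional F U] [FiniteDimensional F V] [Nontrivial V]
  [StarRing (End F V)] [StarModule F (End F V)]

variable {f : SF F U} {ρ ρ' σ σ' : Fr F U V} {M : Subgroup (End F V)ˣ}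

theorem lemC1 (h2 : (2 : F) ≠ 0) {N : End F V} (hN : N * N = 0) {k : (End F U)ˣ} {c : (End F V)ˣ}
    (hc : Cm σ (c : End F V)) (hg : 1 + N = σ k * c) {a : U} (hka : ∀ s : F, (k : End F U) a ≠ s • a) :
    ∃ x, σ x = N := by
  have ha : a ≠ 0 := by rintro rfl; exact hka 0 (by simp)
  obtain ⟨β, α, h1, h3, -, -⟩ := exists_dual_basis_two ha hka
  have e2 : (β ((k : End F U) ((k : End F U) a)) / 2) • (c : End F V) = 1 := scalar_on hc ha fun w hw => by
    have e : (1 + N) ((1 + N) w) = (2 : F) • (1 + N) w - w := by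
      have : N (N w) = 0 := by rw [← End.mul_apply, hN]; rfl
      simp [this, two_smul]; abel
    have := congrArg (σ (r1 a β)) e
    rw [hg, map_sub, map_smul, r1_Ln_zero hw _ h3, sub_zero, End.mul_apply, End.mul_apply, hc.apply,
      ← End.mul_apply (σ _) (σ _), ← map_mul, ← End.mul_apply (σ _) (σ _), ← map_mul,
      ← End.mul_apply (σ _) (σ _), ← map_mul, r1_mul', r1_mul', r1_Ln (hc.mem_Ln (hc.mem_Ln hw)),
      r1_Ln (hc.mem_Ln hw)] at this
    simp only [LinearMap.comp_apply, End.mul_apply, h1, one_smul] at this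
    apply unit_inj c
    rw [map_smul, div_eq_inv_mul, mul_smul, this, smul_smul, inv_mul_cancel₀ h2, one_smul]
  set l := β ((k : End F U) ((k : End F U) a)) / 2
  have hl : l ≠ 0 := by
    intro h0
    rw [h0, zero_smul] at e2
    exact zero_ne_one e2
  have : (c : End F V) = l⁻¹ • 1 := by rw [← e2, smul_smul, inv_mul_cancel₀ hl, one_smul]
  refine ⟨l⁻¹ • (k : End F U) - 1, ?_⟩
  rw [map_sub, map_one, map_smul, sub_eq_iff_eq_add', hg, this, mul_smul_comm, mul_one]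

theorem range_smul_N {w : U} (hw : w ≠ 0) {l : F} (hl : l ≠ 0) :
    LinearMap.range (l • f.R σ w w) = Ln σ w := by rw [LinearMap.range_smul _ _ hl, range_R hw hw]

theorem lemC0 (G : f.Geo) (hM : Uni M) (h : Good f M σ) (h' : Good f M σ') {w : U} (hw : w ≠ 0)
    (h0 : f w w = 0) {l : F} (hl : l ≠ 0) (hs : Same σ (cf (un _ (N_sq (ρ := σ') h0 l)) σ)) :
    Same σ σ' ∨ Cm σ (f.R σ' w w) := by
  obtain ⟨k, c, hc, hg⟩ := hs.decomp
  by_cases hk : ∀ a, ∃ s : F, (k : End F U) a = s • a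
  · right
    obtain ⟨s, hs⟩ := H6.eig_const (k : End F U) LinearMap.id (fun _ _ h => h) hk
    have : (k : End F U) = s • 1 := LinearMap.ext hs
    rw [this, map_smul, map_one, smul_mul_assoc, one_mul, un_val] at hg
    have e : f.R σ' w w = l⁻¹ • (s • (c : End F V) - 1) := by rw [← hg, eq_inv_smul_iff₀ hl]; simp
    rw [e]
    exact ((hc.smul s).sub Cm.one).smul _
  · left
    push Not at hk
    obtain ⟨a, ha⟩ := hk
    have ha0 : a ≠ 0 := by rintro rfl; exact ha 0 (by simp)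
    have e : (un _ (N_sq (ρ := σ') h0 l) : End F V) - 1 = l • f.R σ' w w := by simp
    obtain ⟨z, hz, e2⟩ : ∃ z, z ≠ 0 ∧ Ln σ z = Ln σ' w := by
      by_cases h3 : 3 ≤ finrank F U
      · obtain ⟨z, hz, e2⟩ := lemC2 h3 hc hg ha (by
          rw [e, range_smul_N hw hl]; exact (finrank_Ln_eq hw ha0).le)
        exact ⟨z, hz, by rw [← e2, e, range_smul_N hw hl]⟩
      · obtain ⟨x, hx⟩ := lemC1 (G.dim2 (by have := G.two; omega)).2.2.1 (N_sq h0 l) hc hg ha
        exact rank_one_range (x := x) hw (by rw [hx, range_smul_N hw hl])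
    exact same_of_Ln G hM h h' hz hw h0 e2

theorem lemC (G : f.Geo) (hM : Uni M) (h : Good f M σ) (h' : Good f M σ') {w : U} (hw : w ≠ 0)
    (h0 : f w w = 0) {l : F} (hl : l ≠ 0) (hs : Same σ (cf (un _ (N_sq (ρ := σ') h0 l)) σ)) :
    Rel σ σ' := by
  rcases lemC0 G hM h h' hw h0 hl hs with h1 | h1
  · exact Or.inl h1
  by_cases hS : Same σ' σ
  · exact Or.inl hS.symm
  have key : ∀ a, f a a = 0 → Cm σ' (f.R σ a a) := by
    intro a h2
    by_cases ha : a = 0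
    · simpa [ha] using Cm.zero
    refine (lemC0 G hM h' h ha h2 one_ne_zero
      (same_of_stab G hM h' hw h0 ((im_iff _).mp (h.N h2 (star_one F))) ?_)).resolve_left hS
    rw [← range_R (f := f) hw hw]
    rintro _ ⟨v, rfl⟩
    refine ⟨v + f.R σ a a v, ?_⟩
    rw [un_val, one_smul, LinearMap.add_apply, End.one_apply, map_add]
    exact congrArg _ (h1.apply _ v)
  exact Or.inr fun x => G.cm_of_N fun a h2 => (key a h2 x).symm

section D
variable {N : End F V} (hN : N * N = 0)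

theorem lemD0' (G : f.Geo) (hc : Comm σ (cf (un N hN) σ)) : (2 : F) = 0 := by
  by_contra h2
  obtain ⟨a, ha, -⟩ := G.exists_iso
  obtain ⟨b, α, β, h4, h5, h6, h7⟩ := G.exists_partner ha
  set y := un N hN with hy
  have hyy : ∀ v, (↑(y * y) : End F V) v = (2 : F) • (y : End F V) v - v := by
    intro v
    have : N (N v) = 0 := by rw [← End.mul_apply, hN]; rfl
    simp only [hy, Units.val_mul, un_val, End.mul_apply, LinearMap.add_apply, End.one_apply, map_add, this,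
      two_smul]
    abel
  have hc2 : Comm (cf (y * y) σ) (cf y σ) := by rw [cf_mul]; exact (hc.cf y).symm
  have s1 : ∀ v ∈ Ln σ a, (↑(y * y) : End F V) v ∈ Ln σ a := by
    intro v hv
    refine mem_Ln_of ha fun χ hχ => ?_
    have s0 : ∀ x, cf y σ x (σ (r1 a χ) ((↑(y * y) : End F V) v)) ∈ Ln (cf y σ) a := by
      intro x
      have := (hc2 x).mem_Ln (mem_Ln_cf.mpr hv)
      rw [Ln_cf] at this
      obtain ⟨v', hv', e⟩ := this
      rw [(hc x).apply, ← e, hyy, map_sub, r1_Ln_zero hv' _ hχ, sub_zero, map_smul]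
      exact Submodule.smul_mem _ _ ((hc.symm _).mem_Ln (mem_Ln_cf.mpr hv'))
    have e1 := Ln_disjoint h6 h7 (s0 (r1 b α)) (r1_mem_Ln _ _ _)
    have e2 := s0 1
    rw [map_one, End.one_apply] at e2
    rw [← r1_Ln_one e2 h4]
    have := rho_r1_apply (cf y σ) a b β α (σ (r1 a χ) ((↑(y * y) : End F V) v))
    rw [e1, map_zero, h7, one_smul] at this
    exact this.symm
  have s2 : ∀ v ∈ Ln σ a, (y : End F V) v ∈ Ln σ a := by
    intro v hv
    have := (Ln σ a).smul_mem (2 : F)⁻¹ ((Ln σ a).add_mem (s1 v hv) hv)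
    rwa [hyy, sub_add_cancel, smul_smul, inv_mul_cancel₀ h2, one_smul] at this
  have s3 : Ln (cf y σ) a = Ln σ a := by rw [Ln_cf, map_eq_of_le y s2]
  obtain ⟨w, hw, hw0⟩ := Ln_ne_bot (ρ := σ) ha
  have e1 : σ (r1 b α) w = 0 :=
    Ln_disjoint h6 h7 (s3 ▸ (hc.symm _).mem_Ln (s3.symm ▸ hw)) (r1_mem_Ln _ _ _)
  have := rho_r1_apply σ a b β α w
  rw [e1, map_zero, h7, one_smul, r1_Ln_one hw h4] at this
  exact hw0 this.symm

theorem lemD4 (h4' : 4 ≤ finrank F U) (hc : Comm σ (cf (un N hN) σ)) {a : U} (ha : a ≠ 0)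
    (hr : finrank F (LinearMap.range N) ≤ finrank F (Ln σ a)) : False := by
  have h3 : 3 ≤ finrank F U := by omega
  have h2 := lemD0 hN h3 hc
  obtain ⟨b, α, β, h4, h5, h6, h7⟩ := exists_partner h3 ha
  have hb : b ≠ 0 := by rintro rfl; simp at h7
  set y := un N hN with hy
  set σ₂ := cf y σ with hσ₂
  have hσ : cf y σ₂ = σ := by rw [hσ₂, ← cf_mul, un_mul_self hN h2, cf_one]
  have hNv : ∀ v, N v = (y : End F V) v - v := fun v => by simp [hy]
  have d1 : finrank F (Ln σ a) = finrank F U * finrank F (Ln σ a ⊓ Ln σ₂ a : Submodule F V) :=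
    finrank_inv _ (fun x v hv => (hc x).mem_Ln hv) ha
  have d2 : finrank F (Ln σ b) = finrank F U * finrank F (Ln σ b ⊓ Ln σ₂ a : Submodule F V) :=
    finrank_inv _ (fun x v hv => (hc x).mem_Ln hv) ha
  have d3 : finrank F (Ln σ b) = finrank F (Ln σ a) := finrank_Ln_eq hb ha
  have d4 : finrank F (Ln σ b ⊓ Ln σ₂ a : Submodule F V) = finrank F (Ln σ a ⊓ Ln σ₂ a : Submodule F V) :=
    Nat.eq_of_mul_eq_mul_left (by omega) (d2.symm.trans (d3.trans d1))
  set S₁ := Ln σ b ⊓ LinearMap.ker (σ₂ (r1 a α)) with hS₁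
  set S := S₁ ⊓ LinearMap.ker (σ₂ (r1 a β)) with hS
  have f1 := fr_map (σ₂ (r1 a α)) (Ln σ b)
  have f2 := fr_map (σ₂ (r1 a β)) S₁
  have f3 : finrank F ((Ln σ b).map (σ₂ (r1 a α))) ≤ finrank F (Ln σ b ⊓ Ln σ₂ a : Submodule F V) :=
    Submodule.finrank_mono (by
      rintro _ ⟨v, hv, rfl⟩; exact ⟨(hc _).mem_Ln hv, r1_mem_Ln _ _ _⟩)
  have f4 : finrank F (S₁.map (σ₂ (r1 a β))) ≤ finrank F (Ln σ b ⊓ Ln σ₂ a : Submodule F V) :=
    Submodule.finrank_mono (by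
      rintro _ ⟨v, hv, rfl⟩; exact ⟨(hc _).mem_Ln hv.1, r1_mem_Ln _ _ _⟩)
  have key : ∀ v ∈ S, ∀ w ∈ Ln σ a, N v = N w → v = 0 := by
    intro v hv w hw e
    have e1 : σ (r1 b β) ((y : End F V) v) = 0 := by
      conv_lhs => rw [← hσ]
      have := rho_r1_apply σ₂ b a α β v
      rw [h4, one_smul, LinearMap.mem_ker.mp hv.2, map_zero] at this
      rw [cf_app, ← this, map_zero]
    have e2 := congrArg (σ (r1 b β)) e
    rw [hNv, hNv, map_sub, map_sub, e1, r1_Ln_one hv.1.1 h7, r1_Ln_zero hw _ h6,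
      zero_sub, sub_zero] at e2
    have e3 : -v ∈ Ln σ₂ a := e2 ▸ (hc.symm _).mem_Ln (mem_Ln_cf.mpr hw)
    rw [← r1_Ln_one ((Ln σ₂ a).neg_mem_iff.mp e3) h4]
    exact hv.1.2
  have f5 : finrank F (S.map N) = finrank F S :=
    fr_map_inj _ _ fun v hv h0 => key v hv 0 (Submodule.zero_mem _) (by simp [h0])
  have f6 := fr_map N (Ln σ a)
  have f7 : Ln σ a ⊓ LinearMap.ker N ≤ Ln σ a ⊓ Ln σ₂ a := by
    rintro v ⟨h8, h9⟩
    refine ⟨h8, ?_⟩
    have : (y : End F V) v = v := by rw [← sub_eq_zero, ← hNv]; exact h9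
    rw [← this]
    exact mem_Ln_cf.mpr h8
  have f8 := Submodule.finrank_mono f7
  have f9 := Submodule.finrank_sup_add_finrank_inf_eq ((Ln σ a).map N) (S.map N)
  have f10 : (Ln σ a).map N ⊓ S.map N = ⊥ := by
    rw [eq_bot_iff]
    rintro _ ⟨⟨w, hw, rfl⟩, v, hv, e⟩
    rw [Submodule.mem_bot, ← e, key v hv w hw e, map_zero]
  have f11 : (Ln σ a).map N ⊔ S.map N ≤ LinearMap.range N :=
    sup_le LinearMap.map_le_range LinearMap.map_le_range
  have f12 := Submodule.finrank_mono f11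
  rw [f10, finrank_bot] at f9
  have f13 : 4 * finrank F (Ln σ a ⊓ Ln σ₂ a : Submodule F V) ≤ finrank F (Ln σ a) := by
    rw [d1]; exact Nat.mul_le_mul_right _ h4'
  rw [← hS₁] at f1
  rw [← hS] at f2
  have g1 : finrank F (Ln σ a ⊓ Ln σ₂ a : Submodule F V) = 0 := by omega
  rw [g1, mul_zero, Submodule.finrank_eq_zero] at d1
  obtain ⟨v, hv, hv0⟩ := Ln_ne_bot (ρ := σ) ha
  exact hv0 (by rwa [d1] at hv)

end D

theorem no_comm (G : f.Geo) {u' : U} (hu' : u' ≠ 0) (h0 : f u' u' = 0)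
    (h : ∀ l : F, l ≠ 0 → star l = l → Comm ρ (cf (un _ (N_sq (ρ := ρ') h0 l)) ρ)) : False := by
  have c1 := h 1 one_ne_zero (star_one F)
  have h2 := lemD0' _ G c1
  have hr : finrank F (LinearMap.range ((1 : F) • f.R ρ' u' u')) ≤ finrank F (Ln ρ u') := by
    rw [range_smul_N hu' one_ne_zero]; exact (finrank_Ln_eq hu' hu').le
  by_cases h4 : 4 ≤ finrank F U
  · exact lemD4 _ h4 c1 hu' hr
  have h3 : 3 ≤ finrank F U := by
    by_contra h3
    exact (G.dim2 (by have := G.two; omega)).2.2.1 h2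
  obtain ⟨l, hl, hl0, hl1⟩ := G.small (by omega)
  have c2 := h l hl0 hl
  have c3 := h (1 + l) (fun e => hl1 (by linear_combination e - h2)) (by simp [hl])
  set x₁ := un _ (N_sq (ρ := ρ') h0 1) with hx₁
  set x₂ := un _ (N_sq (ρ := ρ') h0 l) with hx₂
  have e12 : un _ (N_sq (ρ := ρ') h0 (1 + l)) = x₁ * x₂ := Units.ext (by
    simp [hx₁, hx₂, add_mul, mul_add, RR_mul, h0, add_smul]; abel)
  rw [e12] at c3
  have c4 := c3.cf x₁
  rw [← cf_mul, ← mul_assoc, hx₁, un_mul_self _ h2, one_mul] at c4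
  have c5 : ∀ z, ρ z * ((1 : F) • f.R ρ' u' u') = ((1 : F) • f.R ρ' u' u') * ρ z := by
    intro z
    have e := lemD2 _ h3 c1 hu' hr (c2 z) (c4 z)
    have e2 : (x₂ : End F V) * ((1 : F) • f.R ρ' u' u') = ((1 : F) • f.R ρ' u' u') * x₂ := by
      simp [hx₂, add_mul, mul_add]
    have e3 : (↑x₂⁻¹ : End F V) * ((1 : F) • f.R ρ' u' u') = ((1 : F) • f.R ρ' u' u') * ↑x₂⁻¹ := by
      rw [Units.inv_mul_eq_iff_eq_mul, ← mul_assoc, e2, Units.mul_inv_cancel_right]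
    rw [cf_apply, mul_assoc, e3, ← mul_assoc, ← mul_assoc, Units.mul_left_inj, ← mul_assoc, ← e2, mul_assoc,
      mul_assoc, Units.mul_right_inj] at e
    exact e
  have c6 : cf x₁ ρ = ρ := by
    ext z : 1
    rw [cf_apply, Units.mul_inv_eq_iff_eq_mul, hx₁, un_val, add_mul, mul_add, c5]; simp
  rw [c6] at c1
  exact G.not_comm_self c1

def Key (f : SF F U) (M : Subgroup (End F V)ˣ) (d : ℕ) : Prop :=
  ∀ (σ σ' : Fr F U V) (w w' : U), Good f M σ → Good f M σ' → w ≠ 0 → w' ≠ 0 → f w w = 0 → f w' w' = 0 →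
    d < finrank F (Ln σ w ⊓ Ln σ' w' : Submodule F V) → Rel σ σ'

theorem lemE1 (G : f.Geo) (hM : Uni M) {d : ℕ} (hK : Key f M d) (h : Good f M ρ) (h' : Good f M ρ')
    (hn : ¬ Rel ρ ρ') {u u' : U} (hu : u ≠ 0) (hu' : u' ≠ 0) (h0 : f u u = 0) (h0' : f u' u' = 0)
    {S : Submodule F V} (hS : S ≤ Ln ρ u) (hN : ∀ v ∈ S, f.R ρ' u' u' v ∈ Ln ρ u) : finrank F S ≤ d := by
  by_contra hd
  refine no_comm (ρ := ρ) (ρ' := ρ') G hu' h0' fun l hl hl' => ?_
  set y := un _ (N_sq (ρ := ρ') h0' l) with hy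
  have hyM : y ∈ M := (im_iff _).mp (h'.N h0' hl')
  refine (hK _ _ u u h (h.cf hM hyM) hu hu h0 h0 ?_).resolve_left fun hs => hn (lemC G hM h h' hu' h0' hl hs)
  have e2 := fr_map_inj (y : End F V) S fun w _ hw => unit_eq_zero y hw
  have e3 : S.map (y : End F V) ≤ Ln ρ u ⊓ Ln (cf y ρ) u := by
    rintro _ ⟨w, hw, rfl⟩
    refine ⟨?_, mem_Ln_cf.mpr (hS hw)⟩
    rw [hy, un_val, LinearMap.add_apply, End.one_apply]
    exact (Ln ρ u).add_mem (hS hw) ((Ln ρ u).smul_mem _ (hN w hw))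
  have := Submodule.finrank_mono e3
  omega

theorem lemE (G : f.Geo) (hM : Uni M) {d : ℕ} (hK : Key f M d) (h : Good f M ρ) (h' : Good f M ρ')
    (hn : ¬ Rel ρ ρ') {u u' : U} (hu : u ≠ 0) (hu' : u' ≠ 0) (h0 : f u u = 0) (h0' : f u' u' = 0)
    (hd : finrank F (Ln ρ u ⊓ Ln ρ' u' : Submodule F V) = d) {v : V} (hv : v ∈ Ln ρ u)
    (hNv : f.R ρ' u' u' v ∈ Ln ρ u) : v ∈ Ln ρ' u' := by
  have h1 := lemE1 G hM hK h h' hn hu hu' h0 h0' (S := Ln ρ u ⊓ (Ln ρ u).comap (f.R ρ' u' u'))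
    inf_le_left fun v hv => hv.2
  have h2 : Ln ρ u ⊓ Ln ρ' u' = Ln ρ u ⊓ (Ln ρ u).comap (f.R ρ' u' u') :=
    Submodule.eq_of_le_of_finrank_le (fun v hv => ⟨hv.1, by
      rw [SetLike.mem_coe, Submodule.mem_comap, R_zero hv.2 _ h0']; exact Submodule.zero_mem _⟩) (by omega)
  have : v ∈ Ln ρ u ⊓ Ln ρ' u' := h2 ▸ ⟨hv, hNv⟩
  exact this.2

theorem lemP (G : f.Geo) (hM : Uni M) {d : ℕ} (hK : Key f M d) (h : Good f M ρ) (h' : Good f M ρ')
    (hn : ¬ Rel ρ ρ') {u u' : U} (hu : u ≠ 0) (hu' : u' ≠ 0) (h0 : f u u = 0) (h0' : f u' u' = 0)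
    (hd : finrank F (Ln ρ u ⊓ Ln ρ' u' : Submodule F V) = d) {v : V} (hv : v ∈ Ln ρ' u')
    (hNv : f.R ρ u u v = 0) : v ∈ Ln ρ u :=
  lemE G hM hK h' h (fun e => hn e.symm) hu' hu h0' h0 (by rwa [inf_comm]) hv (hNv ▸ Submodule.zero_mem _)

end Cfsg.Agent.H1.TF
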