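import Cfsg.Agent.H1.TF3
import Cfsg.Agent.H1.FrobSum

set_option autoImplicit false
set_option linter.unusedSectionVars false

/-! Two good frames: the case of small dimension at least three and fixed field with at least
three elements. -/

namespace Cfsg.Agent.H1.TF

open Module TW SF

variable {F : Type*} [Field F] [StarRing F] {U V : Type*} [AddCommGroup U] [Module F U]
  [AddCommGroup V] [Module F V] [FiniteDimensional F U] [FiniteDimensional F V] [Nontrivial V]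
  [StarRing (End F V)] [StarModule F (End F V)]

variable {f : SF F U} {ρ ρ' σ σ' : Fr F U V} {M : Subgroup (End F V)ˣ}

theorem rho_mem {x : End F U} {S : Submodule F V} (h : ∀ y, Ln ρ (x y) ≤ S) (v : V) : ρ x v ∈ S := by
  rw [eq_sum_r1 x, map_sum, LinearMap.sum_apply]
  exact S.sum_mem fun i _ => h _ (r1_mem_Ln _ _ _)

theorem Ln_le_range (x : End F U) {a : U} (ha : x a ≠ 0) : Ln ρ (x a) ≤ LinearMap.range (ρ x) := by
  intro v hv
  obtain ⟨ψ, hψ⟩ := H6.exists_dual_one' (F := F) ha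
  exact ⟨ρ (r1 a ψ) v, by rw [← End.mul_apply, ← map_mul, mul_r1, r1_Ln_one hv hψ]⟩

theorem Ln_disj {u z w : U} (h : f u w = 0) (h' : f z w = 1) {v : V} (hv : v ∈ Ln ρ u) (hv' : v ∈ Ln ρ z) :
    v = 0 := Ln_disjoint (φ := f.fl w) h h' hv hv'

theorem scal_of_triv {g : End F V} {k : (End F U)ˣ} {c : (End F V)ˣ} (hc : Cm ρ (c : End F V))
    (hg : g = ρ k * c) {z w : U} (hz : f z w = 1) (h : ∀ v ∈ Ln ρ z, f.R ρ z w (g v - v) = 0) :
    ∃ x, g = ρ x := by
  have hz0 : z ≠ 0 := ne_left (by rw [hz]; exact one_ne_zero)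
  have e2 : f ((k : End F U) z) w • (c : End F V) = 1 := scalar_on hc hz0 fun v hv => by
    have := h v hv
    rw [map_sub, R_one hv hz, hg, End.mul_apply, ← End.mul_apply _ (ρ _), R, ← map_mul, r1_mul',
      r1_Ln (hc.mem_Ln hv), sub_eq_zero] at this
    exact this
  set l := f ((k : End F U) z) w
  have hl : l ≠ 0 := by
    intro h0
    rw [h0, zero_smul] at e2
    exact zero_ne_one e2
  have : (c : End F V) = l⁻¹ • 1 := by rw [← e2, smul_smul, inv_mul_cancel₀ hl, one_smul]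
  exact ⟨l⁻¹ • (k : End F U), by rw [hg, this, map_smul, mul_smul_comm, mul_one]⟩

/-- orthogonal complement defined by the adjoint -/
def Pp (S : Submodule F V) (v : V) : Prop := ∀ ξ : Dual F V, ∀ s ∈ S, star (ξ.smulRight v : End F V) s = 0

theorem smulRight_eq_zero {v : V} (h : ∀ ξ : Dual F V, (ξ.smulRight v : End F V) = 0) : v = 0 := by
  by_contra hv
  obtain ⟨ξ, hξ⟩ := H6.exists_dual_one' (F := F) hv
  exact hv (by simpa [hξ] using congrArg (fun z : End F V => z v) (h ξ))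

theorem mul_smulRight (z : End F V) (v : V) (ξ : Dual F V) :
    z * (ξ.smulRight v : End F V) = ξ.smulRight (z v) := by ext x; simp

theorem pp_Ln (h : Ad f ρ) {u : U} (hu : u ≠ 0) {v : V} : Pp (Ln ρ u) v ↔ f.R ρ u u v = 0 := by
  have e : ∀ ξ : Dual F V, star (ξ.smulRight v : End F V) * f.R ρ u u =
      -star (ξ.smulRight (f.R ρ u u v) : End F V) := fun ξ => by
    rw [← mul_smulRight, star_mul, h, mul_neg, neg_neg]
  constructor
  · intro hp
    refine smulRight_eq_zero (F := F) fun ξ => ?_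
    rw [← star_eq_zero, ← neg_eq_zero, ← e]
    exact LinearMap.ext fun w => hp ξ _ (R_mem _ _ _)
  · intro hv ξ s hs
    rw [← range_R (f := f) hu hu] at hs
    obtain ⟨w, rfl⟩ := hs
    rw [← End.mul_apply, e, hv]; simp

theorem Pp.sup {S T : Submodule F V} {v : V} (h : Pp S v) (h' : Pp T v) : Pp (S ⊔ T) v := by
  intro ξ s hs
  obtain ⟨a, ha, b, hb, rfl⟩ := Submodule.mem_sup.mp hs
  rw [map_add, h ξ a ha, h' ξ b hb, add_zero]

theorem Pp.map (hM : Uni M) {g : (End F V)ˣ} (hg : g ∈ M) {S T : Submodule F V} {v : V} (h : Pp T v)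
    (hS : ∀ s ∈ S, (↑g⁻¹ : End F V) s ∈ T) : Pp S ((g : End F V) v) := by
  intro ξ s hs
  rw [← mul_smulRight, star_mul, hM g hg, End.mul_apply, h ξ _ (hS s hs)]

theorem Pp.fix (hM : Uni M) {g : (End F V)ˣ} (hg : g ∈ M) {S : Submodule F V} {v : V} (h : Pp S v)
    (hS : ∀ x, (↑g⁻¹ : End F V) x - x ∈ S) : (g : End F V) v = v := by
  rw [← sub_eq_zero]
  refine smulRight_eq_zero (F := F) fun ξ => ?_
  have : (ξ.smulRight ((g : End F V) v - v) : End F V) = ((g : End F V) - 1) * ξ.smulRight v := by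
    rw [mul_smulRight]; rfl
  rw [← star_eq_zero, this, star_mul, star_sub, star_one, hM g hg]
  exact LinearMap.ext fun x => h ξ _ (hS x)

theorem inv_mem_of (g : (End F V)ˣ) {A : Submodule F V} (h : ∀ v ∈ A, (g : End F V) v ∈ A) {v : V}
    (hv : v ∈ A) : (↑g⁻¹ : End F V) v ∈ A := mem_of_unit g h (by rwa [app_inv])

theorem stab_K (hM : Uni M) (h : Ad f ρ) {u : U} (hu : u ≠ 0) {g : (End F V)ˣ} (hg : g ∈ M)
    (hs : ∀ v ∈ Ln ρ u, (g : End F V) v ∈ Ln ρ u) {v : V} (hv : f.R ρ u u v = 0) :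
    f.R ρ u u ((g : End F V) v) = 0 :=
  (pp_Ln h hu).mp (((pp_Ln h hu).mpr hv).map hM hg fun _ hs' => inv_mem_of g hs hs')

theorem inv_sub_mem (g : (End F V)ˣ) {X : Submodule F V} (h : ∀ v, (g : End F V) v - v ∈ X) (v : V) :
    (↑g⁻¹ : End F V) v - v ∈ X := by
  simpa using X.neg_mem (h ((↑g⁻¹ : End F V) v))

/-- the subgroup of elements trivial on `V / X` -/
def triv (M : Subgroup (End F V)ˣ) (X : Submodule F V) : Subgroup (End F V)ˣ where
  carrier := {g | g ∈ M ∧ ∀ v, (g : End F V) v - v ∈ X}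
  one_mem' := ⟨M.one_mem, by simp⟩
  mul_mem' := by
    rintro g k ⟨g1, g2⟩ ⟨k1, k2⟩
    exact ⟨M.mul_mem g1 k1, fun v => by simpa using X.add_mem (g2 ((k : End F V) v)) (k2 v)⟩
  inv_mem' := by
    rintro g ⟨g1, g2⟩
    exact ⟨M.inv_mem g1, inv_sub_mem g g2⟩

theorem exists_perp_notMem (f : SF F U) {n : ℕ} (a : Fin n → U) (S : Submodule F U)
    (h : finrank F S + n < finrank F U) : ∃ z w, (∀ i, f z (a i) = 0) ∧ (∀ s ∈ S, f s w = 0) ∧ f z w = 1 := by
  let φ : U →ₗ[F] (Fin n → F) := LinearMap.pi fun i => f.fl (a i)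
  have h1 := φ.finrank_range_add_finrank_ker
  have h2 := Submodule.finrank_le (LinearMap.range φ)
  rw [finrank_fin_fun] at h2
  obtain ⟨z, hz, hz'⟩ : ∃ z ∈ LinearMap.ker φ, z ∉ S := by
    by_contra! h3
    have := Submodule.finrank_mono (show LinearMap.ker φ ≤ S from h3)
    omega
  obtain ⟨w, h4, h5⟩ := f.exists_of_notMem hz'
  exact ⟨z, w, fun i => congrFun hz i, h4, h5⟩

theorem finrank_pair_le (a b : U) : finrank F (Submodule.span F ({a, b} : Set U)) ≤ 2 := by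
  classical
  refine (finrank_span_le_card (R := F) ({a, b} : Set U)).trans ?_
  rw [Set.toFinset_insert, Set.toFinset_singleton]; exact Finset.card_le_two

theorem finrank_sup_Ln {S : Submodule F V} {z w : U} (hz : f z w = 1) (hS : ∀ v ∈ S, f.R ρ z w v = 0) :
    finrank F (S ⊔ Ln ρ z : Submodule F V) = finrank F S + finrank F (Ln ρ z) := by
  have := Submodule.finrank_sup_add_finrank_inf_eq S (Ln ρ z)
  have e : S ⊓ Ln ρ z = ⊥ := by
    rw [eq_bot_iff]
    rintro v ⟨h1, h2⟩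
    rw [Submodule.mem_bot, ← R_one h2 hz, hS v h1]
  rwa [e, finrank_bot, add_zero] at this

section A

variable (G : f.Geo) (hM : Uni M) {d : ℕ} (hK : Key f M d) (h : Good f M ρ) (h' : Good f M ρ')
  (hn : ¬ Rel ρ ρ') {u u' : U} (hu : u ≠ 0) (hu' : u' ≠ 0) (h0 : f u u = 0) (h0' : f u' u' = 0)
  (hd : finrank F (Ln ρ u ⊓ Ln ρ' u' : Submodule F V) = d)
include G hM hK h h' hn hu hu' h0 h0' hd

theorem d_lt : d < finrank F (Ln ρ u) := by
  by_contra h1
  have e : Ln ρ u ⊓ Ln ρ' u' = Ln ρ u := Submodule.eq_of_le_of_finrank_le inf_le_left (by omega)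
  exact hn (Or.inl (same_of_Ln G hM h h' hu hu' h0'
    (Submodule.eq_of_le_of_finrank_le (e ▸ inf_le_right) (finrank_Ln_eq hu' hu).le)))

theorem stabA (h3 : 3 ≤ finrank F U) {g : (End F V)ˣ} (hg : g ∈ triv M (Ln ρ u ⊔ Ln ρ' u'))
    (hs : ∀ v ∈ Ln ρ u, (g : End F V) v ∈ Ln ρ u) :
    (∃ c : F, star c = c ∧ (g : End F V) = 1 + c • f.R ρ u u) ∨
      (d = 0 ∧ ∃ z, f z u ≠ 0 ∧ Ln ρ' u' ≤ Ln ρ u ⊔ Ln ρ z) := by
  have hP : ∀ v ∈ Ln ρ u ⊔ Ln ρ' u', f.R ρ u u v = 0 → v ∈ Ln ρ u := by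
    intro v hv hN
    obtain ⟨a, ha, a', ha', rfl⟩ := Submodule.mem_sup.mp hv
    rw [map_add, R_zero ha _ h0, zero_add] at hN
    exact (Ln ρ u).add_mem ha (lemP G hM hK h h' hn hu hu' h0 h0' hd ha' hN)
  obtain ⟨k, c, hc, e⟩ := (same_of_stab G hM h hu h0 hg.1 hs).decomp
  obtain ⟨b, w, h1, h2, h4⟩ := exists_perp_notMem f ![u] (Submodule.span F {u}) (by
    rw [finrank_span_singleton hu]; omega)
  replace h1 : f b u = 0 := h1 0
  replace h2 := h2 u (Submodule.mem_span_singleton_self u)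
  obtain ⟨x, hx⟩ := scal_of_triv hc e h4 fun v hv => R_zero (hP _ (hg.2 v) (by
    rw [map_sub, stab_K hM h.ad hu hg.1 hs (R_zero hv _ h1), R_zero hv _ h1, sub_zero])) _ h2
  have ex : ∀ v, (g : End F V) v - v = ρ (x - 1) v := fun v => by rw [hx, map_sub, map_one]; rfl
  by_cases hr : ∀ y, ∃ s : F, (x - 1) y = s • u
  · left
    have h5 : ∀ v, (g : End F V) v - v ∈ Ln ρ u := fun v => ex v ▸ rho_mem (fun y => by
      obtain ⟨s, hs⟩ := hr y
      rw [hs]; exact Ln_smul_le s u) v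
    obtain ⟨c, h6, h7⟩ := h.qtN hM hu h0 (Z := (g : End F V) - 1) ⟨g, hg.1, by simp⟩ (fun v hv => by
      rw [LinearMap.sub_apply, sub_eq_zero]
      exact ((pp_Ln h.ad hu).mpr (R_zero hv _ h0)).fix hM hg.1 (inv_sub_mem g h5)) h5
    exact ⟨c, h6, by rw [← h7]; simp⟩
  · right
    push Not at hr
    obtain ⟨y, hy⟩ := hr
    have hz0 : (x - 1) y ≠ 0 := by simpa using hy 0
    have h5 : Ln ρ ((x - 1) y) ≤ Ln ρ u ⊔ Ln ρ' u' := fun v hv => by
      obtain ⟨v', rfl⟩ := Ln_le_range _ hz0 hv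
      rw [← ex]; exact hg.2 _
    obtain ⟨w', h6, h7⟩ := f.exists_pair hy
    have h8 := finrank_sup_Ln (ρ := ρ) (S := Ln ρ u) h7 fun v hv => R_zero hv _ h6
    have h9 := Submodule.finrank_sup_add_finrank_inf_eq (Ln ρ u) (Ln ρ' u')
    have h10 : finrank F (Ln ρ ((x - 1) y)) = finrank F (Ln ρ' u') := finrank_Ln_eq hz0 hu'
    have h11 := Submodule.finrank_mono (sup_le le_sup_left h5)
    refine ⟨by omega, _, fun e => ?_, le_sup_right.trans
      (Submodule.eq_of_le_of_finrank_le (sup_le le_sup_left h5) (by omega)).ge⟩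
    obtain ⟨v, hv, hv0⟩ := Ln_ne_bot (ρ := ρ) hz0
    exact hv0 (Ln_disj h6 h7 (hP v (h5 hv) (R_zero hv _ e)) hv)

omit G hM hK h h' hn hu hu' h0 h0' hd in
theorem sum_F0 [Fintype F] [DecidablePred (· ∈ selfAdjoint F)] {l : F} (hl : star l = l) (hl0 : l ≠ 0)
    (hl1 : l ≠ 1) (N : End F V) : ∑ c : selfAdjoint F, (1 + (c : F) • N) = 0 := by
  have h1 : ∑ c : selfAdjoint F, (c : F) = 0 := by
    have := Equiv.sum_comp (Equiv.mulLeft₀ (⟨l, hl⟩ : selfAdjoint F) (fun e => hl0 (congrArg Subtype.val e)))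
      fun c : selfAdjoint F => (c : F)
    simp only [Equiv.mulLeft₀_apply, selfAdjoint.val_mul, ← Finset.mul_sum] at this
    have e : (l - 1) * ∑ c : selfAdjoint F, (c : F) = 0 := by linear_combination this
    exact (mul_eq_zero.mp e).resolve_left (sub_ne_zero.mpr hl1)
  have h2 : ∑ c : selfAdjoint F, (1 : F) = 0 := by
    have := Equiv.sum_comp (Equiv.addRight (1 : selfAdjoint F)) fun c : selfAdjoint F => (c : F)
    simp only [Equiv.coe_addRight, AddSubgroup.coe_add, selfAdjoint.val_one, Finset.sum_add_distrib] at this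
    linear_combination this
  have : ∀ c : selfAdjoint F, (1 + (c : F) • N) = (1 : F) • (1 : End F V) + (c : F) • N := by simp
  simp only [this, Finset.sum_add_distrib, ← Finset.sum_smul, h1, h2, zero_smul, add_zero]

theorem mainA0 [Finite F] (h3 : 3 ≤ finrank F U) {l : F} (hl : star l = l) (hl0 : l ≠ 0) (hl1 : l ≠ 1) :
    d = 0 ∧ ∃ z, f z u ≠ 0 ∧ Ln ρ' u' ≤ Ln ρ u ⊔ Ln ρ z := by
  classical
  by_contra hb
  haveI : Finite V := Module.finite_of_finite F
  haveI : Finite (End F V) := Finite.of_injective _ DFunLike.coe_injective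
  haveI := Fintype.ofFinite F
  set G₁ := triv M (Ln ρ u ⊔ Ln ρ' u')
  haveI := Fintype.ofFinite G₁
  let H : Subgroup G₁ :=
    { carrier := {g | ∀ v ∈ Ln ρ u, ((g : (End F V)ˣ) : End F V) v ∈ Ln ρ u}
      one_mem' := fun v hv => hv
      mul_mem' := fun hg hk v hv => hg _ (hk v hv)
      inv_mem' := fun {g} hg v hv => inv_mem_of g.1 hg hv }
  have hH : ∀ g ∈ H, ∃ c : F, star c = c ∧ ((g : (End F V)ˣ) : End F V) = 1 + c • f.R ρ u u :=
    fun g hg => (stabA G hM hK h h' hn hu hu' h0 h0' hd h3 g.2 hg).resolve_right hb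
  let e : selfAdjoint F → G₁ := fun c => ⟨un _ (N_sq (ρ := ρ) h0 c), (im_iff _).mp (h.N h0 c.2), fun v => by
    simpa using Submodule.mem_sup_left (Submodule.smul_mem _ _ (R_mem _ _ _))⟩
  have eH : ∀ c, e c ∈ H := fun c v hv => by simpa [e, R_zero hv _ h0] using hv
  have ev : ∀ c, ((e c : (End F V)ˣ) : End F V) = 1 + (c : F) • f.R ρ u u := fun c => rfl
  obtain ⟨p, hp⟩ := CharP.exists F
  haveI : Fact p.Prime := ⟨CharP.char_is_prime F p⟩
  refine frob_sum H ?_ ?_ (p := p) (A := End F V) ?_ ((Units.coeHom _).comp G₁.subtype)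
    (fun a b e => Subtype.ext (Units.ext e)) ?_ (eH 1) ?_ ?_
  · intro g k hk hk' hg
    obtain ⟨c, -, e1⟩ := hH k hk
    obtain ⟨c', -, e2⟩ := hH _ hk'
    by_contra hk1
    have hc : c ≠ 0 := by rintro rfl; exact hk1 (Subtype.ext (Units.ext (by simpa using e1)))
    have e3 : ∀ w, c • f.R ρ u u (((g : (End F V)ˣ) : End F V) w) =
        c' • ((g : (End F V)ˣ) : End F V) (f.R ρ u u w) := fun w => by
      have := congrArg (fun z : End F V => ((g : (End F V)ˣ) : End F V) (z w)) e2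
      simpa [e1] using this
    have hc' : c' ≠ 0 := by
      rintro rfl
      refine R_ne (f := f) (ρ := ρ) hu hu (LinearMap.ext fun w => ?_)
      simpa [hc] using e3 ((↑(g : (End F V)ˣ)⁻¹ : End F V) w)
    refine hg fun v hv => ?_
    rw [← range_R (f := f) hu hu] at hv
    obtain ⟨w, rfl⟩ := hv
    rw [← Submodule.smul_mem_iff _ hc', ← e3]
    exact Submodule.smul_mem _ _ (R_mem _ _ _)
  · have hy : un _ (N_sq (ρ := ρ') h0' 1) ∈ M := (im_iff _).mp (h'.N h0' (star_one F))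
    exact ⟨⟨_, hy, fun v => by simpa using Submodule.mem_sup_right (R_mem _ _ _)⟩, fun hm =>
      hn (lemC G hM h h' hu' h0' one_ne_zero (same_of_stab G hM h hu h0 hy hm))⟩
  · rw [← map_natCast (algebraMap F (End F V)), CharP.cast_eq_zero, map_zero]
  · refine (Fintype.sum_of_injective e (fun a b hab => ?_) _ _ (fun g hg => ?_) fun c => ?_).symm.trans
      (sum_F0 hl hl0 hl1 (f.R ρ u u))
    · have := (ev a).symm.trans ((congrArg (fun g : G₁ => ((g : (End F V)ˣ) : End F V)) hab).trans (ev b))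
      exact Subtype.ext (smul_left_injective F (R_ne hu hu) (add_left_cancel this))
    · refine if_neg fun hm => hg ?_
      obtain ⟨c, h1, h2⟩ := hH g hm
      exact ⟨⟨c, h1⟩, Subtype.ext (Units.ext h2.symm)⟩
    · rw [if_pos (eH c)]; rfl
  · refine Subtype.ext (Units.ext ?_)
    have := un_pow (N_sq (ρ := ρ) h0 ((1 : selfAdjoint F) : F)) p
    rw [CharP.cast_eq_zero, zero_smul, add_zero] at this
    rw [Subgroup.coe_pow]
    exact this
  · intro e1
    have := ev 1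
    rw [e1] at this
    exact R_ne (f := f) (ρ := ρ) hu hu (by simpa using this)

theorem mainA [Finite F] (h3 : 3 ≤ finrank F U) {l : F} (hl : star l = l) (hl0 : l ≠ 0) (hl1 : l ≠ 1) :
    False := by
  obtain ⟨rfl, z, -, h1⟩ := mainA0 G hM hK h h' hn hu hu' h0 h0' hd h3 hl hl0 hl1
  obtain ⟨w, hw, h2, h4⟩ := f.exists_perp_two h3 u z
  obtain ⟨a, ha, h5, -⟩ := G.iso2 w w hw hw
  have ha0 := ne_left h5
  obtain ⟨-, y, h6, h7⟩ := mainA0 G hM hK h h' hn ha0 hu' ha h0' (by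
    by_contra e
    exact hn (hK _ _ _ _ h h' ha0 hu' ha h0' (by omega))) h3 hl hl0 hl1
  have hy : f a w • y - f y w • a ≠ 0 := ne_left (f := f) (b := a) (by simp [ha, h5, h6])
  refine hn (Or.inl (same_of_Ln G hM h h' hy hu' h0'
    (Submodule.eq_of_le_of_finrank_le (fun v hv => ?_) (finrank_Ln_eq hy hu').le).symm))
  have e1 : f.R ρ a w v = 0 := by
    obtain ⟨v₁, h8, v₂, h9, rfl⟩ := Submodule.mem_sup.mp (h1 hv)
    rw [map_add, R_zero h8 _ (symm0 h2), R_zero h9 _ (symm0 h4), add_zero]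
  obtain ⟨v₁, h8, v₂, h9, rfl⟩ := Submodule.mem_sup.mp (h7 hv)
  rw [map_add, R_Ln h8] at e1
  have := Ln_map h9 (f a w • 1 - r1 a (f.fl w))
  rw [map_sub, map_smul, map_one] at this
  rw [← Submodule.smul_mem_iff _ h5, smul_add, eq_neg_of_add_eq_zero_left e1, neg_add_eq_sub]
  exact this

end A

end Cfsg.Agent.H1.TF
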