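import Cfsg.Agent.H1.TF4

set_option autoImplicit false
set_option linter.unusedSectionVars false

/-! Two good frames: the case of a fixed field with two elements. -/

namespace Cfsg.Agent.H1.TF

open Module TW SF

variable {F : Type*} [Field F] [StarRing F] {U V : Type*} [AddCommGroup U] [Module F U]
  [AddCommGroup V] [Module F V] [FiniteDimensional F U] [FiniteDimensional F V] [Nontrivial V]
  [StarRing (End F V)] [StarModule F (End F V)]

variable {f : SF F U} {ρ ρ' σ σ' : Fr F U V} {M : Subgroup (End F V)ˣ}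

theorem Ad.range (h : Ad f ρ) (x : End F U) : ∃ y, star (ρ x) = ρ y := by
  rw [eq_sum_r1 x, map_sum, star_sum]
  have : ∀ i, ∃ y, star (ρ (r1 (x (bs F U i)) ((bs F U).coord i))) = ρ y := fun i => by
    obtain ⟨b, hb⟩ := f.surj ((bs F U).coord i)
    exact ⟨-r1 b (f.fl (x (bs F U i))), by rw [← hb, map_neg]; exact h _ _⟩
  choose y hy using this
  exact ⟨∑ i, y i, by simp only [hy, map_sum]⟩

theorem scalar_of_cm {x : End F U} (h : Cm ρ (ρ x)) : ∃ s : F, ρ x = s • 1 := by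
  obtain ⟨s, hs⟩ := scalar_of_central (z := x) fun w => rho_injective (ρ := ρ) (by rw [map_mul, map_mul, h])
  exact ⟨s, by rw [hs, map_smul, map_one]⟩

theorem two_eq_zero (h02 : ∀ c : F, star c = c → c = 0 ∨ c = 1) : (2 : F) = 0 := by
  rcases h02 2 (star_ofNat 2) with h | h
  · exact h
  · exact absurd (by linear_combination h : (1 : F) = 0) one_ne_zero

theorem root_F4 [Finite F] (h02 : ∀ c : F, star c = c → c = 0 ∨ c = 1) {θ : F} (hθ : star θ ≠ θ) {τ Δ : F}
    (h1 : Δ * star τ = τ) : ∃ l : F, l ^ 2 - τ * l + Δ = 0 := by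
  have h2 := two_eq_zero h02
  by_cases hτ : τ = 0
  · haveI := Fintype.ofFinite F
    obtain ⟨r, hr⟩ := FiniteField.isSquare_of_char_two (F := F)
      (CharP.ringChar_of_prime_eq_zero Nat.prime_two (by exact_mod_cast h2)) Δ
    exact ⟨r, by rw [hτ, hr]; linear_combination (r * r) * h2⟩
  have hn : ∀ x : F, x ≠ 0 → x * star x = 1 := fun x hx =>
    (h02 _ (by rw [star_mul', star_star, mul_comm])).resolve_left (mul_ne_zero hx (star_ne_zero.mpr hx))
  have h3 : θ + star θ = 1 := (h02 _ (by rw [star_add, star_star, add_comm])).resolve_left fun e =>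
    hθ (by linear_combination e - θ * h2)
  have h4 := hn θ (by rintro rfl; simp at hθ)
  have h5 := hn τ hτ
  have h6 : Δ = τ ^ 2 := by linear_combination τ * h1 - Δ * h5
  exact ⟨τ * θ, by rw [h6]; linear_combination τ ^ 2 * θ * h3 - τ ^ 2 * h4⟩

section B

variable (G : f.Geo) (hM : Uni M) {d : ℕ} (hK : Key f M d) (h : Good f M ρ) (h' : Good f M ρ')
  (hn : ¬ Rel ρ ρ') {u u' : U} (hu : u ≠ 0) (hu' : u' ≠ 0) (h0 : f u u = 0) (h0' : f u' u' = 0)
  (hd : finrank F (Ln ρ u ⊓ Ln ρ' u' : Submodule F V) = d) (h4 : 4 ≤ finrank F U)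
  (h02 : ∀ c : F, star c = c → c = 0 ∨ c = 1) {b : U} (hb : f b b = 0) (hbu : f b u = 0)
  (hb' : ∀ c : F, b ≠ c • u)
include G hM hK h h' hn hu hu' h0 h0' hd h4 h02 hb hbu hb'

theorem stabB1 [Finite F] {g : (End F V)ˣ} (hg : g ∈ triv M (Ln ρ u ⊔ Ln ρ b ⊔ Ln ρ' u'))
    (hs : Same ρ (cf g ρ)) : ∃ x, (g : End F V) = ρ x := by
  obtain ⟨k, c, hc, e⟩ := hs.decomp
  have hub := symm0 hbu
  have hb0 : b ≠ 0 := by simpa using hb' 0
  set Y := Submodule.span F ({u, b} : Set U) with hY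
  have uY : u ∈ Y := Submodule.subset_span (by simp)
  have bY : b ∈ Y := Submodule.subset_span (by simp)
  have dY : finrank F Y ≤ 2 := finrank_pair_le u b
  have YY : ∀ y ∈ Y, f u y = 0 ∧ f b y = 0 ∧ f y y = 0 := fun y hy => by
    obtain ⟨s, t, rfl⟩ := Submodule.mem_span_pair.mp hy
    simp [h0, hb, hbu, hub]
  have killY : ∀ a w, f u w = 0 → f b w = 0 → ∀ v ∈ Ln ρ u ⊔ Ln ρ b, f.R ρ a w v = 0 := by
    intro a w h1 h2 v hv
    obtain ⟨v₁, h5, v₂, h6, rfl⟩ := Submodule.mem_sup.mp hv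
    rw [map_add, R_zero h5 _ h1, R_zero h6 _ h2, add_zero]
  have gL : ∀ y, ∀ v ∈ Ln ρ y, (g : End F V) v ∈ Ln ρ ((k : End F U) y) := fun y v hv => by
    rw [e]; exact Ln_map (hc.mem_Ln hv) _
  -- reduction when a point of `Y` is stabilised
  have eig : ∀ y ∈ Y, y ≠ 0 → (∃ s : F, (k : End F U) y = s • y) →
      (∀ v ∈ Ln ρ' u', f.R ρ y y v = 0 → v ∈ Ln ρ u ⊔ Ln ρ b) → ∃ x, (g : End F V) = ρ x := by
    rintro y hy hy0 ⟨s, hs⟩ hP
    obtain ⟨z, w, h1, h2, h5⟩ := exists_perp_notMem f ![y] Y (by omega)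
    replace h1 : f z y = 0 := h1 0
    refine scal_of_triv hc e h5 fun v hv => killY _ _ (h2 u uY) (h2 b bY) _ ?_
    obtain ⟨v₁, h6, v₂, h7, e1⟩ := Submodule.mem_sup.mp (hg.2 v)
    have e2 : f.R ρ y y ((g : End F V) v - v) = 0 := by
      rw [map_sub, stab_K hM h.ad hy0 hg.1 (fun v hv => Ln_smul_le s y (hs ▸ gL y v hv)) (R_zero hv _ h1),
        R_zero hv _ h1, sub_zero]
    rw [← e1, map_add, killY _ _ (YY y hy).1 (YY y hy).2.1 _ h6, zero_add] at e2
    rw [← e1]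
    exact Submodule.add_mem _ h6 (hP _ h7 e2)
  have fixR : ∀ v ∈ Ln ρ u ⊔ Ln ρ b, f.R ρ' u' u' v = 0 → (g : End F V) v = v := fun v hv hv' =>
    ((((pp_Ln h.ad hu).mpr (killY _ _ h0 hbu v hv)).sup ((pp_Ln h.ad hb0).mpr (killY _ _ hub hb v hv))).sup
      ((pp_Ln h'.ad hu').mpr hv')).fix hM hg.1 (inv_sub_mem g hg.2)
  have Pu : ∀ v ∈ Ln ρ' u', f.R ρ u u v = 0 → v ∈ Ln ρ u ⊔ Ln ρ b := fun v hv hv' =>
    Submodule.mem_sup_left (lemP G hM hK h h' hn hu hu' h0 h0' hd hv hv')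
  by_cases hd0 : d = 0
  swap
  · refine eig u uY hu ?_ Pu
    obtain ⟨⟨v, h1, h2⟩, hv⟩ := (finrank_pos_iff_exists_ne_zero (R := F)
      (M := (Ln ρ u ⊓ Ln ρ' u' : Submodule F V))).mp (by omega)
    by_contra! h5
    obtain ⟨w, h6, h7⟩ := f.exists_pair h5
    have := gL u v h1
    rw [fixR v (Submodule.mem_sup_left h1) (R_zero h2 _ h0')] at this
    exact hv (Subtype.ext (Ln_disj h6 h7 h1 this))
  subst hd0
  have z1 : ∀ y, y ≠ 0 → f y y = 0 → ∀ v ∈ Ln ρ y, f.R ρ' u' u' v = 0 → v = 0 := by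
    intro y hy hyy v hv hv'
    have := lemE1 G hM hK h h' hn hy hu' hyy h0' (S := Ln ρ y ⊓ LinearMap.ker (f.R ρ' u' u')) inf_le_left
      fun v hv => by rw [LinearMap.mem_ker.mp hv.2]; exact Submodule.zero_mem _
    rw [Nat.le_zero, Submodule.finrank_eq_zero, Submodule.eq_bot_iff] at this
    exact this v ⟨hv, hv'⟩
  have z2 : ∀ y, y ≠ 0 → f y y = 0 → ∀ v ∈ Ln ρ' u', f.R ρ y y v = 0 → v = 0 := by
    intro y hy hyy v hv hv'
    have := lemE1 G hM hK h' h (fun e => hn e.symm) hu' hy h0' hyy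
      (S := Ln ρ' u' ⊓ LinearMap.ker (f.R ρ y y)) inf_le_left
      fun v hv => by rw [LinearMap.mem_ker.mp hv.2]; exact Submodule.zero_mem _
    rw [Nat.le_zero, Submodule.finrank_eq_zero, Submodule.eq_bot_iff] at this
    exact this v ⟨hv, hv'⟩
  obtain ⟨eb, a1, a2⟩ := f.exists_pair hb'
  obtain ⟨eu, a3, a4⟩ := f.exists_pair (u := b) (v := u) (by
    rintro s rfl
    have : s = 0 := by simpa [a2] using a1
    simp [this] at hu)
  have dLY := finrank_sup_Ln (ρ := ρ) (S := Ln ρ u) a2 fun v hv => R_zero hv _ a1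
  have dbu : finrank F (Ln ρ b) = finrank F (Ln ρ u) := finrank_Ln_eq hb0 hu
  have graph : ∀ w ∈ Ln ρ b, ∃ w₁ ∈ Ln ρ u, f.R ρ' u' u' (w₁ + w) = 0 := by
    intro w hw
    have e1 : (Ln ρ u).map (f.R ρ' u' u') = Ln ρ' u' := Submodule.eq_of_le_of_finrank_le
      (by rintro _ ⟨v, -, rfl⟩; exact R_mem _ _ _)
      (by rw [fr_map_inj _ _ (z1 u hu h0)]; exact (finrank_Ln_eq hu' hu).le)
    obtain ⟨w₁, h1, h2⟩ : f.R ρ' u' u' (-w) ∈ (Ln ρ u).map (f.R ρ' u' u') := e1 ▸ R_mem _ _ _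
    exact ⟨w₁, h1, by rw [map_add, h2, map_neg, neg_add_cancel]⟩
  have gapp : ∀ (w : U) (y : U), ∀ v ∈ Ln ρ y, ∀ e', f y e' = 1 →
      f.R ρ u w ((g : End F V) v) = f ((k : End F U) y) w • (c : End F V) (f.R ρ u e' v) := by
    intro w y v hv e' he'
    rw [e, End.mul_apply, ← End.mul_apply _ (ρ _), R, ← map_mul, r1_mul', R, hc.apply, ← LinearMap.smul_apply,
      ← map_smul]
    exact Ln_congr (hc.mem_Ln hv) (by simp [he'])
  have rel : ∀ (w : U), ∀ v ∈ Ln ρ b, ∀ w₁ ∈ Ln ρ u, f.R ρ' u' u' (w₁ + v) = 0 →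
      f ((k : End F U) u) w • (c : End F V) w₁ + f ((k : End F U) b) w • (c : End F V) (f.R ρ u eb v) =
        f u w • w₁ + f b w • f.R ρ u eb v := by
    intro w v hv w₁ hw₁ h1
    have := congrArg (f.R ρ u w) (fixR _ (Submodule.add_mem_sup hw₁ hv) h1)
    rw [map_add, map_add, gapp w u w₁ hw₁ eu a4, gapp w b v hv eb a2, R_one hw₁ a4, map_add, R_Ln hw₁] at this
    rw [this]
    congr 1
    rw [R, R, ← LinearMap.smul_apply, ← map_smul]
    exact Ln_congr hv (by simp [a2])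
  have kY : ∀ w, f u w = 0 → f b w = 0 → f ((k : End F U) u) w = 0 ∧ f ((k : End F U) b) w = 0 := by
    intro w h1 h2
    obtain ⟨v, hv, hv0⟩ := Ln_ne_bot (ρ := ρ) hb0
    obtain ⟨w₁, h5, h6⟩ := graph v hv
    have e1 := rel w v hv w₁ h5 h6
    rw [h1, h2, zero_smul, zero_smul, add_zero, ← map_smul, ← map_smul, ← map_add] at e1
    have e2 := unit_eq_zero c e1
    have hT : f.R ρ u eb v ≠ 0 := fun e3 => hv0 (by rw [← R_one hv a2, R_eq_zero hu e3])
    by_cases h7 : f ((k : End F U) u) w = 0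
    · rw [h7, zero_smul, zero_add] at e2
      exact ⟨h7, (smul_eq_zero.mp e2).resolve_right hT⟩
    exfalso
    set s := -(f ((k : End F U) u) w)⁻¹ * f ((k : End F U) b) w with hs
    have e3 : w₁ = s • f.R ρ u eb v := by
      rw [hs, mul_smul, neg_smul, ← smul_neg, eq_inv_smul_iff₀ h7, eq_neg_iff_add_eq_zero, e2]
    have e4 := Ln_map hv (1 + s • r1 u (f.fl eb))
    rw [map_add, map_one, map_smul] at e4
    have e5 : w₁ + v ∈ Ln ρ (b + s • u) := by simpa [e3, a2, add_comm, R] using e4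
    have e6 := z1 _ (ne_left (f := f) (b := eb) (by simp [a1, a2])) (by simp [h0, hb, hbu, hub]) _ e5 h6
    have := congrArg (f.R ρ b eb) e6
    rw [map_add, R_zero h5 _ a1, R_one hv a2, zero_add, map_zero] at this
    exact hv0 this
  have memY : ∀ y, (∀ w, f u w = 0 → f b w = 0 → f y w = 0) → y ∈ Y := fun y hy => by
    by_contra h1
    obtain ⟨w, h2, h5⟩ := f.exists_of_notMem h1
    simp [hy w (h2 u uY) (h2 b bY)] at h5
  have LY : ∀ y ∈ Y, Ln ρ y ≤ Ln ρ u ⊔ Ln ρ b := fun y hy v hv => by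
    obtain ⟨s, t, rfl⟩ := Submodule.mem_span_pair.mp hy
    have e1 := Ln_congr hv (x := 1) (y := r1 u (f.fl eu) + r1 b (f.fl eb)) (by simp [a1, a2, a3, a4])
    rw [map_one, End.one_apply, map_add, LinearMap.add_apply] at e1
    rw [e1]
    exact Submodule.add_mem_sup (r1_mem_Ln _ _ _) (r1_mem_Ln _ _ _)
  have kuY := memY _ fun w h1 h2 => (kY w h1 h2).1
  have kbY := memY _ fun w h1 h2 => (kY w h1 h2).2
  rcases G.type with ⟨-, hst⟩ | ⟨θ, hθ⟩
  · have h5 : 5 ≤ finrank F U := by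
      by_contra h5
      exact G.dim4 (by omega) hst (two_eq_zero h02)
    obtain ⟨z, w, h1, h2, h5⟩ := exists_perp_notMem f ![u, b] Y (by omega)
    have h1u : f z u = 0 := h1 0
    have h1b : f z b = 0 := h1 1
    refine scal_of_triv hc e h5 fun v hv => killY _ _ (h2 u uY) (h2 b bY) _ ?_
    obtain ⟨v₁, h6, v₂, h7, e1⟩ := Submodule.mem_sup.mp (hg.2 v)
    have gLY : ∀ v ∈ Ln ρ u ⊔ Ln ρ b, (g : End F V) v ∈ Ln ρ u ⊔ Ln ρ b := fun v hv => by
      obtain ⟨v₁, h5, v₂, h6, rfl⟩ := Submodule.mem_sup.mp hv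
      rw [map_add]
      exact Submodule.add_mem _ (LY _ kuY (gL u _ h5)) (LY _ kbY (gL b _ h6))
    have e2 : f.R ρ u u ((g : End F V) v - v) = 0 := by
      rw [map_sub, R_zero hv _ h1u, sub_zero, ← pp_Ln h.ad hu]
      exact (((pp_Ln h.ad hu).mpr (R_zero hv _ h1u)).sup ((pp_Ln h.ad hb0).mpr (R_zero hv _ h1b))).map hM hg.1
        fun s hs => inv_mem_of g gLY (Submodule.mem_sup_left hs)
    rw [← e1, map_add, killY _ _ h0 hbu _ h6, zero_add] at e2
    rw [← e1]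
    exact Submodule.add_mem _ h6 (Pu _ h7 e2)
  obtain ⟨α, γ, eα⟩ := Submodule.mem_span_pair.mp kuY
  obtain ⟨β, δ, eβ⟩ := Submodule.mem_span_pair.mp kbY
  by_cases hγ : γ = 0
  · exact eig u uY hu ⟨α, by rw [← eα, hγ]; simp⟩ Pu
  have quad : (α * δ - β * γ) • ((c : End F V) * c) - (α + δ) • (c : End F V) + 1 = 0 := by
    refine ((((hc.mul hc).smul _).sub (hc.smul _)).add Cm.one).eq_zero hu fun w hw => ?_
    obtain ⟨w₁, h5, h6⟩ := graph (f.R ρ b eu w) (R_mem _ _ _)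
    have e1 := rel eu _ (R_mem _ _ _) w₁ h5 h6
    have e2 := rel eb _ (R_mem _ _ _) w₁ h5 h6
    rw [R_R, a2, one_smul, R_one hw a4, ← eα, ← eβ] at e1 e2
    simp only [add_left, smul_left, a1, a2, a3, a4, mul_one, mul_zero, add_zero, zero_add, one_smul,
      zero_smul] at e1 e2
    have e3 := congrArg (c : End F V) e1
    have e4 := congrArg (c : End F V) e2
    simp only [map_add, map_smul] at e3 e4
    simp only [LinearMap.add_apply, LinearMap.sub_apply, LinearMap.smul_apply, End.mul_apply, End.one_apply]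
    linear_combination (norm := module) α • e4 - γ • e3 - e2
  have cc : star (c : End F V) * c = 1 := by
    obtain ⟨k', hk'⟩ := h.ad.range k
    have e1 := hM.mul ⟨g, hg.1, rfl⟩
    rw [e, star_mul, hk', mul_assoc, ← mul_assoc (ρ k'), ← map_mul, ← hc, ← mul_assoc] at e1
    have c1 := (h.ad.cm hc).mul hc
    have e2 := mul_eq_one_comm.mp e1
    obtain ⟨s, hs⟩ := scalar_of_cm (ρ := ρ) (x := k' * k) fun y => by
      calc _ = ρ (k' * k) * ρ y * (star (c : End F V) * c * ρ (k' * k)) := by rw [e1, mul_one]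
        _ = _ := by rw [← mul_assoc, mul_assoc _ (ρ y), ← c1, ← mul_assoc, e2, one_mul]
    rw [hs, mul_smul_comm, mul_one] at e1
    have e3 := congrArg star e1
    rw [star_smul, star_mul, star_star, star_one, ← e1] at e3
    have hne : star (c : End F V) * c ≠ 0 := fun e4 => by simp [e4] at e1
    rcases h02 s (smul_left_injective F hne e3) with rfl | rfl
    · simp at e1
    · simpa using e1
  have quad' := congrArg (fun z => star z * ((c : End F V) * c)) quad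
  simp only [star_add, star_sub, star_smul, star_one, star_mul, add_mul, sub_mul, smul_mul_assoc, one_mul,
    star_zero, zero_mul, mul_assoc, ← mul_assoc (star (c : End F V)) c, cc] at quad'
  by_cases h5 : (α * δ - β * γ) * star (α + δ) = α + δ
  · obtain ⟨l, hl⟩ := root_F4 h02 hθ h5
    have hy : (l - δ) • u + γ • b ≠ 0 := ne_left (f := f) (b := eb) (by simp [a1, a2, hγ])
    have hyY : (l - δ) • u + γ • b ∈ Y := Submodule.mem_span_pair.mpr ⟨_, _, rfl⟩
    refine eig _ hyY hy ⟨l, ?_⟩ fun v hv hv' => by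
      rw [z2 _ hy (YY _ hyY).2.2 v hv hv']; exact Submodule.zero_mem _
    rw [map_add, map_smul, map_smul, ← eα, ← eβ]
    match_scalars
    · linear_combination -hl
    · ring
  · have e1 : ((α * δ - β * γ) * star (α + δ) - (α + δ)) • (c : End F V) =
        ((α * δ - β * γ) * star (α * δ - β * γ) - 1) • 1 := by
      simp only [star_add, star_sub, star_mul]
      linear_combination (norm := module) quad - (α * δ - β * γ) • quad'
    rw [← eq_inv_smul_iff₀ (sub_ne_zero.mpr h5), smul_smul] at e1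
    exact ⟨_ • (k : End F U), by rw [e, e1, map_smul, mul_smul_comm, mul_one]⟩

theorem stabB [Finite F] {g : (End F V)ˣ} (hg : g ∈ triv M (Ln ρ u ⊔ Ln ρ b ⊔ Ln ρ' u'))
    (hs : Same ρ (cf g ρ)) : ∃ x, (g : End F V) - 1 = ρ x ∧
      ∀ y w, f u w = 0 → f b w = 0 → f (x y) w = 0 := by
  obtain ⟨x, hx⟩ := stabB1 G hM hK h h' hn hu hu' h0 h0' hd h4 h02 hb hbu hb' hg hs
  have hub := symm0 hbu
  have hb0 : b ≠ 0 := by simpa using hb' 0
  refine ⟨x - 1, by rw [hx, map_sub, map_one], fun y w h1 h2 => ?_⟩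
  by_contra h5
  have hz0 := ne_left h5
  set z := (x - 1) y with hz
  have h6 : Ln ρ z ≤ Ln ρ u ⊔ Ln ρ b ⊔ Ln ρ' u' := fun v hv => by
    obtain ⟨v', rfl⟩ := Ln_le_range _ hz0 hv
    have := hg.2 v'
    rw [hx] at this
    simpa using this
  obtain ⟨eb, a1, a2⟩ := f.exists_pair hb'
  have d1 := finrank_sup_Ln (f := f) (ρ := ρ) (S := Ln ρ u ⊔ Ln ρ b) (z := z) (w := (star (f z w)⁻¹) • w)
    (by simp [h5]) fun v hv => by
      obtain ⟨v₁, h5, v₂, h6, rfl⟩ := Submodule.mem_sup.mp hv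
      rw [map_add, R_zero (f := f) h5 _ (by simp [h1]), R_zero (f := f) h6 _ (by simp [h2]), add_zero]
  have d2 := Submodule.finrank_sup_add_finrank_inf_eq (Ln ρ u ⊔ Ln ρ b) (Ln ρ' u')
  have d3 : finrank F (Ln ρ z) = finrank F (Ln ρ' u') := finrank_Ln_eq hz0 hu'
  have d4 := (Submodule.eq_of_le_of_finrank_le (sup_le le_sup_left h6) (by omega)).ge
  obtain ⟨a, ha0, ha, h7, h8, h9⟩ : ∃ a, a ≠ 0 ∧ f a a = 0 ∧ f u a = 0 ∧ f b a = 0 ∧ f z a = 0 := by
    by_cases h7 : f z u = 0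
    · exact ⟨u, hu, h0, h0, hbu, h7⟩
    · exact ⟨b - star (f z b / f z u) • u, sub_ne_zero.mpr (hb' _), by simp [h0, hb, hbu, hub],
        by simp [h0, hub], by simp [hb, hbu], by simp [h7]⟩
  have := lemE1 G hM hK h' h (fun e => hn e.symm) hu' ha0 h0' ha (S := Ln ρ' u') le_rfl fun v hv => by
    obtain ⟨_, h5, v₃, h6, rfl⟩ := Submodule.mem_sup.mp (d4 (Submodule.mem_sup_right hv))
    obtain ⟨v₁, h10, v₂, h11, rfl⟩ := Submodule.mem_sup.mp h5
    simp [R_zero h10 _ h7, R_zero h11 _ h8, R_zero h6 _ h9]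
  have d5 := d_lt G hM hK h h' hn hu hu' h0 h0' hd
  have d6 : finrank F (Ln ρ u) = finrank F (Ln ρ' u') := finrank_Ln_eq hu hu'
  omega

theorem mainB0 [Finite F] : False := by
  haveI : Finite V := Module.finite_of_finite F
  haveI : Finite (End F V) := Finite.of_injective _ DFunLike.coe_injective
  have hub := symm0 hbu
  have hb0 : b ≠ 0 := by simpa using hb' 0
  have h2 := two_eq_zero h02
  set G₂ := triv M (Ln ρ u ⊔ Ln ρ b ⊔ Ln ρ' u')
  let H : Subgroup G₂ :=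
    { carrier := {g | Same ρ (cf g.1 ρ)}
      one_mem' := by simpa using Same.refl ρ
      mul_mem' := fun {g k} hg hk => by
        simpa [cf_mul] using Same.trans hg (Same.cf hk g.1)
      inv_mem' := fun {g} hg => by
        have := (Same.cf hg g.1⁻¹).symm
        rwa [← cf_mul, inv_mul_cancel, cf_one] at this }
  have st := fun (g : G₂) (hg : g ∈ H) => stabB G hM hK h h' hn hu hu' h0 h0' hd h4 h02 hb hbu hb' g.2 hg
  have root : ∀ {a : U} (ha : f a a = 0), Ln ρ a ≤ Ln ρ u ⊔ Ln ρ b → un _ (N_sq (ρ := ρ) ha 1) ∈ G₂ :=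
    fun ha hL => ⟨(im_iff _).mp (h.N ha (star_one F)), fun v => by
      simpa using Submodule.mem_sup_left (hL (R_mem _ _ _))⟩
  have rootH : ∀ {a : U} (ha : f a a = 0) (hL : Ln ρ a ≤ Ln ρ u ⊔ Ln ρ b), f u a = 0 →
      (⟨_, root ha hL⟩ : G₂) ∈ H := fun ha hL h1 =>
    same_of_stab G hM h hu h0 (root ha hL).1 fun v hv => by simpa [R_zero hv _ h1] using hv
  have sq : ∀ {a : U} (ha : f a a = 0) (hL : Ln ρ a ≤ Ln ρ u ⊔ Ln ρ b), (⟨_, root ha hL⟩ : G₂) ^ 2 = 1 :=
    fun ha hL => Subtype.ext (by rw [sq]; exact un_mul_self (N_sq ha 1) h2)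
  obtain ⟨w, hw, h5, h6⟩ := f.exists_perp_two (by omega) u b
  obtain ⟨a, ha⟩ := f.exists_left hw
  have key := frob_pp H (by
      intro g k hk hk' hg
      by_contra hk1
      obtain ⟨x, e1, h7⟩ := st k hk
      obtain ⟨x₁, e2, h8⟩ := st _ hk'
      obtain ⟨y, hy⟩ : ∃ y, x₁ y ≠ 0 := by
        by_contra! h9
        rw [(LinearMap.ext h9 : x₁ = 0), map_zero, sub_eq_zero] at e2
        have : g⁻¹ * k * g = 1 := Subtype.ext (Units.ext e2)
        exact hk1 (by rw [← mul_right_inj g⁻¹, ← mul_left_inj g, this]; simp)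
      have hyu : f (x₁ y) u = 0 := h8 y u h0 hbu
      have hyy : f (x₁ y) (x₁ y) = 0 := h8 y _ (symm0 hyu) (symm0 (h8 y b hub hb))
      have hL : ∀ v ∈ Ln (cf g.1 ρ) (x₁ y), ∀ a w, f u w = 0 → f b w = 0 → f.R ρ a w v = 0 := by
        intro v hv a w h9 h10
        rw [Ln_cf] at hv
        obtain ⟨v', hv', rfl⟩ := hv
        obtain ⟨v'', rfl⟩ := Ln_le_range _ hy hv'
        have : (g.1 : End F V) (ρ x₁ v'') = ρ x ((g.1 : End F V) v'') := by rw [← e1, ← e2]; simp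
        rw [this]
        exact rho_mem (S := LinearMap.ker (f.R ρ a w)) (fun y' v hv => R_zero hv _ (h7 y' w h9 h10)) _
      have hg' := h.cf hM g.2.1
      have hx : un _ (N_sq (ρ := cf g.1 ρ) hyy 1) ∈ M := (im_iff _).mp (hg'.N hyy (star_one F))
      rcases lemC G hM h hg' hy hyy one_ne_zero (same_of_stab G hM h hu h0 hx fun v hv => by
        simpa [perp_symm hg'.ad h.ad hu (fun v hv => hL v hv u u h0 hbu) hv] using hv) with h9 | h9
      · exact hg h9
      · obtain ⟨v, hv, hv0⟩ := Ln_ne_bot (ρ := cf g.1 ρ) hy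
        refine hv0 (eq_zero_of_R (f := f) (ρ := ρ) hu fun e => ?_)
        have := hL _ ((h9.symm (r1 a (f.fl e))).mem_Ln hv) u w (symm0 h5) (symm0 h6)
        rwa [← R, R_R, ha, one_smul] at this)
    (by
      have hy : un _ (N_sq (ρ := ρ') h0' 1) ∈ M := (im_iff _).mp (h'.N h0' (star_one F))
      exact ⟨⟨_, hy, fun v => by simpa using Submodule.mem_sup_right (R_mem _ _ _)⟩, fun hm =>
        hn (lemC G hM h h' hu' h0' one_ne_zero hm)⟩)
    (rootH h0 le_sup_left h0) (rootH hb le_sup_right hub) (sq h0 le_sup_left) (sq hb le_sup_right) (by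
      intro e
      exact R_ne (f := f) (ρ := ρ) hu hu
        (by simpa using congrArg (fun g : G₂ => ((g : (End F V)ˣ) : End F V)) e))
    (Subtype.ext (Units.ext (by
      simp only [Subgroup.coe_mul, Units.val_mul, un_val, mul_add, add_mul, one_smul, RR_mul, hub, hbu]
      simp only [mul_one, one_mul, zero_smul, add_zero]; abel)))
  rw [← mem_powers_iff_mem_zpowers] at key
  obtain ⟨j, hj⟩ := key
  have e1 := congrArg (fun g : G₂ => ((g : (End F V)ˣ) : End F V)) hj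
  simp only [Subgroup.coe_pow] at e1
  rw [un_pow, un_val, add_right_inj, one_smul, one_smul] at e1
  obtain ⟨eb, a1, a2⟩ := f.exists_pair hb'
  have := congrArg (fun z => f.R ρ b eb * z) e1
  simp only [mul_smul_comm, RR_mul, a1, a2, zero_smul, smul_zero, one_smul] at this
  exact R_ne hb0 hb0 this.symm

end B

end Cfsg.Agent.H1.TF
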