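import Cfsg.Agent.H1.TF5
import Cfsg.Agent.H1.OSub3
import Cfsg.Agent.H9.Sp.Ten5

set_option autoImplicit false
set_option linter.unusedSectionVars false

/-! Two good frames: small dimension two, via Dickson's theorem. -/

namespace Cfsg.Agent.H1.TF

open Module TW SF

theorem sylow_cover {P Q : Type*} [Group P] [Finite P] [Group Q] {p : ℕ} [Fact p.Prime] (φ : P →* Q)
    (hφ : ∀ g, φ g ^ p = 1) (X : Subgroup P) (hX : ∀ x ∈ X, x ^ p = 1)
    (h : ∀ g : P, (∃ r, g ^ p ^ r = 1) → (∀ x ∈ X, g * x * g⁻¹ ∈ X) → g ∈ X) (g : P) :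
    ∃ x ∈ X, φ x = φ g := by
  have hXp : IsPGroup p X := fun x => ⟨1, Subtype.ext (by simpa using hX x x.2)⟩
  obtain ⟨S, hS⟩ := hXp.exists_le_sylow
  have e : X = S := by
    by_contra hne
    haveI := S.isPGroup'.isNilpotent
    have h1 : X.subgroupOf S < ⊤ := by
      rw [lt_top_iff_ne_top, Ne, Subgroup.subgroupOf_eq_top]
      exact fun h2 => hne (le_antisymm hS h2)
    obtain ⟨⟨y, hy⟩, h2, h3⟩ := SetLike.exists_of_lt (Group.normalizerCondition_of_isNilpotent _ h1)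
    refine h3 (h y ?_ fun x hx => ?_)
    · obtain ⟨r, hr⟩ := S.isPGroup' ⟨y, hy⟩
      exact ⟨r, congrArg Subtype.val hr⟩
    · exact (Subgroup.mem_normalizer_iff.mp h2 ⟨x, hS hx⟩).mp hx
  have h1 : ¬ p ∣ (φ.ker ⊔ X).index := fun h2 =>
    S.not_dvd_index (h2.trans (e ▸ Subgroup.index_dvd_of_le le_sup_right))
  have h2 : IsPGroup p φ.range := by
    rintro ⟨_, y, rfl⟩
    exact ⟨1, Subtype.ext (by simpa using hφ y)⟩
  haveI : Finite φ.range := Finite.of_surjective _ φ.rangeRestrict_surjective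
  obtain ⟨n, hn⟩ := IsPGroup.iff_card.mp h2
  have h3 : (φ.ker ⊔ X).index ∣ p ^ n := by
    rw [← hn, ← Subgroup.index_ker]; exact Subgroup.index_dvd_of_le le_sup_left
  obtain ⟨m, -, hm⟩ := (Nat.dvd_prime_pow Fact.out).mp h3
  have h4 : φ.ker ⊔ X = ⊤ := by
    rw [← Subgroup.index_eq_one, hm]
    rcases m with _ | m
    · rfl
    · exact absurd (hm ▸ dvd_pow_self p (by omega)) h1
  have h5 : g ∈ ((φ.ker ⊔ X : Subgroup P) : Set P) := by rw [h4]; trivial
  rw [Subgroup.normal_mul] at h5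
  obtain ⟨k, hk, x, hx, rfl⟩ := h5
  exact ⟨x, hx, by rw [map_mul, (MonoidHom.mem_ker).mp hk, one_mul]⟩

variable {F : Type*} [Field F] [StarRing F] {U V : Type*} [AddCommGroup U] [Module F U]
  [AddCommGroup V] [Module F V] [FiniteDimensional F U] [FiniteDimensional F V] [Nontrivial V]
  [StarRing (End F V)] [StarModule F (End F V)]

variable {f : SF F U} {ρ ρ' σ σ' : Fr F U V} {M : Subgroup (End F V)ˣ}

theorem ker_two (h2 : finrank F U = 2) {u : U} (hu : u ≠ 0) (h0 : f u u = 0) {v : V}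
    (hv : f.R ρ u u v = 0) : v ∈ Ln ρ u := ker_le hu (fun b hb => by
  obtain ⟨s, rfl⟩ := f.perp_two h2.le hu h0 hb
  exact Ln_smul_le s u) hv

theorem Good.qt2 (h2 : finrank F U = 2) (h : Good f M ρ) {u : U} (hu : u ≠ 0) (h0 : f u u = 0) {Z : End F V}
    (hZ : IM M (1 + Z)) (h1 : ∀ v ∈ Ln ρ u, Z v = 0) : ∃ c : F, Z = c • f.R ρ u u := by
  obtain ⟨b, c, h3, rfl⟩ := h.qt u hu h0 Z hZ h1 fun v hv => by
    rw [h1 v (ker_two h2 hu h0 hv)]; exact Submodule.zero_mem _
  obtain ⟨s, rfl⟩ := f.perp_two h2.le hu h0 h3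
  exact ⟨star s + s + c, by simp [Ee, R_smul_left, R_smul_right, add_smul]⟩

theorem Ln_eq_of_same (h : Same σ σ') {a a' : U} (ha' : a' ≠ 0) {v : V} (hv0 : v ≠ 0) (hv : v ∈ Ln σ a)
    (hv' : v ∈ Ln σ' a') : Ln σ a = Ln σ' a' := by
  obtain ⟨k, hk⟩ := h
  rw [Ln_same hk] at hv' ⊢
  by_cases h1 : ∀ s : F, (k : End F U) a' ≠ s • a
  · obtain ⟨φ, h2, h3⟩ := H6.exists_dual_pair h1
    exact absurd (Ln_disjoint h2 h3 hv hv') hv0
  push Not at h1
  obtain ⟨s, hs⟩ := h1
  rw [hs, Ln_smul]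
  rintro rfl
  exact ha' (unit_eq_zero k (by simpa using hs))

/-- the centre-like coefficients -/
def Zc (hst : ∀ c : F, star c = c) (A B : End F V) : Submodule F (End F V) where
  carrier := {a | a * A = A * a ∧ a * B = B * a ∧ star a = a}
  add_mem' := by
    rintro a b ⟨h1, h2, h3⟩ ⟨h4, h5, h6⟩
    exact ⟨by rw [add_mul, mul_add, h1, h4], by rw [add_mul, mul_add, h2, h5], by rw [star_add, h3, h6]⟩
  zero_mem' := by simp
  smul_mem' := by
    rintro s a ⟨h1, h2, h3⟩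
    exact ⟨by simp [h1], by simp [h2], by rw [star_smul, hst, h3]⟩

/-- the quaternion module -/
def Qa (hst : ∀ c : F, star c = c) (A B : End F V) : Submodule F (End F V) where
  carrier := {x | ∃ a ∈ Zc hst A B, ∃ b ∈ Zc hst A B, ∃ c ∈ Zc hst A B, ∃ d ∈ Zc hst A B,
    x = a + b * A + c * B + d * (A * B)}
  add_mem' := by
    rintro _ _ ⟨a, h1, b, h2, c, h3, d, h4, rfl⟩ ⟨a', h5, b', h6, c', h7, d', h8, rfl⟩
    exact ⟨_, add_mem h1 h5, _, add_mem h2 h6, _, add_mem h3 h7, _, add_mem h4 h8, by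
      simp only [add_mul]; abel⟩
  zero_mem' := ⟨0, zero_mem _, 0, zero_mem _, 0, zero_mem _, 0, zero_mem _, by simp⟩
  smul_mem' := by
    rintro s _ ⟨a, h1, b, h2, c, h3, d, h4, rfl⟩
    exact ⟨_, Submodule.smul_mem _ s h1, _, Submodule.smul_mem _ s h2, _, Submodule.smul_mem _ s h3, _,
      Submodule.smul_mem _ s h4, by simp⟩

section Q
variable {hst : ∀ c : F, star c = c} {A B : End F V} (hA : A * A = 0) (hB : B * B = 0)
  (sA : star A = -A) (sB : star B = -B)
include hA hB sA sB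

theorem Zc_mul {a : End F V} (ha : a ∈ Zc hst A B) : a * (A * B + B * A) ∈ Zc hst A B := by
  obtain ⟨h1, h2, h3⟩ := ha
  have h1' : ∀ x, a * (A * x) = A * (a * x) := fun x => by rw [← mul_assoc, h1, mul_assoc]
  have h2' : ∀ x, a * (B * x) = B * (a * x) := fun x => by rw [← mul_assoc, h2, mul_assoc]
  have hA' : ∀ x, A * (A * x) = 0 := fun x => by rw [← mul_assoc, hA, zero_mul]
  have hB' : ∀ x, B * (B * x) = 0 := fun x => by rw [← mul_assoc, hB, zero_mul]
  refine ⟨?_, ?_, ?_⟩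
  · simp [mul_add, add_mul, mul_assoc, h1, h2, h1', h2', hA, hA']
  · simp [mul_add, add_mul, mul_assoc, h1, h2, h1', h2', hB, hB']
  · simp [mul_add, add_mul, mul_assoc, h1, h2, h1', h2', sA, sB, h3, add_comm]

theorem Qa_A {x : End F V} (hx : x ∈ Qa hst A B) : A * x ∈ Qa hst A B := by
  obtain ⟨a, h1, b, h2, c, h3, d, h4, rfl⟩ := hx
  refine ⟨0, zero_mem _, a, h1, 0, zero_mem _, c, h3, ?_⟩
  simp only [mul_add, ← mul_assoc, ← h1.1, ← h2.1, ← h3.1, ← h4.1]
  simp [mul_assoc, hA, ← mul_assoc A A]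

theorem Qa_B {x : End F V} (hx : x ∈ Qa hst A B) : B * x ∈ Qa hst A B := by
  obtain ⟨a, h1, b, h2, c, h3, d, h4, rfl⟩ := hx
  refine ⟨_, Zc_mul hA hB sA sB h2, 0, zero_mem _, _, add_mem h1 (Zc_mul hA hB sA sB h4), _, neg_mem h2, ?_⟩
  simp only [mul_add, ← mul_assoc, ← h1.2.1, ← h2.2.1, ← h3.2.1, ← h4.2.1]
  simp only [mul_assoc, hB, add_mul, mul_zero, zero_mul, neg_mul]
  abel

end Q

section C

variable (G : f.Geo) (hM : Uni M) {d : ℕ} (hK : Key f M d) (h : Good f M ρ) (h' : Good f M ρ')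
  (hn : ¬ Rel ρ ρ') {u u' : U} (hu : u ≠ 0) (hu' : u' ≠ 0) (h0 : f u u = 0) (h0' : f u' u' = 0)
  (hd : finrank F (Ln ρ u ⊓ Ln ρ' u' : Submodule F V) = d) (h2 : finrank F U = 2)
include G hM hK h h' hn hu hu' h0 h0' hd h2

theorem pel {p : ℕ} [Fact p.Prime] [CharP F p] {g : (End F V)ˣ} (hg : g ∈ M)
    (hq : (g : End F V) ∈ Qa (G.dim2 h2).2.1 (f.R ρ u u) (f.R ρ' u' u')) {r : ℕ} (hr : g ^ p ^ r = 1) {μ : F}
    (hμ : g * f.R ρ u u = μ • (f.R ρ u u * g)) : ∃ s : F, (g : End F V) = 1 + s • f.R ρ u u := by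
  set N := f.R ρ u u with hN
  set N' := f.R ρ' u' u' with hN'
  have hNN : N * N = 0 := by simp [hN, RR_mul, h0]
  have hNN' : N' * N' = 0 := by simp [hN', RR_mul, h0']
  have h1 : ∀ n : ℕ, (g : End F V) ^ n * N = μ ^ n • (N * (g : End F V) ^ n) := by
    intro n
    induction n with
    | zero => simp
    | succ n ih =>
      rw [pow_succ', mul_assoc, ih, mul_smul_comm, ← mul_assoc, hμ, smul_mul_assoc, smul_smul, mul_assoc, pow_succ]
  have hr' : (g : End F V) ^ p ^ r = 1 := by rw [← Units.val_pow_eq_pow_val, hr, Units.val_one]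
  obtain rfl : μ = 1 := by
    have := h1 (p ^ r)
    rw [hr', one_mul, mul_one] at this
    have e : (μ ^ p ^ r - 1) • N = 0 := by rw [sub_smul, ← this, one_smul, sub_self]
    have e2 := (smul_eq_zero.mp e).resolve_right (R_ne hu hu)
    rw [← one_pow (p ^ r), ← sub_pow_char_pow] at e2
    exact sub_eq_zero.mp (pow_eq_zero_iff (by have := (Fact.out : p.Prime).pos; positivity) |>.mp e2)
  rw [one_smul] at hμ
  obtain ⟨a, ha, b, hb, c, hc, e, he, eg⟩ := hq
  have hα := add_mem ha (Zc_mul hNN hNN' (h.ad u u) (h'.ad u' u') he)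
  set α := a + e * (N * N' + N' * N) with eα
  have e1 : c * (N' * N) = 0 := by
    ext v
    have e2 : c * (N' * N) = N * (g - a - e * (N' * N)) := by
      rw [mul_sub, mul_sub, ← hμ, eg, ← ha.1, ← mul_assoc N e, ← he.1]
      simp only [add_mul, mul_assoc, hNN, mul_zero]; abel
    have e3 : c * (N' * N) = N' * (N * c) := by rw [← mul_assoc, hc.2.1, mul_assoc, hc.1]
    have := lemE G hM hK h h' hn hu hu' h0 h0' hd (v := N (c v)) (R_mem _ _ _) (by
      have := congrArg (fun z => z v) (e3.symm.trans e2)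
      simp only [End.mul_apply] at this
      rw [← hN', this]; exact R_mem _ _ _)
    rw [e3]
    exact R_zero this _ h0'
  have e2 : g * N = α * N := by
    rw [eg, eα]; simp only [add_mul, mul_add, mul_assoc, hNN, mul_zero, e1, add_zero]
  have e3 : N * ↑g⁻¹ = N * α := by
    have := congrArg star e2
    rwa [star_mul, star_mul, hM g hg, hα.2.2, h.ad, neg_mul, neg_mul, neg_inj] at this
  have e4 : (g + 1) * ((g - 1) * N) = 0 := by
    have : g * (g * N) = N := by
      rw [e2, hα.1, ← e3, ← mul_assoc, hμ, mul_assoc, Units.mul_inv, mul_one]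
    simp only [sub_mul, add_mul, mul_sub, this, one_mul]; abel
  have e5 : ∀ v, (g : End F V) v = -v → v = 0 := fun v hv => by
    have : ∀ n : ℕ, ((g : End F V) ^ n) v = (-1 : F) ^ n • v := fun n => by
      induction n with
      | zero => simp
      | succ n ih => rw [pow_succ', End.mul_apply, ih, map_smul, hv, pow_succ]; simp
    have e6 := this (p ^ r)
    rw [hr', neg_one_pow_char_pow, End.one_apply, neg_one_smul, eq_neg_iff_add_eq_zero, ← two_smul F] at e6
    exact (smul_eq_zero.mp e6).resolve_left (G.dim2 h2).2.2.1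
  obtain ⟨s, hs⟩ := h.qt2 h2 hu h0 (Z := g - 1) ⟨g, hg, by simp⟩ fun v hv => by
    rw [← range_R (f := f) hu hu] at hv
    obtain ⟨w, rfl⟩ := hv
    refine e5 _ ?_
    rw [eq_neg_iff_add_eq_zero]
    exact congrArg (fun z => z w) e4
  exact ⟨s, by rw [← hs]; simp⟩

open Matrix H8 in
theorem eigen_two [Finite F] : ∃ (t : F) (w : V), t ≠ 0 ∧ w ≠ 0 ∧ f.R ρ u u (f.R ρ' u' u' w) = t • w := by
  haveI : Finite V := Module.finite_of_finite F
  haveI : Finite (End F V) := Finite.of_injective _ DFunLike.coe_injective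
  set N := f.R ρ u u with hN
  set N' := f.R ρ' u' u' with hN'
  have hNN : N * N = 0 := by simp [hN, RR_mul, h0]
  have hNN' : N' * N' = 0 := by simp [hN', RR_mul, h0']
  have nN : ∀ v, N (N v) = 0 := fun v => congrArg (fun z => z v) hNN
  have nN' : ∀ v, N' (N' v) = 0 := fun v => congrArg (fun z => z v) hNN'
  obtain ⟨hal, hst, h20, h4⟩ := G.dim2 h2
  obtain ⟨K, _, _, _, ψ, τ, hτ, hψ, hψ'⟩ := H9.Sp.exists_eigen_functional (N * N') (by
    obtain ⟨w, h1, h3⟩ : ∃ w ∈ Ln ρ u, w ∉ Ln ρ' u' := by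
      by_contra! h1
      have := d_lt G hM hK h h' hn hu hu' h0 h0' hd
      rw [inf_eq_left.mpr h1] at hd
      omega
    intro n e
    have : ∀ n : ℕ, ((N * N') ^ n) w ∈ Ln ρ u ∧ ((N * N') ^ n) w ∉ Ln ρ' u' := by
      intro n
      induction n with
      | zero => exact ⟨h1, h3⟩
      | succ n ih =>
        rw [pow_succ', End.mul_apply, End.mul_apply]
        exact ⟨R_mem _ _ _, fun h5 => ih.2 (lemE G hM hK h h' hn hu hu' h0 h0' hd ih.1
          (lemE G hM hK h' h (fun e => hn e.symm) hu' hu h0' h0 (by rwa [inf_comm]) (R_mem _ _ _) h5))⟩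
    exact (this n).2 (by rw [e]; exact Submodule.zero_mem _))
  simp only [End.mul_apply] at hψ'
  have ψN' : ∀ v, ψ (N' v) = 0 := fun v => by
    have := hψ' (N' v)
    rw [nN', map_zero, map_zero] at this
    exact (mul_eq_zero.mp this.symm).resolve_left hτ
  obtain ⟨y, hy⟩ : ∃ y, ψ (N y) ≠ 0 := by
    by_contra! h1
    exact hψ (LinearMap.ext fun v => (mul_eq_zero.mp ((hψ' v).symm.trans (h1 _))).resolve_left hτ)
  obtain ⟨p, hp⟩ := CharP.exists F
  haveI : Fact p.Prime := ⟨CharP.char_is_prime F p⟩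
  haveI : CharP K p := charP_of_injective_algebraMap (algebraMap F K).injective p
  let Ξ : V → Fin 2 → K := fun v => ![τ * ψ v, ψ (N v)]
  let Γ : Subgroup ((End F V)ˣ × GL (Fin 2) K) :=
    { carrier := {γ | γ.1 ∈ M ∧ (∀ x ∈ Qa hst N N', γ.1 * x ∈ Qa hst N N' ∧ ↑γ.1⁻¹ * x ∈ Qa hst N N') ∧
        ∀ v, Ξ ((γ.1 : End F V) v) = (γ.2 : Matrix (Fin 2) (Fin 2) K) *ᵥ Ξ v}
      one_mem' := ⟨M.one_mem, fun x hx => by simpa using hx, by simp⟩
      mul_mem' := by
        rintro g k ⟨g1, g2, g3⟩ ⟨k1, k2, k3⟩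
        refine ⟨M.mul_mem g1 k1, fun x hx => ⟨?_, ?_⟩, fun v => ?_⟩
        · simpa [mul_assoc] using (g2 _ (k2 x hx).1).1
        · simpa [mul_assoc] using (k2 _ (g2 x hx).2).2
        · rw [Prod.fst_mul, Prod.snd_mul, Units.val_mul, Units.val_mul, End.mul_apply, g3, k3, mulVec_mulVec]
      inv_mem' := by
        rintro g ⟨g1, g2, g3⟩
        refine ⟨M.inv_mem g1, fun x hx => by simpa using (g2 x hx).symm, fun v => ?_⟩
        have := g3 ((↑g.1⁻¹ : End F V) v)
        rw [app_inv] at this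
        rw [this, mulVec_mulVec, Prod.snd_inv, Units.inv_mul, one_mulVec]; rfl }
  have QN := fun x hx => Qa_A (hst := hst) hNN hNN' (h.ad u u) (h'.ad u' u') (x := x) hx
  have QN' := fun x hx => Qa_B (hst := hst) hNN hNN' (h.ad u u) (h'.ad u' u') (x := x) hx
  have up : ∀ a : F, (un _ (N_sq (ρ := ρ) h0 a), mat 1 (τ * algebraMap F K a) 0 1 (by simp)) ∈ Γ := fun a =>
    ⟨(im_iff (N_sq (ρ := ρ) h0 a)).mp (h.N h0 (hst a)), fun x hx =>
      ⟨by simpa [add_mul] using add_mem hx (Submodule.smul_mem _ a (QN x hx)),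
        by simpa [sub_mul] using sub_mem hx (Submodule.smul_mem _ a (QN x hx))⟩, fun v => by
      ext i
      fin_cases i
      · simp [Ξ, mulVec, dotProduct, ← hN, Algebra.smul_def]; ring
      · simp [Ξ, mulVec, dotProduct, ← hN, nN]⟩
  have lo : (un _ (N_sq (ρ := ρ') h0' 1), mat 1 0 1 1 (by simp)) ∈ Γ :=
    ⟨(im_iff (N_sq (ρ := ρ') h0' 1)).mp (h'.N h0' (hst 1)), fun x hx =>
      ⟨by simpa [add_mul] using add_mem hx (QN' x hx), by simpa [sub_mul] using sub_mem hx (QN' x hx)⟩,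
      fun v => by
      ext i
      fin_cases i
      · simp [Ξ, mulVec, dotProduct, ← hN', ψN']
      · simp [Ξ, mulVec, dotProduct, ← hN', hψ', add_comm]⟩
  let P : Subgroup ((End F V)ˣ × GL (Fin 2) K) :=
    { carrier := {γ | γ ∈ Γ ∧ ∃ s, γ.2 = mat 1 s 0 1 (by simp)}
      one_mem' := ⟨Γ.one_mem, 0, by ext i j; fin_cases i <;> fin_cases j <;> simp⟩
      mul_mem' := by
        rintro g k ⟨g1, s, g2⟩ ⟨k1, t, k2⟩
        refine ⟨Γ.mul_mem g1 k1, s + t, ?_⟩
        rw [Prod.snd_mul, g2, k2]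
        ext i j; fin_cases i <;> fin_cases j <;> simp [Matrix.mul_apply, add_comm]
      inv_mem' := by
        rintro g ⟨g1, s, g2⟩
        refine ⟨Γ.inv_mem g1, -s, ?_⟩
        rw [Prod.snd_inv, g2, inv_eq_iff_mul_eq_one]
        ext i j; fin_cases i <;> fin_cases j <;> simp [Matrix.mul_apply] }
  let X : Subgroup P :=
    { carrier := {γ | ∃ a : F, (γ.1.1 : End F V) = 1 + a • N}
      one_mem' := ⟨0, by simp⟩
      mul_mem' := by
        rintro g k ⟨s, g2⟩ ⟨t, k2⟩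
        refine ⟨s + t, ?_⟩
        change (g.1.1 : End F V) * k.1.1 = _
        simp [g2, k2, add_mul, mul_add, hNN, add_smul]; abel
      inv_mem' := by
        rintro g ⟨s, g2⟩
        refine ⟨-s, ?_⟩
        change (↑g.1.1⁻¹ : End F V) = _
        rw [Units.inv_eq_of_mul_eq_one_right]
        simp [g2, add_mul, mul_add, hNN] }
  have hup : ∀ s : K, mat 1 s 0 1 (by simp) ^ p = 1 := by
    intro s; rw [upper_pow]; ext i j; fin_cases i <;> fin_cases j <;> simp
  have key := dickson_lemma (F := K) (by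
      rw [← map_ofNat (algebraMap F K)]; exact (map_ne_zero _).mpr h20) (Γ.map (MonoidHom.snd _ _))
    (algebraMap F K).fieldRange hτ (fun s => ⟨?_, ?_⟩) ⟨_, lo, rfl⟩ (Or.inl (by
      rwa [← Nat.card_congr (algebraMap F K).rangeRestrictFieldEquiv.toEquiv]))
  · obtain ⟨t, rfl⟩ := key
    have : ¬ Function.Injective (N * N' - t • 1 : End F V) := fun h1 => hψ (LinearMap.ext fun v => by
      obtain ⟨x, rfl⟩ := LinearMap.injective_iff_surjective.mp h1 v
      simp [hψ', Algebra.smul_def])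
    rw [injective_iff_map_eq_zero] at this
    push Not at this
    obtain ⟨w, h1, h3⟩ := this
    exact ⟨t, w, by rintro rfl; simp at hτ, h3, by simpa [sub_eq_zero] using h1⟩
  · rintro ⟨γ, hγ, e⟩
    obtain ⟨x, ⟨a, ha⟩, hx⟩ := sylow_cover (p := p) ((MonoidHom.snd _ _).comp P.subtype) (fun g => by
        obtain ⟨s, hs⟩ := g.2.2
        change g.1.2 ^ p = 1
        rw [hs, hup]) X (by
        rintro g ⟨a, ha⟩
        obtain ⟨s, hs⟩ := g.2.2
        refine Subtype.ext (Prod.ext (Units.ext ?_) ?_)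
        · have := un_pow (N_sq (ρ := ρ) h0 a) p
          rw [CharP.cast_eq_zero, zero_smul, add_zero] at this
          have e : g.1.1 = un _ (N_sq (ρ := ρ) h0 a) := Units.ext ha
          change ((g.1.1 ^ p : (End F V)ˣ) : End F V) = 1
          rw [e, this]
        · change g.1.2 ^ p = 1
          rw [hs, hup]) (by
        rintro g ⟨r, hr⟩ hg
        obtain ⟨μ, hμ⟩ := hg ⟨_, up 1, _, rfl⟩ ⟨1, rfl⟩
        refine pel G hM hK h h' hn hu hu' h0 h0' hd h2 g.2.1.1 (by
          simpa using (g.2.1.2.1 1 ⟨1, by simp [Zc], 0, zero_mem _, 0, zero_mem _, 0, zero_mem _, by simp⟩).1)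
          (p := p) (r := r) (congrArg (fun z : P => z.1.1) hr) (μ := μ) ?_
        change (g.1.1 : End F V) * (1 + (1 : F) • N) * ↑g.1.1⁻¹ = _ at hμ
        rw [Units.mul_inv_eq_iff_eq_mul] at hμ
        simpa [mul_add, add_mul] using hμ) ⟨γ, hγ, s, e⟩
    have e1 : x.1.2 = mat 1 s 0 1 (by simp) := hx.trans e
    have := congrFun (x.2.1.2.2 y) 0
    rw [ha, e1] at this
    simp [Ξ, mulVec, dotProduct, Algebra.smul_def, mul_add] at this
    exact ⟨a, by field_simp; exact mul_right_cancel₀ hy (by linear_combination this)⟩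
  · rintro ⟨a, ha⟩
    refine ⟨_, up a, ?_⟩
    change mat 1 (τ * algebraMap F K a) 0 1 (by simp) = _
    congr 1
    rw [ha]; field_simp

end C

end Cfsg.Agent.H1.TF
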