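import Cfsg.Agent.H1.TF6

set_option autoImplicit false
set_option linter.unusedSectionVars false

/-! Two good frames are equal or commute. -/

namespace Cfsg.Agent.H1.TF

open Module TW SF

theorem exists_sq_ne {F : Type*} [Field F] [Finite F] (h4 : 4 ≤ Nat.card F) :
    ∃ α : F, α ≠ 0 ∧ α * α ≠ 1 := by
  classical
  by_contra! h
  have : (Set.univ : Set F) ⊆ ({0, 1, -1} : Finset F) := fun a _ => by
    by_cases ha : a = 0
    · simp [ha]
    · rcases mul_self_eq_one_iff.mp (h a ha) with e | e <;> simp [e]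
  have h1 := Set.ncard_le_ncard this (Finset.finite_toSet _)
  rw [Set.ncard_univ, Set.ncard_coe_finset] at h1
  have := Finset.card_le_three (a := (0 : F)) (b := 1) (c := -1)
  omega

variable {F : Type*} [Field F] [StarRing F] {U V : Type*} [AddCommGroup U] [Module F U]
  [AddCommGroup V] [Module F V] [FiniteDimensional F U] [FiniteDimensional F V] [Nontrivial V]
  [StarRing (End F V)] [StarModule F (End F V)]

variable {f : SF F U} {ρ ρ' σ σ' : Fr F U V} {M : Subgroup (End F V)ˣ}

/-- the torus element of the `SL₂` generated by two quadratic elements -/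
def ht (A B : End F V) (α : F) : End F V :=
  (1 + α • A) * (1 + (-α⁻¹) • B) * (1 + α • A) * ((1 + (-1 : F) • A) * (1 + (1 : F) • B) * (1 + (-1 : F) • A))

theorem ht_mem {A B : End F V} (hA : ∀ s : F, IM M (1 + s • A)) (hB : ∀ s : F, IM M (1 + s • B)) (α : F) :
    IM M (ht A B α) := (((hA _).mul (hB _)).mul (hA _)).mul (((hA _).mul (hB _)).mul (hA _))

section alg
variable {A B : End F V} (hA : A * A = 0) (hB : B * B = 0) (e1 : A * (B * (A * B)) = A * B)
  (e2 : B * (A * (B * A)) = B * A) {α : F} (hα : α ≠ 0)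
include hA hB e1 e2 hα

theorem ht_A : ht A B α * A = A + (α - 1) • (A * (B * A)) := by
  have hA' : ∀ x, A * (A * x) = 0 := fun x => by rw [← mul_assoc, hA, zero_mul]
  have hB' : ∀ x, B * (B * x) = 0 := fun x => by rw [← mul_assoc, hB, zero_mul]
  simp only [ht, mul_assoc, mul_add, add_mul, one_mul, mul_one, smul_mul_assoc, mul_smul_comm, hA, hB, hA', hB',
    e2, smul_zero, mul_zero, add_zero, smul_add, smul_smul]
  match_scalars <;> field_simp <;> ring

theorem A_ht : A * ht A B α = A + (α⁻¹ - 1) • (A * (B * A)) := by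
  have hA' : ∀ x, A * (A * x) = 0 := fun x => by rw [← mul_assoc, hA, zero_mul]
  have hB' : ∀ x, B * (B * x) = 0 := fun x => by rw [← mul_assoc, hB, zero_mul]
  simp only [ht, mul_assoc, mul_add, add_mul, one_mul, mul_one, smul_mul_assoc, mul_smul_comm, hA, hB, hA', hB',
    e1, e2, smul_zero, mul_zero, add_zero, smul_add, smul_smul]
  match_scalars <;> field_simp <;> ring

theorem ht_BA : ht A B α * (B * A) = α⁻¹ • (B * A) := by
  have hA' : ∀ x, A * (A * x) = 0 := fun x => by rw [← mul_assoc, hA, zero_mul]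
  have hB' : ∀ x, B * (B * x) = 0 := fun x => by rw [← mul_assoc, hB, zero_mul]
  simp only [ht, mul_assoc, mul_add, add_mul, one_mul, mul_one, smul_mul_assoc, mul_smul_comm, hA, hB, hA', hB',
    e1, e2, smul_zero, mul_zero, add_zero, smul_add, smul_smul]
  match_scalars <;> field_simp <;> ring

end alg

theorem sameC [Finite F] (G : f.Geo) (h2 : finrank F U = 2) (h : Good f M ρ) {u : U} (hu : u ≠ 0)
    (h0 : f u u = 0) {t : F} (ht0 : t ≠ 0) {A B : End F V} (hA : A = t • f.R ρ u u) (hB : B * B = 0)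
    (hBM : ∀ s : F, IM M (1 + s • B)) (e1 : A * (B * (A * B)) = A * B) (e2 : B * (A * (B * A)) = B * A)
    (hne : A * (B * A) ≠ 0) : A * (B * A) = A := by
  obtain ⟨-, hst, -, h4⟩ := G.dim2 h2
  obtain ⟨α, hα, hα1⟩ := exists_sq_ne h4
  have hAA : A * A = 0 := hA ▸ N_sq h0 t
  have hAM : ∀ s : F, IM M (1 + s • A) := fun s => by rw [hA, smul_smul]; exact h.N h0 (hst _)
  obtain ⟨g, hg, eg⟩ := ht_mem hAM hBM α
  have a1 := ht_A hAA hB e1 e2 hα
  have a2 := A_ht hAA hB e1 e2 hα
  rw [← eg] at a1 a2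
  have rA : LinearMap.range A = Ln ρ u := hA ▸ range_smul_N hu ht0
  obtain ⟨μ, hμ⟩ := h.qt2 h2 hu h0 ((by simpa using hAM 1 : IM M (1 + A)).conj' hg) fun v hv => by
    have := inv_mem_of g (A := Ln ρ u) (fun v hv => by
      rw [← rA] at hv ⊢
      obtain ⟨y, rfl⟩ := hv
      exact ⟨y + (α - 1) • B (A y), by rw [← End.mul_apply (g : End F V), a1]; simp⟩) hv
    rw [← rA] at this
    obtain ⟨y, hy⟩ := this
    rw [End.mul_apply, End.mul_apply, ← hy, ← End.mul_apply A, hAA]; simp
  have e3 : (g : End F V) * A = (μ / t) • (A * g) := by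
    rw [← smul_mul_assoc, ← Units.mul_inv_eq_iff_eq_mul, hμ, hA, smul_smul, div_mul_cancel₀ _ ht0]
  rw [a1, a2] at e3
  generalize μ / t = ν at e3
  have e4 := congrArg (· * (B * A)) e3
  simp only [add_mul, smul_mul_assoc, mul_assoc, e2] at e4
  have e5 : (α - ν * α⁻¹) • (A * (B * A)) = 0 := by linear_combination (norm := module) e4
  have e6 : ν = α * α := by
    have := (smul_eq_zero.mp e5).resolve_right hne
    field_simp at this
    linear_combination -this
  have e7 : (1 - α * α) • (A - A * (B * A)) = 0 := by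
    rw [e6] at e3
    have e8 : α * α * (α⁻¹ - 1) = α - α * α := by field_simp
    rw [smul_add, smul_smul, e8] at e3
    linear_combination (norm := module) e3
  exact (sub_eq_zero.mp ((smul_eq_zero.mp e7).resolve_left (sub_ne_zero.mpr hα1.symm))).symm

section C

variable (G : f.Geo) (hM : Uni M) {d : ℕ} (hK : Key f M d) (h : Good f M ρ) (h' : Good f M ρ')
  (hn : ¬ Rel ρ ρ') {u u' : U} (hu : u ≠ 0) (hu' : u' ≠ 0) (h0 : f u u = 0) (h0' : f u' u' = 0)
  (hd : finrank F (Ln ρ u ⊓ Ln ρ' u' : Submodule F V) = d)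
include G hM hK h h' hn hu hu' h0 h0' hd

theorem halfC {s t : F} (hs : s ≠ 0) (ht0 : t ≠ 0) {A B X : End F V} (hA : A = s • f.R ρ u u)
    (hB : B = t • f.R ρ' u' u') (e : A * (B * (A * X)) = 0) : B * (A * X) = 0 := by
  ext v
  have e1 := congrArg (fun z => z v) e
  simp only [End.mul_apply, LinearMap.zero_apply] at e1 ⊢
  have m1 : A (X v) ∈ Ln ρ u := by rw [hA]; exact Submodule.smul_mem _ _ (R_mem _ _ _)
  have m2 : B (A (X v)) ∈ Ln ρ' u' := by rw [hB]; exact Submodule.smul_mem _ _ (R_mem _ _ _)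
  have m3 := lemP G hM hK h h' hn hu hu' h0 h0' hd m2 (by
    nth_rw 1 [hA] at e1
    exact (smul_eq_zero.mp e1).resolve_left hs)
  have m4 := lemE G hM hK h h' hn hu hu' h0 h0' hd m1 (by
    rw [hB, LinearMap.smul_apply, Submodule.smul_mem_iff _ ht0] at m3; exact m3)
  rw [hB, LinearMap.smul_apply, R_zero m4 _ h0', smul_zero]

theorem mainC [Finite F] (h2 : finrank F U = 2) : False := by
  obtain ⟨t, w, ht0, hw, e⟩ := eigen_two G hM hK h h' hn hu hu' h0 h0' hd h2
  obtain ⟨-, hst, h20, h4⟩ := G.dim2 h2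
  have hti : t⁻¹ ≠ 0 := inv_ne_zero ht0
  obtain ⟨A, hA⟩ : ∃ A, A = t⁻¹ • f.R ρ u u := ⟨_, rfl⟩
  obtain ⟨B, hB⟩ : ∃ B, B = (1 : F) • f.R ρ' u' u' := ⟨_, rfl⟩
  have hAA : A * A = 0 := hA ▸ N_sq h0 _
  have hBB : B * B = 0 := hB ▸ N_sq h0' _
  have hA' : ∀ x, A * (A * x) = 0 := fun x => by rw [← mul_assoc, hAA, zero_mul]
  have hB' : ∀ x, B * (B * x) = 0 := fun x => by rw [← mul_assoc, hBB, zero_mul]
  have hAM : ∀ s : F, IM M (1 + s • A) := fun s => by rw [hA, smul_smul]; exact h.N h0 (hst _)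
  have hBM : ∀ s : F, IM M (1 + s • B) := fun s => by rw [hB, smul_smul]; exact h'.N h0' (hst _)
  have rA : LinearMap.range A = Ln ρ u := hA ▸ range_smul_N hu hti
  have rB : LinearMap.range B = Ln ρ' u' := hB ▸ range_smul_N hu' one_ne_zero
  have zA : ∀ v ∈ Ln ρ u, A v = 0 := fun v hv => by simp [hA, R_zero hv _ h0]
  have zB : ∀ v ∈ Ln ρ' u', B v = 0 := fun v hv => by simp [hB, R_zero hv _ h0']
  have ew : A (B w) = w := by simp [hA, hB, e, smul_smul, ht0]
  have hx : un A hAA ∈ M := (im_iff _).mp (by simpa using hAM 1)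
  have hy : un B hBB ∈ M := (im_iff _).mp (by simpa using hBM 1)
  have wL : w ∈ Ln ρ u := rA ▸ ⟨_, ew⟩
  have m1 : w + B w ∈ Ln (cf (un B hBB) ρ) u := mem_Ln_cf.mpr wL
  have m2 : w + B w ∈ Ln (cf (un A hAA) ρ') u' := by
    have := mem_Ln_cf (g := un A hAA).mpr (rB ▸ ⟨w, rfl⟩ : B w ∈ Ln ρ' u')
    rwa [un_val, LinearMap.add_apply, End.one_apply, ew, add_comm] at this
  have m3 : w + B w ∉ Ln ρ u := fun hm => hw (by
    rw [← ew]; exact zA _ (((Ln ρ u).add_mem_iff_right wL).mp hm))
  rcases hK _ _ u u' (h.cf hM hy) (h'.cf hM hx) hu hu' h0 h0' (by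
    rw [← hd]
    refine Submodule.finrank_lt_finrank_of_lt (lt_of_le_of_ne (fun v hv => ⟨?_, ?_⟩) fun e => ?_)
    · simpa [zB v hv.2] using (mem_Ln_cf (g := un B hBB)).mpr hv.1
    · simpa [zA v hv.1] using (mem_Ln_cf (g := un A hAA)).mpr hv.2
    · exact m3 (e.ge ⟨m1, m2⟩).1) with hs | hc
  · have hL := Ln_eq_of_same hs hu' (fun e => m3 (by rw [e]; exact Submodule.zero_mem _)) m1 m2
    have e1 : A * (B * (A * B)) = A * B := LinearMap.ext fun v => by
      have := mem_Ln_cf (g := un A hAA).mpr (rB ▸ ⟨v, rfl⟩ : B v ∈ Ln ρ' u')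
      rw [← hL, ← app_inv (un B hBB) ((un A hAA : End F V) (B v)), mem_Ln_cf] at this
      have := zA _ this
      have b1 : ∀ v, B (B v) = 0 := fun v => congrArg (fun z => z v) hBB
      have b2 : ∀ v, A (A v) = 0 := fun v => congrArg (fun z => z v) hAA
      exact Eq.symm (by simpa [b1, b2, sub_eq_zero] using this)
    have e2 : B * (A * (B * A)) = B * A := LinearMap.ext fun v => by
      have := mem_Ln_cf (g := un B hBB).mpr (rA ▸ ⟨v, rfl⟩ : A v ∈ Ln ρ u)
      rw [hL, ← app_inv (un A hAA) ((un B hBB : End F V) (A v)), mem_Ln_cf] at this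
      have := zB _ this
      have b1 : ∀ v, B (B v) = 0 := fun v => congrArg (fun z => z v) hBB
      have b2 : ∀ v, A (A v) = 0 := fun v => congrArg (fun z => z v) hAA
      exact Eq.symm (by simpa [b1, b2, sub_eq_zero] using this)
    have e3 := sameC G h2 h hu h0 hti hA hBB hBM e1 e2 fun e => hw (by
      simpa [ew] using congrArg (fun z => z (B w)) e)
    have e4 := sameC G h2 h' hu' h0' one_ne_zero hB hAA hAM e2 e1 fun e => hw (by
      simpa [ew] using congrArg (fun z => A (z w)) e)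
    obtain ⟨α, hα, hα1⟩ := exists_sq_ne h4
    obtain ⟨g, hg, eg⟩ := ht_mem hAM hBM α
    have a1 := ht_A hAA hBB e1 e2 hα
    have a2 := ht_BA hAA hBB e1 e2 hα
    rw [← eg] at a1 a2
    rw [e3] at a1
    have a3 : ∀ v ∈ Ln ρ u, (g : End F V) v = α • v := fun v hv => by
      obtain ⟨y, rfl⟩ := rA.ge hv
      rw [← End.mul_apply, a1]; simp [sub_smul]
    obtain ⟨k, c, hc, ek⟩ := (same_of_stab G hM h hu h0 hg fun v hv => a3 v hv ▸ Submodule.smul_mem _ _ hv).decomp
    obtain ⟨z, hz⟩ := f.exists_right hu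
    obtain ⟨x, ex⟩ := scal_of_triv (g := α⁻¹ • (g : End F V)) (k := Units.mk0 α⁻¹ (inv_ne_zero hα) • k) hc
      (by simp [ek, Units.smul_def]) hz fun v hv => by simp [a3 v hv, smul_smul, hα]
    have a4 : ρ ((α⁻¹ * α⁻¹ - 1)⁻¹ • (x - 1)) = B * A := LinearMap.ext fun v => by
      have b1 := a3 (v - B (A v)) (ker_two h2 hu h0 (by
        have : A (v - B (A v)) = 0 := by rw [map_sub, sub_eq_zero]; exact congrArg (fun z => z v) e3.symm
        nth_rw 1 [hA] at this
        exact (smul_eq_zero.mp this).resolve_left hti))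
      have b2 := congrArg (fun z => z v) a2
      have b3 : α⁻¹ * α⁻¹ - 1 ≠ 0 := by
        rw [← mul_inv, sub_ne_zero]; exact fun e => hα1 (inv_eq_one.mp e)
      rw [map_smul, map_sub, ← ex, map_one, LinearMap.smul_apply, inv_smul_eq_iff₀ b3]
      simp only [End.mul_apply, LinearMap.add_apply, LinearMap.smul_apply, map_sub, LinearMap.sub_apply,
        End.one_apply] at b1 b2 ⊢
      have b4 : (g : End F V) v = α • (v - B (A v)) + α⁻¹ • B (A v) := by
        linear_combination (norm := module) b1 + b2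
      rw [b4]
      match_scalars <;> field_simp <;> ring
    obtain ⟨y, hy0, hy⟩ := rank_one_range (ρ' := ρ') hu' (by
      rw [a4, ← rB]
      refine le_antisymm (LinearMap.range_comp_le_range _ _) ?_
      rintro _ ⟨v, rfl⟩
      exact ⟨B v, congrArg (fun z => z v) e4⟩)
    exact hn (Or.inl (same_of_Ln G hM h h' hy0 hu' h0' hy))
  · have c1 : (1 + B) * A * (1 - B) * ((1 + A) * B * (1 - A)) = (1 + A) * B * (1 - A) * ((1 + B) * A * (1 - B)) := by
      have := ((hc (r1 u' (f.fl u'))).R (f := f) u u).symm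
      rw [R_cf] at this
      change _ * f.R _ u' u' = f.R _ u' u' * _ at this
      rw [R_cf, un_val, un_val, un_inv, un_inv, ← one_smul F (f.R ρ' u' u'), ← hB] at this
      have := congrArg (fun z => t⁻¹ • z) this
      simpa only [hA, smul_mul_assoc, mul_smul_comm] using this
    have c2 : A * (B * (A * (1 - 2 * (B * A) + B * (A * (B * A))))) = 0 := by
      have := congrArg (fun z => (1 - B) * (z * ((1 + B) * A * (1 - B))) * (1 + B)) c1
      simp only [mul_assoc, mul_add, add_mul, mul_sub, sub_mul, one_mul, mul_one, hAA, hBB, hA', hB', mul_zero,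
        two_mul] at this ⊢
      linear_combination (norm := abel) this
    have c3 : B * (A * (B * (1 - 2 * (A * B) + A * (B * (A * B))))) = 0 := by
      have := congrArg (fun z => (1 - A) * (z * ((1 + A) * B * (1 - A))) * (1 + A)) c1.symm
      simp only [mul_assoc, mul_add, add_mul, mul_sub, sub_mul, one_mul, mul_one, hAA, hBB, hA', hB', mul_zero,
        two_mul] at this ⊢
      linear_combination (norm := abel) this
    have c4 := halfC G hM hK h h' hn hu hu' h0 h0' hd hti one_ne_zero hA hB c2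
    have c5 := halfC G hM hK h' h (fun e => hn e.symm) hu' hu h0' h0 (by rwa [inf_comm]) one_ne_zero hti hB hA c3
    have c6 : (2 : F) • ((1 + B) * A * (1 - B) * ((1 + A) * B * (1 - A))) = 0 := by
      rw [two_smul]
      nth_rw 2 [c1]
      simp only [mul_assoc, mul_add, add_mul, mul_sub, sub_mul, one_mul, mul_one, hAA, hBB, hA', hB', mul_zero,
        two_mul] at c4 c5 ⊢
      linear_combination (norm := abel) c4 + c5
    refine R_ne (f := f) (ρ := cf (un A hAA) ρ') hu' hu'
      (cm_eq_zero (f := f) (hc (r1 u' (f.fl u'))) hu hu ?_)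
    change _ * f.R _ u' u' = 0
    rw [R_cf, R_cf, un_val, un_val, un_inv, un_inv, ← one_smul F (f.R ρ' u' u'), ← hB]
    have c7 := (smul_eq_zero.mp c6).resolve_left h20
    nth_rw 1 [hA] at c7
    rw [mul_smul_comm, smul_mul_assoc, smul_mul_assoc] at c7
    exact (smul_eq_zero.mp c7).resolve_left hti

theorem main_false [Finite F] : False := by
  rcases Nat.eq_or_lt_of_le G.two with h2 | h3
  · exact mainC G hM hK h h' hn hu hu' h0 h0' hd h2.symm
  by_cases hl : ∃ l : F, star l = l ∧ l ≠ 0 ∧ l ≠ 1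
  · obtain ⟨l, h4, h5, h6⟩ := hl
    exact mainA G hM hK h h' hn hu hu' h0 h0' hd h3 h4 h5 h6
  have h4 : 4 ≤ finrank F U := by
    by_contra h4
    exact hl (G.small (by omega))
  obtain ⟨b, h5, h6, h7⟩ := G.exists_perp_iso h4 hu h0
  exact mainB0 G hM hK h h' hn hu hu' h0 h0' hd h4 (fun c hc => by
    by_contra! h8
    exact hl ⟨c, hc, h8⟩) h5 h6 h7

end C

theorem rel_of_good [Finite F] (G : f.Geo) (hM : Uni M) (h : Good f M ρ) (h' : Good f M ρ') : Rel ρ ρ' := by
  have key : ∀ j d, finrank F V ≤ d + j → Key f M d := by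
    intro j
    induction j with
    | zero =>
      intro d hd σ σ' w w' _ _ _ _ _ _ h1
      have := Submodule.finrank_le (Ln σ w ⊓ Ln σ' w')
      omega
    | succ j ih =>
      intro d hd σ σ' w w' h1 h2 hw hw' h5 h6 h4
      have hK := ih (d + 1) (by omega)
      by_cases e : finrank F (Ln σ w ⊓ Ln σ' w' : Submodule F V) = d + 1
      · by_contra hn
        exact main_false G hM hK h1 h2 hn hw hw' h5 h6 e
      · exact hK σ σ' w w' h1 h2 hw hw' h5 h6 (by omega)
  obtain ⟨u, hu, h0⟩ := G.exists_iso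
  by_contra hn
  exact main_false G hM (key (finrank F V) _ (by omega)) h h' hn hu hu h0 h0 rfl

end Cfsg.Agent.H1.TF
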