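import Cfsg.Agent.H1.TF7

set_option autoImplicit false
set_option linter.unusedSectionVars false

/-! Subspaces of `End V` invariant under the long root elements of frames. -/

namespace Cfsg.Agent.H1.TF

open Module TW SF

variable {F : Type*} [Field F] [StarRing F] {U V : Type*} [AddCommGroup U] [Module F U]
  [AddCommGroup V] [Module F V] [FiniteDimensional F U] [FiniteDimensional F V] [Nontrivial V]
  [StarRing (End F V)] [StarModule F (End F V)]

variable {f : SF F U} {ρ : Fr F U V}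

/-- blocks indexed by vectors -/
noncomputable def bt (f : SF F U) (ρ : Fr F U V) (e : End F V) (x y : U) : End F V := blk ρ e (f.fl x) y

theorem cm_bt (e : End F V) (x y : U) : Cm ρ (bt f ρ e x y) := cm_blk _ _ _

theorem R_bt (e : End F V) (x y a c : U) : f.R ρ a c * bt f ρ e x y = f.R ρ a x * e * f.R ρ y c :=
  r1_mul_blk _ _ _ _ _

theorem bt_add_left (e : End F V) (x x' y : U) : bt f ρ e (x + x') y = bt f ρ e x y + bt f ρ e x' y := by
  simp only [bt, blk, f.fl_add, r1_add_right, map_add, add_mul, Finset.sum_add_distrib]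
theorem bt_add_right (e : End F V) (x y y' : U) : bt f ρ e x (y + y') = bt f ρ e x y + bt f ρ e x y' := by
  simp only [bt, blk, r1_add_left, map_add, mul_add, Finset.sum_add_distrib]
theorem bt_smul_left (e : End F V) (s : F) (x y : U) : bt f ρ e (s • x) y = star s • bt f ρ e x y := by
  simp only [bt, blk, f.fl_smul, r1_smul_right, map_smul, smul_mul_assoc, Finset.smul_sum]
theorem bt_smul_right (e : End F V) (s : F) (x y : U) : bt f ρ e x (s • y) = s • bt f ρ e x y := by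
  simp only [bt, blk, r1_smul_left, map_smul, smul_mul_assoc, mul_smul_comm, Finset.smul_sum]
theorem bt_sub_left (e : End F V) (x x' y : U) : bt f ρ e (x - x') y = bt f ρ e x y - bt f ρ e x' y := by
  simp only [bt, blk, f.fl_sub, r1_sub_right, map_sub, sub_mul, Finset.sum_sub_distrib]
theorem bt_sub_right (e : End F V) (x y y' : U) : bt f ρ e x (y - y') = bt f ρ e x y - bt f ρ e x y' := by
  simp only [bt, blk, r1_sub_left, map_sub, mul_sub, Finset.sum_sub_distrib]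
@[simp] theorem bt_zero_left (e : End F V) (y : U) : bt f ρ e 0 y = 0 := by simp [bt, blk, f.fl_zero]
@[simp] theorem bt_zero_right (e : End F V) (x : U) : bt f ρ e x 0 = 0 := by simp [bt, blk]

theorem bt_comm {z c : End F V} (hc : Cm ρ c) (hz : z * c = c * z) (x y : U) :
    bt f ρ z x y * c = c * bt f ρ z x y := blk_comm hc hz _ _

theorem cm_of_bt (G : f.Geo) {e : End F V}
    (h : ∀ a b, f a a = 0 → f b a = 0 → bt f ρ e a b = 0 ∧ bt f ρ e b a = 0) : Cm ρ e := by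
  have k1 : ∀ a, f a a = 0 → ∀ y y', f y' a • bt f ρ e a y = f y a • bt f ρ e a y' := fun a ha y y' => by
    have := (h a (f y' a • y - f y a • y') ha (by simp [mul_comm])).1
    rwa [bt_sub_right, bt_smul_right, bt_smul_right, sub_eq_zero] at this
  have k2 : ∀ v, f v v = 0 → ∀ x x', f v x' • bt f ρ e x v = f v x • bt f ρ e x' v := fun v hv x x' => by
    have := (h v (star (f v x') • x - star (f v x) • x') hv (symm0 (by
      rw [sub_right, smul_right, smul_right, star_star, star_star, mul_comm, sub_self]))).2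
    rwa [bt_sub_left, bt_smul_left, bt_smul_left, star_star, star_star, sub_eq_zero] at this
  obtain ⟨a₀, ha₀, h0⟩ := G.exists_iso
  obtain ⟨w₀, hw₀⟩ := f.exists_left ha₀
  have k3 : ∀ x y, bt f ρ e x y = f y x • bt f ρ e a₀ w₀ := fun x =>
    G.span_iso ha₀ (S :=
      { carrier := {x | ∀ y, bt f ρ e x y = f y x • bt f ρ e a₀ w₀}
        add_mem' := fun ha hb y => by rw [bt_add_left, ha, hb, add_right, add_smul]
        zero_mem' := fun y => by simp
        smul_mem' := fun c a ha y => by rw [bt_smul_left, ha, smul_right, mul_smul] })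
      (fun a h1 h2 y => by
        obtain ⟨v, h3, h4, h5⟩ := G.iso2 a a₀ (ne_left h2) ha₀
        have e1 := k1 a₀ h0 v w₀
        have e2 := k2 v h3 a a₀
        have e3 := k1 a h1 y v
        rw [hw₀, one_smul] at e1
        rw [e1, smul_comm] at e2
        rw [smul_right_injective _ h5 e2, smul_comm] at e3
        exact smul_right_injective _ h4 e3) x
  refine cm_of_blk fun u φ hφ => ?_
  obtain ⟨x, rfl⟩ := f.surj φ
  have := k3 x u
  rwa [← fl_apply, hφ, zero_smul] at this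

/-- orthogonal independent isotropic vectors -/
structure Gp (f : SF F U) (a b : U) : Prop where
  aa : f a a = 0
  bb : f b b = 0
  ba : f b a = 0
  ne : a ≠ 0
  ind : ∀ c : F, b ≠ c • a

theorem Gp.ab {a b : U} (h : Gp f a b) : f a b = 0 := symm0 h.ba

theorem Gp.ne' {a b : U} (h : Gp f a b) : b ≠ 0 := by simpa using h.ind 0

theorem Gp.symm {a b : U} (h : Gp f a b) : Gp f b a := ⟨h.bb, h.aa, h.ab, h.ne', fun c e => by
  have hc : c ≠ 0 := by rintro rfl; exact h.ne (by simpa using e)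
  exact h.ind c⁻¹ (by rw [e, smul_smul, inv_mul_cancel₀ hc, one_smul])⟩

theorem Gp.indep {a b : U} (h : Gp f a b) {c c' : End F V} (hc : Cm ρ c)
    (e : f.R ρ b a * c + f.R ρ a b * c' = 0) : c = 0 := by
  obtain ⟨w, h1, h2⟩ := f.exists_pair h.ind
  have := congrArg (f.R ρ b w * ·) e
  simp only [mul_add, RR_mul', h1, h2, one_smul, zero_smul, add_zero, mul_zero] at this
  exact cm_eq_zero hc h.ne' h.ne this

theorem Gp.tv {a b z : U} (h : Gp f a b) (hz : f z z = 0) : Gp f (a - f a z • z) (b - f b z • z) := by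
  have k : ∀ x y, f (x - f x z • z) (y - f y z • z) = f x y := fun x y => by simp [hz]; ring
  have inj : ∀ x, x - f x z • z = 0 → x = 0 := fun x hx => by
    have : f x z = 0 := by simpa [hz] using congrArg (f · z) hx
    simpa [this] using hx
  refine ⟨by rw [k, h.aa], by rw [k, h.bb], by rw [k, h.ba], fun e => h.ne (inj _ e), fun c e => h.ind c ?_⟩
  refine sub_eq_zero.mp (inj _ ?_)
  rw [sub_left, smul_left]
  linear_combination (norm := module) e

theorem exists_gp (G : f.Geo) (h4 : 4 ≤ finrank F U) {a : U} (ha : a ≠ 0) (h0 : f a a = 0) : ∃ b, Gp f a b := by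
  obtain ⟨b, h1, h2, h3⟩ := G.exists_perp_iso h4 ha h0
  exact ⟨b, h0, h1, h2, ha, h3⟩

theorem sq4 (G : f.Geo) (h4 : 4 ≤ finrank F U) {e : End F V} (hne : ¬ Cm ρ e) :
    ∃ a b, Gp f a b ∧ bt f ρ e b a ≠ 0 := by
  by_contra! h
  have k : ∀ a b, f a a = 0 → f b b = 0 → f b a = 0 → bt f ρ e b a = 0 := by
    intro a b h1 h2 h3
    by_cases ha : a = 0
    · simp [ha]
    by_cases hb : ∀ c : F, b ≠ c • a
    · exact h a b ⟨h1, h2, h3, ha, hb⟩
    push Not at hb
    obtain ⟨c, rfl⟩ := hb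
    obtain ⟨b, hb⟩ := exists_gp G h4 ha h1
    have := h a (b + a) ⟨h1, by simp [h1, hb.bb, hb.ba, hb.ab], by simp [h1, hb.ba], ha, fun c e =>
      hb.ind (c - 1) (by rw [sub_smul, ← e]; simp)⟩
    rw [bt_add_left, h a b hb, zero_add] at this
    rw [bt_smul_left, this, smul_zero]
  refine hne (cm_of_bt G fun a b h1 h2 => ?_)
  by_cases ha : a = 0
  · simp [ha]
  exact G.span_perp h4 ha h1 (S :=
    { carrier := {b | bt f ρ e a b = 0 ∧ bt f ρ e b a = 0}
      add_mem' := fun ha hb => ⟨by rw [bt_add_right, ha.1, hb.1, add_zero], by rw [bt_add_left, ha.2, hb.2, add_zero]⟩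
      zero_mem' := by simp
      smul_mem' := fun c a ha => ⟨by rw [bt_smul_right, ha.1, smul_zero], by rw [bt_smul_left, ha.2, smul_zero]⟩ })
    (fun b h3 h5 => ⟨k b a h3 h1 (symm0 h5), k a b h1 h3 h5⟩) h2

theorem sq3 (G : f.Geo) (h3 : finrank F U ≤ 3) {e : End F V} (hne : ¬ Cm ρ e) :
    ∃ a, a ≠ 0 ∧ f a a = 0 ∧ bt f ρ e a a ≠ 0 := by
  by_contra! h
  refine hne (cm_of_bt G fun a b h1 h2 => ?_)
  by_cases ha : a = 0
  · simp [ha]
  by_cases hθ : ∃ θ : F, star θ ≠ θ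
  · obtain ⟨θ, hθ⟩ := hθ
    have h' : ∀ a, f a a = 0 → bt f ρ e a a = 0 := fun a h1 => by
      by_cases ha : a = 0
      · simp [ha]
      · exact h a ha h1
    have k : ∀ x, f x a = 1 → bt f ρ e x a + bt f ρ e a x = 0 := fun x hx => by
      obtain ⟨μ, hμ⟩ := G.sol x
      have i1 : f (x + μ • a) (x + μ • a) = 0 := by simp [hx, symm1 hx, h1]; linear_combination -hμ
      have e1 := h' _ i1
      have e2 := h' (x + μ • a + a) (by
        rw [add_left, f.add_right (x + μ • a), f.add_right (x + μ • a), i1]; simp [hx, symm1 hx, h1])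
      rw [bt_add_left _ (x + μ • a), bt_add_right _ _ (x + μ • a), bt_add_right _ _ (x + μ • a), e1] at e2
      simpa [bt_add_left, bt_add_right, bt_smul_left, bt_smul_right, h' a h1] using e2
    obtain ⟨v, hv⟩ := f.exists_left ha
    have e0 := k v hv
    have e1 := k (v + b) (by simp [hv, h2])
    have e2 := k (v + θ • b) (by simp [hv, h2])
    rw [bt_add_left, bt_add_right] at e1 e2
    rw [bt_smul_left, bt_smul_right] at e2
    have e3 : (star θ - θ) • bt f ρ e b a = 0 := by linear_combination (norm := module) e2 - θ • e1 + (θ - 1) • e0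
    have e4 := (smul_eq_zero.mp e3).resolve_left (sub_ne_zero.mpr hθ)
    exact ⟨by linear_combination (norm := module) e1 - e0 - e4, e4⟩
  · have h2' : finrank F U ≤ 2 := by
      by_contra h4
      exact hθ (G.dim3 (by omega))
    obtain ⟨c, rfl⟩ := f.perp_two h2' ha h1 h2
    rw [bt_smul_left, bt_smul_right, h a ha h1]; simp

theorem pair_trans (G : f.Geo) (h4 : 4 ≤ finrank F U) (P : U → U → Prop)
    (hs : ∀ (c : F) a b, c ≠ 0 → P a b → P (c • a) b) (hs' : ∀ (c : F) a b, c ≠ 0 → P a b → P a (c • b))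
    (ht : ∀ a b z, f z z = 0 → P a b → P (a - f a z • z) (b - f b z • z)) {a b : U} (hab : Gp f a b)
    (h : P a b) {a' b' : U} (hab' : Gp f a' b') : P a' b' := by
  obtain ⟨b₁, h1, h2⟩ := G.iso_trans (fun a => ∃ b, Gp f a b ∧ P a b)
    (fun c a hc ⟨b, h1, h2⟩ => ⟨b, ⟨by simp [h1.aa], h1.bb, by simp [h1.ba], smul_ne_zero hc h1.ne, fun d e =>
      h1.ind (d * c) (by rw [e, smul_smul])⟩, hs c a b hc h2⟩)
    (fun a z _ hz ⟨b, h1, h2⟩ => ⟨_, h1.tv hz, ht a b z hz h2⟩) hab.ne hab.aa ⟨b, hab, h⟩ hab'.ne hab'.aa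
  have s : ∀ b y, f b b = 0 → f y y = 0 → f a' b = 0 → f a' y = 0 → f b y ≠ 0 → P a' b → P a' y := by
    intro b y h0 hy0 h5 h6 hay h
    have hs'' : star (f b y) ≠ 0 := star_ne_zero.mpr hay
    have := ht a' b (y + (f b y)⁻¹ • b) (by
      have := symm_ne hay
      simp [h0, hy0]; field_simp; ring) h
    have e : b - f b (y + (f b y)⁻¹ • b) • (y + (f b y)⁻¹ • b) = (-f b y) • y := by
      simp [h0, smul_add, smul_smul, hay]
    rw [e, add_right, smul_right, h5, h6, mul_zero, add_zero, zero_smul, sub_zero] at this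
    have := hs' (-f b y)⁻¹ _ _ (by simpa using hay) this
    rwa [smul_smul, inv_mul_cancel₀ (by simpa using hay), one_smul] at this
  obtain ⟨z, h5, h6, h7, h8⟩ := G.perp2 h4 a' b₁ b' h1.ne h1.aa h1.ba hab'.ba h1.ind hab'.ind
  exact s z b' h5 hab'.bb (symm0 h6) hab'.ab h8 (s b₁ z h1.bb h5 h1.ab (symm0 h6) (symm_ne h7) h2)

theorem cj_R {z : U} {l : F} (hl : star l = l) (a b : U) :
    (1 + l • f.R ρ z z) * f.R ρ a b * (1 - l • f.R ρ z z) = f.R ρ (a + (l * f a z) • z) (b + (l * f b z) • z) := by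
  simp only [add_mul, mul_sub, one_mul, mul_one, smul_mul_assoc, mul_smul_comm, RR_mul, R_add_left, R_add_right,
    R_smul_left, R_smul_right, star_mul', hl, skew]
  module

theorem cj_Rc {z : U} {l : F} (hl : star l = l) (a b : U) {c : End F V} (hc : Cm ρ c) :
    (1 + l • f.R ρ z z) * (f.R ρ a b * c) * (1 - l • f.R ρ z z) =
      f.R ρ (a + (l * f a z) • z) (b + (l * f b z) • z) * c := by
  have : c * (1 - l • f.R ρ z z) = (1 - l • f.R ρ z z) * c := by
    rw [mul_sub, sub_mul, mul_smul_comm, smul_mul_assoc, hc.R, mul_one, one_mul]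
  rw [← cj_R hl, mul_assoc, mul_assoc, this]; simp only [mul_assoc]

theorem cj_cm {c : End F V} (hc : Cm ρ c) {z : U} (hz : f z z = 0) (l : F) :
    (1 + l • f.R ρ z z) * c * (1 - l • f.R ρ z z) = c := by
  have : c * (1 - l • f.R ρ z z) = (1 - l • f.R ρ z z) * c := by
    rw [mul_sub, sub_mul, mul_smul_comm, smul_mul_assoc, hc.R, mul_one, one_mul]
  rw [mul_assoc, this, ← mul_assoc]
  change ((un _ (N_sq (ρ := ρ) hz l) : End F V) * ↑(un _ (N_sq (ρ := ρ) hz l))⁻¹) * c = c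
  rw [Units.mul_inv, one_mul]

/-- invariance under the long root elements -/
structure Iv (f : SF F U) (ρ : Fr F U V) (I : AddSubgroup (End F V)) : Prop where
  smul : ∀ l : F, star l = l → ∀ z ∈ I, l • z ∈ I
  cj : ∀ a, f a a = 0 → ∀ l : F, star l = l → ∀ z ∈ I, (1 + l • f.R ρ a a) * z * (1 - l • f.R ρ a a) ∈ I

section Iv
variable {I : AddSubgroup (End F V)} (h : Iv f ρ I)
include h

theorem Iv.del {a : U} (ha : f a a = 0) {l : F} (hl : star l = l) {z : End F V} (hz : z ∈ I) :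
    l • (f.R ρ a a * z - z * f.R ρ a a) - (l * l) • (f.R ρ a a * z * f.R ρ a a) ∈ I := by
  convert I.sub_mem (h.cj a ha l hl z hz) hz using 1
  simp only [add_mul, mul_sub, one_mul, mul_one, smul_mul_assoc, mul_smul_comm]
  module

theorem Iv.mem4 {a b : U} (ha : f a a = 0) (hb : f b b = 0) (hba : f b a = 0) {e : End F V} (he : e ∈ I) :
    f.R ρ b a * bt f ρ e b a + f.R ρ a b * bt f ρ e a b ∈ I := by
  convert I.neg_mem (h.del hb (star_one F) (h.del ha (star_one F) he)) using 1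
  simp only [R_bt, one_smul, mul_one, mul_sub, sub_mul, mul_assoc, RR_mul, RR_mul', hba, symm0 hba, zero_smul,
    mul_zero]
  abel

theorem Iv.mem3 (G : f.Geo) (h3 : finrank F U ≤ 3) {a : U} (ha : f a a = 0) {e : End F V} (he : e ∈ I) :
    f.R ρ a a * bt f ρ e a a ∈ I := by
  obtain ⟨l, hl, hl0, hl1⟩ := G.small h3
  have := h.smul (l * l - l)⁻¹ (by simp [hl]) _
    (I.sub_mem (h.smul l hl _ (h.del ha (star_one F) he)) (h.del ha hl he))
  convert this using 1
  have h1 : l * l - l ≠ 0 := by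
    rw [← mul_sub_one]; exact mul_ne_zero hl0 (sub_ne_zero.mpr hl1)
  rw [R_bt, eq_inv_smul_iff₀ h1]
  module

theorem Iv.tv {z : U} (hz : f z z = 0) {c : End F V} (hc : Cm ρ c) {a : U} (ha : f.R ρ a a * c ∈ I) :
    f.R ρ (a - f a z • z) (a - f a z • z) * c ∈ I := by
  have := h.cj z hz (-1) (by simp) _ ha
  rwa [cj_Rc (by simp) _ _ hc, neg_one_mul, neg_smul, ← sub_eq_add_neg] at this

/-- transitivity -/
theorem Iv.all (G : f.Geo) {c : End F V} (hc : Cm ρ c) {a : U} (ha : a ≠ 0) (h0 : f a a = 0)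
    (hm : f.R ρ a a * c ∈ I) {y : U} (hy : f y y = 0) : f.R ρ y y * c ∈ I := by
  by_cases hy0 : y = 0
  · simp [hy0]
  refine G.iso_trans (fun a => f.R ρ a a * c ∈ I) (fun s a _ h1 => ?_) (fun a z _ hz h1 => h.tv hz hc h1) ha h0 hm
    hy0 hy
  rw [R_smul_left, R_smul_right, smul_smul, smul_mul_assoc]
  exact h.smul _ (by simp [mul_comm]) _ h1

/-- a square zero element not commuting with the frame -/
theorem Iv.sq (G : f.Geo) {e : End F V} (he : e ∈ I) (hne : ¬ Cm ρ e) :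
    ∃ s ∈ I, s * s = 0 ∧ ¬ Cm ρ s := by
  by_cases h3 : finrank F U ≤ 3
  · obtain ⟨a, ha, h0, h1⟩ := sq3 G h3 hne
    refine ⟨_, h.mem3 G h3 h0 he, ?_, fun hc => h1 (cm_eq_zero (cm_bt _ _ _) ha ha
      (hc.eq_zero ha fun v hv => ?_))⟩
    · rw [mul_assoc, (cm_bt _ _ _).R', RR_mul', h0, zero_smul]
    · exact R_zero ((cm_bt _ _ _).mem_Ln hv) _ h0
  · obtain ⟨a, b, hab, h1⟩ := sq4 G (by omega) hne
    refine ⟨_, h.mem4 hab.aa hab.bb hab.ba he, ?_, fun hc => h1 (hab.indep (cm_bt _ _ _)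
      (hc.eq_zero hab.ne fun v hv => ?_))⟩
    · simp only [add_mul, mul_add, mul_assoc, (cm_bt _ _ _).R', RR_mul', hab.aa, hab.bb, hab.ab, hab.ba, zero_smul,
        add_zero]
    · rw [LinearMap.add_apply, End.mul_apply, End.mul_apply, R_zero ((cm_bt _ _ _).mem_Ln hv) _ hab.aa,
        R_zero ((cm_bt _ _ _).mem_Ln hv) _ hab.ab, add_zero]

end Iv

theorem iv_sub {I : Submodule F (End F V)}
    (h : ∀ a, f a a = 0 → ∀ l : F, star l = l → ∀ z ∈ I, (1 + l • f.R ρ a a) * z * (1 - l • f.R ρ a a) ∈ I) :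
    Iv f ρ I.toAddSubgroup := ⟨fun l _ _ hz => I.smul_mem l hz, h⟩

theorem iv_cm {I : Submodule F (End F V)} (h : ∀ z ∈ I, Cm ρ z) : Iv f ρ I.toAddSubgroup :=
  iv_sub fun a ha l _ z hz => by rwa [cj_cm (h z hz) ha]

def J3 (f : SF F U) (ρ : Fr F U V) (I : Submodule F (End F V)) : Submodule F (End F V) where
  carrier := {c | Cm ρ c ∧ ∀ a, f a a = 0 → f.R ρ a a * c ∈ I}
  zero_mem' := ⟨Cm.zero, fun a _ => by simp⟩
  add_mem' := fun hc hd => ⟨hc.1.add hd.1, fun a h => by rw [mul_add]; exact I.add_mem (hc.2 a h) (hd.2 a h)⟩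
  smul_mem' := fun s c hc => ⟨hc.1.smul s, fun a h => by rw [mul_smul_comm]; exact I.smul_mem _ (hc.2 a h)⟩

def J4 (f : SF F U) (ρ : Fr F U V) (I : Submodule F (End F V)) : Submodule F (End F V) where
  carrier := {c | Cm ρ c ∧ ∀ a b, Gp f a b → ∃ c', Cm ρ c' ∧ f.R ρ b a * c + f.R ρ a b * c' ∈ I}
  zero_mem' := ⟨Cm.zero, fun a b _ => ⟨0, Cm.zero, by simp⟩⟩
  add_mem' := fun hc hd => ⟨hc.1.add hd.1, fun a b h => by
    obtain ⟨c', h1, h2⟩ := hc.2 a b h
    obtain ⟨d', h3, h4⟩ := hd.2 a b h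
    exact ⟨_, h1.add h3, by convert I.add_mem h2 h4 using 1; simp only [mul_add]; abel⟩⟩
  smul_mem' := fun s c hc => ⟨hc.1.smul s, fun a b h => by
    obtain ⟨c', h1, h2⟩ := hc.2 a b h
    exact ⟨_, h1.smul s, by simpa using I.smul_mem s h2⟩⟩

section J
variable {I : Submodule F (End F V)}

theorem J3_ne (G : f.Geo) (h3 : finrank F U ≤ 3) (h : Iv f ρ I.toAddSubgroup) {e : End F V} (he : e ∈ I)
    (hne : ¬ Cm ρ e) : J3 f ρ I ≠ ⊥ := by
  obtain ⟨a, ha, h0, h1⟩ := sq3 G h3 hne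
  intro e0
  have : bt f ρ e a a ∈ J3 f ρ I :=
    ⟨cm_bt _ _ _, fun y hy => h.all G (cm_bt _ _ _) ha h0 (h.mem3 G h3 h0 he) hy⟩
  exact h1 (by rwa [e0, Submodule.mem_bot] at this)

theorem J4_ne (G : f.Geo) (h4 : 4 ≤ finrank F U) (h : Iv f ρ I.toAddSubgroup) {e : End F V} (he : e ∈ I)
    (hne : ¬ Cm ρ e) : J4 f ρ I ≠ ⊥ := by
  obtain ⟨a, b, hab, h1⟩ := sq4 G h4 hne
  intro e0
  have hc := cm_bt (f := f) (ρ := ρ) e b a
  have : bt f ρ e b a ∈ J4 f ρ I := ⟨hc, fun a' b' hab' => pair_trans G h4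
    (fun x y => ∃ c', Cm ρ c' ∧ f.R ρ y x * bt f ρ e b a + f.R ρ x y * c' ∈ I)
    (fun s x y hs ⟨c', h2, h3⟩ => ⟨(star s / s) • c', h2.smul _, by
      convert I.smul_mem (star s) h3 using 1
      simp [R_smul_left, R_smul_right, smul_smul, hs]⟩)
    (fun s x y hs ⟨c', h2, h3⟩ => ⟨(s / star s) • c', h2.smul _, by
      convert I.smul_mem s h3 using 1
      simp [R_smul_left, R_smul_right, smul_smul, hs]⟩)
    (fun x y z hz ⟨c', h2, h3⟩ => ⟨c', h2, by
      have := h.cj z hz (-1) (by simp) _ h3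
      rwa [mul_add, add_mul, cj_Rc (by simp) _ _ hc, cj_Rc (by simp) _ _ h2, neg_one_mul, neg_one_mul, neg_smul,
        neg_smul, ← sub_eq_add_neg, ← sub_eq_add_neg] at this⟩) hab
    ⟨_, cm_bt _ _ _, h.mem4 hab.aa hab.bb hab.ba he⟩ hab'⟩
  exact h1 (by rwa [e0, Submodule.mem_bot] at this)

theorem J3_cj {p q : End F V} (hp : Cm ρ p) (hq : Cm ρ q) (h : ∀ z ∈ I, p * z * q ∈ I) {c : End F V}
    (hc : c ∈ J3 f ρ I) : p * c * q ∈ J3 f ρ I :=
  ⟨(hp.mul hc.1).mul hq, fun a ha => by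
    have := h _ (hc.2 a ha)
    rwa [hp.R', mul_assoc] at this⟩

theorem J4_cj {p q : End F V} (hp : Cm ρ p) (hq : Cm ρ q) (h : ∀ z ∈ I, p * z * q ∈ I) {c : End F V}
    (hc : c ∈ J4 f ρ I) : p * c * q ∈ J4 f ρ I :=
  ⟨(hp.mul hc.1).mul hq, fun a b hab => by
    obtain ⟨c', h1, h2⟩ := hc.2 a b hab
    refine ⟨_, (hp.mul h1).mul hq, ?_⟩
    have := h _ h2
    rwa [mul_add, add_mul, hp.R', hp.R', mul_assoc, mul_assoc (f.R ρ a b)] at this⟩

theorem J3_comm (G : f.Geo) {y : End F V} (hy : Cm ρ y) (h : ∀ z ∈ I, z * y = y * z) {c : End F V}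
    (hc : c ∈ J3 f ρ I) : c * y = y * c := by
  obtain ⟨a, ha, h0⟩ := G.exists_iso
  refine sub_eq_zero.mp (cm_eq_zero (f := f) ((hc.1.mul hy).sub (hy.mul hc.1)) ha ha ?_)
  rw [mul_sub, ← mul_assoc, h _ (hc.2 a h0), hy.R', sub_self]

theorem J4_comm (G : f.Geo) (h4 : 4 ≤ finrank F U) {y : End F V} (hy : Cm ρ y) (h : ∀ z ∈ I, z * y = y * z)
    {c : End F V} (hc : c ∈ J4 f ρ I) : c * y = y * c := by
  obtain ⟨a, ha, h0⟩ := G.exists_iso
  obtain ⟨b, hab⟩ := exists_gp G h4 ha h0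
  obtain ⟨c', h1, h2⟩ := hc.2 a b hab
  refine sub_eq_zero.mp (hab.indep ((hc.1.mul hy).sub (hy.mul hc.1)) (c' := c' * y - y * c') ?_)
  have := h _ h2
  simp only [mul_add, add_mul, hy.R', mul_assoc, mul_sub] at this ⊢
  linear_combination (norm := abel) this

theorem J3_mul (G : f.Geo) (hm : ∀ x ∈ I, ∀ y ∈ I, x * y ∈ I) : ∀ c ∈ J3 f ρ I, ∀ d ∈ J3 f ρ I, c * d ∈ J3 f ρ I := by
  intro c hc d hd
  refine ⟨hc.1.mul hd.1, fun a ha => ?_⟩
  by_cases ha0 : a = 0
  · simp [ha0]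
  exact G.span_iso ha0 (S :=
    { carrier := {v | f.R ρ a v * (c * d) ∈ I}
      add_mem' := fun ha hb => by simp only [Set.mem_ofPred_eq, R_add_right, add_mul]; exact I.add_mem ha hb
      zero_mem' := by simp
      smul_mem' := fun c a ha => by
        simp only [Set.mem_ofPred_eq, R_smul_right, smul_mul_assoc]; exact I.smul_mem _ ha })
    (fun v h1 h2 => by
      have := hm _ (hc.2 a ha) _ (hd.2 v h1)
      rwa [mul_assoc, hc.1.R', RR_mul', I.smul_mem_iff h2] at this) a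

theorem J4_J3 (G : f.Geo) (h4 : 4 ≤ finrank F U) (hm : ∀ x ∈ I, ∀ y ∈ I, x * y ∈ I) :
    ∀ c ∈ J4 f ρ I, ∀ d ∈ J4 f ρ I, c * d ∈ J3 f ρ I := by
  intro c hc d hd
  refine ⟨hc.1.mul hd.1, fun b hb => ?_⟩
  by_cases hb0 : b = 0
  · simp [hb0]
  obtain ⟨a, ha⟩ := exists_gp G h4 hb0 hb
  obtain ⟨z, h1, h2, h3, -⟩ := G.perp2 h4 b a a hb0 hb ha.ba ha.ba ha.ind ha.ind
  obtain ⟨c', h5, h6⟩ := hc.2 a b ha.symm
  obtain ⟨d', h7, h8⟩ := hd.2 b z ⟨hb, h1, h2, hb0, by rintro s rfl; simp [ha.ab] at h3⟩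
  have := hm _ h6 _ h8
  simp only [add_mul, mul_add, mul_assoc, hc.1.R', h5.R', RR_mul', h2, hb, ha.ab, zero_smul, add_zero] at this
  rwa [I.smul_mem_iff h3] at this

theorem J3_le_J4 : J3 f ρ I ≤ J4 f ρ I := fun c hc => ⟨hc.1, fun a b hab => ⟨c, hc.1, by
  convert I.sub_mem (I.sub_mem (hc.2 (a + b) (by simp [hab.aa, hab.bb, hab.ab, hab.ba])) (hc.2 a hab.aa))
    (hc.2 b hab.bb) using 1
  simp only [R_add_left, R_add_right, add_mul]; abel⟩⟩

theorem exists_J (G : f.Geo) (hm : ∀ x ∈ I, ∀ y ∈ I, x * y ∈ I) (h : Iv f ρ I.toAddSubgroup) {e : End F V}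
    (he : e ∈ I) (hne : ¬ Cm ρ e) : ∃ J : Submodule F (End F V), J ≠ ⊥ ∧ (∀ c ∈ J, ∀ d ∈ J, c * d ∈ J) ∧
      (∀ c ∈ J, Cm ρ c) ∧ (∀ p q, Cm ρ p → Cm ρ q → (∀ z ∈ I, p * z * q ∈ I) → ∀ c ∈ J, p * c * q ∈ J) ∧
      (∀ y, Cm ρ y → (∀ z ∈ I, z * y = y * z) → ∀ c ∈ J, c * y = y * c) ∧ (1 ∈ J → ∀ x, ρ x ∈ I) := by
  by_cases h3 : finrank F U ≤ 3
  · exact ⟨_, J3_ne G h3 h he hne, J3_mul G hm, fun c hc => hc.1, fun p q hp hq h c => J3_cj hp hq h,
      fun y hy h c => J3_comm G hy h, fun h1 => G.mem_of_N hm fun a ha => by simpa using h1.2 a ha⟩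
  · have h4 : 4 ≤ finrank F U := by omega
    exact ⟨_, J4_ne G h4 h he hne, fun c hc d hd => J3_le_J4 (J4_J3 G h4 hm c hc d hd), fun c hc => hc.1,
      fun p q hp hq h c => J4_cj hp hq h, fun y hy h c => J4_comm G h4 hy h,
      fun h1 => G.mem_of_N hm fun a ha => by simpa using (J4_J3 G h4 hm 1 h1 1 h1).2 a ha⟩

end J

end Cfsg.Agent.H1.TF
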