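import Cfsg.Agent.H1.TF8

set_option autoImplicit false
set_option linter.unusedSectionVars false

/-! Invariant subalgebras and Jordan subalgebras for a family of commuting frames. -/

namespace Cfsg.Agent.H1.TF

open Module TW SF

variable {F : Type*} [Field F] [StarRing F] {U V : Type*} [AddCommGroup U] [Module F U]
  [AddCommGroup V] [Module F V] [FiniteDimensional F U] [FiniteDimensional F V] [Nontrivial V]
  [StarRing (End F V)] [StarModule F (End F V)]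

variable {f : SF F U} {T : Type*} [Fintype T] [DecidableEq T] {ρ : T → Fr F U V}

structure Fam (ρ : T → Fr F U V) : Prop where
  comm : ∀ i j, i ≠ j → Comm (ρ i) (ρ j)
  scal : ∀ c, (∀ i, Cm (ρ i) c) → ∃ s : F, c = s • 1

theorem Fam.cm (P : Fam ρ) {i j : T} (h : i ≠ j) (a b : U) : Cm (ρ i) (f.R (ρ j) a b) := P.comm i j h _

theorem Fam.iv (P : Fam ρ) {l : T} {I J : Submodule F (End F V)} (hI : ∀ k, Iv f (ρ k) I.toAddSubgroup)
    (h1 : ∀ c ∈ J, Cm (ρ l) c)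
    (h2 : ∀ p q, Cm (ρ l) p → Cm (ρ l) q → (∀ z ∈ I, p * z * q ∈ I) → ∀ c ∈ J, p * c * q ∈ J) (k : T) :
    Iv f (ρ k) J.toAddSubgroup := by
  by_cases hk : l = k
  · exact iv_cm (hk ▸ h1)
  · exact iv_sub fun a ha s hs => h2 _ _ (Cm.one.add ((P.cm hk a a).smul s)) (Cm.one.sub ((P.cm hk a a).smul s))
      ((hI k).cj a ha s hs)

theorem Fam.mem_of (P : Fam ρ) {I : Submodule F (End F V)} (h1 : 1 ∈ I) (hm : ∀ x ∈ I, ∀ y ∈ I, x * y ∈ I)
    (S : Finset T) : (∀ l ∈ S, ∀ x, ρ l x ∈ I) → ∀ c, (∀ l, l ∉ S → Cm (ρ l) c) → c ∈ I := by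
  induction S using Finset.induction_on with
  | empty =>
    intro _ c hc
    obtain ⟨s, rfl⟩ := P.scal c fun l => hc l (by simp)
    exact I.smul_mem _ h1
  | insert l S hl ih =>
    intro hi c hc
    rw [eq_sum_blk (ρ l) c]
    refine Submodule.sum_mem _ fun a _ => Submodule.sum_mem _ fun b _ => hm _ (hi l (by simp) _) _
      (ih (fun k hk => hi k (by simp [hk])) _ fun k hk => ?_)
    by_cases hkl : k = l
    · rw [hkl]; exact cm_blk _ _ _
    · exact fun y => blk_comm (P.comm l k (Ne.symm hkl) y) (hc k (by simp [hkl, hk]) y) _ _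

/-- annihilator lemma -/
theorem Fam.ann (G : f.Geo) (P : Fam ρ) {A : Submodule F (End F V)} (hA : ∀ l, Iv f (ρ l) A.toAddSubgroup)
    (h0 : A ≠ ⊥) {e : End F V} (he : ∀ c ∈ A, e * c = 0) : e = 0 := by
  let X : Submodule F V := Submodule.span F {w | ∃ c ∈ A, ∃ v, w = c v}
  let I : Submodule F (End F V) :=
    { carrier := {z | ∀ w ∈ X, z w ∈ X}
      add_mem' := fun ha hb w hw => X.add_mem (ha w hw) (hb w hw)
      zero_mem' := fun w _ => X.zero_mem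
      smul_mem' := fun c a ha w hw => X.smul_mem c (ha w hw) }
  have hm : ∀ x ∈ I, ∀ y ∈ I, x * y ∈ I := fun x hx y hy w hw => hx _ (hy w hw)
  have hI := P.mem_of (I := I) (fun w hw => hw) hm Finset.univ fun l _ => G.mem_of_N hm fun a ha w hw => by
    refine (Submodule.span_le (p := X.comap (f.R (ρ l) a a))).mpr ?_ hw
    rintro _ ⟨c, hc, v, rfl⟩
    have h1 := (hA l).cj a ha 1 (star_one F) c hc
    have h2 := X.sub_mem (Submodule.subset_span ⟨_, h1, v + f.R (ρ l) a a v, rfl⟩) (Submodule.subset_span ⟨c, hc, v, rfl⟩)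
    simpa [R_R, ha] using h2
  obtain ⟨c, hc, hc0⟩ := Submodule.exists_mem_ne_zero_of_ne_bot h0
  obtain ⟨w, hw⟩ : ∃ w, c w ≠ 0 := by
    by_contra! h
    exact hc0 (LinearMap.ext h)
  obtain ⟨φ, hφ⟩ := H6.exists_dual_one' (F := F) hw
  ext v
  have := hI (φ.smulRight v) (by simp) _ (Submodule.subset_span ⟨c, hc, w, rfl⟩)
  rw [LinearMap.smulRight_apply, hφ, one_smul] at this
  refine (Submodule.span_le (p := LinearMap.ker e)).mpr ?_ this
  rintro _ ⟨c, hc, v, rfl⟩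
  exact congrArg (fun z => z v) (he c hc)

structure Inv (f : SF F U) (ρ : T → Fr F U V) (S : Finset T) (I : Submodule F (End F V)) : Prop where
  mul : ∀ x ∈ I, ∀ y ∈ I, x * y ∈ I
  iv : ∀ l, Iv f (ρ l) I.toAddSubgroup
  cm : ∀ l, l ∉ S → ∀ z ∈ I, Cm (ρ l) z

theorem Inv.step (G : f.Geo) (P : Fam ρ) {S : Finset T} {l : T} (ih : ∀ I, Inv f ρ S I → I ≠ ⊥ → 1 ∈ I)
    {I : Submodule F (End F V)} (hI : Inv f ρ (insert l S) I) {e : End F V} (he : e ∈ I)
    (hne : ¬ Cm (ρ l) e) (x : End F U) : ρ l x ∈ I := by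
  obtain ⟨J, h0, h1, h2, h3, h4, h5⟩ := exists_J G hI.mul (hI.iv l) he hne
  refine h5 (ih J ⟨h1, P.iv hI.iv h2 h3, fun k hk c hc => ?_⟩ h0) x
  by_cases hkl : k = l
  · exact hkl ▸ h2 c hc
  · exact fun y => h4 _ (P.comm l k (Ne.symm hkl) y) (fun z hz => hI.cm k (by simp [hkl, hk]) z hz y) c hc

theorem Inv.one_mem (G : f.Geo) (P : Fam ρ) (S : Finset T) : ∀ I, Inv f ρ S I → I ≠ ⊥ → 1 ∈ I := by
  induction S using Finset.induction_on with
  | empty =>
    intro I hI h0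
    obtain ⟨c, hc, hc0⟩ := Submodule.exists_mem_ne_zero_of_ne_bot h0
    obtain ⟨s, rfl⟩ := P.scal c fun i => hI.cm i (by simp) c hc
    have hs : s ≠ 0 := by rintro rfl; simp at hc0
    simpa [smul_smul, hs] using I.smul_mem s⁻¹ hc
  | insert l S hl ih =>
    intro I hI h0
    by_cases h : ∀ e ∈ I, Cm (ρ l) e
    · refine ih I ⟨hI.mul, hI.iv, fun k hk => ?_⟩ h0
      by_cases hkl : k = l
      · rwa [hkl]
      · exact hI.cm k (by simp [hkl, hk])
    · push Not at h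
      obtain ⟨e, he, hne⟩ := h
      simpa using Inv.step G P ih hI he hne 1

theorem Fam.frame_mem (G : f.Geo) (P : Fam ρ) {I : Submodule F (End F V)} (hm : ∀ x ∈ I, ∀ y ∈ I, x * y ∈ I)
    (hI : ∀ l, Iv f (ρ l) I.toAddSubgroup) {l : T} {e : End F V} (he : e ∈ I) (hne : ¬ Cm (ρ l) e)
    (x : End F U) : ρ l x ∈ I :=
  Inv.step G P (Inv.one_mem G P Finset.univ) ⟨hm, hI, by simp⟩ he hne x

theorem R_two (G : f.Geo) (h2 : finrank F U = 2) (σ : Fr F U V) (a b : U) :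
    f.R σ a b - f.R σ b a = f a b • 1 := by
  obtain ⟨hal, hst, -, -⟩ := G.dim2 h2
  have sk : ∀ x y, f x y = -f y x := fun x y => by rw [← f.skew, hst]
  rw [R, R, ← map_sub, ← map_one σ, ← map_smul]
  congr 1
  ext x
  rw [← sub_eq_zero]
  simp only [LinearMap.sub_apply, r1_apply, fl_apply, LinearMap.smul_apply, End.one_apply]
  set z := f x b • a - f x a • b - f a b • x with hz
  by_contra h0
  obtain ⟨s, hs⟩ := f.perp_two h2.le h0 (hal z) (b := a) (symm0 (by simp [hz, hal, sk b a]; ring))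
  obtain ⟨t, ht⟩ := f.perp_two h2.le h0 (hal z) (b := b) (symm0 (by simp [hz, hal]; ring))
  obtain ⟨r, hr⟩ := f.perp_two h2.le h0 (hal z) (b := x) (symm0 (by simp [hz, hal, sk a x, sk b x]; ring))
  refine h0 (hz.trans ?_)
  rw [show f x b = 0 by rw [hr, ht]; simp [hal], show f x a = 0 by rw [hr, hs]; simp [hal],
    show f a b = 0 by rw [hs, ht]; simp [hal]]
  simp

structure Jnv (f : SF F U) (ρ : T → Fr F U V) (S : Finset T) (I : Submodule F (End F V)) : Prop where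
  jor : ∀ s ∈ I, s * s = 0 → ∀ t ∈ I, s * t + t * s ∈ I
  sa : ∀ z ∈ I, star z = z
  iv : ∀ l, Iv f (ρ l) I.toAddSubgroup
  cm : ∀ l, l ∉ S → ∀ z ∈ I, Cm (ρ l) z

theorem Jnv.step (G : f.Geo) (h2 : finrank F U = 2) (P : Fam ρ) (had : ∀ l, Ad f (ρ l)) {S : Finset T}
    (ih : ∀ S' : Finset T, S'.card < S.card → ∀ I, Jnv f ρ S' I → I ≠ ⊥ → 1 ∈ I)
    {I : Submodule F (End F V)} (hI : Jnv f ρ S I) {e : End F V} (he : e ∈ I) (hne : ∀ s : F, e ≠ s • 1) :
    ∃ j ∈ S, ∃ k ∈ S, j ≠ k ∧ ∀ a b, f.R (ρ j) a a * f.R (ρ k) b b ∈ I := by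
  obtain ⟨hal, hst, h20, -⟩ := G.dim2 h2
  obtain ⟨a₀, ha₀, -⟩ := G.exists_iso
  obtain ⟨j, hj⟩ : ∃ j, ¬ Cm (ρ j) e := by
    by_contra! h
    obtain ⟨s, hs⟩ := P.scal e h
    exact hne s hs
  have hjS : j ∈ S := by by_contra h; exact hj (hI.cm j h e he)
  have i1 := P.iv (J := J3 f (ρ j) I) hI.iv (fun c hc => hc.1) fun p q hp hq h c => J3_cj hp hq h
  have c1 : ∀ l, l ∉ S → ∀ z ∈ J3 f (ρ j) I, Cm (ρ l) z := fun l hl z hz y =>
    J3_comm G (P.comm j l (by rintro rfl; exact hl hjS) y) (fun z hz => hI.cm l hl z hz y) hz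
  have s1 : ∀ z ∈ J3 f (ρ j) I, star z = -z := fun z hz => by
    have := hI.sa _ (hz.2 a₀ (hal _))
    rw [(had j).mul hz.1, neg_eq_iff_add_eq_zero, ← mul_add] at this
    exact eq_neg_of_add_eq_zero_left (cm_eq_zero (((had j).cm hz.1).add hz.1) ha₀ ha₀ this)
  obtain ⟨c, hc, hc0⟩ := Submodule.exists_mem_ne_zero_of_ne_bot (J3_ne G (by omega) (hI.iv j) he hj)
  obtain ⟨k, hk⟩ : ∃ k, ¬ Cm (ρ k) c := by
    by_contra! h
    obtain ⟨s, rfl⟩ := P.scal c h
    have := s1 _ hc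
    rw [star_smul, hst, star_one, eq_neg_iff_add_eq_zero, ← two_smul F] at this
    exact hc0 ((smul_eq_zero.mp this).resolve_left h20)
  have hkS : k ∈ S := by by_contra h; exact hk (c1 k h c hc)
  have hjk : j ≠ k := by rintro rfl; exact hk hc.1
  have cj : ∀ z ∈ J3 f (ρ k) (J3 f (ρ j) I), Cm (ρ j) z := fun z hz y =>
    J3_comm G (P.comm k j hjk.symm y) (fun z (hz : z ∈ J3 f (ρ j) I) => hz.1 y) hz
  have := ih (S.erase j) (Finset.card_erase_lt_of_mem hjS) (J3 f (ρ k) (J3 f (ρ j) I)) ⟨?_, ?_,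
    P.iv i1 (fun c hc => hc.1) fun p q hp hq h c => J3_cj hp hq h, fun l hl z hz => ?_⟩
    (J3_ne G (by omega) (i1 k) hc hk)
  · exact ⟨j, hjS, k, hkS, hjk, fun a b => by simpa using (this.2 b (hal b)).2 a (hal a)⟩
  · intro s hs _ t ht
    have m1 := cj s hs
    have m2 := cj t ht
    have m3 := (hs.1.mul ht.1).add (ht.1.mul hs.1)
    refine ⟨m3, fun a' _ => ⟨(P.cm hjk _ _).mul ((m1.mul m2).add (m2.mul m1)), fun a _ => ?_⟩⟩
    by_cases ha : a = 0
    · simp [ha]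
    by_cases ha' : a' = 0
    · simp [ha']
    obtain ⟨b, hb⟩ := f.exists_left ha
    obtain ⟨b', hb'⟩ := f.exists_left ha'
    have := hI.jor _ ((hs.2 a' (hal _)).2 a (hal _)) (by
      rw [mul_assoc, ((P.cm hjk _ _).mul m1).R', RR_mul', hal, zero_smul]) _ ((ht.2 b' (hal _)).2 b (hal _))
    have : _ ∈ I := (hI.iv k).del (hal a') (star_one F) ((hI.iv j).del (hal a) (star_one F) this)
    convert this using 1
    have q1 : ∀ x y x' y' z, f.R (ρ k) x y * (f.R (ρ j) x' y' * z) = f.R (ρ j) x' y' * (f.R (ρ k) x y * z) :=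
      fun x y x' y' z => (P.cm hjk x y).R' _ _ _
    have q2 : ∀ x y x' y', f.R (ρ k) x y * f.R (ρ j) x' y' = f.R (ρ j) x' y' * f.R (ρ k) x y :=
      fun x y x' y' => (P.cm hjk x y).R _ _
    simp only [one_smul, mul_one, mul_add, add_mul, mul_sub, sub_mul, mul_assoc, m1.R, m1.R', m2.R, m2.R', hs.1.R,
      hs.1.R', ht.1.R, ht.1.R', q1, q2, RR_mul', RR_mul, hb, hb', symm1 hb, symm1 hb', hal, mul_smul_comm,
      zero_smul, smul_zero, mul_zero, neg_smul, mul_neg, neg_neg, zero_mul, neg_mul, smul_mul_assoc]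
    abel
  · intro z hz
    have := s1 _ (hz.2 a₀ (hal _))
    rw [(had k).mul hz.1, neg_inj, ← sub_eq_zero, ← mul_sub] at this
    exact sub_eq_zero.mp (cm_eq_zero (((had k).cm hz.1).sub hz.1) ha₀ ha₀ this)
  · by_cases hl' : l = j
    · exact hl' ▸ cj z hz
    have hl2 : l ∉ S := by simpa [hl'] using hl
    exact fun y => J3_comm G (P.comm k l (by rintro rfl; exact hl2 hkS) y) (fun z hz => c1 l hl2 z hz y) hz

theorem Jnv.one_mem (G : f.Geo) (h2 : finrank F U = 2) (P : Fam ρ) (had : ∀ l, Ad f (ρ l)) (S : Finset T) :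
    ∀ I, Jnv f ρ S I → I ≠ ⊥ → 1 ∈ I := by
  induction hn : S.card using Nat.strong_induction_on generalizing S with
  | _ n ih =>
  intro I hI h0
  obtain ⟨c, hc, hc0⟩ := Submodule.exists_mem_ne_zero_of_ne_bot h0
  by_cases h : ∃ s : F, c = s • 1
  · obtain ⟨s, rfl⟩ := h
    have hs : s ≠ 0 := by rintro rfl; simp at hc0
    simpa [smul_smul, hs] using I.smul_mem s⁻¹ hc
  push Not at h
  obtain ⟨j, -, k, -, hjk, h1⟩ := Jnv.step G h2 P had (fun S' hS => ih _ (hn ▸ hS) S' rfl) hI hc h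
  obtain ⟨hal, -⟩ := G.dim2 h2
  obtain ⟨a, ha, -⟩ := G.exists_iso
  obtain ⟨b, hb⟩ := f.exists_left ha
  have q1 : ∀ x y x' y' z, f.R (ρ k) x y * (f.R (ρ j) x' y' * z) = f.R (ρ j) x' y' * (f.R (ρ k) x y * z) :=
    fun x y x' y' z => (P.cm hjk x y).R' _ _ _
  have sq : ∀ x y, f.R (ρ j) x x * f.R (ρ k) y y * (f.R (ρ j) x x * f.R (ρ k) y y) = 0 := fun x y => by
    rw [mul_assoc, q1, RR_mul', hal, zero_smul]
  have := I.add_mem (hI.jor _ (h1 a a) (sq _ _) _ (h1 b b)) (hI.jor _ (h1 a b) (sq _ _) _ (h1 b a))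
  convert this using 1
  have e : (f.R (ρ j) a b - f.R (ρ j) b a) * (f.R (ρ k) a b - f.R (ρ k) b a) = 1 := by
    rw [R_two G h2, R_two G h2, symm1 hb]; simp
  rw [← e]
  simp only [one_smul, mul_sub, sub_mul, mul_assoc, q1, RR_mul', RR_mul, hb, symm1 hb, mul_smul_comm, neg_smul,
    mul_neg, neg_neg]
  abel

theorem Jnv.pair (G : f.Geo) (h2 : finrank F U = 2) (P : Fam ρ) (had : ∀ l, Ad f (ρ l)) {S : Finset T}
    {I : Submodule F (End F V)} (hI : Jnv f ρ S I) {e : End F V} (he : e ∈ I) (hne : ∀ s : F, e ≠ s • 1) :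
    ∃ j ∈ S, ∃ k ∈ S, j ≠ k ∧ ∀ a b, f.R (ρ j) a a * f.R (ρ k) b b ∈ I :=
  Jnv.step G h2 P had (fun S' _ => Jnv.one_mem G h2 P had S') hI he hne

end Cfsg.Agent.H1.TF
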