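import Cfsg.Agent.H6.Basic

set_option autoImplicit false
set_option linter.unusedSectionVars false

/-! Frames `ρ : End U → End V` (tensor factorisations `V = U ⊗ W`), their lines `u ⊗ W`. -/

namespace Cfsg.Agent.H1.TW

open Module

variable {F : Type*} [Field F] {U V : Type*} [AddCommGroup U] [Module F U] [AddCommGroup V]
  [Module F V] [FiniteDimensional F U]

/-- the rank one map `x ↦ φ x • u` -/
def r1 (u : U) (φ : Dual F U) : End F U := φ.smulRight u

@[simp] theorem r1_apply (u : U) (φ : Dual F U) (x : U) : r1 u φ x = φ x • u := rfl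

theorem r1_mul (u u' : U) (φ φ' : Dual F U) : r1 u φ * r1 u' φ' = φ u' • r1 u φ' := by
  ext x; simp [smul_smul, mul_comm]

theorem r1_add_left (u u' : U) (φ : Dual F U) : r1 (u + u') φ = r1 u φ + r1 u' φ := by
  ext x; simp
theorem r1_add_right (u : U) (φ φ' : Dual F U) : r1 u (φ + φ') = r1 u φ + r1 u φ' := by
  ext x; simp [add_smul]
theorem r1_sub_left (u u' : U) (φ : Dual F U) : r1 (u - u') φ = r1 u φ - r1 u' φ := by
  ext x; simp [smul_sub]
theorem r1_sub_right (u : U) (φ φ' : Dual F U) : r1 u (φ - φ') = r1 u φ - r1 u φ' := by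
  ext x; simp [sub_smul]
theorem r1_smul_left (c : F) (u : U) (φ : Dual F U) : r1 (c • u) φ = c • r1 u φ := by
  ext x; simp [smul_smul, mul_comm]
theorem r1_smul_right (c : F) (u : U) (φ : Dual F U) : r1 u (c • φ) = c • r1 u φ := by
  ext x; simp [smul_smul]
@[simp] theorem r1_zero_left (φ : Dual F U) : r1 (0 : U) φ = 0 := by ext x; simp
@[simp] theorem r1_zero_right (u : U) : r1 u (0 : Dual F U) = 0 := by ext x; simp
theorem mul_r1 (x : End F U) (u : U) (φ : Dual F U) : x * r1 u φ = r1 (x u) φ := by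
  ext y; simp
theorem r1_mul' (x : End F U) (u : U) (φ : Dual F U) : r1 u φ * x = r1 u (φ ∘ₗ x) := by
  ext y; simp

/-- a fixed basis -/
noncomputable abbrev bs (F U : Type*) [Field F] [AddCommGroup U] [Module F U] [FiniteDimensional F U] :
    Basis (Fin (finrank F U)) F U := finBasis F U

theorem sum_r1 : ∑ i, r1 (bs F U i) ((bs F U).coord i) = 1 := by
  ext x
  simp [LinearMap.sum_apply]

theorem eq_sum_r1 (x : End F U) : x = ∑ i, r1 (x (bs F U i)) ((bs F U).coord i) := by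
  conv_lhs => rw [← mul_one x, ← sum_r1, Finset.mul_sum]
  simp only [mul_r1]

theorem eq_sum_r1' (x : End F U) : x = ∑ i, r1 (bs F U i) ((bs F U).coord i ∘ₗ x) := by
  conv_lhs => rw [← one_mul x, ← sum_r1, Finset.sum_mul]
  simp only [r1_mul']

theorem exists_dual_two (h3 : 3 ≤ finrank F U) (a b : U) :
    ∃ χ : Dual F U, χ ≠ 0 ∧ χ a = 0 ∧ χ b = 0 := by
  classical
  have : Submodule.span F ({a, b} : Set U) ≠ ⊤ := by
    intro h
    have h1 := finrank_span_le_card (R := F) ({a, b} : Set U)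
    rw [h, finrank_top] at h1
    have : ({a, b} : Set U).toFinset.card ≤ 2 := by
      rw [Set.toFinset_insert, Set.toFinset_singleton]; exact Finset.card_le_two
    omega
  obtain ⟨v, hv⟩ : ∃ v, v ∉ Submodule.span F ({a, b} : Set U) := by
    by_contra! h
    exact this (eq_top_iff.mpr fun v _ => h v)
  obtain ⟨φ, h1, h2⟩ := H6.exists_dual_one hv
  refine ⟨φ, fun h => by simp [h] at h2, h1 a (Submodule.subset_span (by simp)),
    h1 b (Submodule.subset_span (by simp))⟩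

theorem exists_vec_two (h3 : 3 ≤ finrank F U) (φ ψ : Dual F U) :
    ∃ a : U, a ≠ 0 ∧ φ a = 0 ∧ ψ a = 0 := by
  have h := (φ.prod ψ).finrank_range_add_finrank_ker
  have h2 := Submodule.finrank_le (LinearMap.range (φ.prod ψ))
  simp only [finrank_prod, finrank_self] at h2
  have : LinearMap.ker (φ.prod ψ) ≠ ⊥ := by
    intro h0
    rw [h0, finrank_bot] at h
    omega
  obtain ⟨a, ha, ha0⟩ := Submodule.exists_mem_ne_zero_of_ne_bot this
  rw [LinearMap.mem_ker] at ha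
  exact ⟨a, ha0, congrArg Prod.fst ha, congrArg Prod.snd ha⟩

/-- a vector in `ker φ` independent of `u`, with a dual functional. -/
theorem exists_ker_indep (h3 : 3 ≤ finrank F U) {u : U} (hu : u ≠ 0) (φ : Dual F U) :
    ∃ (b : U) (χ : Dual F U), φ b = 0 ∧ χ u = 0 ∧ χ b = 1 := by
  obtain ⟨ψ, hψ⟩ := H6.exists_dual_one' (F := F) hu
  obtain ⟨b, hb, h1, h2⟩ := exists_vec_two h3 φ ψ
  obtain ⟨χ, h4, h5⟩ := H6.exists_dual_pair (u := u) (v := b) (F := F) (by
    rintro c rfl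
    simp only [map_smul, hψ, smul_eq_mul, mul_one] at h2
    simp [h2] at hb)
  exact ⟨b, χ, h1, h4, h5⟩

/-- a functional killing `u`, independent of `φ`, with a dual vector -/
theorem exists_dual_indep (h3 : 3 ≤ finrank F U) (u : U) {φ : Dual F U} (hφ : φ ≠ 0) :
    ∃ (χ : Dual F U) (b : U), χ u = 0 ∧ φ b = 0 ∧ χ b = 1 := by
  obtain ⟨v, hv⟩ := H6.exists_apply_eq_one hφ
  obtain ⟨χ, h0, h1, h2⟩ := exists_dual_two h3 u v
  obtain ⟨b, h4, h5⟩ := H6.exists_vec_pair (φ := φ) (ψ := χ) (by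
    rintro c rfl
    simp only [LinearMap.smul_apply, hv, smul_eq_mul, mul_one] at h2
    simp [h2] at h0)
  exact ⟨χ, b, h1, h4, h5⟩

theorem pair_calculus (h3 : 3 ≤ finrank F U) (P : U → Dual F U → Prop)
    (hsr : ∀ u φ φ', φ u = 0 → φ' u = 0 → P u φ → P u φ' → P u (φ - φ'))
    (hsl : ∀ u u' φ, φ u = 0 → φ u' = 0 → P u φ → P u' φ → P (u - u') φ)
    (hr : ∀ u φ χ b, φ u = 0 → P u φ → χ u = 0 → χ b = 0 → φ b = 1 → P u χ)
    (hl : ∀ u φ a (ψ : Dual F U), φ u = 0 → P u φ → φ a = 0 → ψ a = 0 → ψ u = 1 → P a φ)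
    {u : U} {φ : Dual F U} (hu : u ≠ 0) (hφ : φ ≠ 0) (h0 : φ u = 0) (h : P u φ) :
    ∀ a χ, χ a = 0 → P a χ := by
  have s1 : ∀ u φ, φ ≠ 0 → φ u = 0 → P u φ → ∀ χ, χ u = 0 → P u χ := by
    intro u φ hφ h0 h
    have s0 : ∀ χ : Dual F U, χ u = 0 → (∀ c : F, φ ≠ c • χ) → P u χ := by
      intro χ h1 h2
      obtain ⟨b, h4, h5⟩ := H6.exists_vec_pair h2
      exact hr u φ χ b h0 h h1 h4 h5
    intro χ hχ
    by_cases h2 : ∀ c : F, φ ≠ c • χ
    · exact s0 χ hχ h2
    push Not at h2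
    obtain ⟨c, hc⟩ := h2
    obtain ⟨χ₁, b, h4, h5, h6⟩ := exists_dual_indep h3 u hφ
    have hc0 : c ≠ 0 := by rintro rfl; simp [hφ] at hc
    have hχb : χ b = 0 := by simpa [hc, hc0] using h5
    have e1 := s0 χ₁ h4 fun d hd => by
      have : d = 0 := by simpa [hd, h6] using h5
      simp [this, hφ] at hd
    have e2 := s0 (χ + χ₁) (by simp [hχ, h4]) fun d hd => by
      have : d = 0 := by simpa [hd, h6, hχb] using h5
      simp [this, hφ] at hd
    simpa using hsr u _ _ (by simp [hχ, h4]) h4 e2 e1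
  have s2 : ∀ u φ, u ≠ 0 → φ u = 0 → P u φ → ∀ a, φ a = 0 → P a φ := by
    intro u φ hu h0 h
    have s0 : ∀ a : U, φ a = 0 → (∀ c : F, u ≠ c • a) → P a φ := by
      intro a h1 h2
      obtain ⟨ψ, h4, h5⟩ := H6.exists_dual_pair h2
      exact hl u φ a ψ h0 h h1 h4 h5
    intro a ha
    by_cases h2 : ∀ c : F, u ≠ c • a
    · exact s0 a ha h2
    push Not at h2
    obtain ⟨c, hc⟩ := h2
    obtain ⟨b, χ, h4, h5, h6⟩ := exists_ker_indep h3 hu φ
    have hc0 : c ≠ 0 := by rintro rfl; simp [hu] at hc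
    have hχa : χ a = 0 := by simpa [hc, hc0] using h5
    have e1 := s0 b h4 fun d hd => by
      have : d = 0 := by simpa [hd, h6] using h5
      simp [this, hu] at hd
    have e2 := s0 (a + b) (by simp [ha, h4]) fun d hd => by
      have : d = 0 := by simpa [hd, h6, hχa] using h5
      simp [this, hu] at hd
    simpa using hsl _ _ φ (by simp [ha, h4]) h4 e2 e1
  intro a χ hχ
  obtain ⟨χ₁, h1, h2, h4⟩ := exists_dual_two h3 u a
  exact s1 a χ₁ h1 h4 (s2 u χ₁ hu h2 (s1 u φ hφ h0 h χ₁ h2) a h4) χ hχ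

/-- frames -/
abbrev Fr (F U V : Type*) [Field F] [AddCommGroup U] [Module F U] [AddCommGroup V] [Module F V] :=
  End F U →ₐ[F] End F V

variable (ρ : Fr F U V)

theorem rho_r1_mul (u u' : U) (φ φ' : Dual F U) :
    ρ (r1 u φ) * ρ (r1 u' φ') = φ u' • ρ (r1 u φ') := by
  rw [← map_mul, r1_mul, map_smul]

theorem rho_r1_apply (u u' : U) (φ φ' : Dual F U) (v : V) :
    ρ (r1 u φ) (ρ (r1 u' φ') v) = φ u' • ρ (r1 u φ') v := by
  rw [← End.mul_apply, rho_r1_mul, LinearMap.smul_apply]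

theorem sum_rho : ∑ i, ρ (r1 (bs F U i) ((bs F U).coord i)) = 1 := by
  rw [← map_sum, sum_r1, map_one]

theorem sum_rho_apply (v : V) : ∑ i, ρ (r1 (bs F U i) ((bs F U).coord i)) v = v := by
  rw [← LinearMap.sum_apply, sum_rho, End.one_apply]

/-- the line `u ⊗ W` -/
def Ln (u : U) : Submodule F V where
  carrier := {v | ∀ x : End F U, x u = 0 → ρ x v = 0}
  add_mem' := fun ha hb x hx => by rw [map_add, ha x hx, hb x hx, add_zero]
  zero_mem' := fun x _ => map_zero _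
  smul_mem' := fun c v hv x hx => by rw [map_smul, hv x hx, smul_zero]

variable {ρ}

theorem mem_Ln {u : U} {v : V} : v ∈ Ln ρ u ↔ ∀ x : End F U, x u = 0 → ρ x v = 0 := Iff.rfl

theorem Ln_congr {u : U} {v : V} (hv : v ∈ Ln ρ u) {x y : End F U} (h : x u = y u) :
    ρ x v = ρ y v := by
  have := hv (x - y) (by simp [h])
  rwa [map_sub, LinearMap.sub_apply, sub_eq_zero] at this

theorem Ln_map {u : U} {v : V} (hv : v ∈ Ln ρ u) (x : End F U) : ρ x v ∈ Ln ρ (x u) := by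
  intro y hy
  rw [← End.mul_apply, ← map_mul]
  exact hv _ hy

theorem r1_mem_Ln (u : U) (φ : Dual F U) (v : V) : ρ (r1 u φ) v ∈ Ln ρ u := by
  intro x hx
  rw [← End.mul_apply, ← map_mul, mul_r1, hx, r1_zero_left, map_zero, LinearMap.zero_apply]

theorem r1_Ln {u : U} {v : V} (hv : v ∈ Ln ρ u) (φ : Dual F U) : ρ (r1 u φ) v = φ u • v := by
  rw [Ln_congr hv (y := φ u • 1) (by simp)]
  simp

theorem r1_Ln_one {u : U} {v : V} (hv : v ∈ Ln ρ u) {φ : Dual F U} (h : φ u = 1) :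
    ρ (r1 u φ) v = v := by rw [r1_Ln hv, h, one_smul]

theorem r1_Ln_zero {u : U} {v : V} (hv : v ∈ Ln ρ u) (a : U) {φ : Dual F U} (h : φ u = 0) :
    ρ (r1 a φ) v = 0 := hv _ (by simp [h])

theorem mem_Ln_of {u : U} (hu : u ≠ 0) {v : V} (h : ∀ φ : Dual F U, φ u = 0 → ρ (r1 u φ) v = 0) :
    v ∈ Ln ρ u := by
  intro x hx
  obtain ⟨ψ, hψ⟩ := H6.exists_dual_one' (F := F) hu
  rw [eq_sum_r1' x, map_sum, LinearMap.sum_apply]
  refine Finset.sum_eq_zero fun i _ => ?_
  have := rho_r1_apply ρ (bs F U i) u ψ ((bs F U).coord i ∘ₗ x) v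
  rw [hψ, one_smul, h _ (by simp [hx]), map_zero] at this
  exact this.symm

theorem Ln_smul {u : U} {c : F} (hc : c ≠ 0) : Ln ρ (c • u) = Ln ρ u := by
  ext v
  simp [mem_Ln, hc]

theorem Ln_disjoint {u u' : U} {φ : Dual F U} (h : φ u = 0) (h' : φ u' = 1) {v : V}
    (hv : v ∈ Ln ρ u) (hv' : v ∈ Ln ρ u') : v = 0 := by
  rw [← r1_Ln_one hv' h', r1_Ln_zero hv _ h]

theorem ext_Ln {Z : Type*} [AddCommGroup Z] [Module F Z] {f g : V →ₗ[F] Z}
    (h : ∀ u : U, u ≠ 0 → ∀ v ∈ Ln ρ u, f v = g v) : f = g := by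
  ext v
  rw [← sum_rho_apply ρ v, map_sum, map_sum]
  exact Finset.sum_congr rfl fun i _ => h _ ((bs F U).ne_zero i) _ (r1_mem_Ln _ _ _)

/-- `c` commutes with the frame -/
def Cm (ρ : Fr F U V) (c : End F V) : Prop := ∀ x, c * ρ x = ρ x * c

theorem Cm.apply {c : End F V} (h : Cm ρ c) (x : End F U) (v : V) : c (ρ x v) = ρ x (c v) := by
  rw [← End.mul_apply, h x, End.mul_apply]

theorem Cm.mem_Ln {c : End F V} (h : Cm ρ c) {u : U} {v : V} (hv : v ∈ Ln ρ u) : c v ∈ Ln ρ u := by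
  intro x hx
  rw [← h.apply, hv x hx, map_zero]

theorem Cm.one : Cm ρ 1 := fun x => by simp
theorem Cm.zero : Cm ρ 0 := fun x => by simp
theorem Cm.mul {c d : End F V} (hc : Cm ρ c) (hd : Cm ρ d) : Cm ρ (c * d) := fun x => by
  rw [mul_assoc, hd x, ← mul_assoc, hc x, mul_assoc]
theorem Cm.add {c d : End F V} (hc : Cm ρ c) (hd : Cm ρ d) : Cm ρ (c + d) := fun x => by
  rw [add_mul, mul_add, hc x, hd x]
theorem Cm.sub {c d : End F V} (hc : Cm ρ c) (hd : Cm ρ d) : Cm ρ (c - d) := fun x => by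
  rw [sub_mul, mul_sub, hc x, hd x]
theorem Cm.smul {c : End F V} (hc : Cm ρ c) (s : F) : Cm ρ (s • c) := fun x => by
  rw [smul_mul_assoc, mul_smul_comm, hc x]

theorem cm_of_r1 {c : End F V} (h : ∀ a χ, c * ρ (r1 a χ) = ρ (r1 a χ) * c) : Cm ρ c := by
  intro x
  rw [eq_sum_r1 x, map_sum, Finset.mul_sum, Finset.sum_mul]
  exact Finset.sum_congr rfl fun i _ => h _ _

/-- commuting with the root elements is enough. -/
theorem cm_of_root (h3 : 3 ≤ finrank F U) {c : End F V}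
    (h : ∀ a (χ : Dual F U), χ a = 0 → c * ρ (r1 a χ) = ρ (r1 a χ) * c) : Cm ρ c := by
  refine cm_of_r1 fun a χ => ?_
  by_cases ha : a = 0
  · simp [ha]
  obtain ⟨b, ψ, h1, h2, h4⟩ := exists_ker_indep h3 ha χ
  have e : ρ (r1 a χ) = ρ (r1 a ψ) * ρ (r1 b χ) := by rw [rho_r1_mul, h4, one_smul]
  rw [e, ← mul_assoc, h a ψ h2, mul_assoc, h b χ h1, mul_assoc]

theorem Cm.eq_zero {c : End F V} (hc : Cm ρ c) {a : U} (ha : a ≠ 0)
    (h : ∀ v ∈ Ln ρ a, c v = 0) : c = 0 := by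
  obtain ⟨ψ, hψ⟩ := H6.exists_dual_one' (F := F) ha
  refine ext_Ln (ρ := ρ) fun u hu v hv => ?_
  obtain ⟨φ, hφ⟩ := H6.exists_dual_one' (F := F) hu
  have : v = ρ (r1 u ψ) (ρ (r1 a φ) v) := by rw [rho_r1_apply, hψ, one_smul, r1_Ln_one hv hφ]
  rw [this, hc.apply, h _ (r1_mem_Ln _ _ _), map_zero, LinearMap.zero_apply]

theorem Cm.eq_zero' {c : End F V} (hc : Cm ρ c) {a : U} {χ : Dual F U} (ha : a ≠ 0) (hχ : χ ≠ 0)
    (h : ρ (r1 a χ) * c = 0) : c = 0 := by
  obtain ⟨b, hb⟩ := H6.exists_apply_eq_one hχ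
  obtain ⟨ψ, hψ⟩ := H6.exists_dual_one' (F := F) ha
  have hb0 : b ≠ 0 := by rintro rfl; simp at hb
  refine hc.eq_zero hb0 fun v hv => ?_
  have := congrArg (fun z => ρ (r1 b ψ) (z v)) h
  simp only [End.mul_apply, rho_r1_apply, hψ, one_smul, LinearMap.zero_apply, map_zero] at this
  rwa [r1_Ln_one (hc.mem_Ln hv) hb] at this

/-- the block entry of `z` -/
noncomputable def blk (ρ : Fr F U V) (z : End F V) (ψ : Dual F U) (b : U) : End F V :=
  ∑ i, ρ (r1 (bs F U i) ψ) * z * ρ (r1 b ((bs F U).coord i))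

theorem r1_mul_blk (z : End F V) (ψ : Dual F U) (b a : U) (χ : Dual F U) :
    ρ (r1 a χ) * blk ρ z ψ b = ρ (r1 a ψ) * z * ρ (r1 b χ) := by
  rw [blk, Finset.mul_sum]
  conv_rhs => rw [← (bs F U).sum_dual_apply_smul_coord χ]
  have : ∀ (s : Finset (Fin (finrank F U))) (f : Fin (finrank F U) → Dual F U),
      r1 b (∑ i ∈ s, f i) = ∑ i ∈ s, r1 b (f i) := by
    intro s f; ext x; simp [LinearMap.sum_apply, Finset.sum_smul]
  rw [this, map_sum, Finset.mul_sum]
  refine Finset.sum_congr rfl fun i _ => ?_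
  rw [← mul_assoc, ← mul_assoc, rho_r1_mul, r1_smul_right, map_smul]
  simp

theorem blk_mul_r1 (z : End F V) (ψ : Dual F U) (b a : U) (χ : Dual F U) :
    blk ρ z ψ b * ρ (r1 a χ) = ρ (r1 a ψ) * z * ρ (r1 b χ) := by
  rw [blk, Finset.sum_mul]
  conv_rhs => rw [← (bs F U).sum_repr a]
  have : ∀ (s : Finset (Fin (finrank F U))) (f : Fin (finrank F U) → U),
      r1 (∑ i ∈ s, f i) ψ = ∑ i ∈ s, r1 (f i) ψ := by
    intro s f; ext x; simp [LinearMap.sum_apply, Finset.smul_sum]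
  rw [this, map_sum, Finset.sum_mul, Finset.sum_mul]
  refine Finset.sum_congr rfl fun i _ => ?_
  rw [mul_assoc _ (ρ (r1 b _)), rho_r1_mul, r1_smul_left, map_smul]
  simp

theorem cm_blk (z : End F V) (ψ : Dual F U) (b : U) : Cm ρ (blk ρ z ψ b) :=
  cm_of_r1 fun a χ => by rw [r1_mul_blk, blk_mul_r1]

theorem eq_sum_blk (ρ : Fr F U V) (z : End F V) :
    z = ∑ i, ∑ j, ρ (r1 (bs F U i) ((bs F U).coord j)) * blk ρ z ((bs F U).coord i) (bs F U j) := by
  simp only [r1_mul_blk]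
  simp only [← Finset.mul_sum, sum_rho, mul_one, ← Finset.sum_mul, one_mul]

theorem blk_comm {z c : End F V} (hc : Cm ρ c) (hz : z * c = c * z) (ψ : Dual F U) (b : U) :
    blk ρ z ψ b * c = c * blk ρ z ψ b := by
  rw [blk, Finset.sum_mul, Finset.mul_sum]
  refine Finset.sum_congr rfl fun i _ => ?_
  rw [mul_assoc, ← hc, ← mul_assoc, mul_assoc _ z, hz, ← mul_assoc, ← hc]
  simp only [mul_assoc]

theorem scalar_of_central {z : End F V} (h : ∀ w, z * w = w * z) : ∃ s : F, z = s • 1 := by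
  by_cases hV : ∀ v : V, v = 0
  · exact ⟨0, LinearMap.ext fun v => by rw [hV (z v), hV ((((0 : F) • (1 : End F V))) v)]⟩
  push Not at hV
  obtain ⟨v, hv⟩ := hV
  obtain ⟨φ, hφ⟩ := H6.exists_dual_one' (F := F) hv
  refine ⟨φ (z v), LinearMap.ext fun w => ?_⟩
  have := congrArg (fun f => f v) (h (φ.smulRight w))
  simpa [hφ] using this

/-- double centraliser -/
theorem mem_range_of_comm {z : End F V} (h : ∀ c, Cm ρ c → z * c = c * z) : ∃ x, ρ x = z := by
  have : ∀ ψ b, ∃ s : F, blk ρ z ψ b = s • 1 := by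
    intro ψ b
    refine scalar_of_central fun w => ?_
    rw [eq_sum_blk ρ w, Finset.mul_sum, Finset.sum_mul]
    refine Finset.sum_congr rfl fun i _ => ?_
    rw [Finset.mul_sum, Finset.sum_mul]
    refine Finset.sum_congr rfl fun j _ => ?_
    rw [← mul_assoc, cm_blk, mul_assoc, blk_comm (cm_blk _ _ _) (h _ (cm_blk _ _ _)), mul_assoc]
  choose s hs using this
  refine ⟨∑ i, ∑ j, s ((bs F U).coord i) (bs F U j) • r1 (bs F U i) ((bs F U).coord j), ?_⟩
  conv_rhs => rw [eq_sum_blk ρ z]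
  simp only [map_sum, map_smul, hs, mul_smul_comm, mul_one]

theorem cm_of_blk {z : End F V} (h : ∀ u (φ : Dual F U), φ u = 0 → blk ρ z φ u = 0) : Cm ρ z := by
  have hsub : ∀ (φ φ' : Dual F U) u, blk ρ z (φ - φ') u = blk ρ z φ u - blk ρ z φ' u := by
    intro φ φ' u
    simp only [blk, r1_sub_right, map_sub, sub_mul, Finset.sum_sub_distrib]
  have hadd : ∀ (φ : Dual F U) u u', blk ρ z φ (u + u') = blk ρ z φ u + blk ρ z φ u' := by
    intro φ u u'
    simp only [blk, r1_add_left, map_add, mul_add, Finset.sum_add_distrib]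
  have h0 : ∀ i j, i ≠ j → blk ρ z ((bs F U).coord i) (bs F U j) = 0 := fun i j hij =>
    h _ _ (by simp [Finsupp.single_apply, hij.symm])
  have h1 : ∀ i j, blk ρ z ((bs F U).coord i) (bs F U i) = blk ρ z ((bs F U).coord j) (bs F U j) := by
    intro i j
    by_cases hij : i = j
    · rw [hij]
    have := h (bs F U i + bs F U j) ((bs F U).coord i - (bs F U).coord j)
      (by simp [Finsupp.single_apply, hij, Ne.symm hij])
    rw [hsub, hadd, hadd, h0 i j hij, h0 j i (Ne.symm hij), add_zero, zero_add, sub_eq_zero] at this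
    exact this
  rcases isEmpty_or_nonempty (Fin (finrank F U)) with hE | ⟨⟨i0⟩⟩
  · rw [eq_sum_blk ρ z]; simpa using Cm.zero
  have : z = blk ρ z ((bs F U).coord i0) (bs F U i0) := by
    conv_lhs => rw [eq_sum_blk ρ z]
    have : ∀ i, ∑ j, ρ (r1 (bs F U i) ((bs F U).coord j)) * blk ρ z ((bs F U).coord i) (bs F U j) =
        ρ (r1 (bs F U i) ((bs F U).coord i)) * blk ρ z ((bs F U).coord i0) (bs F U i0) := by
      intro i
      rw [Finset.sum_eq_single i (fun j _ hj => by rw [h0 i j (Ne.symm hj), mul_zero]) (by simp), h1 i i0]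
    simp only [this, ← Finset.sum_mul, sum_rho, one_mul]
  rw [this]
  exact cm_blk _ _ _

theorem rho_injective [Nontrivial V] : Function.Injective ρ := by
  rw [injective_iff_map_eq_zero]
  intro x hx
  by_contra h
  obtain ⟨u, hu⟩ : ∃ u, x u ≠ 0 := by
    by_contra! h'
    exact h (LinearMap.ext h')
  obtain ⟨φ, hφ⟩ := H6.exists_dual_one' (F := F) hu
  have : (1 : End F V) = 0 := by
    rw [← sum_rho ρ]
    refine Finset.sum_eq_zero fun i _ => ?_
    have e : r1 (bs F U i) ((bs F U).coord i) = r1 (bs F U i) φ * x * r1 u ((bs F U).coord i) := by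
      rw [mul_assoc, mul_r1, r1_mul, hφ, one_smul]
    rw [e, map_mul, map_mul, hx, mul_zero, zero_mul]
  exact one_ne_zero this

theorem Ln_ne_bot [Nontrivial V] {u : U} (hu : u ≠ 0) : ∃ v ∈ Ln ρ u, v ≠ 0 := by
  by_contra! h
  exact one_ne_zero ((Cm.one (ρ := ρ)).eq_zero hu fun v hv => h v hv)

/-- dimension formula on an invariant subspace -/
theorem finrank_inv [FiniteDimensional F V] (S : Submodule F V) (hS : ∀ x, ∀ v ∈ S, ρ x v ∈ S) {u : U}
    (hu : u ≠ 0) : finrank F S = finrank F U * finrank F (S ⊓ Ln ρ u : Submodule F V) := by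
  obtain ⟨ψ, hψ⟩ := H6.exists_dual_one' (F := F) hu
  let f : S →ₗ[F] (Fin (finrank F U) → (S ⊓ Ln ρ u : Submodule F V)) :=
    LinearMap.pi fun i => ((ρ (r1 u ((bs F U).coord i))).domRestrict S).codRestrict _
      fun v => ⟨hS _ _ v.2, r1_mem_Ln _ _ _⟩
  have hf : Function.Bijective f := by
    constructor
    · rw [injective_iff_map_eq_zero]
      intro v hv
      apply Subtype.ext
      rw [← sum_rho_apply ρ (v : V)]
      refine Finset.sum_eq_zero fun i _ => ?_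
      have h1 : ρ (r1 u ((bs F U).coord i)) v = 0 := congrArg Subtype.val (congrFun hv i)
      have := rho_r1_apply ρ (bs F U i) u ψ ((bs F U).coord i) v
      rw [h1, map_zero, hψ, one_smul] at this
      exact this.symm
    · intro w
      refine ⟨⟨∑ i, ρ (r1 (bs F U i) ψ) (w i), S.sum_mem fun i _ => hS _ _ (w i).2.1⟩, ?_⟩
      ext i
      change ρ (r1 u ((bs F U).coord i)) (∑ j, ρ (r1 (bs F U j) ψ) (w j)) = w i
      rw [map_sum, Finset.sum_eq_single i]
      · rw [rho_r1_apply, r1_Ln_one (w i).2.2 hψ]; simp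
      · intro j _ hj
        rw [rho_r1_apply]; simp [Finsupp.single_apply, hj]
      · simp
  rw [(LinearEquiv.ofBijective f hf).finrank_eq, finrank_pi_fintype]
  simp

theorem finrank_Ln [FiniteDimensional F V] {u : U} (hu : u ≠ 0) :
    finrank F V = finrank F U * finrank F (Ln ρ u) := by
  have := finrank_inv (ρ := ρ) ⊤ (fun _ _ _ => trivial) hu
  rwa [finrank_top, top_inf_eq] at this

theorem finrank_Ln_eq [FiniteDimensional F V] {ρ' : Fr F U V} {u u' : U} (hu : u ≠ 0) (hu' : u' ≠ 0) :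
    finrank F (Ln ρ u) = finrank F (Ln ρ' u') := by
  have h1 := finrank_Ln (ρ := ρ) hu
  have h2 := finrank_Ln (ρ := ρ') hu'
  have : 0 < finrank F U := finrank_pos_iff_exists_ne_zero.mpr ⟨u, hu⟩
  exact Nat.eq_of_mul_eq_mul_left this (h1.symm.trans h2)

theorem range_r1 {u : U} (hu : u ≠ 0) {φ : Dual F U} (hφ : φ ≠ 0) :
    LinearMap.range (ρ (r1 u φ)) = Ln ρ u := by
  apply le_antisymm
  · rintro _ ⟨v, rfl⟩; exact r1_mem_Ln _ _ _
  · intro v hv
    obtain ⟨b, hb⟩ := H6.exists_apply_eq_one hφ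
    obtain ⟨ψ, hψ⟩ := H6.exists_dual_one' (F := F) hu
    exact ⟨ρ (r1 b ψ) v, by rw [rho_r1_apply, hb, one_smul, r1_Ln_one hv hψ]⟩

end Cfsg.Agent.H1.TW
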