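import Cfsg.Agent.H1.TW1

set_option autoImplicit false
set_option linter.unusedSectionVars false

/-! Conjugate frames; a line determines its frame. -/

namespace Cfsg.Agent.H1.TW

open Module

variable {F : Type*} [Field F] {U V : Type*} [AddCommGroup U] [Module F U] [AddCommGroup V]
  [Module F V] [FiniteDimensional F U]

/-- conjugate frame -/
def cf (g : (End F V)ˣ) (ρ : Fr F U V) : Fr F U V where
  toFun x := g * ρ x * ↑g⁻¹
  map_one' := by simp
  map_mul' x y := by simp [mul_assoc]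
  map_zero' := by simp
  map_add' x y := by simp [mul_add, add_mul]
  commutes' c := by simp [Algebra.algebraMap_eq_smul_one]

theorem cf_apply (g : (End F V)ˣ) (ρ : Fr F U V) (x : End F U) : cf g ρ x = g * ρ x * ↑g⁻¹ := rfl

theorem cf_mul (g h : (End F V)ˣ) (ρ : Fr F U V) : cf (g * h) ρ = cf g (cf h ρ) := by
  ext x : 1; simp [cf_apply, mul_assoc]

@[simp] theorem cf_one (ρ : Fr F U V) : cf 1 ρ = ρ := by ext x : 1; simp [cf_apply]

@[simp] theorem inv_app (g : (End F V)ˣ) (v : V) : (↑g⁻¹ : End F V) ((g : End F V) v) = v := by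
  rw [← End.mul_apply, Units.inv_mul, End.one_apply]

@[simp] theorem app_inv (g : (End F V)ˣ) (v : V) : (g : End F V) ((↑g⁻¹ : End F V) v) = v := by
  rw [← End.mul_apply, Units.mul_inv, End.one_apply]

theorem unit_inj (g : (End F V)ˣ) : Function.Injective (g : End F V) :=
  fun a b h => by rw [← inv_app g a, h, inv_app]

theorem unit_eq_zero (g : (End F V)ˣ) {v : V} (h : (g : End F V) v = 0) : v = 0 := by
  rw [← inv_app g v, h, map_zero]

theorem cf_app (g : (End F V)ˣ) (ρ : Fr F U V) (x : End F U) (v : V) :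
    cf g ρ x ((g : End F V) v) = (g : End F V) (ρ x v) := by
  simp [cf_apply]

theorem mem_Ln_cf {g : (End F V)ˣ} {ρ : Fr F U V} {u : U} {v : V} :
    (g : End F V) v ∈ Ln (cf g ρ) u ↔ v ∈ Ln ρ u := by
  simp only [mem_Ln, cf_app]
  exact forall₂_congr fun x _ => ⟨unit_eq_zero g, fun h => by rw [h, map_zero]⟩

theorem Ln_cf (g : (End F V)ˣ) (ρ : Fr F U V) (u : U) :
    Ln (cf g ρ) u = (Ln ρ u).map (g : End F V) := by
  ext v
  constructor
  · intro h
    exact ⟨(↑g⁻¹ : End F V) v, mem_Ln_cf.mp (by rwa [app_inv]), app_inv g v⟩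
  · rintro ⟨w, hw, rfl⟩
    exact mem_Ln_cf.mpr hw

def Same (ρ ρ' : Fr F U V) : Prop := ∃ k : (End F U)ˣ, ∀ x, ρ' x = ρ (k * x * ↑k⁻¹)

def Comm (ρ ρ' : Fr F U V) : Prop := ∀ x, Cm ρ (ρ' x)

def Rel (ρ ρ' : Fr F U V) : Prop := Same ρ ρ' ∨ Comm ρ ρ'

variable {ρ ρ' σ σ' : Fr F U V}

theorem Same.refl (ρ : Fr F U V) : Same ρ ρ := ⟨1, by simp⟩

theorem Same.symm (h : Same ρ ρ') : Same ρ' ρ := by
  obtain ⟨k, hk⟩ := h
  exact ⟨k⁻¹, fun x => by rw [hk]; simp [mul_assoc]⟩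

theorem Same.trans (h : Same ρ ρ') (h' : Same ρ' σ) : Same ρ σ := by
  obtain ⟨k, hk⟩ := h
  obtain ⟨l, hl⟩ := h'
  exact ⟨k * l, fun x => by rw [hl, hk]; simp [mul_assoc]⟩

theorem Same.cf (h : Same ρ ρ') (g : (End F V)ˣ) : Same (cf g ρ) (cf g ρ') := by
  obtain ⟨k, hk⟩ := h
  exact ⟨k, fun x => by rw [cf_apply, cf_apply, hk]⟩

theorem Comm.symm (h : Comm ρ ρ') : Comm ρ' ρ := fun x y => (h y x).symm

theorem Cm.cf {c : End F V} (h : Cm ρ c) (g : (End F V)ˣ) : Cm (cf g ρ) (g * c * ↑g⁻¹) := by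
  intro x
  simp only [cf_apply, mul_assoc, Units.inv_mul_cancel_left]
  rw [← mul_assoc c, h x, mul_assoc]

theorem Comm.cf (h : Comm ρ ρ') (g : (End F V)ˣ) : Comm (cf g ρ) (cf g ρ') := fun x => (h x).cf g

theorem Same.cm (h : Same ρ ρ') {c : End F V} (hc : Cm ρ c) : Cm ρ' c := by
  obtain ⟨k, hk⟩ := h
  intro x
  rw [hk, hc]

theorem Same.comm (h : Same ρ ρ') (hc : Comm ρ σ) : Comm ρ' σ := fun x => h.cm (hc x)

theorem Rel.symm (h : Rel ρ ρ') : Rel ρ' ρ := h.imp Same.symm Comm.symm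

theorem Same.rel (h : Same ρ ρ') (h' : Rel ρ σ) : Rel ρ' σ :=
  h'.imp (fun h' => h.symm.trans h') h.comm

theorem Rel.cf (h : Rel ρ ρ') (g : (End F V)ˣ) : Rel (cf g ρ) (cf g ρ') :=
  h.imp (fun h => h.cf g) (fun h => h.cf g)

theorem not_comm_self [Nontrivial V] (h3 : 3 ≤ finrank F U) : ¬ Comm ρ ρ := by
  intro h
  obtain ⟨a, ha, -⟩ := exists_vec_two h3 (0 : Dual F U) 0
  obtain ⟨b, χ, -, h1, h2⟩ := exists_ker_indep h3 ha 0
  obtain ⟨ψ, h4, h5⟩ := H6.exists_dual_pair (F := F) (u := b) (v := a) (by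
    rintro c rfl
    simp only [map_smul, h2, smul_eq_mul, mul_one] at h1
    simp [h1] at ha)
  have := h (r1 a χ) (r1 b ψ)
  rw [rho_r1_mul, rho_r1_mul, h2, h5, one_smul, one_smul] at this
  have := congrArg (fun z : End F U => ψ (z a)) (rho_injective this)
  simp [h1, h5] at this

theorem Same.not_comm [Nontrivial V] (h3 : 3 ≤ finrank F U) (h : Same ρ ρ') : ¬ Comm ρ ρ' :=
  fun hc => not_comm_self h3 (h.comm hc)

theorem Ln_same {k : (End F U)ˣ} (hk : ∀ x, ρ' x = ρ (k * x * ↑k⁻¹)) (u : U) :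
    Ln ρ' u = Ln ρ ((k : End F U) u) := by
  ext v
  constructor
  · intro h x hx
    have := h (↑k⁻¹ * x * k) (by simp [hx])
    rw [hk] at this
    simpa [mul_assoc] using this
  · intro h x hx
    rw [hk]
    exact h _ (by simp [hx])

theorem same_of_range [Nontrivial V] (h : ∀ x, ∃ y, ρ y = ρ' x) : Same ρ ρ' := by
  choose θ hθ using h
  have hi := rho_injective (ρ := ρ)
  let f : End F U →ₐ[F] End F U :=
    { toFun := θ
      map_one' := hi (by rw [hθ, map_one, map_one])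
      map_mul' := fun x y => hi (by rw [map_mul, hθ, hθ, hθ, map_mul])
      map_zero' := hi (by rw [hθ, map_zero, map_zero])
      map_add' := fun x y => hi (by rw [map_add, hθ, hθ, hθ, map_add])
      commutes' := fun c => hi (by rw [hθ, AlgHom.commutes, AlgHom.commutes]) }
  have hf : Function.Injective f := fun x y hxy =>
    rho_injective (ρ := ρ') (by rw [← hθ, ← hθ]; exact congrArg ρ hxy)
  have hb : Function.Bijective f :=
    ⟨hf, (LinearMap.injective_iff_surjective (f := f.toLinearMap)).mp hf⟩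
  obtain ⟨T, hT⟩ := (AlgEquiv.ofBijective f hb).eq_linearEquivConjAlgEquiv
  refine ⟨LinearMap.GeneralLinearGroup.ofLinearEquiv T, fun x => ?_⟩
  rw [← hθ]
  congr 1
  exact congrArg (fun e : End F U ≃ₐ[F] End F U => e x) hT

/-- decomposition of an element normalising the frame -/
theorem Same.decomp {g : (End F V)ˣ} (h : Same ρ (TW.cf g ρ)) :
    ∃ (k : (End F U)ˣ) (c : (End F V)ˣ), Cm ρ (c : End F V) ∧ (g : End F V) = ρ k * c := by
  obtain ⟨k, hk⟩ := h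
  refine ⟨k, (Units.map (ρ : End F U →* End F V) k)⁻¹ * g, fun x => ?_, ?_⟩
  · have := hk x
    rw [cf_apply, Units.mul_inv_eq_iff_eq_mul] at this
    have e : ((Units.map (ρ : End F U →* End F V) k)⁻¹ : (End F V)ˣ) = ρ (↑k⁻¹ : End F U) := rfl
    rw [Units.val_mul, e, mul_assoc, this, ← mul_assoc, ← mul_assoc, ← map_mul, ← map_mul]
    simp [mul_assoc]
  · have e : ((Units.map (ρ : End F U →* End F V) k)⁻¹ : (End F V)ˣ) = ρ (↑k⁻¹ : End F U) := rfl
    rw [Units.val_mul, e, ← mul_assoc, ← map_mul]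
    simp

/-- `1 + N` as a unit -/
def un (N : End F V) (h : N * N = 0) : (End F V)ˣ where
  val := 1 + N
  inv := 1 - N
  val_inv := by rw [add_mul, mul_sub, mul_sub, h]; simp
  inv_val := by rw [sub_mul, mul_add, mul_add, h]; simp

@[simp] theorem un_val (N : End F V) (h : N * N = 0) : (un N h : End F V) = 1 + N := rfl
@[simp] theorem un_inv (N : End F V) (h : N * N = 0) : ((un N h)⁻¹ : (End F V)ˣ) = 1 - N := rfl

def IM (M : Subgroup (End F V)ˣ) (z : End F V) : Prop := ∃ g ∈ M, (g : End F V) = z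

variable {M : Subgroup (End F V)ˣ}

theorem IM.mul {z w : End F V} (hz : IM M z) (hw : IM M w) : IM M (z * w) := by
  obtain ⟨g, hg, rfl⟩ := hz
  obtain ⟨h, hh, rfl⟩ := hw
  exact ⟨g * h, M.mul_mem hg hh, rfl⟩

theorem IM.one : IM M 1 := ⟨1, M.one_mem, rfl⟩

theorem im_iff {N : End F V} (h : N * N = 0) : IM M (1 + N) ↔ un N h ∈ M := by
  constructor
  · rintro ⟨g, hg, e⟩
    have : g = un N h := Units.ext e
    rwa [← this]
  · intro hm; exact ⟨_, hm, rfl⟩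

theorem IM.neg {N : End F V} (h : N * N = 0) (hz : IM M (1 + N)) : IM M (1 - N) :=
  ⟨_, M.inv_mem ((im_iff h).mp hz), rfl⟩

theorem IM.conj {z : End F V} (hz : IM M z) {g : (End F V)ˣ} (hg : g ∈ M) : IM M (g * z * ↑g⁻¹) :=
  (IM.mul ⟨g, hg, rfl⟩ hz).mul ⟨g⁻¹, M.inv_mem hg, rfl⟩

theorem IM.conj' {N : End F V} (hz : IM M (1 + N)) {g : (End F V)ˣ} (hg : g ∈ M) :
    IM M (1 + g * N * ↑g⁻¹) := by
  have := hz.conj hg
  rwa [mul_add, add_mul, mul_one, Units.mul_inv] at this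

/-- commutator of two quadratic elements -/
theorem IM.comm {A B : End F V} (hA : IM M (1 + A)) (hB : IM M (1 + B)) (hAA : A * A = 0)
    (hBB : B * B = 0) (hBA : B * A = 0) : IM M (1 + A * B) := by
  have := ((hA.mul hB).mul (hA.neg hAA)).mul (hB.neg hBB)
  have e : (1 + A) * (1 + B) * (1 - A) * (1 - B) = 1 + A * B := by
    have h1 : A * (B * A) = 0 := by rw [hBA, mul_zero]
    have h2 : A * (B * B) = 0 := by rw [hBB, mul_zero]
    simp only [mul_add, add_mul, mul_sub, sub_mul, mul_one, one_mul, mul_assoc, hAA, hBB, hBA, h1, h2,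
      mul_zero, zero_mul, ← mul_assoc A A, ← mul_assoc B A]
    abel
  rwa [e] at this

theorem root_sq {u : U} {φ : Dual F U} (h : φ u = 0) : ρ (r1 u φ) * ρ (r1 u φ) = 0 := by
  rw [rho_r1_mul, h, zero_smul]

structure Good (M : Subgroup (End F V)ˣ) (ρ : Fr F U V) : Prop where
  root : ∀ u (φ : Dual F U), φ u = 0 → IM M (1 + ρ (r1 u φ))
  scal : ∀ c, Cm ρ c → ∀ u (φ : Dual F U), u ≠ 0 → φ ≠ 0 → φ u = 0 →
    IM M (1 + ρ (r1 u φ) * c) → ∃ s : F, c = s • 1

theorem Good.cf (h : Good M ρ) {g : (End F V)ˣ} (hg : g ∈ M) : Good M (cf g ρ) := by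
  refine ⟨fun u φ h0 => (h.root u φ h0).conj' hg, fun c hc u φ hu hφ h0 hm => ?_⟩
  have h1 := hc.cf g⁻¹
  rw [← cf_mul, inv_mul_cancel, cf_one] at h1
  have h2 := hm.conj' (M.inv_mem hg)
  obtain ⟨s, hs⟩ := h.scal _ h1 u φ hu hφ h0 (by
    convert h2 using 2
    simp [cf_apply, mul_assoc])
  refine ⟨s, ?_⟩
  have := congrArg (fun z => (g : End F V) * z * ↑g⁻¹) hs
  simpa [mul_assoc] using this

/-- Lemma A -/
theorem Good.qt (h3 : 3 ≤ finrank F U) [Nontrivial V] (h : Good M ρ) {u : U} (hu : u ≠ 0) {Z : End F V}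
    (h1 : ∀ v, Z v ∈ Ln ρ u) (h2 : ∀ v ∈ Ln ρ u, Z v = 0) (hZ : IM M (1 + Z)) :
    ∃ φ : Dual F U, φ u = 0 ∧ Z = ρ (r1 u φ) := by
  obtain ⟨ψ, hψ⟩ := H6.exists_dual_one' (F := F) hu
  have e1 : ρ (r1 u ψ) * Z = Z := LinearMap.ext fun v => r1_Ln_one (h1 v) hψ
  have hZZ : Z * Z = 0 := LinearMap.ext fun v => h2 _ (h1 v)
  have : ∀ b, ∃ s : F, blk ρ Z ψ b = s • 1 := by
    intro b
    obtain ⟨χ, h0, h4, h5⟩ := exists_dual_two h3 u b
    refine h.scal _ (cm_blk _ _ _) u χ hu h0 h4 ?_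
    rw [r1_mul_blk, e1]
    exact hZ.comm (h.root b χ h5) hZZ (root_sq h5) (LinearMap.ext fun v => r1_Ln_zero (h1 v) _ h4)
  choose s hs using this
  have e2 : Z = ρ (r1 u (∑ i, s (bs F U i) • (bs F U).coord i)) := by
    have : r1 u (∑ i, s (bs F U i) • (bs F U).coord i) = ∑ i, s (bs F U i) • r1 u ((bs F U).coord i) := by
      ext x; simp [LinearMap.sum_apply, Finset.sum_smul, smul_smul]
    rw [this, map_sum, ← mul_one Z, ← sum_rho ρ, Finset.mul_sum]
    refine Finset.sum_congr rfl fun i _ => ?_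
    rw [← e1, ← r1_mul_blk, hs, map_smul, mul_smul_comm, mul_one]
  refine ⟨_, ?_, e2⟩
  obtain ⟨v, hv, hv0⟩ := Ln_ne_bot (ρ := ρ) hu
  have := h2 v hv
  rw [e2, r1_Ln hv] at this
  exact (smul_eq_zero.mp this).resolve_right hv0

theorem cm_of_par (h3 : 3 ≤ finrank F U) {u : U} (hu : u ≠ 0) {c : End F V}
    (h : ∀ b (χ : Dual F U), χ u = 0 → χ b = 0 → c * ρ (r1 b χ) = ρ (r1 b χ) * c) : Cm ρ c := by
  have s1 : ∀ b (χ : Dual F U), χ u = 0 → c * ρ (r1 b χ) = ρ (r1 b χ) * c := by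
    intro b χ hχ
    by_cases hb : χ b = 0
    · exact h b χ hχ hb
    obtain ⟨b₁, χ₂, h1, h2, h4⟩ := exists_ker_indep h3 hu χ
    -- a functional killing `u`, `b` with value one on `b₁`
    let χ₁ : Dual F U := χ₂ - (χ₂ b / χ b) • χ
    have e1 : χ₁ u = 0 := by simp [χ₁, h2, hχ]
    have e2 : χ₁ b = 0 := by simp [χ₁, div_mul_cancel₀ _ hb]
    have e3 : χ₁ b₁ = 1 := by simp [χ₁, h4, h1]
    have e : ρ (r1 b χ) = ρ (r1 b χ₁) * ρ (r1 b₁ χ) := by rw [rho_r1_mul, e3, one_smul]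
    rw [e, ← mul_assoc, h b χ₁ e1 e2, mul_assoc, h b₁ χ hχ h1, mul_assoc]
  have s2 : ∀ x : End F U, x u = 0 → c * ρ x = ρ x * c := by
    intro x hx
    rw [eq_sum_r1' x, map_sum, Finset.mul_sum, Finset.sum_mul]
    exact Finset.sum_congr rfl fun i _ => s1 _ _ (by simp [hx])
  obtain ⟨ψ, hψ⟩ := H6.exists_dual_one' (F := F) hu
  have s3 : c * ρ (r1 u ψ) = ρ (r1 u ψ) * c := by
    have := s2 (1 - r1 u ψ) (by simp [hψ])
    rw [map_sub, map_one, mul_sub, sub_mul, mul_one, one_mul] at this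
    exact sub_right_injective this
  have s4 : ∀ b, c * ρ (r1 b ψ) = ρ (r1 b ψ) * c := by
    intro b
    have e : ∀ χ : Dual F U, c * ρ (r1 u χ) = ρ (r1 u χ) * c →
        ρ (r1 u χ) * (c * ρ (r1 b ψ) - ρ (r1 b ψ) * c) = 0 := by
      intro χ hχ
      rw [mul_sub, ← mul_assoc, ← hχ, mul_assoc, ← mul_assoc (ρ _) (ρ _), rho_r1_mul, mul_smul_comm,
        smul_mul_assoc, s3, sub_self]
    rw [← sub_eq_zero]
    ext v
    have hv : (c * ρ (r1 b ψ) - ρ (r1 b ψ) * c) v ∈ Ln ρ u :=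
      mem_Ln_of hu fun χ hχ => congrArg (fun z => z v) (e χ (s1 u χ hχ))
    rw [← r1_Ln_one hv hψ]
    exact congrArg (fun z => z v) (e ψ s3)
  intro x
  have := s2 (x - r1 (x u) ψ) (by simp [hψ])
  rw [map_sub, mul_sub, sub_mul, s4] at this
  exact sub_left_injective this

theorem half_B (h3 : 3 ≤ finrank F U) [Nontrivial V] (h : Good M ρ) (h' : Good M ρ') {u u' : U}
    (hu : u ≠ 0) (hu' : u' ≠ 0) (hL : Ln ρ u = Ln ρ' u') {c : End F V} (hc : Cm ρ c) : Cm ρ' c := by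
  have k1 : ∀ φ' : Dual F U, φ' u' = 0 → ∃ φ : Dual F U, φ u = 0 ∧ ρ' (r1 u' φ') = ρ (r1 u φ) :=
    fun φ' h0 => h.qt h3 hu (fun v => hL ▸ r1_mem_Ln _ _ _)
      (fun v hv => r1_Ln_zero (hL ▸ hv) _ h0) (h'.root _ _ h0)
  have k2 : ∀ φ : Dual F U, φ u = 0 → ∃ φ' : Dual F U, φ' u' = 0 ∧ ρ (r1 u φ) = ρ' (r1 u' φ') :=
    fun φ h0 => h'.qt h3 hu' (fun v => hL ▸ r1_mem_Ln _ _ _)
      (fun v hv => r1_Ln_zero (hL.symm ▸ hv) _ h0) (h.root _ _ h0)
  have inj : ∀ (φ φ' : Dual F U), ρ' (r1 u' φ) = ρ' (r1 u' φ') → φ = φ' := by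
    intro φ φ' e
    have := rho_injective e
    ext x
    have := congrArg (fun z : End F U => z x) this
    simp only [r1_apply] at this
    exact smul_left_injective F hu' this
  choose! κ hκ0 hκ using k2
  refine cm_of_par h3 hu' fun b' χ' h1 h2 => ?_
  obtain ⟨χ, h4, h5⟩ := k1 χ' h1
  obtain ⟨ψ, hψ⟩ := H6.exists_dual_one' (F := F) hu
  -- the vector `b` matching `b'`
  let π : Dual F U →ₗ[F] Dual F U := LinearMap.id - (LinearMap.applyₗ u).smulRight ψ
  have hπ : ∀ φ, π φ u = 0 := fun φ => by simp [π, hψ]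
  have hπ' : ∀ φ : Dual F U, φ u = 0 → π φ = φ := fun φ h0 => by simp [π, h0]
  let Λ : Dual F (Dual F U) :=
    { toFun := fun φ => κ (π φ) b'
      map_add' := fun φ₁ φ₂ => by
        have : κ (π (φ₁ + φ₂)) = κ (π φ₁) + κ (π φ₂) := inj _ _ (by
          rw [← hκ _ (hπ _), r1_add_right, map_add ρ', ← hκ _ (hπ _), ← hκ _ (hπ _), map_add π,
            r1_add_right, map_add])
        rw [this]; rfl
      map_smul' := fun s φ => by
        have : κ (π (s • φ)) = s • κ (π φ) := inj _ _ (by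
          rw [← hκ _ (hπ _), r1_smul_right, map_smul ρ', ← hκ _ (hπ _), map_smul π, r1_smul_right,
            map_smul])
        rw [this]; rfl }
  obtain ⟨b, hb⟩ := (Module.evalEquiv F U).surjective Λ
  have hb' : ∀ φ : Dual F U, φ u = 0 → φ b = κ φ b' := by
    intro φ h0
    have := congrArg (fun L : Dual F (Dual F U) => L φ) hb
    simp only [evalEquiv_apply, Dual.eval_apply] at this
    rw [this]
    change κ (π φ) b' = _
    rw [hπ' φ h0]
  have hκχ : κ χ = χ' := inj _ _ (by rw [← hκ _ h4, h5])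
  have hχb : χ b = 0 := by rw [hb' χ h4, hκχ, h2]
  set B := ρ (r1 b χ) with hB
  set B' := ρ' (r1 b' χ') with hB'
  have hBB : B * B = 0 := root_sq hχb
  have hBA : ∀ v ∈ Ln ρ u, B v = 0 := fun v hv => r1_Ln_zero hv _ h4
  have hBA' : ∀ v ∈ Ln ρ u, B' v = 0 := fun v hv => r1_Ln_zero (hL ▸ hv) _ h1
  have hz := (h'.root b' χ' h2).mul ((h.root b χ hχb).neg hBB)
  have e : (1 + B') * (1 - B) = 1 + (B' - B - B' * B) := by
    rw [add_mul, mul_sub, mul_sub]; simp only [mul_one, one_mul]; abel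
  rw [← hB', e] at hz
  have hN : ∀ φ : Dual F U, φ u = 0 → ρ (r1 u φ) * B' = ρ (r1 u φ) * B := by
    intro φ h0
    rw [hB, rho_r1_mul, hκ φ h0, hB', rho_r1_mul, h5, hb' φ h0]
  obtain ⟨φz, -, hφz⟩ := h.qt h3 hu (Z := B' - B - B' * B) (fun v => mem_Ln_of hu fun φ h0 => by
      rw [← End.mul_apply, mul_sub, mul_sub, ← mul_assoc, hN φ h0, mul_assoc, hBB]; simp)
    (fun v hv => by simp [hBA v hv, hBA' v hv]) hz
  have e2 : B' = (B + ρ (r1 u φz)) * (1 + B) := by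
    rw [← hφz]
    have : B + (B' - B - B' * B) = B' * (1 - B) := by rw [mul_sub, mul_one]; abel
    rw [this, mul_assoc, sub_mul, mul_add, mul_add, hBB]; simp
  rw [e2, hB, ← map_add, ← map_one ρ, ← map_add, ← map_mul, hc]

/-- Lemma B: a line determines the frame. -/
theorem same_of_Ln (h3 : 3 ≤ finrank F U) [Nontrivial V] (h : Good M ρ) (h' : Good M ρ') {u u' : U}
    (hu : u ≠ 0) (hu' : u' ≠ 0) (hL : Ln ρ u = Ln ρ' u') : Same ρ ρ' :=
  same_of_range fun x => mem_range_of_comm fun _ hc => (half_B h3 h h' hu hu' hL hc x).symm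

theorem map_eq_of_le [FiniteDimensional F V] (g : (End F V)ˣ) {A : Submodule F V}
    (h : ∀ v ∈ A, (g : End F V) v ∈ A) : A.map (g : End F V) = A := by
  apply Submodule.eq_of_le_of_finrank_eq
  · rintro _ ⟨v, hv, rfl⟩; exact h v hv
  · exact (Submodule.equivMapOfInjective _ (unit_inj g) A).finrank_eq.symm

theorem same_of_stab (h3 : 3 ≤ finrank F U) [Nontrivial V] [FiniteDimensional F V] (h : Good M ρ)
    {u : U} (hu : u ≠ 0) {g : (End F V)ˣ} (hg : g ∈ M) (hs : ∀ v ∈ Ln ρ u, (g : End F V) v ∈ Ln ρ u) :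
    Same ρ (cf g ρ) :=
  same_of_Ln h3 h (h.cf hg) hu hu (by rw [Ln_cf, map_eq_of_le g hs])

end Cfsg.Agent.H1.TW
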