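import Cfsg.Agent.H1.TW2
import Cfsg.Agent.H6.Lin

set_option autoImplicit false
set_option linter.unusedSectionVars false

/-! Root elements normalising a frame, or moving it to a commuting frame. -/

namespace Cfsg.Agent.H1.TW

open Module

variable {F : Type*} [Field F] {U V : Type*} [AddCommGroup U] [Module F U] [AddCommGroup V]
  [Module F V] [FiniteDimensional F U] [FiniteDimensional F V] [Nontrivial V]

theorem fr_map {Z : Type*} [AddCommGroup Z] [Module F Z] (f : V →ₗ[F] Z) (S : Submodule F V) :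
    finrank F (S.map f) + finrank F (S ⊓ LinearMap.ker f : Submodule F V) = finrank F S := by
  have := (f.domRestrict S).finrank_range_add_finrank_ker
  rw [LinearMap.range_domRestrict, LinearMap.ker_domRestrict] at this
  rw [← this, ← Submodule.finrank_map_subtype_eq S (Submodule.comap S.subtype _),
    Submodule.map_comap_subtype]

theorem fr_map_inj {Z : Type*} [AddCommGroup Z] [Module F Z] (f : V →ₗ[F] Z) (S : Submodule F V)
    (h : ∀ v ∈ S, f v = 0 → v = 0) : finrank F (S.map f) = finrank F S := by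
  have := fr_map f S
  have e : S ⊓ LinearMap.ker f = ⊥ := by
    rw [eq_bot_iff]
    rintro v ⟨h1, h2⟩
    exact h v h1 h2
  rwa [e, finrank_bot, add_zero] at this

variable {ρ ρ' σ σ' : Fr F U V} {M : Subgroup (End F V)ˣ}

theorem exists_dual_basis_two {a b : U} (hb : b ≠ 0) (h : ∀ s : F, a ≠ s • b) :
    ∃ α β : Dual F U, α a = 1 ∧ α b = 0 ∧ β a = 0 ∧ β b = 1 := by
  obtain ⟨α, h1, h2⟩ := H6.exists_dual_pair h
  obtain ⟨β, h3, h4⟩ := H6.exists_dual_pair (F := F) (u := a) (v := b) (by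
    rintro c rfl
    have : c = 0 := by simpa [h2] using h1
    simp [this] at hb)
  exact ⟨α, β, h2, h1, h3, h4⟩

theorem exists_partner (h3 : 3 ≤ finrank F U) {a : U} (ha : a ≠ 0) :
    ∃ (b : U) (α β : Dual F U), α a = 1 ∧ α b = 0 ∧ β a = 0 ∧ β b = 1 := by
  obtain ⟨α, hα⟩ := H6.exists_dual_one' (F := F) ha
  obtain ⟨b, β, h1, h2, h4⟩ := exists_ker_indep h3 ha α
  exact ⟨b, α, β, hα, h1, h2, h4⟩

theorem scalar_on {c : End F V} (hc : Cm σ c) {a : U} (ha : a ≠ 0) {l : F}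
    (h : ∀ w ∈ Ln σ a, l • c w = w) : l • c = 1 := by
  have := ((hc.smul l).sub Cm.one).eq_zero ha fun w hw => by simp [h w hw]
  exact sub_eq_zero.mp this

theorem lemC2 (h3 : 3 ≤ finrank F U) {g : End F V} {k : (End F U)ˣ} {c : (End F V)ˣ}
    (hc : Cm σ (c : End F V)) (hg : g = σ k * c) {a : U} (hka : ∀ s : F, (k : End F U) a ≠ s • a)
    (hr : finrank F (LinearMap.range (g - 1)) ≤ finrank F (Ln σ a)) :
    ∃ z : U, z ≠ 0 ∧ LinearMap.range (g - 1) = Ln σ z := by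
  have ha : a ≠ 0 := by rintro rfl; exact hka 0 (by simp)
  obtain ⟨β, α, h1, h2, h4, h5⟩ := exists_dual_basis_two ha hka
  have hN : ∀ (b : U) (χ : Dual F U) (w : V), w ∈ Ln σ b →
      σ (r1 b χ) ((g - 1) w) = χ ((k : End F U) b) • (c : End F V) w - χ b • w := by
    intro b χ w hw
    rw [hg, LinearMap.sub_apply, map_sub, End.mul_apply, ← End.mul_apply (σ _) (σ _), ← map_mul, r1_mul',
      r1_Ln (hc.mem_Ln hw), End.one_apply, r1_Ln hw]
    rfl
  have e1 : (Ln σ a).map (g - 1) = LinearMap.range (g - 1) := by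
    apply Submodule.eq_of_le_of_finrank_le LinearMap.map_le_range
    rw [fr_map_inj _ _ fun w hw h0 => ?_]
    · exact hr
    · have := hN a α w hw
      rw [h0, map_zero, h4, h5] at this
      simpa using this
  obtain ⟨χ, hχ, h6, h7⟩ := exists_dual_two h3 a ((k : End F U) a)
  obtain ⟨a₃, h8⟩ := H6.exists_apply_eq_one hχ
  have ha₃ : a₃ ≠ 0 := by rintro rfl; simp at h8
  have e2 : χ ((k : End F U) a₃) • (c : End F V) = 1 := scalar_on hc ha₃ fun w hw => by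
    have h9 : (g - 1) w ∈ (Ln σ a).map (g - 1) := e1 ▸ LinearMap.mem_range_self _ _
    obtain ⟨w', hw', e⟩ := h9
    have := hN a₃ χ w hw
    rw [← e, h8, one_smul, hg, LinearMap.sub_apply, map_sub, End.mul_apply,
      r1_Ln_zero (Ln_map (hc.mem_Ln hw') _) _ h7, End.one_apply, r1_Ln_zero hw' _ h6, sub_self] at this
    exact (sub_eq_zero.mp this.symm)
  set l := χ ((k : End F U) a₃)
  have hl : l ≠ 0 := by
    intro h0
    rw [h0, zero_smul] at e2
    exact zero_ne_one e2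
  have e3 : g - 1 = σ (l⁻¹ • (k : End F U) - 1) := by
    have : (c : End F V) = l⁻¹ • 1 := by rw [← e2, smul_smul, inv_mul_cancel₀ hl, one_smul]
    rw [hg, this, map_sub, map_one, map_smul, mul_smul_comm, mul_one]
  have hz : (l⁻¹ • (k : End F U) - 1) a ≠ 0 := by
    intro h0
    have := congrArg β h0
    simp [h1, h2, hl] at this
  refine ⟨_, hz, ?_⟩
  apply Submodule.eq_of_le_of_finrank_le
  · rw [← e1]
    rintro _ ⟨w, hw, rfl⟩
    rw [e3]
    exact Ln_map hw _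
  · rw [← e1, fr_map_inj _ _ fun w hw h0 => ?_]
    · exact (finrank_Ln_eq hz ha).le
    · have := hN a α w hw
      rw [h0, map_zero, h4, h5] at this
      simpa using this

theorem lemC0 (h3 : 3 ≤ finrank F U) (h : Good M σ) (h' : Good M σ') {w : U} {χ : Dual F U}
    (hw : w ≠ 0) (hχ : χ ≠ 0) (h0 : χ w = 0) (hs : Same σ (cf (un _ (root_sq (ρ := σ') h0)) σ)) :
    Same σ σ' ∨ Cm σ (σ' (r1 w χ)) := by
  obtain ⟨k, c, hc, hg⟩ := hs.decomp
  by_cases hk : ∀ a, ∃ s : F, (k : End F U) a = s • a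
  · right
    obtain ⟨s, hs⟩ := H6.eig_const (k : End F U) LinearMap.id (fun _ _ h => h) hk
    have : (k : End F U) = s • 1 := LinearMap.ext hs
    rw [this, map_smul, map_one, smul_mul_assoc, one_mul, un_val] at hg
    have e : σ' (r1 w χ) = s • (c : End F V) - 1 := by rw [← hg]; simp
    rw [e]
    exact (hc.smul s).sub Cm.one
  · left
    push Not at hk
    obtain ⟨a, ha⟩ := hk
    have ha0 : a ≠ 0 := by rintro rfl; exact ha 0 (by simp)
    have e : (un _ (root_sq (ρ := σ') h0) : End F V) - 1 = σ' (r1 w χ) := by simp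
    obtain ⟨z, hz, e2⟩ := lemC2 h3 hc hg ha (by
      rw [e, range_r1 hw hχ]; exact (finrank_Ln_eq hw ha0).le)
    rw [e, range_r1 hw hχ] at e2
    exact same_of_Ln h3 h h' hz hw e2.symm

/-- Lemma C -/
theorem lemC (h3 : 3 ≤ finrank F U) (h : Good M σ) (h' : Good M σ') {w : U} {χ : Dual F U}
    (hw : w ≠ 0) (hχ : χ ≠ 0) (h0 : χ w = 0) (hs : Same σ (cf (un _ (root_sq (ρ := σ') h0)) σ)) :
    Rel σ σ' := by
  rcases lemC0 h3 h h' hw hχ h0 hs with h1 | h1
  · exact Or.inl h1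
  by_cases hS : Same σ' σ
  · exact Or.inl hS.symm
  have key : ∀ a (ψ : Dual F U), ψ a = 0 → Cm σ' (σ (r1 a ψ)) := by
    intro a ψ h2
    by_cases ha : a = 0
    · simpa [ha] using Cm.zero
    by_cases hψ : ψ = 0
    · simpa [hψ] using Cm.zero
    refine (lemC0 h3 h' h ha hψ h2 (same_of_stab h3 h' hw ((im_iff _).mp (h.root a ψ h2)) ?_)).resolve_left hS
    rw [← range_r1 hw hχ]
    rintro _ ⟨v, rfl⟩
    refine ⟨v + σ (r1 a ψ) v, ?_⟩
    rw [un_val, LinearMap.add_apply, End.one_apply, map_add, h1.apply]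
  exact Or.inr fun x => cm_of_root h3 fun a ψ h2 => (key a ψ h2 x).symm

section D
variable {N : End F V} (hN : N * N = 0)

theorem lemD0 (h3 : 3 ≤ finrank F U) (hc : Comm σ (cf (un N hN) σ)) : (2 : F) = 0 := by
  by_contra h2
  obtain ⟨a, ha, -⟩ := exists_vec_two h3 (0 : Dual F U) 0
  obtain ⟨b, α, β, h4, h5, h6, h7⟩ := exists_partner h3 ha
  set y := un N hN with hy
  have hyy : ∀ v, (↑(y * y) : End F V) v = (2 : F) • (y : End F V) v - v := by
    intro v
    have : N (N v) = 0 := by rw [← End.mul_apply, hN]; rfl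
    simp only [hy, Units.val_mul, un_val, End.mul_apply, LinearMap.add_apply, End.one_apply, map_add, this,
      two_smul]
    abel
  have hc2 : Comm (cf (y * y) σ) (cf y σ) := by rw [cf_mul]; exact (hc.cf y).symm
  have s1 : ∀ v ∈ Ln σ a, (↑(y * y) : End F V) v ∈ Ln σ a := by
    intro v hv
    refine mem_Ln_of ha fun χ hχ => ?_
    have s0 : ∀ x, cf y σ x (σ (r1 a χ) ((↑(y * y) : End F V) v)) ∈ Ln (cf y σ) a := by
      intro x
      have := (hc2 x).mem_Ln (mem_Ln_cf.mpr hv)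
      rw [Ln_cf] at this
      obtain ⟨v', hv', e⟩ := this
      rw [(hc x).apply, ← e, hyy, map_sub, r1_Ln_zero hv' _ hχ, sub_zero, map_smul]
      exact Submodule.smul_mem _ _ ((hc.symm _).mem_Ln (mem_Ln_cf.mpr hv'))
    have e1 := Ln_disjoint h6 h7 (s0 (r1 b α)) (r1_mem_Ln _ _ _)
    have e2 := s0 1
    rw [map_one, End.one_apply] at e2
    rw [← r1_Ln_one e2 h4]
    have := rho_r1_apply (cf y σ) a b β α (σ (r1 a χ) ((↑(y * y) : End F V) v))
    rw [e1, map_zero, h7, one_smul] at this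
    exact this.symm
  have s2 : ∀ v ∈ Ln σ a, (y : End F V) v ∈ Ln σ a := by
    intro v hv
    have := (Ln σ a).smul_mem (2 : F)⁻¹ ((Ln σ a).add_mem (s1 v hv) hv)
    rwa [hyy, sub_add_cancel, smul_smul, inv_mul_cancel₀ h2, one_smul] at this
  have s3 : Ln (cf y σ) a = Ln σ a := by rw [Ln_cf, map_eq_of_le y s2]
  obtain ⟨w, hw, hw0⟩ := Ln_ne_bot (ρ := σ) ha
  have e1 : σ (r1 b α) w = 0 :=
    Ln_disjoint h6 h7 (s3 ▸ (hc.symm _).mem_Ln (s3.symm ▸ hw)) (r1_mem_Ln _ _ _)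
  have := rho_r1_apply σ a b β α w
  rw [e1, map_zero, h7, one_smul, r1_Ln_one hw h4] at this
  exact hw0 this.symm

theorem un_mul_self (h2 : (2 : F) = 0) : un N hN * un N hN = 1 := by
  apply Units.ext
  have : N + N = 0 := by rw [← two_smul F N, h2, zero_smul]
  rw [Units.val_mul, un_val, add_mul, mul_add, mul_add, hN]
  simp only [mul_one, one_mul, add_zero, Units.val_one, add_assoc, this]

theorem lemD1 (h3 : 3 ≤ finrank F U) (hc : Comm σ (cf (un N hN) σ)) {a : U} (ha : a ≠ 0)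
    (hr : finrank F (LinearMap.range N) ≤ finrank F (Ln σ a)) :
    (∀ v ∈ Ln σ a, v ∈ Ln (cf (un N hN) σ) a → N v = 0) ∧
      ∀ v ∈ Ln σ a, v ∈ LinearMap.range N → v = 0 := by
  have h2 := lemD0 hN h3 hc
  obtain ⟨b, α, β, h4, h5, h6, h7⟩ := exists_partner h3 ha
  have hb : b ≠ 0 := by rintro rfl; simp at h7
  set y := un N hN with hy
  set σ₂ := cf y σ with hσ₂
  have hσ : cf y σ₂ = σ := by rw [hσ₂, ← cf_mul, un_mul_self hN h2, cf_one]
  have hNv : ∀ v, N v = (y : End F V) v - v := fun v => by simp [hy]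
  have d1 : finrank F (Ln σ a) = finrank F U * finrank F (Ln σ a ⊓ Ln σ₂ a : Submodule F V) :=
    finrank_inv _ (fun x v hv => (hc x).mem_Ln hv) ha
  have d2 : finrank F (Ln σ b) = finrank F U * finrank F (Ln σ b ⊓ Ln σ₂ a : Submodule F V) :=
    finrank_inv _ (fun x v hv => (hc x).mem_Ln hv) ha
  have d3 : finrank F (Ln σ b) = finrank F (Ln σ a) := finrank_Ln_eq hb ha
  have d4 : finrank F (Ln σ b ⊓ Ln σ₂ a : Submodule F V) = finrank F (Ln σ a ⊓ Ln σ₂ a : Submodule F V) :=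
    Nat.eq_of_mul_eq_mul_left (by omega) (d2.symm.trans (d3.trans d1))
  set S₁ := Ln σ b ⊓ LinearMap.ker (σ₂ (r1 a α)) with hS₁
  set S := S₁ ⊓ LinearMap.ker (σ₂ (r1 a β)) with hS
  have f1 := fr_map (σ₂ (r1 a α)) (Ln σ b)
  have f2 := fr_map (σ₂ (r1 a β)) S₁
  have f3 : finrank F ((Ln σ b).map (σ₂ (r1 a α))) ≤ finrank F (Ln σ b ⊓ Ln σ₂ a : Submodule F V) :=
    Submodule.finrank_mono (by
      rintro _ ⟨v, hv, rfl⟩; exact ⟨(hc _).mem_Ln hv, r1_mem_Ln _ _ _⟩)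
  have f4 : finrank F (S₁.map (σ₂ (r1 a β))) ≤ finrank F (Ln σ b ⊓ Ln σ₂ a : Submodule F V) :=
    Submodule.finrank_mono (by
      rintro _ ⟨v, hv, rfl⟩; exact ⟨(hc _).mem_Ln hv.1, r1_mem_Ln _ _ _⟩)
  have key : ∀ v ∈ S, ∀ w ∈ Ln σ a, ∀ u ∈ Ln σ a, N v = N w + u → v = 0 := by
    intro v hv w hw u hu e
    have e1 : σ (r1 b β) ((y : End F V) v) = 0 := by
      conv_lhs => rw [← hσ]
      have := rho_r1_apply σ₂ b a α β v
      rw [h4, one_smul, LinearMap.mem_ker.mp hv.2, map_zero] at this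
      rw [cf_app, ← this, map_zero]
    have e2 := congrArg (σ (r1 b β)) e
    rw [hNv, hNv, map_add, map_sub, map_sub, e1, r1_Ln_one hv.1.1 h7, r1_Ln_zero hw _ h6,
      r1_Ln_zero hu _ h6, zero_sub, sub_zero, add_zero] at e2
    have e3 : -v ∈ Ln σ₂ a := e2 ▸ (hc.symm _).mem_Ln (mem_Ln_cf.mpr hw)
    rw [← r1_Ln_one ((Ln σ₂ a).neg_mem_iff.mp e3) h4]
    exact hv.1.2
  have f5 : finrank F (S.map N) = finrank F S :=
    fr_map_inj _ _ fun v hv h0 => key v hv 0 (Submodule.zero_mem _) 0 (Submodule.zero_mem _) (by simp [h0])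
  have f6 := fr_map N (Ln σ a)
  have f7 : Ln σ a ⊓ LinearMap.ker N ≤ Ln σ a ⊓ Ln σ₂ a := by
    rintro v ⟨h8, h9⟩
    refine ⟨h8, ?_⟩
    have : (y : End F V) v = v := by rw [← sub_eq_zero, ← hNv]; exact h9
    rw [← this]
    exact mem_Ln_cf.mpr h8
  have f8 := Submodule.finrank_mono f7
  have f9 := Submodule.finrank_sup_add_finrank_inf_eq ((Ln σ a).map N) (S.map N)
  have f10 : (Ln σ a).map N ⊓ S.map N = ⊥ := by
    rw [eq_bot_iff]
    rintro _ ⟨⟨w, hw, rfl⟩, v, hv, e⟩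
    rw [Submodule.mem_bot, ← e, key v hv w hw 0 (Submodule.zero_mem _) (by simp [e]), map_zero]
  have f11 : (Ln σ a).map N ⊔ S.map N ≤ LinearMap.range N :=
    sup_le LinearMap.map_le_range LinearMap.map_le_range
  have f12 := Submodule.finrank_mono f11
  rw [f10, finrank_bot] at f9
  have f13 : 3 * finrank F (Ln σ a ⊓ Ln σ₂ a : Submodule F V) ≤ finrank F (Ln σ a) := by
    rw [d1]; exact Nat.mul_le_mul_right _ h3
  rw [← hS₁] at f1
  rw [← hS] at f2
  have g1 : Ln σ a ⊓ LinearMap.ker N = Ln σ a ⊓ Ln σ₂ a :=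
    Submodule.eq_of_le_of_finrank_le f7 (by omega)
  have g2 : (Ln σ a).map N ⊔ S.map N = LinearMap.range N :=
    Submodule.eq_of_le_of_finrank_le f11 (by omega)
  have g3 : ∀ v ∈ Ln σ a, v ∈ Ln σ₂ a → N v = 0 := fun v h8 h9 => by
    have : v ∈ Ln σ a ⊓ LinearMap.ker N := g1 ▸ ⟨h8, h9⟩
    exact this.2
  refine ⟨g3, fun v hv hv' => ?_⟩
  rw [← g2, Submodule.mem_sup] at hv'
  obtain ⟨_, ⟨w, hw, rfl⟩, _, ⟨v', hv', rfl⟩, e⟩ := hv'
  have : v' = 0 := key v' hv' (-w) ((Ln σ a).neg_mem hw) v hv (by rw [← e, map_neg]; abel)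
  rw [this, map_zero, add_zero] at e
  have e4 : (y : End F V) w ∈ Ln σ a := by
    have : (y : End F V) w = v + w := by rw [← e, hNv]; abel
    rw [this]; exact (Ln σ a).add_mem hv hw
  have e5 := g3 _ e4 (mem_Ln_cf.mpr hw)
  rw [hy, un_val, LinearMap.add_apply, End.one_apply, map_add, ← End.mul_apply N N, hN,
    LinearMap.zero_apply, add_zero] at e5
  rw [← e, e5]

theorem lemD2 (h3 : 3 ≤ finrank F U) (hc : Comm σ (cf (un N hN) σ)) {a₀ : U} (ha₀ : a₀ ≠ 0)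
    (hr : finrank F (LinearMap.range N) ≤ finrank F (Ln σ a₀)) {z : End F V} (hz : Cm σ z)
    (hz' : Cm (cf (un N hN) σ) z) : z * N = N * z := by
  have h2 := lemD0 hN h3 hc
  have fix := fun (a : U) (ha : a ≠ 0) => (lemD1 hN h3 hc ha (hr.trans (finrank_Ln_eq ha₀ ha).le)).1
  set y := un N hN with hy
  set σ₂ := cf y σ with hσ₂
  have hσ : cf y σ₂ = σ := by rw [hσ₂, ← cf_mul, un_mul_self hN h2, cf_one]
  have hyv : ∀ v, (y : End F V) v = v + N v := fun v => by simp [hy]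
  have key : ∀ a b : U, a ≠ 0 → b ≠ 0 → ∀ v ∈ Ln σ a, v ∈ Ln σ₂ b → z (N v) = N (z v) := by
    intro a b ha hb v hv hv'
    by_cases hab : ∃ s : F, a = s • b
    · obtain ⟨s, rfl⟩ := hab
      have hs : s ≠ 0 := by rintro rfl; simp at ha
      rw [Ln_smul hs] at hv
      rw [fix b hb v hv hv', fix b hb _ (hz.mem_Ln hv) (hz'.mem_Ln hv'), map_zero]
    push Not at hab
    obtain ⟨α, β, h4, h5, h6, h7⟩ := exists_dual_basis_two hb hab
    have hab' : a + b ≠ 0 := fun h0 => by simpa [h4, h5] using congrArg α h0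
    have form : ∀ v ∈ Ln σ a, v ∈ Ln σ₂ b → (y : End F V) v = σ (r1 b α) (σ₂ (r1 a β) v) := by
      intro v hv hv'
      have t1 := fix a ha _ ((hc _).mem_Ln hv) (r1_mem_Ln a β v)
      have t2 := fix b hb _ (r1_mem_Ln b α v) ((hc.symm _).mem_Ln hv')
      have t3 := fix _ hab' (σ (r1 (a + b) α) (σ₂ (r1 (a + b) β) v)) (r1_mem_Ln _ _ _)
        ((hc.symm _).mem_Ln (r1_mem_Ln _ _ _))
      rw [r1_add_left, r1_add_left, map_add, map_add, LinearMap.add_apply, LinearMap.add_apply,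
        r1_Ln_one hv' h7, r1_Ln_one ((Ln σ a).add_mem ((hc _).mem_Ln hv) hv) h4] at t3
      simp only [map_add, t1, t2, zero_add, add_zero] at t3
      have t4 : (y : End F V) v + (y : End F V) (σ (r1 b α) (σ₂ (r1 a β) v)) =
          v + σ (r1 b α) (σ₂ (r1 a β) v) := by
        rw [hyv, hyv, add_add_add_comm, t3, add_zero]
      have t5 : (y : End F V) v ∈ Ln σ b := by rw [← hσ]; exact mem_Ln_cf.mpr hv'
      have t6 : (y : End F V) (σ (r1 b α) (σ₂ (r1 a β) v)) ∈ Ln σ a := by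
        have : σ (r1 b α) (σ₂ (r1 a β) v) ∈ Ln σ₂ a := (hc.symm _).mem_Ln (r1_mem_Ln _ _ _)
        have := (mem_Ln_cf (g := y)).mpr this
        rwa [hσ] at this
      have t7 := congrArg (σ (r1 b β)) t4
      rwa [map_add, map_add, r1_Ln_one t5 h7, r1_Ln_zero t6 _ h6, r1_Ln_zero hv _ h6,
        r1_Ln_one (r1_mem_Ln _ _ _) h7, add_zero, zero_add] at t7
    have e1 := form v hv hv'
    have e2 := form _ (hz.mem_Ln hv) (hz'.mem_Ln hv')
    rw [← hz'.apply, ← hz.apply, ← e1, hyv, hyv, map_add] at e2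
    exact (add_left_cancel e2).symm
  refine ext_Ln (ρ := σ) fun a ha v hv => ?_
  rw [← sum_rho_apply σ₂ v, map_sum, map_sum]
  exact Finset.sum_congr rfl fun i _ =>
    key a _ ha ((bs F U).ne_zero i) _ ((hc _).mem_Ln hv) (r1_mem_Ln _ _ _)

theorem lemD3 (h3 : 3 ≤ finrank F U) (hc : Comm σ (cf (un N hN) σ)) :
    ∃ (a b : U) (χ β : Dual F U) (v : V), a ≠ 0 ∧ β a = 0 ∧ β b = 1 ∧ χ ≠ 0 ∧ χ a = 0 ∧ χ b = 0 ∧
      N v ≠ 0 ∧ ∀ u, σ (r1 u χ) (N v) = 0 := by
  have h2 := lemD0 hN h3 hc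
  obtain ⟨a, ha, -⟩ := exists_vec_two h3 (0 : Dual F U) 0
  obtain ⟨b, α, β, h4, h5, h6, h7⟩ := exists_partner h3 ha
  have hb : b ≠ 0 := by rintro rfl; simp at h7
  obtain ⟨χ, hχ, h8, h9⟩ := exists_dual_two h3 a b
  set y := un N hN with hy
  set σ₂ := cf y σ with hσ₂
  have hσ : cf y σ₂ = σ := by rw [hσ₂, ← cf_mul, un_mul_self hN h2, cf_one]
  have hNv : ∀ v, N v = (y : End F V) v - v := fun v => by simp [hy]
  obtain ⟨w, hw, hw0⟩ := Ln_ne_bot (ρ := σ₂) hb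
  obtain ⟨v, hv, hv', hv0⟩ : ∃ v ∈ Ln σ a, v ∈ Ln σ₂ b ∧ v ≠ 0 := by
    by_contra! hcon
    apply hw0
    rw [← sum_rho_apply σ w]
    refine Finset.sum_eq_zero fun i _ => ?_
    have := rho_r1_apply σ (bs F U i) a α ((bs F U).coord i) w
    rw [hcon _ (r1_mem_Ln _ _ _) ((hc.symm _).mem_Ln hw), map_zero, h4, one_smul] at this
    exact this.symm
  have t5 : (y : End F V) v ∈ Ln σ b := by rw [← hσ]; exact mem_Ln_cf.mpr hv'
  refine ⟨a, b, χ, β, v, ha, h6, h7, hχ, h8, h9, fun h0 => hv0 ?_, fun u => ?_⟩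
  · rw [hNv, sub_eq_zero] at h0
    exact Ln_disjoint h6 h7 hv (h0 ▸ t5)
  · rw [hNv, map_sub, r1_Ln_zero t5 _ h9, r1_Ln_zero hv _ h8, sub_zero]

end D

end Cfsg.Agent.H1.TW
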