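import Cfsg.Agent.H1.TW3
import Cfsg.Agent.H1.FrobPP

set_option autoImplicit false
set_option linter.unusedSectionVars false

/-! Any two good frames are equal or commute. -/

namespace Cfsg.Agent.H1.TW

open Module

variable {F : Type*} [Field F] {U V : Type*} [AddCommGroup U] [Module F U] [AddCommGroup V]
  [Module F V] [FiniteDimensional F U] [FiniteDimensional F V] [Nontrivial V]

variable {ρ ρ' σ σ' : Fr F U V} {M : Subgroup (End F V)ˣ}

def Key (U : Type*) [AddCommGroup U] [Module F U] (M : Subgroup (End F V)ˣ) (d : ℕ) : Prop :=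
  ∀ (σ σ' : Fr F U V) (w w' : U), Good M σ → Good M σ' → w ≠ 0 → w' ≠ 0 →
    d < finrank F (Ln σ w ⊓ Ln σ' w' : Submodule F V) → Rel σ σ'

theorem un_congr {N N' : End F V} (h : N * N = 0) (h' : N' * N' = 0) (e : N = N') : un N h = un N' h' := by
  subst e; rfl

theorem lemE (h3 : 3 ≤ finrank F U) {d : ℕ} (hK : Key U M d) (h : Good M ρ) (h' : Good M ρ')
    (hn : ¬ Rel ρ ρ') {u u' : U} (hu : u ≠ 0) (hu' : u' ≠ 0)
    (hd : finrank F (Ln ρ u ⊓ Ln ρ' u' : Submodule F V) = d) {φ' : Dual F U} (hφ' : φ' ≠ 0)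
    (h0 : φ' u' = 0) {v : V} (hv : v ∈ Ln ρ u) (hNv : ρ' (r1 u' φ') v ∈ Ln ρ u) : v ∈ Ln ρ' u' := by
  by_contra hv'
  set y := un _ (root_sq (ρ := ρ') h0) with hy
  have hyM : y ∈ M := (im_iff _).mp (h'.root _ _ h0)
  have hrel : Rel ρ (cf y ρ) := by
    refine hK _ _ u u h (h.cf hyM) hu hu ?_
    have e1 : finrank F ((Ln ρ u ⊓ Ln ρ' u') ⊔ Submodule.span F {v} : Submodule F V) = d + 1 := by
      have hnm : v ∉ Ln ρ u ⊓ Ln ρ' u' := fun hm => hv' hm.2
      rw [Submodule.finrank_sup_span_singleton hnm, hd]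
    have e2 := fr_map_inj (y : End F V) ((Ln ρ u ⊓ Ln ρ' u') ⊔ Submodule.span F {v})
      fun w _ hw => unit_eq_zero y hw
    have e3 : ((Ln ρ u ⊓ Ln ρ' u') ⊔ Submodule.span F {v}).map (y : End F V) ≤ Ln ρ u ⊓ Ln (cf y ρ) u := by
      rintro _ ⟨w, hw, rfl⟩
      obtain ⟨w₁, hw₁, _, hw₂, rfl⟩ := Submodule.mem_sup.mp hw
      obtain ⟨s, rfl⟩ := Submodule.mem_span_singleton.mp hw₂
      refine ⟨?_, mem_Ln_cf.mpr ((Ln ρ u).add_mem hw₁.1 ((Ln ρ u).smul_mem _ hv))⟩
      rw [hy, un_val, LinearMap.add_apply, End.one_apply, map_add, r1_Ln_zero hw₁.2 _ h0, zero_add,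
        map_smul]
      exact (Ln ρ u).add_mem ((Ln ρ u).add_mem hw₁.1 ((Ln ρ u).smul_mem _ hv)) ((Ln ρ u).smul_mem _ hNv)
    have := Submodule.finrank_mono e3
    omega
  rcases hrel with hs | hc
  · exact hn (lemC h3 h h' hu' hφ' h0 hs)
  have hr : finrank F (LinearMap.range (ρ' (r1 u' φ'))) ≤ finrank F (Ln ρ u) := by
    rw [range_r1 hu' hφ']; exact (finrank_Ln_eq hu' hu).le
  have h2 := lemD0 _ h3 hc
  have hd0 : d = 0 := by
    have : Ln ρ u ⊓ Ln ρ' u' = ⊥ := by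
      rw [eq_bot_iff]
      rintro w ⟨h4, h5⟩
      exact (lemD1 _ h3 hc hu hr).2 w h4 (by rwa [range_r1 hu' hφ'])
    rw [← hd, this, finrank_bot]
  obtain ⟨a, b, χ, β, v₀, ha, h4, h5, hχ, h6, h7, h8, h9⟩ := lemD3 _ h3 hc
  have hcomm : ∀ (e : U) (he : χ e = 0), e ≠ 0 → Comm ρ' (cf (un _ (root_sq (ρ := ρ) he)) ρ') := by
    intro e he he0
    have hxM : un _ (root_sq (ρ := ρ) he) ∈ M := (im_iff _).mp (h.root _ _ he)
    have : Rel ρ' (cf (un _ (root_sq (ρ := ρ) he)) ρ') := by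
      refine hK _ _ u' u' h' (h'.cf hxM) hu' hu' ?_
      rw [hd0, finrank_pos_iff_exists_ne_zero]
      refine ⟨⟨ρ' (r1 u' φ') v₀, r1_mem_Ln _ _ _, ?_⟩, fun e0 => h8 (congrArg Subtype.val e0)⟩
      have := (mem_Ln_cf (g := un _ (root_sq (ρ := ρ) he))).mpr (r1_mem_Ln (ρ := ρ') u' φ' v₀)
      rwa [un_val, LinearMap.add_apply, End.one_apply, h9, add_zero] at this
    exact this.resolve_left fun hs => hn (lemC h3 h' h he0 hχ he hs).symm
  have hb : b ≠ 0 := by rintro rfl; simp at h5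
  have hab : a + b ≠ 0 := fun e => by simpa [h4, h5] using congrArg β e
  have hab0 : χ (a + b) = 0 := by simp [h6, h7]
  set x₁ := un _ (root_sq (ρ := ρ) h6) with hx₁
  set x₂ := un _ (root_sq (ρ := ρ) h7) with hx₂
  have e12 : un _ (root_sq (ρ := ρ) hab0) = x₁ * x₂ := Units.ext (by
    rw [Units.val_mul, un_val, un_val, un_val, r1_add_left, map_add, add_mul, mul_add, mul_add, rho_r1_mul, h7]
    simp only [mul_one, one_mul, zero_smul, add_zero]; abel)
  have c1 := hcomm a h6 ha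
  have c2 := hcomm b h7 hb
  have c3 := hcomm _ hab0 hab
  rw [e12] at c3
  have c4 := c3.cf x₁
  rw [← cf_mul, ← mul_assoc, hx₁, un_mul_self _ h2, one_mul] at c4
  have hr' : finrank F (LinearMap.range (ρ (r1 a χ))) ≤ finrank F (Ln ρ' u') := by
    rw [range_r1 ha hχ]; exact (finrank_Ln_eq ha hu').le
  have c5 : ∀ z, ρ' z * ρ (r1 a χ) = ρ (r1 a χ) * ρ' z := by
    intro z
    have e := lemD2 _ h3 c1 hu' hr' (c2 z) (c4 z)
    have e2 : (x₂ : End F V) * ρ (r1 a χ) = ρ (r1 a χ) * x₂ := by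
      rw [un_val, add_mul, mul_add, rho_r1_mul, rho_r1_mul, h6, h7]; simp
    have e3 : (↑x₂⁻¹ : End F V) * ρ (r1 a χ) = ρ (r1 a χ) * ↑x₂⁻¹ := by
      rw [Units.inv_mul_eq_iff_eq_mul, ← mul_assoc, e2, Units.mul_inv_cancel_right]
    rw [cf_apply, mul_assoc, e3, ← mul_assoc, ← mul_assoc, Units.mul_left_inj, ← mul_assoc, ← e2, mul_assoc,
      mul_assoc, Units.mul_right_inj] at e
    exact e
  have c6 : cf x₁ ρ' = ρ' := by
    ext z : 1
    rw [cf_apply, Units.mul_inv_eq_iff_eq_mul, hx₁, un_val, add_mul, mul_add, c5]; simp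
  rw [← hx₁, c6] at c1
  exact not_comm_self h3 c1

theorem lemP (h3 : 3 ≤ finrank F U) {d : ℕ} (hK : Key U M d) (h : Good M ρ) (h' : Good M ρ')
    (hn : ¬ Rel ρ ρ') {u u' : U} (hu : u ≠ 0) (hu' : u' ≠ 0)
    (hd : finrank F (Ln ρ u ⊓ Ln ρ' u' : Submodule F V) = d) {φ : Dual F U} (hφ : φ ≠ 0)
    (h0 : φ u = 0) {v : V} (hv : v ∈ Ln ρ u ⊔ Ln ρ' u') (hNv : ρ (r1 u φ) v = 0) : v ∈ Ln ρ u := by
  obtain ⟨a, ha, a', ha', rfl⟩ := Submodule.mem_sup.mp hv
  rw [map_add, r1_Ln_zero ha _ h0, zero_add] at hNv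
  exact (Ln ρ u).add_mem ha (lemE h3 hK h' h (fun e => hn e.symm) hu' hu (by rwa [inf_comm]) hφ h0 ha'
    (hNv ▸ Submodule.zero_mem _))

theorem lemF (h3 : 3 ≤ finrank F U) {u : U} (hu : u ≠ 0)
    (hpar : 4 ≤ finrank F U ∨ Odd (finrank F (Ln ρ u))) {X : Submodule F V} (hAX : Ln ρ u ≤ X)
    (hX : finrank F X ≤ 2 * finrank F (Ln ρ u))
    (hP : ∀ φ : Dual F U, φ ≠ 0 → φ u = 0 → ∀ v ∈ X, ρ (r1 u φ) v = 0 → v ∈ Ln ρ u)
    {g : End F V} {k : (End F U)ˣ} {c : (End F V)ˣ} (hc : Cm ρ (c : End F V)) (hg : g = ρ k * c)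
    (hgX : ∀ v, (g - 1) v ∈ X) : (∀ v, (g - 1) v ∈ Ln ρ u) ∧ ∃ x, g = ρ x := by
  have hN : ∀ (b : U) (χ : Dual F U) (w : V), w ∈ Ln ρ b →
      ρ (r1 b χ) ((g - 1) w) = χ ((k : End F U) b) • (c : End F V) w - χ b • w := by
    intro b χ w hw
    rw [hg, LinearMap.sub_apply, map_sub, End.mul_apply, ← End.mul_apply (ρ _) (ρ _), ← map_mul, r1_mul',
      r1_Ln (hc.mem_Ln hw), End.one_apply, r1_Ln hw]
    rfl
  have good : ∀ a, ∃ χ : Dual F U, χ ≠ 0 ∧ χ u = 0 ∧ χ a = 0 ∧ χ ((k : End F U) a) = 0 := by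
    intro a
    by_contra! hbad
    have hind : ∀ s t : F, ∀ z, z = s • a + t • (k : End F U) a →
        (∃ χ : Dual F U, χ ≠ 0 ∧ χ u = 0 ∧ χ z = 0) := fun s t z _ => exists_dual_two h3 u z
    -- dual basis of `u, a, k a`
    have hspan : Submodule.span F ({u, a, (k : End F U) a} : Set U) = ⊤ := by
      by_contra hne
      obtain ⟨v, hv⟩ : ∃ v, v ∉ Submodule.span F ({u, a, (k : End F U) a} : Set U) := by
        by_contra! h
        exact hne (eq_top_iff.mpr fun v _ => h v)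
      obtain ⟨χ, h1, h2⟩ := H6.exists_dual_one hv
      exact hbad χ (fun e => by simp [e] at h2) (h1 _ (Submodule.subset_span (by simp)))
        (h1 _ (Submodule.subset_span (by simp))) (h1 _ (Submodule.subset_span (by simp)))
    have hodd : Odd (finrank F (Ln ρ u)) := by
      refine hpar.resolve_left fun h4 => ?_
      classical
      have h1 := finrank_span_le_card (R := F) ({u, a, (k : End F U) a} : Set U)
      rw [hspan, finrank_top] at h1
      have : ({u, a, (k : End F U) a} : Set U).toFinset.card ≤ 3 := by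
        rw [Set.toFinset_insert, Set.toFinset_insert, Set.toFinset_singleton]; exact Finset.card_le_three
      omega
    obtain ⟨α', hα', h1, h2⟩ := exists_dual_two h3 u ((k : End F U) a)
    have h4 : α' a ≠ 0 := fun e => hbad α' hα' h1 e h2
    obtain ⟨β', hβ', h5, h6⟩ := exists_dual_two h3 u a
    have h7 : β' ((k : End F U) a) ≠ 0 := hbad β' hβ' h5 h6
    set α := (α' a)⁻¹ • α' with hα
    set β := (β' ((k : End F U) a))⁻¹ • β' with hβ
    have a1 : α u = 0 := by simp [hα, h1]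
    have a2 : α a = 1 := by simp [hα, h4]
    have a3 : α ((k : End F U) a) = 0 := by simp [hα, h2]
    have b1 : β u = 0 := by simp [hβ, h5]
    have b2 : β a = 0 := by simp [hβ, h6]
    have b3 : β ((k : End F U) a) = 1 := by simp [hβ, h7]
    have ha : a ≠ 0 := by rintro rfl; simp at a2
    have inj : ∀ w ∈ Ln ρ a, (g - 1) w ∈ Ln ρ u → w = 0 := by
      intro w hw h8
      have := hN a α w hw
      rw [r1_Ln_zero h8 _ a1, a2, a3] at this
      simpa using this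
    have e1 : (Ln ρ a).map (g - 1) ⊔ Ln ρ u = X := by
      apply Submodule.eq_of_le_of_finrank_le
      · exact sup_le (by rintro _ ⟨w, -, rfl⟩; exact hgX w) hAX
      · have f1 := Submodule.finrank_sup_add_finrank_inf_eq ((Ln ρ a).map (g - 1)) (Ln ρ u)
        have f2 : (Ln ρ a).map (g - 1) ⊓ Ln ρ u = ⊥ := by
          rw [eq_bot_iff]
          rintro _ ⟨⟨w, hw, rfl⟩, h8⟩
          rw [inj w hw h8, map_zero]; exact Submodule.zero_mem _
        rw [f2, finrank_bot, fr_map_inj _ _ fun w hw h8 => inj w hw (h8 ▸ Submodule.zero_mem _),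
          finrank_Ln_eq (ρ' := ρ) ha hu] at f1
        omega
    have hev := even_finrank_of_quadratic ((c : End F V).restrict (p := Ln ρ a) (q := Ln ρ a)
      fun v hv => hc.mem_Ln hv) (α ((k : End F U) ((k : End F U) a))) (β ((k : End F U) ((k : End F U) a)))
      (by
        rintro ⟨w, hw⟩
        apply Subtype.ext
        change α _ • (c : End F V) ((c : End F V) w) + β _ • (c : End F V) w = w
        have h8 := hgX (ρ k w)
        rw [← e1, Submodule.mem_sup] at h8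
        obtain ⟨_, ⟨w', hw', rfl⟩, a₀, ha₀, e⟩ := h8
        have t : ∀ χ : Dual F U, χ u = 0 → χ ((k : End F U) a) • (c : End F V) w' - χ a • w' =
            χ ((k : End F U) ((k : End F U) a)) • (c : End F V) w - χ ((k : End F U) a) • w := by
          intro χ hχ
          have := congrArg (ρ (r1 a χ)) e
          rw [map_add, r1_Ln_zero ha₀ _ hχ, add_zero, hN a χ w' hw', hg, LinearMap.sub_apply, map_sub,
            End.mul_apply, hc.apply, End.one_apply, ← End.mul_apply (ρ _) (ρ _), ← map_mul,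
            ← End.mul_apply (ρ _) (ρ _), ← map_mul, ← End.mul_apply (ρ _) (ρ _), ← map_mul, r1_mul', r1_mul',
            r1_Ln (hc.mem_Ln hw), r1_Ln hw] at this
          exact this
        have t1 := t α a1
        have t2 := t β b1
        rw [a2, a3] at t1
        rw [b2, b3] at t2
        simp only [zero_smul, one_smul, zero_sub, sub_zero] at t1 t2
        rw [← map_smul, ← t1, map_neg, t2]
        abel)
      (by
        rintro ⟨w, hw⟩ l e
        have e' : (c : End F V) w = l • w := congrArg Subtype.val e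
        apply Subtype.ext
        obtain ⟨χ, hχ, h8, h9⟩ := exists_dual_two h3 u ((l • (k : End F U) - 1) a)
        refine inj w hw (hP χ hχ h8 _ (hgX w) (r1_Ln_zero (u := (l • (k : End F U) - 1) a) ?_ _ h9))
        have : (g - 1) w = ρ (l • (k : End F U) - 1) w := by
          rw [hg, map_sub, map_one, map_smul, LinearMap.sub_apply, LinearMap.sub_apply, End.mul_apply, e',
            map_smul, LinearMap.smul_apply]
        rw [this]
        exact Ln_map hw _)
    rw [finrank_Ln_eq (ρ' := ρ) ha hu] at hev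
    exact (Nat.not_even_iff_odd.mpr hodd) hev
  have s1 : ∀ v, (g - 1) v ∈ Ln ρ u := by
    intro v
    rw [← sum_rho_apply ρ v, map_sum]
    refine Submodule.sum_mem _ fun i _ => ?_
    obtain ⟨χ, hχ, h1, h2, h4⟩ := good (bs F U i)
    refine hP χ hχ h1 _ (hgX _) ?_
    rw [hg, LinearMap.sub_apply, map_sub, End.mul_apply, End.one_apply,
      r1_Ln_zero (Ln_map (hc.mem_Ln (r1_mem_Ln _ _ _)) _) _ h4, r1_Ln_zero (r1_mem_Ln _ _ _) _ h2, sub_zero]
  refine ⟨s1, ?_⟩
  obtain ⟨a, χ, -, h1, h2⟩ := exists_ker_indep h3 hu 0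
  have ha : a ≠ 0 := by rintro rfl; simp at h2
  have e2 : χ ((k : End F U) a) • (c : End F V) = 1 := scalar_on hc ha fun w hw => by
    have := hN a χ w hw
    rw [r1_Ln_zero (s1 w) _ h1, h2, one_smul] at this
    exact (sub_eq_zero.mp this.symm)
  set l := χ ((k : End F U) a)
  have hl : l ≠ 0 := by
    intro h0
    rw [h0, zero_smul] at e2
    exact zero_ne_one e2
  have : (c : End F V) = l⁻¹ • 1 := by rw [← e2, smul_smul, inv_mul_cancel₀ hl, one_smul]
  exact ⟨l⁻¹ • (k : End F U), by rw [hg, this, map_smul, mul_smul_comm, mul_one]⟩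

theorem two_point (h3 : 3 ≤ finrank F U) {d : ℕ} (hK : Key U M d) (h : Good M ρ) (h' : Good M ρ')
    (hn : ¬ Rel ρ ρ') {u u' : U} (hu : u ≠ 0) (hu' : u' ≠ 0)
    (hpar : 4 ≤ finrank F U ∨ Odd (finrank F (Ln ρ u)))
    (hd : finrank F (Ln ρ u ⊓ Ln ρ' u' : Submodule F V) = d) {g : (End F V)ˣ} (hg : g ∈ M)
    (h1 : ∀ v ∈ Ln ρ u, (g : End F V) v ∈ Ln ρ u) (h2 : ∀ v ∈ Ln ρ' u', (g : End F V) v ∈ Ln ρ' u')
    (hX : ∀ v, ((g : End F V) - 1) v ∈ Ln ρ u ⊔ Ln ρ' u') : g = 1 := by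
  have e0 : finrank F (Ln ρ' u') = finrank F (Ln ρ u) := finrank_Ln_eq hu' hu
  have f1 := Submodule.finrank_sup_add_finrank_inf_eq (Ln ρ u) (Ln ρ' u')
  obtain ⟨k, c, hc, e⟩ := (same_of_stab h3 h hu hg h1).decomp
  obtain ⟨k', c', hc', e'⟩ := (same_of_stab h3 h' hu' hg h2).decomp
  obtain ⟨s1, x, hx⟩ := lemF h3 hu hpar le_sup_left (by omega)
    (fun φ hφ h0 v hv h4 => lemP h3 hK h h' hn hu hu' hd hφ h0 hv h4) hc e hX
  obtain ⟨s2, -⟩ := lemF h3 hu' (e0 ▸ hpar) (X := Ln ρ u ⊔ Ln ρ' u') le_sup_right (by omega)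
    (fun φ hφ h0 v hv h4 => lemP h3 hK h' h (fun e => hn e.symm) hu' hu (by rwa [inf_comm]) hφ h0
      (by rwa [sup_comm]) h4) hc' e' hX
  by_contra hg1
  obtain ⟨a, ha⟩ : ∃ a, (x - 1) a ≠ 0 := by
    by_contra! h0
    apply hg1
    apply Units.ext
    rw [hx, sub_eq_zero.mp (LinearMap.ext h0 : x - 1 = 0), map_one, Units.val_one]
  obtain ⟨ψ, hψ⟩ := H6.exists_dual_one' (F := F) ha
  have f2 : Ln ρ ((x - 1) a) ≤ Ln ρ u ⊓ Ln ρ' u' := by
    intro v hv
    have : v = ((g : End F V) - 1) (ρ (r1 a ψ) v) := by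
      rw [hx, ← map_one ρ, ← map_sub, ← End.mul_apply, ← map_mul, mul_r1, r1_Ln_one hv hψ]
    rw [this]
    exact ⟨s1 _, s2 _⟩
  have f3 := Submodule.finrank_mono f2
  rw [finrank_Ln_eq (ρ' := ρ) ha hu] at f3
  have f4 : Ln ρ u ⊓ Ln ρ' u' = Ln ρ u := Submodule.eq_of_le_of_finrank_le inf_le_left f3
  have f5 : Ln ρ u = Ln ρ' u' := Submodule.eq_of_le_of_finrank_le (f4 ▸ inf_le_right) e0.le
  exact hn (Or.inl (same_of_Ln h3 h h' hu hu' f5))

theorem eq_of_rel (h3 : 3 ≤ finrank F U) {u w : U} (hu : u ≠ 0) (hw : w ≠ 0) {X : Submodule F V}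
    (hP : ∀ φ : Dual F U, φ ≠ 0 → φ u = 0 → ∀ v ∈ X, ρ (r1 u φ) v = 0 → v ∈ Ln ρ u)
    (hX : Ln σ w ≤ X) (hr : Rel ρ σ) : Ln σ w = Ln ρ u := by
  rcases hr with ⟨k, hk⟩ | hc
  · have e0 : finrank F (Ln ρ u) = finrank F (Ln σ w) := finrank_Ln_eq hu hw
    refine Submodule.eq_of_le_of_finrank_le ?_ e0.le
    obtain ⟨χ, hχ, h1, h2⟩ := exists_dual_two h3 u ((k : End F U) w)
    intro v hv
    have hv' : v ∈ Ln ρ ((k : End F U) w) := by rw [← Ln_same hk w]; exact hv
    exact hP χ hχ h1 v (hX hv) (r1_Ln_zero hv' _ h2)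
  · exfalso
    obtain ⟨v, hv, hv0⟩ := Ln_ne_bot (ρ := σ) hw
    obtain ⟨a, β, -, h1, h2⟩ := exists_ker_indep h3 hu 0
    obtain ⟨χ, hχ, h4, h5⟩ := exists_dual_two h3 u a
    apply hv0
    rw [← sum_rho_apply ρ v]
    refine Finset.sum_eq_zero fun i _ => ?_
    have e := rho_r1_apply ρ (bs F U i) a β ((bs F U).coord i) v
    have m1 : ρ (r1 a ((bs F U).coord i)) v ∈ Ln ρ u :=
      hP χ hχ h4 _ (hX ((hc.symm _).mem_Ln hv)) (r1_Ln_zero (r1_mem_Ln _ _ _) _ h5)
    rw [Ln_disjoint h1 h2 m1 (r1_mem_Ln _ _ _), map_zero, h2, one_smul] at e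
    exact e.symm

theorem un_pow {N : End F V} (hN : N * N = 0) (j : ℕ) : ((un N hN ^ j : (End F V)ˣ) : End F V) = 1 + (j : F) • N := by
  induction j with
  | zero => simp
  | succ j ih =>
    rw [pow_succ, Units.val_mul, ih, un_val, add_mul, mul_add, mul_add, smul_mul_assoc, smul_mul_assoc, hN]
    push_cast
    simp only [mul_one, one_mul, smul_zero, add_zero, add_smul, one_smul]
    abel

theorem main_step [Finite F] (h3 : 3 ≤ finrank F U) {d : ℕ} (hK : Key U M d) (h : Good M ρ)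
    (h' : Good M ρ') {u u' : U} (hu : u ≠ 0) (hu' : u' ≠ 0)
    (hpar : 4 ≤ finrank F U ∨ Odd (finrank F (Ln ρ u)))
    (hd : finrank F (Ln ρ u ⊓ Ln ρ' u' : Submodule F V) = d) : Rel ρ ρ' := by
  by_contra hn
  haveI : Finite V := Module.finite_of_finite F
  haveI : Finite (End F V) := Finite.of_injective _ DFunLike.coe_injective
  set X := Ln ρ u ⊔ Ln ρ' u' with hX
  let G₁ : Subgroup (End F V)ˣ :=
    { carrier := {g | g ∈ M ∧ (∀ v, ((g : End F V) - 1) v ∈ X) ∧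
        ∀ v ∈ Ln ρ u ⊓ Ln ρ' u', (g : End F V) v = v}
      one_mem' := ⟨M.one_mem, by simp, by simp⟩
      mul_mem' := by
        rintro g k ⟨g1, g2, g3⟩ ⟨k1, k2, k3⟩
        refine ⟨M.mul_mem g1 k1, fun v => ?_, fun v hv => by simp [k3 v hv, g3 v hv]⟩
        have := X.add_mem (g2 ((k : End F V) v)) (k2 v)
        simpa using this
      inv_mem' := by
        rintro g ⟨g1, g2, g3⟩
        refine ⟨M.inv_mem g1, fun v => ?_, fun v hv => ?_⟩
        · have := X.neg_mem (g2 ((↑g⁻¹ : End F V) v))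
          simpa using this
        · conv_lhs => rw [← g3 v hv, inv_app] }
  let H : Subgroup G₁ :=
    { carrier := {g | ∀ v ∈ Ln ρ u, ((g : (End F V)ˣ) : End F V) v ∈ Ln ρ u}
      one_mem' := fun v hv => hv
      mul_mem' := fun hg hk v hv => hg _ (hk v hv)
      inv_mem' := by
        intro g hg v hv
        rw [← map_eq_of_le _ hg] at hv
        obtain ⟨w, hw, rfl⟩ := hv
        change ((↑(g : (End F V)ˣ)⁻¹ : End F V)) _ ∈ _
        rwa [inv_app] }
  have hP := fun φ hφ h0 v hv h4 => lemP h3 hK h h' hn hu hu' hd (φ := φ) hφ h0 (v := v) hv h4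
  have hroot : ∀ (φ : Dual F U) (h0 : φ u = 0), un _ (root_sq (ρ := ρ) h0) ∈ G₁ := fun φ h0 =>
    ⟨(im_iff _).mp (h.root _ _ h0), fun v => by
      simpa using Submodule.mem_sup_left (r1_mem_Ln _ _ _), fun v hv => by simp [r1_Ln_zero hv.1 _ h0]⟩
  have hrootH : ∀ (φ : Dual F U) (h0 : φ u = 0), (⟨_, hroot φ h0⟩ : G₁) ∈ H := fun φ h0 v hv => by
    simpa [r1_Ln_zero hv _ h0] using hv
  obtain ⟨p, hp⟩ := CharP.exists F
  haveI : Fact p.Prime := ⟨CharP.char_is_prime F p⟩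
  have hpow : ∀ (φ : Dual F U) (h0 : φ u = 0), (⟨_, hroot φ h0⟩ : G₁) ^ p = 1 := fun φ h0 =>
    Subtype.ext (Units.ext (by
      have := un_pow (root_sq (ρ := ρ) h0) p
      rw [CharP.cast_eq_zero, zero_smul, add_zero] at this
      rw [Subgroup.coe_pow]
      exact this))
  obtain ⟨φ₁, hφ₁, h1, -⟩ := exists_dual_two h3 u u
  obtain ⟨φ₂, b, h2, h4, h5⟩ := exists_dual_indep h3 u hφ₁
  have key := frob_pp H (by
      intro g k hk hk' hg
      have hgM := g.2.1
      have e0 : finrank F (Ln (cf g.1 ρ) u) = finrank F (Ln ρ u) := finrank_Ln_eq hu hu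
      have hB : Ln (cf g.1 ρ) u ≤ X := by
        rw [Ln_cf]
        rintro _ ⟨v, hv, rfl⟩
        have := X.add_mem (g.2.2.1 v) (Submodule.mem_sup_left hv)
        simpa using this
      have hn' : ¬ Rel ρ (cf g.1 ρ) := fun hr => hg fun v hv => by
        rw [← eq_of_rel h3 hu hu hP hB hr]; exact mem_Ln_cf.mpr hv
      have hD : Ln ρ u ⊓ Ln ρ' u' ≤ Ln ρ u ⊓ Ln (cf g.1 ρ) u := fun v hv =>
        ⟨hv.1, by rw [← g.2.2.2 v hv]; exact mem_Ln_cf.mpr hv.1⟩
      have f1 := Submodule.finrank_mono hD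
      have f2 : finrank F (Ln ρ u ⊓ Ln (cf g.1 ρ) u : Submodule F V) = d := by
        by_contra hne
        exact hn' (hK _ _ _ _ h (h.cf hgM) hu hu (by omega))
      have f3 : Ln ρ u ⊔ Ln (cf g.1 ρ) u = X := by
        apply Submodule.eq_of_le_of_finrank_le (sup_le le_sup_left hB)
        have f4 := Submodule.finrank_sup_add_finrank_inf_eq (Ln ρ u) (Ln ρ' u')
        have f5 := Submodule.finrank_sup_add_finrank_inf_eq (Ln ρ u) (Ln (cf g.1 ρ) u)
        have f6 : finrank F (Ln ρ' u') = finrank F (Ln ρ u) := finrank_Ln_eq hu' hu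
        have f7 : finrank F X = finrank F (Ln ρ u ⊔ Ln ρ' u' : Submodule F V) := rfl
        omega
      refine Subtype.ext (two_point h3 hK h (h.cf hgM) hn' hu hu hpar f2 k.2.1 hk ?_ (f3 ▸ k.2.2.1))
      rw [Ln_cf]
      rintro _ ⟨v, hv, rfl⟩
      refine ⟨_, hk' v hv, ?_⟩
      simp)
    (by
      obtain ⟨φ', hφ', h0, -⟩ := exists_dual_two h3 u' u'
      have hy : un _ (root_sq (ρ := ρ') h0) ∈ M := (im_iff _).mp (h'.root _ _ h0)
      refine ⟨⟨un _ (root_sq (ρ := ρ') h0), hy, fun v => by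
        simpa using Submodule.mem_sup_right (r1_mem_Ln _ _ _), fun v hv => by
          simp [r1_Ln_zero hv.2 _ h0]⟩, fun hm => ?_⟩
      exact hn (lemC h3 h h' hu' hφ' h0 (same_of_stab h3 h hu hy hm)))
    (hrootH φ₁ h1) (hrootH φ₂ h2) (hpow φ₁ h1) (hpow φ₂ h2) (by
      intro e
      have e' : ρ (r1 u φ₁) = 0 := by simpa using congrArg (fun g : G₁ => ((g : (End F V)ˣ) : End F V)) e
      have := range_r1 (ρ := ρ) hu hφ₁
      obtain ⟨v, hv, hv0⟩ := Ln_ne_bot (ρ := ρ) hu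
      rw [← this, e'] at hv
      exact hv0 (by simpa using hv))
    (Subtype.ext (Units.ext (by
      simp only [Subgroup.coe_mul, Units.val_mul, un_val, mul_add, add_mul, rho_r1_mul, h1, h2]
      simp only [mul_one, one_mul, zero_smul, add_zero]; abel)))
  rw [← mem_powers_iff_mem_zpowers] at key
  obtain ⟨j, hj⟩ := key
  have e : (j : F) • ρ (r1 u φ₁) = ρ (r1 u φ₂) := by
    have e1 := congrArg (fun g : G₁ => ((g : (End F V)ˣ) : End F V)) hj
    simp only [Subgroup.coe_pow] at e1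
    rw [un_pow, un_val] at e1
    exact add_left_cancel e1
  rw [← map_smul] at e
  have := congrArg (fun z : End F U => z b) (rho_injective e)
  simp [h4, h5, hu.symm] at this

theorem rel_of_good [Finite F] (h3 : 3 ≤ finrank F U)
    (hpar : 4 ≤ finrank F U ∨ Odd (finrank F V)) (h : Good M ρ) (h' : Good M ρ') : Rel ρ ρ' := by
  have hp : ∀ (σ : Fr F U V) (w : U), w ≠ 0 → 4 ≤ finrank F U ∨ Odd (finrank F (Ln σ w)) := by
    intro σ w hw
    refine hpar.imp id fun ho => ?_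
    rw [finrank_Ln (ρ := σ) hw] at ho
    exact (Nat.odd_mul.mp ho).2
  have key : ∀ j d, finrank F V ≤ d + j → Key U M d := by
    intro j
    induction j with
    | zero =>
      intro d hd σ σ' w w' _ _ _ _ h1
      have := Submodule.finrank_le (Ln σ w ⊓ Ln σ' w')
      omega
    | succ j ih =>
      intro d hd σ σ' w w' h1 h2 hw hw' h4
      have hK := ih (d + 1) (by omega)
      by_cases e : finrank F (Ln σ w ⊓ Ln σ' w' : Submodule F V) = d + 1
      · exact main_step h3 hK h1 h2 hw hw' (hp σ w hw) e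
      · exact hK σ σ' w w' h1 h2 hw hw' (by omega)
  obtain ⟨u, hu, -⟩ := exists_vec_two h3 (0 : Dual F U) 0
  exact main_step h3 (key (finrank F V) _ (by omega)) h h' hu hu (hp ρ u hu) rfl

end Cfsg.Agent.H1.TW
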