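import Cfsg.Agent.H1.TW4
import Cfsg.Agent.H6.ELine

set_option autoImplicit false
set_option linter.unusedSectionVars false

/-! A family of commuting frames. -/

namespace Cfsg.Agent.H1.TW

open Module

variable {F : Type*} [Field F] {U V : Type*} [AddCommGroup U] [Module F U] [AddCommGroup V]
  [Module F V] [FiniteDimensional F U] [FiniteDimensional F V] [Nontrivial V]

variable {M : Subgroup (End F V)ˣ}

theorem IM.add {A B : End F V} (hA : IM M (1 + A)) (hB : IM M (1 + B)) (h : A * B = 0) :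
    IM M (1 + (A + B)) := by
  have := hA.mul hB
  rwa [add_mul, mul_add, mul_add, h, one_mul, one_mul, mul_one, add_zero, add_assoc, add_comm B] at this

theorem rc_mul {σ : Fr F U V} {c d : End F V} (hc : Cm σ c) (u u' : U) (φ φ' : Dual F U) :
    σ (r1 u φ) * c * (σ (r1 u' φ') * d) = φ u' • (σ (r1 u φ') * (c * d)) := by
  rw [mul_assoc, ← mul_assoc c, hc, ← mul_assoc, ← mul_assoc, rho_r1_mul, smul_mul_assoc, smul_mul_assoc,
    mul_assoc]

/-- all of the frame lies in a multiplicatively closed subspace containing the roots -/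
theorem mem_of_roots (h3 : 3 ≤ finrank F U) {σ : Fr F U V} {I : Submodule F (End F V)}
    (hm : ∀ x ∈ I, ∀ y ∈ I, x * y ∈ I) (h : ∀ u (φ : Dual F U), φ u = 0 → σ (r1 u φ) ∈ I) (x : End F U) :
    σ x ∈ I := by
  rw [eq_sum_r1 x, map_sum]
  refine I.sum_mem fun i _ => ?_
  generalize x (bs F U i) = a
  generalize (bs F U).coord i = χ
  by_cases ha : a = 0
  · simp [ha]
  obtain ⟨b, ψ, h1, h2, h4⟩ := exists_ker_indep h3 ha χ
  have e : σ (r1 a χ) = σ (r1 a ψ) * σ (r1 b χ) := by rw [rho_r1_mul, h4, one_smul]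
  rw [e]
  exact hm _ (h _ _ h2) _ (h _ _ h1)

/-- the coefficient ring of a frame -/
def E (M : Subgroup (End F V)ˣ) (σ : Fr F U V) : Submodule F (End F V) where
  carrier := {c | Cm σ c ∧ ∀ u (φ : Dual F U), φ u = 0 → IM M (1 + σ (r1 u φ) * c)}
  zero_mem' := ⟨Cm.zero, fun u φ _ => by simpa using IM.one⟩
  add_mem' := by
    rintro c d ⟨h1, h2⟩ ⟨h4, h5⟩
    refine ⟨h1.add h4, fun u φ h0 => ?_⟩
    rw [mul_add]
    exact (h2 u φ h0).add (h5 u φ h0) (by rw [rc_mul h1, h0, zero_smul])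
  smul_mem' := by
    rintro s c ⟨h1, h2⟩
    refine ⟨h1.smul s, fun u φ h0 => ?_⟩
    have := h2 (s • u) φ (by simp [h0])
    rwa [r1_smul_left, map_smul, smul_mul_assoc, ← mul_smul_comm] at this

theorem E_mul (h3 : 3 ≤ finrank F U) {σ : Fr F U V} : ∀ c ∈ E M σ, ∀ d ∈ E M σ, c * d ∈ E M σ := by
  rintro c ⟨h1, h2⟩ d ⟨h4, h5⟩
  refine ⟨h1.mul h4, fun u φ h0 => ?_⟩
  by_cases hu : u = 0
  · simpa [hu] using IM.one
  obtain ⟨b, χ, h6, h7, h8⟩ := exists_ker_indep h3 hu φ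
  have := (h2 u χ h7).comm (h5 b φ h6) (by rw [rc_mul h1, h7, zero_smul]) (by rw [rc_mul h4, h6, zero_smul])
    (by rw [rc_mul h4, h0, zero_smul])
  rwa [rc_mul h1, h8, one_smul] at this

theorem mem_E_of (h3 : 3 ≤ finrank F U) {σ : Fr F U V}
    (hroot : ∀ u (φ : Dual F U), φ u = 0 → IM M (1 + σ (r1 u φ))) {c : End F V} (hc : Cm σ c) {u : U}
    {φ : Dual F U} (hu : u ≠ 0) (hφ : φ ≠ 0) (h0 : φ u = 0) (h : IM M (1 + σ (r1 u φ) * c)) :
    c ∈ E M σ := by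
  refine ⟨hc, pair_calculus h3 (fun u φ => IM M (1 + σ (r1 u φ) * c)) ?_ ?_ ?_ ?_ hu hφ h0 h⟩
  · intro u φ φ' h1 h2 h4 h5
    have h6 := h5.neg (by rw [rc_mul hc, h2, zero_smul])
    rw [sub_eq_add_neg] at h6
    have := h4.add h6 (by rw [mul_neg, rc_mul hc, h1, zero_smul, neg_zero])
    rwa [← sub_eq_add_neg, ← sub_mul, ← map_sub, ← r1_sub_right] at this
  · intro u u' φ h1 h2 h4 h5
    have h6 := h5.neg (by rw [rc_mul hc, h2, zero_smul])
    rw [sub_eq_add_neg] at h6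
    have := h4.add h6 (by rw [mul_neg, rc_mul hc, h2, zero_smul, neg_zero])
    rwa [← sub_eq_add_neg, ← sub_mul, ← map_sub, ← r1_sub_left] at this
  · intro u φ χ b h1 h2 h4 h5 h6
    have := h2.comm (hroot b χ h5) (by rw [rc_mul hc, h1, zero_smul]) (root_sq h5)
      (by rw [← mul_assoc, rho_r1_mul, h4, zero_smul, zero_mul])
    rwa [mul_assoc, hc, ← mul_assoc, rho_r1_mul, h6, one_smul] at this
  · intro u φ a ψ h1 h2 h4 h5 h6
    have := (hroot a ψ h5).comm h2 (root_sq h5) (by rw [rc_mul hc, h1, zero_smul])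
      (by rw [mul_assoc, hc, ← mul_assoc, rho_r1_mul, h4, zero_smul, zero_mul])
    rwa [← mul_assoc, rho_r1_mul, h6, one_smul] at this

theorem E_conj {σ : Fr F U V} {c : End F V} (hc : c ∈ E M σ) {g : (End F V)ˣ} (hg : g ∈ M) :
    g * c * ↑g⁻¹ ∈ E M (cf g σ) := by
  refine ⟨hc.1.cf g, fun u φ h0 => ?_⟩
  have := (hc.2 u φ h0).conj' hg
  convert this using 2
  simp [cf_apply, mul_assoc]

theorem cf_of_cm {σ : Fr F U V} {g : (End F V)ˣ} (hg : Cm σ (g : End F V)) : cf g σ = σ := by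
  ext x : 1
  rw [cf_apply, hg, Units.mul_inv_cancel_right]

variable {T : Type*} [Fintype T] [DecidableEq T] {ρ : T → Fr F U V}

structure Inv (ρ : T → Fr F U V) (S : Finset T) (I : Submodule F (End F V)) : Prop where
  mul : ∀ x ∈ I, ∀ y ∈ I, x * y ∈ I
  stab : ∀ l ∈ S, ∀ u (φ : Dual F U), φ u = 0 → ∀ z ∈ I,
    ρ l (r1 u φ) * z - z * ρ l (r1 u φ) - ρ l (r1 u φ) * z * ρ l (r1 u φ) ∈ I
  cm : ∀ l, l ∉ S → ∀ z ∈ I, Cm (ρ l) z

theorem Inv.step (h3 : 3 ≤ finrank F U) (hcomm : ∀ i j, i ≠ j → Comm (ρ i) (ρ j)) {S : Finset T} {l : T}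
    (hl : l ∉ S) (ih : ∀ I, Inv ρ S I → I ≠ ⊥ → 1 ∈ I) {I : Submodule F (End F V)}
    (hI : Inv ρ (insert l S) I) {e : End F V} (he : e ∈ I) (hne : ¬ Cm (ρ l) e) (x : End F U) :
    ρ l x ∈ I := by
  have st := hI.stab l (Finset.mem_insert_self _ _)
  obtain ⟨u, φ, h0, h1⟩ : ∃ u, ∃ φ : Dual F U, φ u = 0 ∧ blk (ρ l) e φ u ≠ 0 := by
    by_contra! h
    exact hne (cm_of_blk h)
  have hu : u ≠ 0 := by rintro rfl; simp [blk] at h1
  have hφ : φ ≠ 0 := by rintro rfl; simp [blk] at h1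
  obtain ⟨b, φ₂, h2, h4, h5⟩ := exists_ker_indep h3 hu φ
  have h6 : ρ l (r1 u φ) * blk (ρ l) e φ u ∈ I := by
    have := st b φ h2 _ (st u φ₂ h4 _ (st u φ h0 e he))
    rw [r1_mul_blk]
    convert this using 1
    have a1 : ∀ (a a' : U) (χ χ' : Dual F U) (z : End F V),
        ρ l (r1 a χ) * (ρ l (r1 a' χ') * z) = χ a' • (ρ l (r1 a χ') * z) := fun a a' χ χ' z => by
      rw [← mul_assoc, rho_r1_mul, smul_mul_assoc]
    simp only [mul_sub, sub_mul, mul_assoc, a1, rho_r1_mul, h0, h2, h4, h5, zero_smul, one_smul, mul_zero,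
      zero_mul, sub_zero, zero_sub, mul_neg, neg_mul, neg_zero, neg_neg, sub_neg_eq_add, zero_add]
  let J : Submodule F (End F V) :=
    { carrier := {c | Cm (ρ l) c ∧ ∀ a (χ : Dual F U), χ a = 0 → ρ l (r1 a χ) * c ∈ I}
      zero_mem' := ⟨Cm.zero, fun a χ _ => by simp⟩
      add_mem' := fun hc hd => ⟨hc.1.add hd.1, fun a χ h => by
        rw [mul_add]; exact I.add_mem (hc.2 a χ h) (hd.2 a χ h)⟩
      smul_mem' := fun s c hc => ⟨hc.1.smul s, fun a χ h => by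
        rw [mul_smul_comm]; exact I.smul_mem _ (hc.2 a χ h)⟩ }
  have hc := cm_blk (ρ := ρ l) e φ u
  have h7 : blk (ρ l) e φ u ∈ J := by
    refine ⟨hc, pair_calculus h3 (fun a χ => ρ l (r1 a χ) * blk (ρ l) e φ u ∈ I) ?_ ?_ ?_ ?_ hu hφ h0 h6⟩
    · intro u φ φ' _ _ h4 h5
      rw [r1_sub_right, map_sub, sub_mul]; exact I.sub_mem h4 h5
    · intro u u' φ _ _ h4 h5
      rw [r1_sub_left, map_sub, sub_mul]; exact I.sub_mem h4 h5
    · intro u' φ' χ b _ h2 h4 h5 h6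
      have := I.neg_mem (st b χ h5 _ h2)
      rwa [← mul_assoc, rho_r1_mul, h4, zero_smul, zero_mul, zero_mul, sub_zero, zero_sub, neg_neg, mul_assoc,
        hc, ← mul_assoc, rho_r1_mul, h6, one_smul] at this
    · intro u' φ' a ψ _ h2 h4 h5 h6
      have := st a ψ h5 _ h2
      rwa [mul_assoc (ρ l (r1 a ψ)), mul_assoc (ρ l (r1 u' φ')), hc, ← mul_assoc (ρ l (r1 u' φ')), rho_r1_mul,
        h4, zero_smul, zero_mul, mul_zero, sub_zero, sub_zero, ← mul_assoc, rho_r1_mul, h6, one_smul] at this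
  have hJ : Inv ρ S J := by
    refine ⟨?_, ?_, ?_⟩
    · rintro c ⟨c1, c2⟩ d ⟨d1, d2⟩
      refine ⟨c1.mul d1, fun a χ h => ?_⟩
      by_cases ha : a = 0
      · simp [ha]
      obtain ⟨b, ψ, h6, h7, h8⟩ := exists_ker_indep h3 ha χ
      have := hI.mul _ (c2 a ψ h7) _ (d2 b χ h6)
      rwa [rc_mul c1, h8, one_smul] at this
    · rintro k hk a χ h c ⟨c1, c2⟩
      have hkl : l ≠ k := fun e => hl (e ▸ hk)
      have hB := hcomm l k hkl (r1 a χ)
      refine ⟨((hB.mul c1).sub (c1.mul hB)).sub ((hB.mul c1).mul hB), fun a' χ' h' => ?_⟩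
      have := hI.stab k (Finset.mem_insert_of_mem hk) a χ h _ (c2 a' χ' h')
      convert this using 1
      simp only [mul_sub, ← mul_assoc, hB _]
    · rintro k hk c ⟨c1, c2⟩
      by_cases hkl : k = l
      · rwa [hkl]
      intro y
      have hB := hcomm l k (Ne.symm hkl) y
      rw [← sub_eq_zero]
      refine ((c1.mul hB).sub (hB.mul c1)).eq_zero' hu hφ ?_
      have := hI.cm k (by simp [hkl, hk]) _ (c2 u φ h0) y
      rw [mul_sub, ← mul_assoc, this, ← mul_assoc, ← mul_assoc, hB, sub_self]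
  have h8 := ih J hJ fun e0 => h1 (by rwa [e0, Submodule.mem_bot] at h7)
  exact mem_of_roots h3 hI.mul (fun a χ h => by simpa using h8.2 a χ h) x

theorem Inv.one_mem (h3 : 3 ≤ finrank F U) (hcomm : ∀ i j, i ≠ j → Comm (ρ i) (ρ j))
    (hscal : ∀ c, (∀ i, Cm (ρ i) c) → ∃ s : F, c = s • 1) (S : Finset T) :
    ∀ I, Inv ρ S I → I ≠ ⊥ → 1 ∈ I := by
  induction S using Finset.induction_on with
  | empty =>
    intro I hI h0
    obtain ⟨c, hc, hc0⟩ := Submodule.exists_mem_ne_zero_of_ne_bot h0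
    obtain ⟨s, rfl⟩ := hscal c fun i => hI.cm i (by simp) c hc
    have hs : s ≠ 0 := by rintro rfl; simp at hc0
    simpa [smul_smul, hs] using I.smul_mem s⁻¹ hc
  | insert l S hl ih =>
    intro I hI h0
    by_cases h : ∀ e ∈ I, Cm (ρ l) e
    · refine ih I ⟨hI.mul, fun k hk => hI.stab k (Finset.mem_insert_of_mem hk), fun k hk => ?_⟩ h0
      by_cases hkl : k = l
      · rwa [hkl]
      · exact hI.cm k (by simp [hkl, hk])
    · push Not at h
      obtain ⟨e, he, hne⟩ := h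
      simpa using Inv.step h3 hcomm hl ih hI he hne 1

theorem inv_E (h3 : 3 ≤ finrank F U) (hcomm : ∀ i j, i ≠ j → Comm (ρ i) (ρ j))
    (hroot : ∀ i u (φ : Dual F U), φ u = 0 → IM M (1 + ρ i (r1 u φ))) (i : T) :
    Inv ρ (Finset.univ.erase i) (E M (ρ i)) := by
  refine ⟨E_mul h3, fun l hl u φ h0 z hz => ?_, fun l hl z hz => ?_⟩
  · have hli : i ≠ l := fun e => by simp [e] at hl
    have := E_conj hz ((im_iff (root_sq h0)).mp (hroot l u φ h0))
    rw [cf_of_cm (Cm.one.add (hcomm i l hli _))] at this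
    convert (E M (ρ i)).sub_mem this hz using 1
    simp only [un_val, un_inv, mul_sub, add_mul, mul_one, one_mul]
    abel
  · have : l = i := by simpa using hl
    rw [this]; exact hz.1

theorem E_full (h3 : 3 ≤ finrank F U) (hcomm : ∀ i j, i ≠ j → Comm (ρ i) (ρ j))
    (hscal : ∀ c, (∀ i, Cm (ρ i) c) → ∃ s : F, c = s • 1)
    (hroot : ∀ i u (φ : Dual F U), φ u = 0 → IM M (1 + ρ i (r1 u φ)))
    (hperm : ∀ i j j', i ≠ j → j' ≠ i → j' ≠ j → ∃ g ∈ M, cf g (ρ i) = ρ j' ∧ cf g (ρ j) = ρ i)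
    {i : T} (h : ¬ Good M (ρ i)) {c : End F V} (hc : Cm (ρ i) c) : c ∈ E M (ρ i) := by
  obtain ⟨j, hij, hj⟩ : ∃ j, i ≠ j ∧ ∀ x, ρ j x ∈ E M (ρ i) := by
    by_contra! hcon
    refine h ⟨hroot i, fun c hc u φ hu hφ h0 hm => hscal c fun j => ?_⟩
    by_cases hij : i = j
    · rwa [← hij]
    by_contra hne
    obtain ⟨x, hx⟩ := hcon j hij
    have hj : j ∈ Finset.univ.erase i := by simp [Ne.symm hij]
    refine hx (Inv.step h3 hcomm (Finset.notMem_erase j (Finset.univ.erase i)) (Inv.one_mem h3 hcomm hscal _) ?_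
      (mem_E_of h3 (hroot i) hc hu hφ h0 hm) hne x)
    rw [Finset.insert_erase hj]
    exact inv_E h3 hcomm hroot i
  have hall : ∀ k, k ≠ i → ∀ x, ρ k x ∈ E M (ρ i) := by
    intro k hki
    by_cases hkj : k = j
    · rwa [hkj]
    obtain ⟨g, hg, e1, e2⟩ := hperm i j k hij hki hkj
    refine mem_of_roots h3 (E_mul h3) fun u φ h0 => ⟨hcomm i k hki.symm _, fun a χ h1 => ?_⟩
    have := E_conj (hj (r1 a χ)) hg
    rw [← cf_apply, e1, e2] at this
    rw [← hcomm i k hki.symm]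
    exact this.2 u φ h0
  have key : ∀ S : Finset T, i ∉ S → ∀ c, (∀ l, l ∉ S → Cm (ρ l) c) → c ∈ E M (ρ i) := by
    intro S
    induction S using Finset.induction_on with
    | empty =>
      intro _ c hc
      obtain ⟨s, rfl⟩ := hscal c fun l => hc l (by simp)
      exact Submodule.smul_mem _ _ ⟨Cm.one, fun u φ h0 => by simpa using hroot i u φ h0⟩
    | insert l S hl ih =>
      intro hi c hc
      rw [eq_sum_blk (ρ l) c]
      refine Submodule.sum_mem _ fun a _ => Submodule.sum_mem _ fun b _ => E_mul h3 _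
        (hall l (fun e => hi (by simp [e])) _) _ (ih (fun e => hi (by simp [e])) _ fun k hk => ?_)
      by_cases hkl : k = l
      · rw [hkl]; exact cm_blk _ _ _
      · exact fun y => blk_comm (hcomm l k (Ne.symm hkl) y) (hc k (by simp [hkl, hk]) y) _ _
  refine key (Finset.univ.erase i) (by simp) c fun l hl => ?_
  have : l = i := by simpa using hl
  rwa [this]

theorem im_of_full {σ : Fr F U V} (h : ∀ c, Cm σ c → c ∈ E M σ) {u : U} (hu : u ≠ 0) {Z : End F V}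
    (h1 : ∀ v, Z v ∈ Ln σ u) (h2 : ∀ v ∈ Ln σ u, Z v = 0) : IM M (1 + Z) := by
  obtain ⟨ψ, hψ⟩ := H6.exists_dual_one' (F := F) hu
  have e1 : σ (r1 u ψ) * Z = Z := LinearMap.ext fun v => r1_Ln_one (h1 v) hψ
  have e2 : Z * σ (r1 u ψ) = 0 := LinearMap.ext fun v => h2 _ (r1_mem_Ln _ _ _)
  have e3 : Z = ∑ k, σ (r1 u ((bs F U).coord k ∘ₗ (1 - r1 u ψ))) * blk σ Z ψ (bs F U k) := by
    simp only [r1_mul_blk, e1, ← Finset.mul_sum, ← map_sum]
    rw [← eq_sum_r1', map_sub, map_one, mul_sub, e2, mul_one, sub_zero]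
  rw [e3]
  have h0 : ∀ k, ((bs F U).coord k ∘ₗ (1 - r1 u ψ)) u = 0 := fun k => by simp [hψ]
  generalize (Finset.univ : Finset (Fin (finrank F U))) = s
  induction s using Finset.induction_on with
  | empty => simpa using IM.one
  | insert k s hk ih =>
    rw [Finset.sum_insert hk]
    refine ((h _ (cm_blk _ _ _)).2 _ _ (h0 k)).add ih ?_
    rw [Finset.mul_sum]
    exact Finset.sum_eq_zero fun j _ => by rw [rc_mul (cm_blk _ _ _), h0, zero_smul]

theorem perm_of_rel (h3 : 3 ≤ finrank F U) (hcomm : ∀ i j, i ≠ j → Comm (ρ i) (ρ j))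
    (hscal : ∀ c, (∀ i, Cm (ρ i) c) → ∃ s : F, c = s • 1) {g : (End F V)ˣ}
    (h : ∀ i j, Rel (ρ j) (cf g (ρ i))) : ∃ π : Equiv.Perm T, ∀ i, Same (ρ (π i)) (cf g (ρ i)) := by
  have : ∀ i, ∃ j, Same (ρ j) (cf g (ρ i)) := by
    intro i
    by_contra! hcon
    refine not_comm_self (ρ := cf g (ρ i)) h3 fun x y => ?_
    obtain ⟨s, hs⟩ := hscal (cf g (ρ i) x) fun j => (h i j).resolve_left (hcon j) x
    rw [hs]; simp
  choose π hπ using this
  have hi : Function.Injective π := by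
    intro i i' e
    by_contra hne
    exact ((hπ i).symm.trans (e ▸ hπ i')).not_comm h3 ((hcomm i i' hne).cf g)
  exact ⟨Equiv.ofBijective π (Finite.injective_iff_bijective.mp hi), hπ⟩

/-- normalising the family of frames -/
def Nm (ρ : T → Fr F U V) (g : End F V) : Prop :=
  ∃ π : Equiv.Perm T, ∀ i x, ∃ y, g * ρ i x = ρ (π i) y * g

theorem core_SL [Finite F] (h3 : 3 ≤ finrank F U) (hpar : 4 ≤ finrank F U ∨ Odd (finrank F V))
    (hcomm : ∀ i j, i ≠ j → Comm (ρ i) (ρ j))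
    (hscal : ∀ c, (∀ i, Cm (ρ i) c) → ∃ s : F, c = s • 1)
    (hswap : ∀ a b, ∃ G : (End F V)ˣ, G * G = 1 ∧ ∀ k, cf G (ρ k) = ρ (Equiv.swap a b k))
    (M : Subgroup (V ≃ₗ[F] V)) (hM : ∀ g ∈ H6.SLV F V, Nm ρ (g : V →ₗ[F] V) → g ∈ M)
    (hex : ∃ g ∈ M, ¬ Nm ρ (g : V →ₗ[F] V)) : H6.SLV F V ≤ M := by
  let Φ := LinearMap.GeneralLinearGroup.generalLinearEquiv F V
  let M' : Subgroup (End F V)ˣ := M.comap Φ.toMonoidHom
  have hΦ : ∀ g : (End F V)ˣ, (Φ g : V →ₗ[F] V) = (g : End F V) := fun g => rfl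
  have hroot : ∀ i u (φ : Dual F U), φ u = 0 → IM M' (1 + ρ i (r1 u φ)) := by
    intro i u φ h0
    rw [im_iff (root_sq h0)]
    refine hM _ (H6.mem_SLV_of_nilpotent (y := ρ i (r1 u φ)) ⟨2, by rw [sq, root_sq h0]⟩ fun v => rfl)
      ⟨1, fun j x => ?_⟩
    change ∃ y, (1 + ρ i (r1 u φ)) * ρ j x = ρ j y * (1 + ρ i (r1 u φ))
    by_cases hij : j = i
    · subst hij
      refine ⟨(1 + r1 u φ) * x * (1 - r1 u φ), ?_⟩
      have : (1 - r1 u φ) * (1 + r1 u φ) = 1 := by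
        rw [sub_mul, mul_add, mul_add, r1_mul, h0]; simp
      rw [← map_one (ρ j), ← map_add, ← map_mul, ← map_mul, mul_assoc, this, mul_one]
    · exact ⟨x, Cm.one.add (hcomm j i hij _) x⟩
  have hperm : ∀ i j j', i ≠ j → j' ≠ i → j' ≠ j → ∃ g ∈ M', cf g (ρ i) = ρ j' ∧ cf g (ρ j) = ρ i := by
    intro i j j' h1 h2 h4
    obtain ⟨A, hA, hA'⟩ := hswap i j
    obtain ⟨B, hB, hB'⟩ := hswap i j'
    have e : ∀ k, cf (B * A * (B * A)) (ρ k) =
        ρ ((Equiv.swap i j' * Equiv.swap i j * (Equiv.swap i j' * Equiv.swap i j)) k) := fun k => by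
      simp only [cf_mul, hA', hB', Equiv.Perm.mul_apply]
    refine ⟨B * A * (B * A), hM _ ?_ ⟨Equiv.swap i j' * Equiv.swap i j * (Equiv.swap i j' * Equiv.swap i j),
      fun k x => ⟨x, ?_⟩⟩, ?_, ?_⟩
    · rw [H6.mem_SLV]
      change LinearEquiv.det (Φ _) = 1
      simp only [map_mul]
      rw [mul_mul_mul_comm, ← map_mul, ← map_mul Φ, ← map_mul, ← map_mul Φ, hA, hB]
      simp
    · change ((B * A * (B * A) : (End F V)ˣ) : End F V) * _ = _ * ((B * A * (B * A) : (End F V)ˣ) : End F V)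
      rw [← e, cf_apply, Units.inv_mul_cancel_right]
    · rw [e]; simp [Equiv.swap_apply_def, h1, h1.symm, h2, h2.symm, h4, h4.symm]
    · rw [e]; simp [Equiv.swap_apply_def, h1, h1.symm, h2, h2.symm, h4, h4.symm]
  by_cases hgood : ∀ i, Good M' (ρ i)
  · exfalso
    obtain ⟨g, hg, hn⟩ := hex
    obtain ⟨g, rfl⟩ := Φ.surjective g
    obtain ⟨π, hπ⟩ := perm_of_rel h3 hcomm hscal (g := g) fun i j =>
      rel_of_good h3 hpar (hgood j) ((hgood i).cf hg)
    refine hn ⟨π, fun i x => ?_⟩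
    obtain ⟨k, hk⟩ := hπ i
    exact ⟨_, by rw [← hk, cf_apply, hΦ, Units.inv_mul_cancel_right]⟩
  push Not at hgood
  obtain ⟨i, hi⟩ := hgood
  have h1 : ∀ u : U, u ≠ 0 → ∀ x ∈ Ln (ρ i) u, ∀ φ : Dual F V, (∀ v ∈ Ln (ρ i) u, φ v = 0) →
      H6.HasT M x φ := by
    intro u hu x hx φ hφ
    obtain ⟨g, hg, e⟩ := im_of_full (fun c hc => E_full h3 hcomm hscal hroot hperm hi hc) hu
      (Z := r1 x φ) (fun v => Submodule.smul_mem _ _ hx) (fun v hv => by simp [hφ v hv])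
    refine ⟨Φ g, hg, fun v => ?_⟩
    change (g : End F V) v = _
    rw [e]; rfl
  refine H6.SLV_le_of_full fun v => ?_
  rw [← sum_rho_apply (ρ i) v]
  refine (H6.fullSub M).sum_mem fun k _ => ?_
  have hu := (bs F U).ne_zero k
  obtain ⟨b, χ, -, h4, h5⟩ := exists_ker_indep h3 hu 0
  have hb : b ≠ 0 := by rintro rfl; simp at h5
  obtain ⟨w, hw, hw0⟩ := Ln_ne_bot (ρ := ρ i) hb
  exact H6.full_of_two_lines (Submodule.disjoint_def.mpr fun v h6 h7 => Ln_disjoint h4 h5 h6 h7) hw hw0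
    (r1_mem_Ln _ _ _) (h1 _ hu _ (r1_mem_Ln _ _ _)) (h1 _ hb _ hw)

end Cfsg.Agent.H1.TW
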