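import Mathlib

/-! Tools for Wielandt's theorem on primitive groups of degree `2p`: Fourier transform on
`ZMod p` and small matrix identities. -/

set_option autoImplicit false
set_option linter.unusedSectionVars false

namespace Cfsg.Agent.H1.TwoP

variable {p : ℕ} [Fact p.Prime]

/-- Fourier coefficient of a rational function on `ZMod p`. -/
noncomputable def ft (z : ℂ) (f : ZMod p → ℚ) : ℂ := ∑ j, (f j : ℂ) * z ^ j.val

/-- Convolution. -/
def conv (f g : ZMod p → ℚ) : ZMod p → ℚ := fun k => ∑ i, f i * g (k - i)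

/-- Delta function at zero. -/
def dlt : ZMod p → ℚ := fun k => if k = 0 then 1 else 0

theorem zpow_val_add {z : ℂ} (hz : z ^ p = 1) (i j : ZMod p) :
    z ^ (i + j).val = z ^ i.val * z ^ j.val := by
  rw [ZMod.val_add, ← pow_add, ← pow_eq_pow_mod _ hz]

theorem ft_conv {z : ℂ} (hz : z ^ p = 1) (f g : ZMod p → ℚ) :
    ft z (conv f g) = ft z f * ft z g := by
  simp only [ft, conv, Finset.sum_mul_sum]
  push_cast
  simp only [Finset.sum_mul]
  rw [Finset.sum_comm]
  refine Finset.sum_congr rfl fun i _ => ?_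
  symm
  refine Fintype.sum_equiv (Equiv.addLeft i) _ _ fun j => ?_
  simp only [Equiv.coe_addLeft, add_sub_cancel_left, zpow_val_add hz]
  ring

theorem ft_add (z : ℂ) (f g : ZMod p → ℚ) : ft z (f + g) = ft z f + ft z g := by
  simp [ft, add_mul, Finset.sum_add_distrib]

theorem ft_sub (z : ℂ) (f g : ZMod p → ℚ) : ft z (f - g) = ft z f - ft z g := by
  simp [ft, sub_mul, Finset.sum_sub_distrib]

theorem ft_smul (z : ℂ) (c : ℚ) (f : ZMod p → ℚ) : ft z (c • f) = c * ft z f := by
  simp [ft, Finset.mul_sum, mul_assoc]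

theorem ft_dlt (z : ℂ) : ft z (dlt : ZMod p → ℚ) = 1 := by
  simp only [ft, dlt]
  rw [Finset.sum_eq_single 0]
  · simp
  · intro b _ hb
    simp [hb]
  · simp

theorem ft_one (f : ZMod p → ℚ) : ft 1 f = ((∑ j, f j : ℚ) : ℂ) := by
  simp [ft]

theorem const_of_ft_eq_zero {ζ : ℂ} (hζ : IsPrimitiveRoot ζ p) {f : ZMod p → ℚ}
    (h : ft ζ f = 0) (i j : ZMod p) : f i = f j := by
  have hp : p.Prime := Fact.out
  obtain ⟨q, rfl⟩ : ∃ q, p = q + 1 := ⟨p - 1, (Nat.succ_pred_eq_of_pos hp.pos).symm⟩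
  exact (hζ.sum_eq_zero_iff_forall_eq hp f).1 h i j

theorem eq_of_ft_eq {ζ : ℂ} (hζ : IsPrimitiveRoot ζ p) {f g : ZMod p → ℚ}
    (h1 : ft 1 f = ft 1 g) (h2 : ft ζ f = ft ζ g) : f = g := by
  have h3 : ft ζ (f - g) = 0 := by rw [ft_sub, h2, sub_self]
  have h4 : ft 1 (f - g) = 0 := by rw [ft_sub, h1, sub_self]
  rw [ft_one] at h4
  have h5 : ∑ j, (f - g) j = 0 := by exact_mod_cast h4
  funext i
  rw [Finset.sum_congr rfl (fun j _ => const_of_ft_eq_zero hζ h3 j i)] at h5
  simp only [Finset.sum_const, Finset.card_univ, ZMod.card, nsmul_eq_mul, mul_eq_zero,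
    Nat.cast_eq_zero, (Fact.out : p.Prime).ne_zero, false_or, Pi.sub_apply] at h5
  exact sub_eq_zero.1 h5

theorem trace_idem (E : Matrix (Fin 2) (Fin 2) ℂ) (hE : E * E = E) :
    E 0 0 + E 1 1 = 0 ∨ E 0 0 + E 1 1 = 1 ∨ E 0 0 + E 1 1 = 2 := by
  have h00 := congrFun (congrFun hE 0) 0
  have h01 := congrFun (congrFun hE 0) 1
  have h10 := congrFun (congrFun hE 1) 0
  have h11 := congrFun (congrFun hE 1) 1
  simp only [Matrix.mul_apply, Fin.sum_univ_two] at h00 h01 h10 h11
  by_cases h : E 0 0 + E 1 1 = 1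
  · exact Or.inr (Or.inl h)
  have h' : E 0 0 + E 1 1 - 1 ≠ 0 := sub_ne_zero.2 h
  have hb : E 0 1 = 0 := by
    apply (mul_eq_zero.1 (_ : E 0 1 * (E 0 0 + E 1 1 - 1) = 0)).resolve_right h'
    linear_combination h01
  have had : E 0 0 = E 1 1 := by
    apply sub_eq_zero.1
    apply (mul_eq_zero.1 (_ : (E 0 0 - E 1 1) * (E 0 0 + E 1 1 - 1) = 0)).resolve_right h'
    linear_combination h00 - h11
  have h2 : E 0 0 * (E 0 0 - 1) = 0 := by
    rw [hb] at h00
    linear_combination h00
  rcases mul_eq_zero.1 h2 with h3 | h3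
  · left
    rw [← had, h3, add_zero]
  · right; right
    rw [← had]
    linear_combination 2 * h3

theorem two_by_two_entries (X E : Matrix (Fin 2) (Fin 2) ℂ) (s : ℂ) (htr : E 0 0 + E 1 1 = 1)
    (h1 : X * E = s • E) (h2 : E * X = s • E) (a b : Fin 2) :
    X a b = (if a = b then X 0 0 + X 1 1 - s else 0) + (2 * s - (X 0 0 + X 1 1)) * E a b := by
  have a00 := congrFun (congrFun h1 0) 0
  have a01 := congrFun (congrFun h1 0) 1
  have a10 := congrFun (congrFun h1 1) 0
  have a11 := congrFun (congrFun h1 1) 1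
  have b00 := congrFun (congrFun h2 0) 0
  have b01 := congrFun (congrFun h2 0) 1
  have b10 := congrFun (congrFun h2 1) 0
  have b11 := congrFun (congrFun h2 1) 1
  simp only [Matrix.mul_apply, Fin.sum_univ_two, Matrix.smul_apply, smul_eq_mul]
    at a00 a01 a10 a11 b00 b01 b10 b11
  fin_cases a <;> fin_cases b
  · simp only [Fin.zero_eta, if_true]
    linear_combination b00 - a11 - (s - X 1 1) * htr
  · simp only [Fin.zero_eta, Fin.mk_one, zero_ne_one, if_false]
    linear_combination a01 + b01 - X 0 1 * htr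
  · simp only [Fin.zero_eta, Fin.mk_one, one_ne_zero, if_false]
    linear_combination a10 + b10 - X 1 0 * htr
  · simp only [Fin.mk_one, if_true]
    linear_combination b11 - a00 - (s - X 0 0) * htr

theorem two_by_two_trace (X Y E : Matrix (Fin 2) (Fin 2) ℂ) (s t : ℂ) (hE : E * E = E)
    (htr : E 0 0 + E 1 1 = 1) (h1 : X * E = s • E) (h2 : E * X = s • E)
    (h3 : Y * E = t • E) (h4 : E * Y = t • E) :
    (X * Y) 0 0 + (X * Y) 1 1 = s * t + (X 0 0 + X 1 1 - s) * (Y 0 0 + Y 1 1 - t) := by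
  have h00 := congrFun (congrFun hE 0) 0
  have h11 := congrFun (congrFun hE 1) 1
  simp only [Matrix.mul_apply, Fin.sum_univ_two] at h00 h11 ⊢
  have x := two_by_two_entries X E s htr h1 h2
  have y := two_by_two_entries Y E t htr h3 h4
  generalize X 0 0 + X 1 1 = τ at x ⊢
  generalize Y 0 0 + Y 1 1 = υ at y ⊢
  rw [x 0 0, x 0 1, x 1 0, x 1 1, y 0 0, y 0 1, y 1 0, y 1 1]
  simp only [if_true, zero_ne_one, one_ne_zero, if_false]
  linear_combination ((2 * s - τ) * (2 * t - υ)) * (h00 + h11)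
    + ((τ - s) * (2 * t - υ) + (2 * s - τ) * (υ - t) + (2 * s - τ) * (2 * t - υ)) * htr

/-- In a primitive action, an invariant equivalence relation relating two distinct points
relates all points. -/
theorem rel_of_primitive {G α : Type*} [Group G] [MulAction G α]
    (hG : MulAction.IsPreprimitive G α) (r : α → α → Prop) (hsymm : ∀ x y, r x y → r y x)
    (htrans : ∀ x y z, r x y → r y z → r x z) (hinv : ∀ (g : G) x y, r x y → r (g • x) (g • y))
    {a b : α} (hab : a ≠ b) (h : r a b) : ∀ y, r a y := by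
  have hB : MulAction.IsBlock G {y | r a y} := by
    rw [MulAction.isBlock_iff_smul_eq_of_mem]
    intro g x hx hgx
    ext y
    rw [Set.mem_smul_set_iff_inv_smul_mem]
    simp only [Set.mem_ofPred_eq] at hx hgx ⊢
    have h1 : r a (g • a) := htrans _ _ _ hgx (hsymm _ _ (hinv g _ _ hx))
    constructor
    · intro hy
      have := hinv g _ _ hy
      rw [smul_inv_smul] at this
      exact htrans _ _ _ h1 this
    · intro hy
      have := hinv g⁻¹ _ _ (htrans _ _ _ (hsymm _ _ h1) hy)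
      rwa [inv_smul_smul] at this
  rcases hG.isTrivialBlock_of_isBlock hB with h1 | h1
  · exact absurd (h1 (htrans _ _ _ h (hsymm _ _ h)) h) hab
  · intro y
    have : y ∈ {y | r a y} := by rw [h1]; trivial
    exact this

end Cfsg.Agent.H1.TwoP
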