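import Mathlib
import Cfsg.Agent.H1.TwoP1
import Cfsg.Agent.H1.PermMod

/-! Wielandt's theorem on primitive groups of degree `2p`: the centraliser ring. -/

set_option autoImplicit false
set_option linter.unusedSectionVars false

namespace Cfsg.Agent.H1.TwoP

open Matrix

variable {p : ℕ} [Fact p.Prime] {G : Type*} [Group G] {α : Type*} [Fintype α] [DecidableEq α]
  [MulAction G α]

/-- Invariant matrices. -/
def Inv (G : Type*) [Group G] {α : Type*} [MulAction G α] (T : Matrix α α ℚ) : Prop :=
  ∀ (g : G) x y, T (g • x) (g • y) = T x y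

theorem Inv.transpose {T : Matrix α α ℚ} (h : Inv G T) : Inv G Tᵀ := fun g x y => h g y x

theorem Inv.mul {T T' : Matrix α α ℚ} (h : Inv G T) (h' : Inv G T') : Inv G (T * T') := by
  intro g x y
  simp only [Matrix.mul_apply]
  rw [← sum_smul_eq g]
  simp only [h g, h' g]

theorem Inv.smul {T : Matrix α α ℚ} (h : Inv G T) (c : ℚ) : Inv G (c • T) := by
  intro g x y
  simp only [Matrix.smul_apply, h g]

theorem Inv.row_sum [MulAction.IsPretransitive G α] {T : Matrix α α ℚ} (h : Inv G T) (x x' : α) :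
    ∑ y, T x y = ∑ y, T x' y := by
  obtain ⟨g, rfl⟩ := MulAction.exists_smul_eq G x x'
  rw [← sum_smul_eq g (fun y => T (g • x) y)]
  simp only [h g]

theorem Inv.diag [MulAction.IsPretransitive G α] {T : Matrix α α ℚ} (h : Inv G T) (x x' : α) :
    T x x = T x' x' := by
  obtain ⟨g, rfl⟩ := MulAction.exists_smul_eq G x x'
  rw [h g]

variable (e : Fin 2 × ZMod p ≃ α)

/-- The four circulant blocks. -/
def blk (T : Matrix α α ℚ) (a b : Fin 2) : ZMod p → ℚ := fun i => T (e (a, 0)) (e (b, i))

/-- The Fourier transform of an invariant matrix. -/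
noncomputable def hat (z : ℂ) (T : Matrix α α ℚ) : Matrix (Fin 2) (Fin 2) ℂ :=
  Matrix.of fun a b => ft z (blk e T a b)

/-- The sign vector of the two orbits. -/
def sgn (x : α) : ℚ := if (e.symm x).1 = 0 then 1 else -1

/-- The eigenvalue on the sign vector. -/
def sv (T : Matrix α α ℚ) : ℚ := ∑ y, T (e (0, 0)) y * sgn e y

theorem sum_coord {M : Type*} [AddCommMonoid M] (f : α → M) :
    ∑ y, f y = ∑ i, f (e (0, i)) + ∑ i, f (e (1, i)) := by
  rw [← Fintype.sum_equiv e (fun q => f (e q)) f (fun _ => rfl), Fintype.sum_prod_type,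
    Fin.sum_univ_two]

theorem sgn_zero (i : ZMod p) : sgn e (e (0, i)) = 1 := by simp [sgn]

theorem sgn_one (i : ZMod p) : sgn e (e (1, i)) = -1 := by simp [sgn]

theorem sgn_mul_self (x : α) : sgn e x * sgn e x = 1 := by
  unfold sgn
  split_ifs <;> norm_num

theorem sgn_mul_le (x y : α) : sgn e x * sgn e y ≤ 1 := by
  unfold sgn
  split_ifs <;> norm_num

theorem sgn_eq_of_mul {x y : α} (h : sgn e x * sgn e y = 1) : sgn e x = sgn e y := by
  unfold sgn at h ⊢
  split_ifs at h ⊢ <;> first | rfl | norm_num at h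

theorem sum_sgn : ∑ y, sgn e y = 0 := by
  rw [sum_coord e]
  simp [sgn_zero, sgn_one]

include e in
theorem card_eq : (Fintype.card α : ℚ) = 2 * p := by
  rw [← Fintype.card_congr e]
  simp

variable {e} {σ : G} (he : ∀ a i, σ • e (a, i) = e (a, i + 1))
include he

theorem pow_coord (n : ℕ) (a : Fin 2) (i : ZMod p) : σ ^ n • e (a, i) = e (a, i + n) := by
  induction n with
  | zero => simp
  | succ n ih => rw [pow_succ', mul_smul, ih, he, Nat.cast_succ, add_assoc]

theorem blk_shift {T : Matrix α α ℚ} (h : Inv G T) (a b : Fin 2) (i j : ZMod p) :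
    T (e (a, i)) (e (b, j)) = blk e T a b (j - i) := by
  rw [blk, ← h (σ ^ i.val) (e (a, 0)), pow_coord he, pow_coord he]
  simp

theorem blk_mul (T : Matrix α α ℚ) {T' : Matrix α α ℚ} (h : Inv G T') (a c : Fin 2) :
    blk e (T * T') a c = conv (blk e T a 0) (blk e T' 0 c) + conv (blk e T a 1) (blk e T' 1 c) := by
  funext k
  simp only [blk, Matrix.mul_apply, conv, Pi.add_apply]
  rw [sum_coord e]
  congr 1 <;> exact Finset.sum_congr rfl fun i _ => by rw [blk_shift he h]; rfl

theorem hat_mul {z : ℂ} (hz : z ^ p = 1) (T : Matrix α α ℚ) {T' : Matrix α α ℚ} (h : Inv G T') :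
    hat e z (T * T') = hat e z T * hat e z T' := by
  ext a c
  simp only [hat, Matrix.of_apply, Matrix.mul_apply, Fin.sum_univ_two, blk_mul he T h, ft_add,
    ft_conv hz]

omit he in
theorem hat_smul (z : ℂ) (c : ℚ) (T : Matrix α α ℚ) : hat e z (c • T) = (c : ℂ) • hat e z T := by
  ext a b
  simp only [hat, Matrix.of_apply, Matrix.smul_apply, smul_eq_mul]
  rw [← ft_smul]
  rfl

theorem sgn_pow_smul (n : ℕ) (x : α) : sgn e (σ ^ n • x) = sgn e x := by
  obtain ⟨⟨a, i⟩, rfl⟩ := e.surjective x
  rw [pow_coord he]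
  simp [sgn]

variable [MulAction.IsPretransitive G α]

theorem eig {T : Matrix α α ℚ} (h : Inv G T) (x : α) :
    ∑ y, T x y * sgn e y = sv e T * sgn e x := by
  have h1 : ∀ a i, ∑ y, T (e (a, i)) y * sgn e y = ∑ y, T (e (a, 0)) y * sgn e y := by
    intro a i
    rw [← sum_smul_eq (σ ^ i.val)]
    have : e (a, i) = σ ^ i.val • e (a, 0) := by rw [pow_coord he]; simp
    simp only [this, h (σ ^ i.val), sgn_pow_smul he]
  have h2 : ∑ x, ∑ y, T x y * sgn e y = 0 := by
    rw [Finset.sum_comm]
    simp only [← Finset.sum_mul]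
    have := fun y => h.transpose.row_sum y (e (0, 0))
    simp only [Matrix.transpose_apply] at this
    simp only [this, ← Finset.mul_sum, sum_sgn, mul_zero]
  rw [sum_coord e] at h2
  simp only [h1, Finset.sum_const, Finset.card_univ, ZMod.card, nsmul_eq_mul, ← mul_add,
    mul_eq_zero, Nat.cast_eq_zero, (Fact.out : p.Prime).ne_zero, false_or] at h2
  obtain ⟨⟨a, i⟩, rfl⟩ := e.surjective x
  rw [h1]
  fin_cases a
  · simp [sv, sgn_zero]
  · simp only [Fin.mk_one, sgn_one, sv]
    linear_combination h2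

theorem sv_transpose {T : Matrix α α ℚ} (h : Inv G T) : sv e Tᵀ = sv e T := by
  have h1 : ∀ T : Matrix α α ℚ, Inv G T →
      ∑ x, ∑ y, sgn e x * (T x y * sgn e y) = sv e T * (2 * p) := by
    intro T h
    simp only [← Finset.mul_sum, eig he h]
    simp only [mul_left_comm (sgn e _) (sv e T), sgn_mul_self, ← Finset.mul_sum]
    rw [Finset.sum_const, Finset.card_univ, nsmul_eq_mul, card_eq e, mul_one]
  have h2 := h1 _ h.transpose
  rw [Finset.sum_comm] at h2
  have h3 := h1 _ h
  have hp : (2 * p : ℚ) ≠ 0 := by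
    have := (Fact.out : p.Prime).ne_zero
    positivity
  apply mul_right_cancel₀ hp
  rw [← h2, ← h3]
  refine Finset.sum_congr rfl fun x _ => Finset.sum_congr rfl fun y _ => ?_
  rw [Matrix.transpose_apply]
  ring

theorem sum_blk_diag {T : Matrix α α ℚ} (h : Inv G T) (a : Fin 2) :
    2 * ∑ i, blk e T a a i = ∑ y, T (e (0, 0)) y + sv e T := by
  have h1 := eig he h (e (a, 0))
  have h2 := h.row_sum (e (a, 0)) (e (0, 0))
  rw [sum_coord e] at h1 h2
  simp only [sgn_zero, sgn_one, mul_one, mul_neg, Finset.sum_neg_distrib] at h1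
  fin_cases a
  · simp only [Fin.zero_eta, sgn_zero, blk] at h1 h2 ⊢
    linear_combination h1 + h2
  · simp only [Fin.mk_one, sgn_one, blk] at h1 h2 ⊢
    linear_combination h2 - h1

variable [Fintype G]

omit he in
variable (G e) in
/-- The Gram matrix of the images of the sign vector. -/
def gram : Matrix α α ℚ := Matrix.of fun x y => ∑ g : G, sgn e (g • x) * sgn e (g • y)

omit he in
theorem gram_inv : Inv G (gram G e) := by
  intro k x y
  simp only [gram, Matrix.of_apply, ← mul_smul]
  exact Fintype.sum_equiv (Equiv.mulRight k) _ _ (fun _ => rfl)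

omit he in
theorem gram_symm (x y : α) : gram G e x y = gram G e y x := by
  simp only [gram, Matrix.of_apply, mul_comm]

omit he in
theorem gram_diag (x : α) : gram G e x x = Fintype.card G := by
  simp [gram, sgn_mul_self]

omit he in
theorem gram_row_sum (x : α) : ∑ y, gram G e x y = 0 := by
  simp only [gram, Matrix.of_apply]
  rw [Finset.sum_comm]
  refine Finset.sum_eq_zero fun g _ => ?_
  rw [← Finset.mul_sum, sum_smul_eq g (sgn e), sum_sgn, mul_zero]

theorem mul_gram {T : Matrix α α ℚ} (h : Inv G T) : T * gram G e = sv e T • gram G e := by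
  ext x z
  simp only [Matrix.mul_apply, gram, Matrix.of_apply, Matrix.smul_apply, smul_eq_mul,
    Finset.mul_sum]
  rw [Finset.sum_comm]
  refine Finset.sum_congr rfl fun g _ => ?_
  have := eig he h (g • x)
  rw [← sum_smul_eq g] at this
  simp only [h g] at this
  rw [← mul_assoc, ← this, Finset.sum_mul]
  exact Finset.sum_congr rfl fun y _ => by ring

theorem gram_mul {T : Matrix α α ℚ} (h : Inv G T) : gram G e * T = sv e T • gram G e := by
  have h1 := congrArg Matrix.transpose (mul_gram he h.transpose)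
  have h2 : (gram G e)ᵀ = gram G e := by
    ext x y
    exact gram_symm _ _
  rwa [Matrix.transpose_mul, Matrix.transpose_transpose, Matrix.transpose_smul, h2,
    sv_transpose he h] at h1

theorem sv_gram_pos : 0 < sv e (gram G e) := by
  have h1 := congrFun (congrFun (mul_gram he (gram_inv (G := G) (e := e))) (e (0, 0))) (e (0, 0))
  rw [Matrix.mul_apply, Matrix.smul_apply, gram_diag, smul_eq_mul] at h1
  have hG : (0 : ℚ) < Fintype.card G := by exact_mod_cast Fintype.card_pos
  have h2 : 0 < ∑ y, gram G e (e (0, 0)) y * gram G e y (e (0, 0)) := by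
    apply Finset.sum_pos'
    · intro y _
      rw [gram_symm y]
      exact mul_self_nonneg _
    · exact ⟨e (0, 0), Finset.mem_univ _, by rw [gram_diag]; positivity⟩
  rw [h1] at h2
  exact (pos_iff_pos_of_mul_pos h2).2 hG

omit he in
variable (G e) in
/-- The projection onto the span of the images of the sign vector. -/
def proj : Matrix α α ℚ := (sv e (gram G e))⁻¹ • gram G e

omit he in
theorem proj_inv : Inv G (proj G e) := gram_inv.smul _

omit he in
theorem proj_symm (x y : α) : proj G e x y = proj G e y x := by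
  simp only [proj, Matrix.smul_apply, gram_symm x y]

omit he in
theorem proj_row_sum (x : α) : ∑ y, proj G e x y = 0 := by
  simp only [proj, Matrix.smul_apply, smul_eq_mul, ← Finset.mul_sum, gram_row_sum, mul_zero]

theorem mul_proj {T : Matrix α α ℚ} (h : Inv G T) : T * proj G e = sv e T • proj G e := by
  rw [proj, Matrix.mul_smul, mul_gram he h, smul_comm]

theorem proj_mul {T : Matrix α α ℚ} (h : Inv G T) : proj G e * T = sv e T • proj G e := by
  rw [proj, Matrix.smul_mul, gram_mul he h, smul_comm]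

theorem sv_proj : sv e (proj G e) = 1 := by
  have := (sv_gram_pos he).ne'
  simp only [proj, sv, Matrix.smul_apply, smul_eq_mul, mul_assoc, ← Finset.mul_sum] at this ⊢
  exact inv_mul_cancel₀ this

theorem proj_idem : proj G e * proj G e = proj G e := by
  rw [mul_proj he proj_inv, sv_proj he, one_smul]

theorem proj_trace : ∃ m : ℚ, (m = 0 ∨ m = 1 ∨ m = 2) ∧
    ∀ i, blk e (proj G e) 0 0 i + blk e (proj G e) 1 1 i = m * dlt i + (1 - m) / p := by
  have hp := (Fact.out : p.Prime)
  have hζ := Complex.isPrimitiveRoot_exp p hp.ne_zero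
  set ζ := Complex.exp (2 * Real.pi * Complex.I / p)
  have h1 := trace_idem (hat e ζ (proj G e)) (by
    rw [← hat_mul he hζ.pow_eq_one _ proj_inv, proj_idem he])
  obtain ⟨m, hm1, hm2⟩ : ∃ m : ℚ, (m = 0 ∨ m = 1 ∨ m = 2) ∧
      hat e ζ (proj G e) 0 0 + hat e ζ (proj G e) 1 1 = m := by
    rcases h1 with h | h | h
    · exact ⟨0, by simp, by simpa using h⟩
    · exact ⟨1, by simp, by simpa using h⟩
    · exact ⟨2, by simp, by simpa using h⟩
  refine ⟨m, hm1, ?_⟩
  have h2 : ft ζ (blk e (proj G e) 0 0 + blk e (proj G e) 1 1 - m • dlt) = 0 := by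
    rw [ft_sub, ft_add, ft_smul, ft_dlt, mul_one, sub_eq_zero]
    exact hm2
  have h3 := const_of_ft_eq_zero hζ h2
  have h4 : ∑ j, (blk e (proj G e) 0 0 + blk e (proj G e) 1 1 - m • dlt : ZMod p → ℚ) j
      = 1 - m := by
    have a0 := sum_blk_diag he (proj_inv (G := G) (e := e)) 0
    have a1 := sum_blk_diag he (proj_inv (G := G) (e := e)) 1
    rw [proj_row_sum, sv_proj he] at a0 a1
    have a2 : ∑ j : ZMod p, dlt j = 1 := by simp [dlt]
    simp only [Pi.sub_apply, Pi.add_apply, Pi.smul_apply, smul_eq_mul, Finset.sum_sub_distrib,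
      Finset.sum_add_distrib, ← Finset.mul_sum, a2]
    linear_combination (a0 + a1) / 2
  intro i
  rw [Finset.sum_congr rfl (fun j _ => h3 j i)] at h4
  simp only [Finset.sum_const, Finset.card_univ, ZMod.card, nsmul_eq_mul, Pi.sub_apply,
    Pi.add_apply, Pi.smul_apply, smul_eq_mul] at h4
  have hp0 : (p : ℚ) ≠ 0 := by exact_mod_cast hp.ne_zero
  field_simp
  linear_combination h4

end Cfsg.Agent.H1.TwoP
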