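import Mathlib
import Cfsg.Agent.H1.TwoP2

/-! Wielandt's theorem on primitive groups of degree `2p`: the main argument. -/

set_option autoImplicit false
set_option linter.unusedSectionVars false

namespace Cfsg.Agent.H1.TwoP

open Matrix

variable {p : ℕ} [Fact p.Prime] {G : Type*} [Group G] {α : Type*} [Fintype α] [DecidableEq α]
  [MulAction G α]

open Classical in
/-- Indicator matrix of a relation. -/
noncomputable def ind (r : α → α → Prop) : Matrix α α ℚ :=
  Matrix.of fun x y => if r x y then 1 else 0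

theorem ind_congr {r r' : α → α → Prop} {x y x' y' : α} (h : r x y ↔ r' x' y') :
    ind r x y = ind r' x' y' := by
  classical
  simp only [ind, Matrix.of_apply]
  exact if_congr h rfl rfl

theorem ind_inv {r : α → α → Prop} (h : ∀ (g : G) x y, r (g • x) (g • y) ↔ r x y) :
    Inv G (ind r) := fun g x y => ind_congr (h g x y)

theorem ind_nonneg (r : α → α → Prop) (x y : α) : 0 ≤ ind r x y := by
  simp only [ind, Matrix.of_apply]
  split_ifs <;> norm_num

theorem ind_pos {r : α → α → Prop} {x y : α} (h : r x y) : ind r x y = 1 := by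
  simp [ind, h]

theorem ind_neg {r : α → α → Prop} {x y : α} (h : ¬ r x y) : ind r x y = 0 := by
  simp [ind, h]

theorem ind_row_sum (r : α → α → Prop) (x : α) :
    ∑ y, ind r x y = (Set.ncard {y | r x y} : ℚ) := by
  classical
  rw [Set.ncard_eq_toFinset_card']
  simp only [ind, Matrix.of_apply, Finset.sum_boole, Set.toFinset_ofPred]

/-- The orbital relation. -/
def orbl (G : Type*) [Group G] {α : Type*} [MulAction G α] (a b x y : α) : Prop :=
  ∃ g : G, g • a = x ∧ g • b = y

theorem orbl_iff (a b : α) (g : G) (x y : α) : orbl G a b (g • x) (g • y) ↔ orbl G a b x y := by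
  constructor
  · rintro ⟨k, h1, h2⟩
    exact ⟨g⁻¹ * k, by simp [mul_smul, h1], by simp [mul_smul, h2]⟩
  · rintro ⟨k, h1, h2⟩
    exact ⟨g * k, by simp [mul_smul, h1], by simp [mul_smul, h2]⟩

variable {e : Fin 2 × ZMod p ≃ α} {σ : G} (he : ∀ a i, σ • e (a, i) = e (a, i + 1))
  [Fintype G]
include he

theorem case_zero (hG : MulAction.IsPreprimitive G α)
    (ht : ∀ i, blk e (proj G e) 0 0 i + blk e (proj G e) 1 1 i = 0 * dlt i + (1 - 0) / p) :
    False := by
  have h1 := (ht 1).trans ((by simp) : _ = _) |>.trans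
    ((ht 0).trans ((by simp) : _ = ((p : ℚ))⁻¹)).symm
  have hc := (sv_gram_pos he).ne'
  simp only [blk, proj, Matrix.smul_apply, smul_eq_mul, ← mul_add, gram_diag] at h1
  have h2 := mul_left_cancel₀ (inv_ne_zero hc) h1
  have hle : ∀ x y, gram G e x y ≤ Fintype.card G := by
    intro x y
    simp only [gram, Matrix.of_apply]
    calc ∑ g : G, sgn e (g • x) * sgn e (g • y) ≤ ∑ _g : G, (1 : ℚ) :=
          Finset.sum_le_sum fun g _ => sgn_mul_le e _ _
      _ = _ := by simp
  have h3 : gram G e (e (0, 0)) (e (0, 1)) = Fintype.card G := by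
    have := hle (e (0, 0)) (e (0, 1))
    have := hle (e (1, 0)) (e (1, 1))
    linarith
  have h4 : ∀ g : G, sgn e (g • e (0, 0)) = sgn e (g • e (0, 1)) := by
    intro g
    apply sgn_eq_of_mul
    have h5 : ∑ g : G, sgn e (g • e (0, 0)) * sgn e (g • e (0, 1)) = ∑ _g : G, (1 : ℚ) := by
      refine h3.trans ?_
      simp
    exact (Finset.sum_eq_sum_iff_of_le fun g _ => sgn_mul_le e _ _).1 h5 g (Finset.mem_univ g)
  have h5 := rel_of_primitive hG (fun x y => ∀ g : G, sgn e (g • x) = sgn e (g • y))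
    (fun x y h g => (h g).symm) (fun x y z h h' g => (h g).trans (h' g))
    (fun k x y h g => by simpa only [mul_smul] using h (g * k))
    (a := e (0, 0)) (b := e (0, 1)) (e.injective.ne (by simp)) h4 (e (1, 0)) 1
  rw [one_smul, one_smul, sgn_zero, sgn_one] at h5
  norm_num at h5

variable [MulAction.IsPretransitive G α]

theorem case_two
    (ht : ∀ i, blk e (proj G e) 0 0 i + blk e (proj G e) 1 1 i = 2 * dlt i + (1 - 2) / p) :
    MulAction.IsMultiplyPretransitive G α 2 := by
  have hp0 : (p : ℚ) ≠ 0 := by exact_mod_cast (Fact.out : p.Prime).ne_zero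
  have hE := proj_inv (G := G) (e := e)
  have hd : ∀ x, proj G e x x = 1 - 1 / (2 * p) := by
    intro x
    have h1 := ht 0
    simp only [blk, dlt, if_true, hE.diag _ x] at h1
    field_simp at h1 ⊢
    linear_combination h1
  have hoff : ∀ x y, proj G e x y = (if x = y then 1 else 0) - 1 / (2 * p) := by
    intro x
    have h1 : ∑ y, ((if x = y then 1 else 0) - 1 / (2 * p) - proj G e x y) ^ 2 = 0 := by
      have h2 := congrFun (congrFun (proj_idem he) x) x
      rw [Matrix.mul_apply] at h2
      have h3 : ∀ y, ((if x = y then 1 else 0) - 1 / (2 * p) - proj G e x y) ^ 2 =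
          (if x = y then 1 - 1 / p - 2 * proj G e x y else 0) + (1 / (2 * p)) ^ 2
            + proj G e x y * proj G e y x + (1 / p) * proj G e x y := by
        intro y
        rw [proj_symm y x]
        split_ifs <;> field_simp <;> ring
      simp only [h3, Finset.sum_add_distrib, h2, ← Finset.mul_sum, proj_row_sum,
        Finset.sum_ite_eq, Finset.mem_univ, if_true, Finset.sum_const, Finset.card_univ,
        nsmul_eq_mul, card_eq e, hd]
      field_simp
      ring
    intro y
    have h2 := (Finset.sum_eq_zero_iff_of_nonneg fun y _ => sq_nonneg _).1 h1 y (Finset.mem_univ y)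
    have h3 := pow_eq_zero_iff (two_ne_zero) |>.1 h2
    linarith
  rw [MulAction.is_two_pretransitive_iff]
  intro a b c d hab hcd
  have hA : Inv G (ind (orbl G a b)) := ind_inv (orbl_iff a b)
  have h1 : ∀ x z, x ≠ z → ind (orbl G a b) x z =
      (∑ y, ind (orbl G a b) a y - sv e (ind (orbl G a b))) / (2 * p) := by
    intro x z hxz
    have h2 := congrFun (congrFun (mul_proj he hA) x) z
    simp only [Matrix.mul_apply, Matrix.smul_apply, hoff, mul_sub, Finset.sum_sub_distrib,
      mul_ite, mul_one, mul_zero, Finset.sum_ite_eq', Finset.mem_univ, if_true, hxz, if_false,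
      ← Finset.sum_mul, hA.row_sum x a, smul_eq_mul] at h2
    field_simp at h2 ⊢
    linear_combination h2
  by_contra hn
  have h2 := (h1 a b hab).trans (h1 c d hcd).symm
  rw [ind_pos ⟨1, by simp, by simp⟩, ind_neg hn] at h2
  exact one_ne_zero h2

section CaseOne

variable (ht : ∀ i, blk e (proj G e) 0 0 i + blk e (proj G e) 1 1 i = dlt i)
include ht

omit he in
theorem proj_diag (x : α) : proj G e x x = 1 / 2 := by
  have h1 := ht 0
  simp only [blk, dlt, if_true, (proj_inv (G := G) (e := e)).diag _ x] at h1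
  linarith

omit he in
theorem hat_proj_trace (z : ℂ) : hat e z (proj G e) 0 0 + hat e z (proj G e) 1 1 = 1 := by
  simp only [hat, Matrix.of_apply]
  rw [← ft_add, ← ft_dlt (p := p) z]
  congr 1
  funext i
  exact ht i

theorem sv_eq {T : Matrix α α ℚ} (h : Inv G T) (x : α) :
    sv e T = 2 * ∑ y, T x y * proj G e x y := by
  have h1 := congrFun (congrFun (mul_proj he h) x) x
  rw [Matrix.mul_apply, Matrix.smul_apply, proj_diag ht, smul_eq_mul] at h1
  simp only [proj_symm x, h1]
  ring

theorem sv_mul_nonpos {T T' : Matrix α α ℚ} (h : Inv G T) (h' : Inv G T')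
    (h0 : ∀ x y, 0 ≤ T x y) (h0' : ∀ x y, 0 ≤ T' x y) (hd : ∀ x, T x x = 0)
    (hd' : ∀ x, T' x x = 0) (hTT : ∀ x y, T x y * T' x y = 0) : sv e T * sv e T' ≤ 0 := by
  have hp := (Fact.out : p.Prime)
  have hζ := Complex.isPrimitiveRoot_exp p hp.ne_zero
  have key : ∀ z : ℂ, z ^ p = 1 →
      ft z (blk e (T * T'ᵀ) 0 0 + blk e (T * T'ᵀ) 1 1) =
      ft z ((sv e T * sv e T') • dlt + conv (blk e T 0 0 + blk e T 1 1 - sv e T • dlt)
        (blk e T'ᵀ 0 0 + blk e T'ᵀ 1 1 - sv e T' • dlt)) := by
    intro z hz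
    have h1 := two_by_two_trace (hat e z T) (hat e z T'ᵀ) (hat e z (proj G e)) (sv e T) (sv e T')
      (by rw [← hat_mul he hz _ proj_inv, proj_idem he]) (hat_proj_trace ht z)
      (by rw [← hat_mul he hz _ proj_inv, mul_proj he h, hat_smul])
      (by rw [← hat_mul he hz _ h, proj_mul he h, hat_smul])
      (by rw [← hat_mul he hz _ proj_inv, mul_proj he h'.transpose, hat_smul, sv_transpose he h'])
      (by rw [← hat_mul he hz _ h'.transpose, proj_mul he h'.transpose, hat_smul,
        sv_transpose he h'])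
    rw [← hat_mul he hz _ h'.transpose] at h1
    simp only [hat, Matrix.of_apply] at h1
    simp only [ft_add, ft_conv hz, ft_sub, ft_smul, ft_dlt, h1]
    push_cast
    ring
  have h1 := congrFun (eq_of_ft_eq hζ (key 1 (one_pow p)) (key _ hζ.pow_eq_one)) 0
  have h2 : ∀ a, blk e (T * T'ᵀ) a a 0 = 0 := by
    intro a
    simp only [blk, Matrix.mul_apply, Matrix.transpose_apply, hTT, Finset.sum_const_zero]
  have h3 : ∀ a i, blk e T'ᵀ a a (0 - i) = blk e T' a a i := by
    intro a i
    rw [blk, Matrix.transpose_apply, blk_shift he h']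
    simp
  have h4 : ∀ i : ZMod p, dlt (0 - i) = dlt i := by
    intro i
    simp [dlt]
  simp only [Pi.add_apply, h2, Pi.smul_apply, conv, Pi.sub_apply, h3, h4, smul_eq_mul] at h1
  have h5 : ∑ i : ZMod p, sv e T * sv e T' * dlt i ≤ ∑ i,
      (blk e T 0 0 i + blk e T 1 1 i - sv e T * dlt i) *
      (blk e T' 0 0 i + blk e T' 1 1 i - sv e T' * dlt i) := by
    refine Finset.sum_le_sum fun i _ => ?_
    by_cases hi : i = 0
    · subst hi
      simp [blk, hd, hd', dlt]
    · simp only [dlt, hi, if_false, mul_zero, sub_zero, blk]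
      exact mul_nonneg (add_nonneg (h0 _ _) (h0 _ _)) (add_nonneg (h0' _ _) (h0' _ _))
  have h6 : ∑ i : ZMod p, dlt i = 1 := by simp [dlt]
  have h7 : (dlt (0 : ZMod p) : ℚ) = 1 := if_pos rfl
  rw [← Finset.mul_sum, h6] at h5
  rw [h7] at h1
  linarith

theorem same_orbital {x y x' y' : α} (hxy : x ≠ y) (hxy' : x' ≠ y')
    (h : 0 < proj G e x y * proj G e x' y') : orbl G x y x' y' := by
  by_contra hn
  have hE := proj_inv (G := G) (e := e)
  have h1 : ∀ a b : α, sv e (ind (orbl G a b)) =
      2 * (∑ y, ind (orbl G a b) a y) * proj G e a b := by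
    intro a b
    rw [sv_eq he ht (ind_inv (orbl_iff a b)) a, mul_assoc, Finset.sum_mul]
    congr 1
    refine Finset.sum_congr rfl fun y _ => ?_
    by_cases hy : orbl G a b a y
    · obtain ⟨g, h1, h2⟩ := hy
      rw [← hE g a b, h1, h2]
    · rw [ind_neg hy, zero_mul, zero_mul]
  have h2 : ∀ a b : α, 0 < ∑ y, ind (orbl G a b) a y := by
    intro a b
    exact Finset.sum_pos' (fun y _ => ind_nonneg _ _ _)
      ⟨b, Finset.mem_univ _, by rw [ind_pos ⟨1, by simp, by simp⟩]; norm_num⟩
  have h3 : ∀ a b : α, a ≠ b → ∀ z, ind (orbl G a b) z z = 0 := by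
    intro a b hab z
    apply ind_neg
    rintro ⟨g, h1, h2⟩
    exact hab (MulAction.injective g (h1.trans h2.symm))
  have h4 := sv_mul_nonpos he ht (ind_inv (orbl_iff x y)) (ind_inv (orbl_iff x' y'))
    (ind_nonneg _) (ind_nonneg _) (h3 _ _ hxy) (h3 _ _ hxy') (by
      intro a b
      by_cases h5 : orbl G x y a b
      · rw [ind_neg (r := orbl G x' y'), mul_zero]
        rintro ⟨g', h6, h7⟩
        obtain ⟨g, h8, h9⟩ := h5
        exact hn ⟨g'⁻¹ * g, by rw [mul_smul, h8, ← h6, inv_smul_smul],
          by rw [mul_smul, h9, ← h7, inv_smul_smul]⟩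
      · rw [ind_neg h5, zero_mul])
  rw [h1, h1] at h4
  have h5 := mul_pos (mul_pos (h2 x y) (h2 x' y')) h
  nlinarith

theorem no_zero_entry {i0 : ZMod p} (hi0 : i0 ≠ 0) (hi : proj G e (e (0, 0)) (e (0, i0)) ≠ 0)
    {x y : α} (hxy : x ≠ y) : proj G e x y ≠ 0 := by
  have hp := (Fact.out : p.Prime)
  have hζ := Complex.isPrimitiveRoot_exp p hp.ne_zero
  set ζ := Complex.exp (2 * Real.pi * Complex.I / p)
  have hE := proj_inv (G := G) (e := e)
  let r : α → α → Prop := fun x y => x ≠ y ∧ proj G e x y = 0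
  have hA : Inv G (ind r) := ind_inv fun g x y => by
    simp only [r, hE g, ne_eq, smul_left_cancel_iff]
  have hs : sv e (ind r) = 0 := by
    rw [sv_eq he ht hA x, Finset.sum_eq_zero, mul_zero]
    intro y _
    by_cases hy : r x y
    · rw [hy.2, mul_zero]
    · rw [ind_neg hy, zero_mul]
  have hb : blk e (ind r) 1 1 = blk e (ind r) 0 0 := by
    funext i
    have h1 := ht i
    have : r (e (1, 0)) (e (1, i)) ↔ r (e (0, 0)) (e (0, i)) := by
      simp only [r, ne_eq, EmbeddingLike.apply_eq_iff_eq, Prod.mk.injEq, true_and]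
      refine and_congr_right fun h => ?_
      simp only [blk, dlt, Ne.symm h, if_false] at h1
      constructor <;> intro h2 <;> linarith
    exact ind_congr this
  have h1 := two_by_two_entries (hat e ζ (ind r)) (hat e ζ (proj G e)) (sv e (ind r))
      (hat_proj_trace ht ζ)
      (by rw [← hat_mul he hζ.pow_eq_one _ proj_inv, mul_proj he hA, hat_smul])
      (by rw [← hat_mul he hζ.pow_eq_one _ hA, proj_mul he hA, hat_smul])
  have h2 := h1 0 0
  have h3 := h1 1 1
  simp only [hs, hat, Matrix.of_apply, hb, if_true] at h2 h3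
  have h4 : ft ζ (blk e (ind r) 0 0) *
      ft ζ (blk e (proj G e) 0 0 - blk e (proj G e) 1 1) = 0 := by
    rw [ft_sub]
    push_cast at h2 h3
    linear_combination (h2 - h3) / 2
  rcases mul_eq_zero.1 h4 with h5 | h5
  · have h6 : ∀ i, blk e (ind r) 0 0 i = 0 := by
      intro i
      rw [const_of_ft_eq_zero hζ h5 i 0]
      exact ind_neg fun h => h.1 rfl
    have h7 := sum_blk_diag he hA 0
    simp only [h6, hs, Finset.sum_const_zero, mul_zero, add_zero, hA.row_sum _ x] at h7
    intro h8
    have h9 := (Finset.sum_eq_zero_iff_of_nonneg fun y _ => ind_nonneg r x y).1 h7.symm y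
      (Finset.mem_univ y)
    rw [ind_pos ⟨hxy, h8⟩] at h9
    exact one_ne_zero h9
  · exfalso
    have h6 := const_of_ft_eq_zero hζ h5 i0 0
    have h7 := ht i0
    simp only [Pi.sub_apply, blk, proj_diag ht, dlt, hi0, if_false] at h6 h7
    apply hi
    linarith

theorem case_one (hG : MulAction.IsPreprimitive G α) : ∃ a : ℕ, 0 < a ∧
    p = 2 * a ^ 2 + 2 * a + 1 ∧
    (∀ x, Set.ncard {y | x ≠ y ∧ 0 < proj G e x y} = a * (2 * a + 1)) ∧
    (∀ x, Set.ncard {y | x ≠ y ∧ proj G e x y < 0} = (a + 1) * (2 * a + 1)) ∧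
    ∀ x y, x ≠ y → proj G e x y ≠ 0 := by
  have hE := proj_inv (G := G) (e := e)
  let rp : α → α → Prop := fun x y => x ≠ y ∧ 0 < proj G e x y
  let rm : α → α → Prop := fun x y => x ≠ y ∧ proj G e x y < 0
  have hAp : Inv G (ind rp) := ind_inv fun g x y => by
    simp only [rp, hE g, ne_eq, smul_left_cancel_iff]
  have hAm : Inv G (ind rm) := ind_inv fun g x y => by
    simp only [rm, hE g, ne_eq, smul_left_cancel_iff]
  have hblk : blk e (ind rm) 1 1 = blk e (ind rp) 0 0 := by
    funext i
    have h1 := ht i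
    apply ind_congr
    simp only [rp, rm, ne_eq, EmbeddingLike.apply_eq_iff_eq, Prod.mk.injEq, true_and]
    refine and_congr_right fun h => ?_
    simp only [blk, dlt, Ne.symm h, if_false] at h1
    constructor <;> intro h2 <;> linarith
  set x0 := e (0, 0) with hx0
  set kp := ∑ y, ind rp x0 y with hkp
  set km := ∑ y, ind rm x0 y with hkm
  have h1 : kp + sv e (ind rp) = km + sv e (ind rm) := by
    rw [← sum_blk_diag he hAp 0, ← sum_blk_diag he hAm 1, hblk]
  -- the eigenvalues add up to `-1`
  have h2 : sv e (ind rp) + sv e (ind rm) = -1 := by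
    have h3 := proj_row_sum (G := G) (e := e) x0
    let r0 : α → α → Prop := fun x y => x ≠ y ∧ proj G e x y = 0
    have hA0 : Inv G (ind r0) := ind_inv fun g x y => by
      simp only [r0, hE g, ne_eq, smul_left_cancel_iff]
    have hs0 : sv e (ind r0) = 0 := by
      rw [sv_eq he ht hA0 x0, Finset.sum_eq_zero, mul_zero]
      intro y _
      by_cases hy : r0 x0 y
      · rw [hy.2, mul_zero]
      · rw [ind_neg hy, zero_mul]
    have h4 : ∀ y, ind rp x0 y + ind rm x0 y + ind r0 x0 y + (if x0 = y then 1 else 0) = 1 := by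
      intro y
      by_cases hy : x0 = y
      · rw [ind_neg (fun h => h.1 hy), ind_neg (fun h => h.1 hy), ind_neg (fun h => h.1 hy),
          if_pos hy]
        norm_num
      rw [if_neg hy]
      rcases lt_trichotomy (proj G e x0 y) 0 with h | h | h
      · rw [ind_neg (fun h' => h'.2.not_gt h), ind_pos ⟨hy, h⟩, ind_neg (fun h' => h.ne h'.2)]
        norm_num
      · rw [ind_neg (fun h' => h'.2.ne' h), ind_neg (fun h' => h'.2.ne h), ind_pos ⟨hy, h⟩]
        norm_num
      · rw [ind_pos ⟨hy, h⟩, ind_neg (fun h' => h'.2.not_gt h), ind_neg (fun h' => h.ne' h'.2)]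
        norm_num
    have h5 : sv e (ind rp) + sv e (ind rm) + sv e (ind r0) + sgn e x0 = ∑ y, sgn e y := by
      simp only [sv, ← hx0]
      have : sgn e x0 = ∑ y, (if x0 = y then 1 else 0) * sgn e y := by simp
      rw [this, ← Finset.sum_add_distrib, ← Finset.sum_add_distrib, ← Finset.sum_add_distrib]
      refine Finset.sum_congr rfl fun y _ => ?_
      rw [← add_mul, ← add_mul, ← add_mul, h4, one_mul]
    rw [hs0, sum_sgn, hx0, sgn_zero] at h5
    linarith
  have hsp : sv e (ind rp) = 2 * ∑ y, ind rp x0 y * proj G e x0 y := sv_eq he ht hAp x0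
  have hsp0 : 0 ≤ sv e (ind rp) := by
    rw [hsp]
    refine mul_nonneg (by norm_num) (Finset.sum_nonneg fun y _ => ?_)
    by_cases hy : rp x0 y
    · exact mul_nonneg (ind_nonneg _ _ _) hy.2.le
    · rw [ind_neg hy, zero_mul]
  by_cases hi : ∃ i, rp x0 (e (0, i))
  swap
  · exfalso
    push Not at hi
    have h3 := sum_blk_diag he hAp 0
    have h4 : ∀ i, blk e (ind rp) 0 0 i = 0 := fun i => ind_neg (hi i)
    simp only [h4, Finset.sum_const_zero, mul_zero] at h3
    have h5 : 0 ≤ kp := Finset.sum_nonneg fun y _ => ind_nonneg _ _ _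
    have h6 : km = 1 := by linarith
    have h7 : ∀ x, ∃ y, {y | rm x y} = {y} := by
      intro x
      apply Set.ncard_eq_one.1
      have := hAm.row_sum x x0
      rw [ind_row_sum, ← hkm, h6] at this
      exact_mod_cast this
    have h8 : ∀ x y z, rm x y → rm x z → y = z := by
      intro x y z hy hz
      obtain ⟨w, hw⟩ := h7 x
      have a1 : y ∈ {y | rm x y} := hy
      have a2 : z ∈ {y | rm x y} := hz
      rw [hw] at a1 a2
      exact a1.trans a2.symm
    have hs : ∀ x y, rm x y → rm y x := fun x y h => ⟨h.1.symm, by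
      rw [proj_symm y x]; exact h.2⟩
    obtain ⟨y0, hy0⟩ := h7 x0
    have hy0' : rm x0 y0 := by
      have : y0 ∈ {y | rm x0 y} := by rw [hy0]; rfl
      exact this
    have h9 := rel_of_primitive hG (fun x y => x = y ∨ rm x y)
      (fun x y h => h.imp Eq.symm (hs x y))
      (by
        rintro x y z (rfl | h) (rfl | h')
        · exact Or.inl rfl
        · exact Or.inr h'
        · exact Or.inr h
        · exact Or.inl (h8 y x z (hs _ _ h) h'))
      (by
        rintro g x y (rfl | h)
        · exact Or.inl rfl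
        · exact Or.inr ⟨fun h' => h.1 (MulAction.injective g h'), by rw [hE g]; exact h.2⟩)
      hy0'.1 (Or.inr hy0')
    have a1 := (h9 (e (0, 1))).resolve_left (e.injective.ne (by simp))
    have a2 := (h9 (e (1, 0))).resolve_left (e.injective.ne (by simp))
    exact absurd (e.injective (h8 _ _ _ a1 a2)) (by simp)
  obtain ⟨i0, hi0⟩ := hi
  have hi0' : i0 ≠ 0 := by
    rintro rfl
    exact hi0.1 rfl
  set ε := proj G e x0 (e (0, i0)) with hε
  have hε0 : 0 < ε := hi0.2
  have hε' : proj G e (e (1, 0)) (e (1, i0)) = -ε := by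
    have := ht i0
    simp only [blk, dlt, hi0', if_false] at this
    linarith
  have hnz : ∀ x y, x ≠ y → proj G e x y ≠ 0 := fun x y hxy =>
    no_zero_entry he ht hi0' hε0.ne' hxy
  have hp1 : ∀ y, rp x0 y → proj G e x0 y = ε := by
    intro y hy
    obtain ⟨g, h3, h4⟩ := same_orbital he ht hi0.1 hy.1 (mul_pos hε0 hy.2)
    rw [hε, ← hE g x0 (e (0, i0)), h3, h4]
  have hm1 : ∀ y, rm x0 y → proj G e x0 y = -ε := by
    intro y hy
    obtain ⟨g, h3, h4⟩ := same_orbital he ht (x := e (1, 0)) (y := e (1, i0))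
      (e.injective.ne (by simp [hi0'.symm])) hy.1
      (mul_pos_of_neg_of_neg (by rw [hε']; linarith) hy.2)
    rw [← hε', ← hE g (e (1, 0)) (e (1, i0)), h3, h4]
  have hsp' : sv e (ind rp) = 2 * kp * ε := by
    rw [hsp, mul_assoc, hkp, Finset.sum_mul]
    congr 1
    refine Finset.sum_congr rfl fun y _ => ?_
    by_cases hy : rp x0 y
    · rw [hp1 y hy]
    · rw [ind_neg hy, zero_mul, zero_mul]
  have hsm' : sv e (ind rm) = -(2 * km * ε) := by
    rw [sv_eq he ht hAm x0, mul_assoc, hkm, Finset.sum_mul, ← mul_neg, ← Finset.sum_neg_distrib]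
    congr 1
    refine Finset.sum_congr rfl fun y _ => ?_
    by_cases hy : rm x0 y
    · rw [hm1 y hy, mul_neg]
    · rw [ind_neg hy, zero_mul, zero_mul, neg_zero]
  have hkp0 : 0 < kp := Finset.sum_pos' (fun y _ => ind_nonneg _ _ _)
    ⟨_, Finset.mem_univ _, by rw [ind_pos hi0]; norm_num⟩
  obtain ⟨z, hz⟩ : ∃ z : ℤ, sv e (ind rp) = z := by
    classical
    refine ⟨∑ y, (if rp x0 y then 1 else 0) * (if (e.symm y).1 = 0 then 1 else -1), ?_⟩
    simp only [sv, ind, sgn, Matrix.of_apply, ← hx0]
    push_cast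
    congr!
  have hz0 : 0 < z := by
    have : (0 : ℚ) < z := by rw [← hz, hsp']; positivity
    exact_mod_cast this
  obtain ⟨a, rfl⟩ := Int.eq_ofNat_of_zero_le hz0.le
  have ha0 : 0 < a := by exact_mod_cast hz0
  push_cast at hz
  have e1 : km = kp + 2 * a + 1 := by linarith
  have e2 : kp = a * (2 * a + 1) := by
    have a1 : (a : ℚ) = 2 * kp * ε := by rw [← hz, hsp']
    have a2 : (a : ℚ) + 1 = 2 * km * ε := by linarith
    have a3 : (a : ℚ) * km = (a + 1) * kp := by
      rw [a2]
      conv_lhs => rw [a1]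
      ring
    rw [e1] at a3
    linarith
  have e3 : kp + km + 1 = 2 * p := by
    rw [← card_eq e, hkp, hkm, ← Finset.sum_add_distrib, Fintype.card_eq_sum_ones]
    push_cast
    have : (1 : ℚ) = ∑ y, if x0 = y then 1 else 0 := by simp
    conv_lhs => rw [this, ← Finset.sum_add_distrib]
    refine Finset.sum_congr rfl fun y _ => ?_
    by_cases hy : x0 = y
    · rw [ind_neg (fun h => h.1 hy), ind_neg (fun h => h.1 hy), if_pos hy]
      norm_num
    rw [if_neg hy]
    rcases lt_or_gt_of_ne (hnz _ _ hy) with h | h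
    · rw [ind_neg (fun h' => h'.2.not_gt h), ind_pos ⟨hy, h⟩]
      norm_num
    · rw [ind_pos ⟨hy, h⟩, ind_neg (fun h' => h'.2.not_gt h)]
      norm_num
  refine ⟨a, ha0, ?_, fun x => ?_, fun x => ?_, hnz⟩
  · have : (p : ℚ) = 2 * a ^ 2 + 2 * a + 1 := by nlinarith
    exact_mod_cast this
  · have := hAp.row_sum x x0
    rw [ind_row_sum, ← hkp, e2] at this
    exact_mod_cast this
  · have := hAm.row_sum x x0
    rw [ind_row_sum, ← hkm, e1, e2] at this
    have h3 : (Set.ncard {y | rm x y} : ℚ) = (a + 1) * (2 * a + 1) := by rw [this]; ring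
    exact_mod_cast h3

end CaseOne

omit [MulAction.IsPretransitive G α] in
theorem wielandt_coord (hG : MulAction.IsPreprimitive G α) (a₀ : α) :
    MulAction.IsMultiplyPretransitive G α 2 ∨
    (Nat.card (MulAction.orbitRel.Quotient (MulAction.stabilizer G a₀) α) = 3 ∧
      ∃ a : ℕ, 0 < a ∧ p = 2 * a ^ 2 + 2 * a + 1 ∧ ∀ b : α, b ≠ a₀ →
      Nat.card (MulAction.orbit (MulAction.stabilizer G a₀) b) = a * (2 * a + 1) ∨
      Nat.card (MulAction.orbit (MulAction.stabilizer G a₀) b) = (a + 1) * (2 * a + 1)) := by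
  obtain ⟨m, hm, ht⟩ := proj_trace he
  rcases hm with rfl | rfl | rfl
  · exact (case_zero he hG ht).elim
  swap
  · exact Or.inl (case_two he ht)
  right
  simp only [one_mul, sub_self, zero_div, add_zero] at ht
  obtain ⟨a, ha0, hp, h1, h2, h3⟩ := case_one he ht hG
  have hE := proj_inv (G := G) (e := e)
  let φ : α → SignType := fun b => if a₀ = b then 0 else SignType.sign (proj G e a₀ b)
  have hφ : ∀ b c, c ∈ MulAction.orbit (MulAction.stabilizer G a₀) b ↔ φ c = φ b := by
    intro b c
    constructor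
    · rintro ⟨⟨g, hg⟩, rfl⟩
      have hg' : g • a₀ = a₀ := hg
      change φ (g • b) = φ b
      have h4 : a₀ = g • b ↔ a₀ = b := by
        conv_lhs => rw [← hg']
        exact smul_left_cancel_iff g
      have h5 : proj G e a₀ (g • b) = proj G e a₀ b := by rw [← hE g a₀ b, hg']
      simp only [φ, h4, h5]
    · intro h
      by_cases hb : a₀ = b
      · by_cases hc : a₀ = c
        · rw [← hb, ← hc]
          exact MulAction.mem_orbit_self _
        · simp only [φ, if_pos hb, if_neg hc, sign_eq_zero_iff] at h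
          exact absurd h (h3 _ _ hc)
      · by_cases hc : a₀ = c
        · simp only [φ, if_neg hb, if_pos hc] at h
          exact absurd (sign_eq_zero_iff.1 h.symm) (h3 _ _ hb)
        · simp only [φ, if_neg hb, if_neg hc] at h
          have h4 : 0 < proj G e a₀ b * proj G e a₀ c := by
            rw [← sign_eq_one_iff, sign_mul, h]
            rcases lt_or_gt_of_ne (h3 _ _ hb) with h5 | h5
            · rw [sign_neg h5]; rfl
            · rw [sign_pos h5]; rfl
          obtain ⟨g, h5, h6⟩ := same_orbital he ht hb hc h4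
          exact ⟨⟨g, h5⟩, h6⟩
  refine ⟨?_, a, ha0, hp, fun b hb => ?_⟩
  · have : Nat.card SignType = 3 := by rw [Nat.card_eq_fintype_card]; rfl
    rw [← this]
    refine Nat.card_eq_of_bijective (Quotient.lift φ fun b c h => (hφ c b).1 h) ⟨?_, ?_⟩
    · intro x y
      induction x using Quotient.inductionOn with
      | h b =>
      induction y using Quotient.inductionOn with
      | h c =>
      intro h
      exact Quotient.sound ((hφ c b).2 h)
    · intro s
      rcases s with _ | _ | _
      · exact ⟨Quotient.mk _ a₀, by simp [φ]⟩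
      · obtain ⟨y, hy⟩ := Set.nonempty_of_ncard_ne_zero (s := {y | a₀ ≠ y ∧ proj G e a₀ y < 0})
          (by rw [h2]; positivity)
        exact ⟨Quotient.mk _ y, by simp [φ, hy.1, hy.2]⟩
      · obtain ⟨y, hy⟩ := Set.nonempty_of_ncard_ne_zero (s := {y | a₀ ≠ y ∧ 0 < proj G e a₀ y})
          (by rw [h1]; positivity)
        exact ⟨Quotient.mk _ y, by simp [φ, hy.1, hy.2]⟩
  · rw [Nat.card_coe_set_eq]
    rcases lt_or_gt_of_ne (h3 _ _ hb.symm) with h5 | h5
    · right
      rw [← h2 a₀]
      congr 1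
      ext c
      rw [hφ]
      by_cases hc : a₀ = c
      · subst hc
        simp [φ, hb.symm, sign_neg h5]
      · simp [φ, hc, hb.symm, sign_neg h5, sign_eq_neg_one_iff]
    · left
      rw [← h1 a₀]
      congr 1
      ext c
      rw [hφ]
      by_cases hc : a₀ = c
      · subst hc
        simp [φ, hb.symm, sign_pos h5]
      · simp [φ, hc, hb.symm, sign_pos h5, sign_eq_one_iff]

end Cfsg.Agent.H1.TwoP
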