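import Cfsg.Agent.H1.U5Ord

/-! Counting the Cayley parameters with a prescribed norm identity. -/

set_option autoImplicit false
set_option linter.unusedSectionVars false
set_option linter.unusedVariables false

namespace Cfsg.Agent.H6.U5

open Module Polynomial Cfsg.Agent.H5.U

variable {F : Type*} [Field F] [StarRing F] [NStar F] [Fintype F] {q : ℕ}

open Classical in
theorem card_eig (hq : Fintype.card F = q ^ 2) (hst : ∀ t : F, star t = t ^ q) (κ : F) :
    ∃ S : Finset F, S.card ≤ q - 1 ∧ ∀ y, y ≠ 0 → star y = κ * y → y ∈ S := by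
  have h2 := two_le_q' hq
  refine ⟨(nthRoots (q - 1) κ).toFinset, (Multiset.toFinset_card_le _).trans (card_nthRoots _ _),
    fun y y0 e => ?_⟩
  rw [Multiset.mem_toFinset, mem_nthRoots (by omega)]
  refine mul_right_cancel₀ y0 ?_
  rw [← e, hst, ← pow_succ, Nat.sub_add_cancel (by omega)]

open Classical in
theorem card_tr_zero (hq : Fintype.card F = q ^ 2) (hst : ∀ t : F, star t = t ^ q) :
    q ≤ (Finset.univ.filter fun a : F => a + star a = 0).card := by
  obtain ⟨S, h1, h2⟩ := card_eig hq hst 1
  have h3 := two_le_q' hq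
  have := Finset.card_le_mul_card_image_of_maps_to (f := fun a : F => a + star a) (s := Finset.univ)
    (t := insert 0 S) (fun a _ => by
      by_cases e : a + star a = 0
      · simp [e]
      · exact Finset.mem_insert_of_mem (h2 _ e (by simp [add_comm])))
    (Finset.univ.filter fun a : F => a + star a = 0).card fun b _ => by
      rcases (Finset.univ.filter fun a : F => a + star a = b).eq_empty_or_nonempty with e | ⟨c, hc⟩
      · simp [e]
      · refine Finset.card_le_card_of_injOn (fun a => a - c) (fun a ha => ?_)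
          (fun a _ a' _ e => sub_left_injective e)
        simp only [Finset.coe_filter, Finset.mem_filter, Finset.mem_univ, true_and,
          Set.mem_setOf_eq, star_sub] at ha hc ⊢
        linear_combination ha - hc
  rw [Finset.card_univ, hq, sq] at this
  have h4 := Finset.card_insert_le 0 S
  exact Nat.le_of_mul_le_mul_right (this.trans (Nat.mul_le_mul_left _ (by omega))) (by omega)

open Classical in
theorem exists_tr_zero_not (hq : Fintype.card F = q ^ 2) (hst : ∀ t : F, star t = t ^ q)
    (l : List F) (hl : l.length < q) : ∃ a : F, a + star a = 0 ∧ a ∉ l := by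
  obtain ⟨a, h1, h2⟩ := Finset.exists_mem_notMem_of_card_lt_card (s := l.toFinset)
    (((List.toFinset_card_le l).trans_lt hl).trans_le (card_tr_zero hq hst))
  exact ⟨a, by simpa using h1, by simpa using h2⟩

variable {K : Type*} [Field K] [Algebra F K] [StarRing K] [StarModule F K]

theorem star_norm_alg (x : K) : star (Algebra.norm F x) = Algebra.norm F (star x) := by
  have := Algebra.norm_eq_of_equiv_equiv (starRingAut : F ≃+* F) (starRingAut : K ≃+* K)
    (RingHom.ext fun a => algebraMap_star_comm a) x
  rw [this]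
  exact star_star _

variable [FiniteDimensional F K]

/-- the polynomial `X ↦ N(γ + X)` -/
noncomputable def PN (F : Type*) [Field F] {K : Type*} [Field K] [Algebra F K]
    [FiniteDimensional F K] (γ : K) : F[X] := (Algebra.lmul F K (-γ)).charpoly

theorem PN_eval (γ : K) (a : F) : (PN F γ).eval a = Algebra.norm F (γ + algebraMap F K a) := by
  rw [PN, LinearMap.eval_charpoly, Algebra.norm_apply]
  congr 1
  ext v
  simp [add_mul, Algebra.smul_def, add_comm]

theorem PN_monic (γ : K) : (PN F γ).Monic := LinearMap.charpoly_monic _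

theorem PN_deg (γ : K) : (PN F γ).natDegree = finrank F K := LinearMap.charpoly_natDegree _

theorem PN_root (γ : K) : aeval (-γ) (PN F γ) = 0 := Algebra.aeval_self_charpoly_lmul _

theorem PN_trace (γ : K) : Algebra.trace F K γ = (PN F γ).nextCoeff := by
  classical
  rw [← neg_inj, ← map_neg, Algebra.trace_apply, LinearMap.trace_eq_matrix_trace F
    (Module.Free.chooseBasis F K), Matrix.trace_eq_neg_charpoly_nextCoeff]
  rfl

theorem star_PN (hK : finrank F K = 5) {γ : K} (hγ : γ + star γ = -1) (a : F) :
    star (Algebra.norm F (γ + algebraMap F K a)) =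
      -Algebra.norm F (γ + algebraMap F K (1 - star a)) := by
  have : star (γ + algebraMap F K a) = algebraMap F K (-1) * (γ + algebraMap F K (1 - star a)) := by
    simp only [star_add, map_neg, map_one, map_sub, algebraMap_star_comm]
    linear_combination hγ
  rw [star_norm_alg, this, map_mul, Algebra.norm_algebraMap, hK]
  ring

theorem norm_ne (hK : finrank F K = 5) {γ : K} (hγ : γ ∉ (⊥ : Subalgebra F K)) (a : F) :
    Algebra.norm F (γ + algebraMap F K a) ≠ 0 := by
  rw [Ne, Algebra.norm_eq_zero_iff]
  exact fun e => hγ (Algebra.mem_bot.2 ⟨-a, by rw [map_neg]; linear_combination -e⟩)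

theorem cay_key (hK : finrank F K = 5) (Γ : Finset K) (hΓ : ∀ γ ∈ Γ, γ + star γ = -1)
    {a b : F} (S : Finset F) (nd : [0, 1, a, 1 - star a, b].Nodup)
    (hS : ∀ γ ∈ Γ, ∀ c ∈ [0, a, b], Algebra.norm F (γ + algebraMap F K c) ∈ S) :
    Γ.card ≤ 5 * S.card ^ 3 := by
  classical
  have := Finset.card_le_mul_card_image_of_maps_to
    (f := fun γ : K => ((PN F γ).eval 0, (PN F γ).eval a, (PN F γ).eval b)) (s := Γ)
    (t := S ×ˢ S ×ˢ S) (fun γ h => by
      simp only [Finset.mem_product, PN_eval]
      exact ⟨hS γ h 0 (by simp), hS γ h a (by simp), hS γ h b (by simp)⟩) 5 fun y _ => by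
      rcases (Γ.filter fun γ => ((PN F γ).eval 0, (PN F γ).eval a, (PN F γ).eval b) = y
        ).eq_empty_or_nonempty with e | ⟨γ, hγ⟩
      · simp [e]
      · refine (Finset.card_le_card_of_injOn (t := ((PN F γ).aroots K).toFinset) (fun δ => -δ)
          (fun δ hδ => ?_) (fun a _ a' _ e => neg_injective e)).trans
          ((Multiset.toFinset_card_le _).trans ((card_roots' _).trans
            (natDegree_map_le.trans ((PN_deg γ).trans hK).le)))
        simp only [Finset.coe_filter, Finset.mem_filter, Set.mem_setOf_eq] at hγ hδ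
        obtain ⟨e1, e2, e3⟩ : (PN F δ).eval 0 = (PN F γ).eval 0 ∧ (PN F δ).eval a = (PN F γ).eval a ∧
            (PN F δ).eval b = (PN F γ).eval b := by simpa using hδ.2.trans hγ.2.symm
        have k : ∀ c, (PN F δ).eval c = (PN F γ).eval c →
            (PN F δ).eval (1 - star c) = (PN F γ).eval (1 - star c) := fun c e => by
          simp only [PN_eval] at e ⊢
          rw [← neg_inj, ← star_PN hK (hΓ δ hδ.1), ← star_PN hK (hΓ γ hγ.1), e]
        have e : PN F δ = PN F γ := by
          refine eq_of_degree_sub_lt_of_eval_finset_eq [0, 1, a, 1 - star a, b].toFinset ?_ ?_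
          · rw [List.toFinset_card_of_nodup nd]
            refine (degree_sub_lt ?_ (PN_monic δ).ne_zero ?_).trans_le ?_
            · rw [degree_eq_natDegree (PN_monic δ).ne_zero, degree_eq_natDegree (PN_monic γ).ne_zero,
                PN_deg, PN_deg]
            · rw [PN_monic δ, PN_monic γ]
            · rw [degree_eq_natDegree (PN_monic δ).ne_zero, PN_deg, hK]; simp
          · have := k 0 e1
            simp only [star_zero, sub_zero] at this
            simp [e1, e2, e3, this, k a e2]
        simp only [Finset.mem_coe, Multiset.mem_toFinset, mem_aroots, ← e]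
        exact ⟨(PN_monic δ).ne_zero, PN_root δ⟩
  simpa [Finset.card_product, pow_succ, mul_assoc] using this

end Cfsg.Agent.H6.U5

namespace Cfsg.Agent.H6.U5

open Module Polynomial Cfsg.Agent.H5.U

variable {F : Type*} [Field F] [StarRing F] [NStar F] [Fintype F] {q : ℕ}
  {K : Type*} [Field K] [Algebra F K] [StarRing K] [StarModule F K]

theorem cay1 (hq : Fintype.card F = q ^ 2) (hst : ∀ t : F, star t = t ^ q) (hK : finrank F K = 5)
    (Γ : Finset K) {ζ : F}
    (H : ∀ γ ∈ Γ, ∀ a : F, a + star a = 0 →
      Algebra.norm F (γ + algebraMap F K a) = ζ * Algebra.norm F (γ + algebraMap F K a + 1))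
    (h5 : 5 < q) (h5' : (5 : F) ≠ 0) : Γ = ∅ := by
  classical
  haveI : FiniteDimensional F K := Module.finite_of_finrank_pos (by omega)
  refine Finset.eq_empty_of_forall_notMem fun γ hγ => h5' ?_
  have e : PN F γ = C ζ * PN F (γ + 1) := by
    refine eq_of_natDegree_lt_card_of_eval_eq' _ _ (Finset.univ.filter fun a : F => a + star a = 0)
      (fun a ha => ?_) (lt_of_lt_of_le ?_ (card_tr_zero hq hst))
    · rw [eval_mul, eval_C, PN_eval, PN_eval, H γ hγ a (by simpa using ha), add_right_comm]
    · have := natDegree_C_mul_le ζ (PN F (γ + 1))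
      rw [PN_deg] at this
      rw [PN_deg]; omega
  have z : ζ = 1 := by
    have := congrArg leadingCoeff e
    rw [leadingCoeff_mul, PN_monic, PN_monic] at this
    simpa using this.symm
  rw [z, C_1, one_mul] at e
  have := PN_trace (F := F) γ
  rw [e, ← PN_trace, map_add, ← map_one (algebraMap F K), Algebra.trace_algebraMap, hK] at this
  simpa using this

theorem cay2 (hq : Fintype.card F = q ^ 2) (hst : ∀ t : F, star t = t ^ q) (hK : finrank F K = 5)
    (Γ : Finset K) (hΓ : ∀ γ ∈ Γ, γ + star γ = -1 ∧ γ ∉ (⊥ : Subalgebra F K)) {ζ : F}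
    (H : ∀ γ ∈ Γ, ∀ a : F, a + star a = 0 →
      Algebra.norm F (γ + algebraMap F K a) = ζ * Algebra.norm F (γ + algebraMap F K a + 1))
    (h3 : 3 ≤ q) (h4 : q ≠ 4) : Γ.card ≤ 5 * (q - 1) ^ 3 := by
  haveI : FiniteDimensional F K := Module.finite_of_finrank_pos (by omega)
  obtain ⟨S, h1, h2⟩ := card_eig hq hst (-ζ⁻¹)
  obtain ⟨a, b, ha, hb, nd⟩ : ∃ a b : F, a + star a = 0 ∧ b + star b = 0 ∧
      [0, 1, a, 1 - star a, b].Nodup := by
    by_cases e : (2 : F) = 0
    · have : q ≠ 3 := by
        rintro rfl
        have := FiniteField.cast_card_eq_zero F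
        rw [hq] at this
        exact one_ne_zero (α := F) (by push_cast at this; linear_combination this - 4 * e)
      obtain ⟨a, ha, ha'⟩ := exists_tr_zero_not hq hst [0, 1] (by simp; omega)
      obtain ⟨b, hb, hb'⟩ := exists_tr_zero_not hq hst [0, 1, a, 1 - star a] (by simp; omega)
      simp only [List.mem_cons, List.not_mem_nil, or_false, not_or] at ha' hb'
      refine ⟨a, b, ha, hb, ?_⟩
      have k1 : (0 : F) ≠ 1 - star a := fun k => ha'.2 (by linear_combination ha - k - e)
      have k2 : (1 : F) ≠ 1 - star a := fun k => ha'.1 (by linear_combination ha - k)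
      have k3 : a ≠ 1 - star a := fun k => one_ne_zero (α := F) (by linear_combination ha - k)
      simp [Ne.symm ha'.1, Ne.symm ha'.2, Ne.symm hb'.1, Ne.symm hb'.2.1, Ne.symm hb'.2.2.1,
        Ne.symm hb'.2.2.2, k1, k3, k2]
    · obtain ⟨a, ha, ha'⟩ := exists_tr_zero_not hq hst [0] (by simp; omega)
      obtain ⟨b, hb, hb'⟩ := exists_tr_zero_not hq hst [0, a] (by simp; omega)
      simp only [List.mem_cons, List.not_mem_nil, or_false, not_or] at ha' hb'
      refine ⟨a, b, ha, hb, ?_⟩
      have k0 : ∀ x y : F, x + star x = 0 → y + star y = 0 → 1 - y ≠ x := fun x y hx hy k => e (by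
        have := congrArg star k
        rw [star_sub, star_one] at this
        linear_combination hx + hy + k + this)
      have s0 : star a + star (star a) = 0 := by rw [star_star, add_comm, ha]
      have k1 := k0 0 _ (by simp) s0
      have k2 := k0 a _ ha s0
      have k3 := k0 b _ hb s0
      have k4 := k0 a 0 ha (by simp)
      have k5 := k0 b 0 hb (by simp)
      rw [sub_zero] at k4 k5
      have k6 : (1 : F) ≠ 1 - star a := fun k => ha' (by linear_combination ha - k)
      simp [Ne.symm ha', Ne.symm hb'.1, Ne.symm hb'.2, k1.symm, k2.symm, k3, k4, k5, k6]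
  refine (cay_key hK Γ (fun γ h => (hΓ γ h).1) S nd fun γ hγ c hc => ?_).trans
    (Nat.mul_le_mul_left _ (Nat.pow_le_pow_left h1 3))
  have hc : c + star c = 0 := by
    simp only [List.mem_cons, List.not_mem_nil, or_false] at hc
    rcases hc with rfl | rfl | rfl <;> simp [ha, hb]
  have n0 := norm_ne hK (hΓ γ hγ).2 c
  refine h2 _ n0 ?_
  have e := H γ hγ c hc
  have z0 : ζ ≠ 0 := by rintro rfl; exact n0 (by simpa using e)
  rw [star_PN hK (hΓ γ hγ).1, e, show (1 : F) - star c = c + 1 by linear_combination -hc,
    map_add (algebraMap F K), map_one (algebraMap F K), add_assoc]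
  field_simp

theorem cay4 (hq : Fintype.card F = q ^ 2) (hst : ∀ t : F, star t = t ^ q) (hK : finrank F K = 5)
    (Γ : Finset K) (hΓ : ∀ γ ∈ Γ, γ + star γ = -1 ∧ γ ∉ (⊥ : Subalgebra F K))
    (H : ∀ γ ∈ Γ, ∀ b : F, b ≠ 0 → star b = b → ∀ c : F, c + star c = b - 1 →
      Algebra.norm F (b • γ + algebraMap F K c) = Algebra.norm F (b • γ + algebraMap F K c + 1))
    (h4 : q = 4) : Γ.card ≤ 135 := by
  haveI : FiniteDimensional F K := Module.finite_of_finrank_pos (by omega)
  subst h4
  obtain ⟨S, h1, h2⟩ := card_eig hq hst (-1)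
  have e : (2 : F) = 0 := by
    have := FiniteField.cast_card_eq_zero F
    rw [hq] at this
    exact pow_eq_zero_iff (n := 4) (by omega) |>.1 (by push_cast at this; linear_combination this)
  obtain ⟨a, ha, ha'⟩ := exists_tr_zero_not hq hst [0, 1] (by simp)
  simp only [List.mem_cons, List.not_mem_nil, or_false, not_or] at ha'
  obtain ⟨b, hb⟩ := exists_tr (t := a) (by linear_combination ha - a * e)
  have k0 : ∀ x : F, x + star x = 0 → x ≠ b := fun x hx k => ha'.1 (by rw [← hb, ← k, hx])
  have nd : [0, 1, a, 1 - star a, b].Nodup := by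
    have k1 : (0 : F) ≠ 1 - star a := fun k => ha'.2 (by linear_combination ha - k - e)
    have k3 : a ≠ 1 - star a := fun k => one_ne_zero (α := F) (by linear_combination ha - k)
    have k2 : (1 : F) ≠ 1 - star a := fun k => ha'.1 (by linear_combination ha - k)
    simp [Ne.symm ha'.1, Ne.symm ha'.2, k1, k2, k3, k0 0 (by simp), k0 a ha,
      k0 1 (by rw [star_one]; linear_combination e),
      k0 (1 - star a) (by rw [star_sub, star_one, star_star]; linear_combination e - ha)]
  refine (cay_key hK Γ (fun γ h => (hΓ γ h).1) S nd fun γ hγ c hc => ?_).trans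
    ((Nat.mul_le_mul_left _ (Nat.pow_le_pow_left h1 3)).trans (by norm_num))
  have hc : 1 - star c - c ≠ 0 := by
    simp only [List.mem_cons, List.not_mem_nil, or_false] at hc
    rcases hc with rfl | rfl | rfl
    · simp
    · exact fun k => one_ne_zero (α := F) (by linear_combination k + ha)
    · exact fun k => ha'.2 (by linear_combination -k - hb)
  refine h2 _ (norm_ne hK (hΓ γ hγ).2 c) ?_
  set β := 1 - star c - c with hβ
  have sβ : star β = β := by simp only [hβ, star_sub, star_one, star_star]; ring
  have := H γ hγ β⁻¹ (inv_ne_zero hc) (by rw [star_inv₀, sβ]) (β⁻¹ * c) (by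
    rw [star_mul', star_inv₀, sβ]; field_simp; ring)
  have b0 : algebraMap F K β ≠ 0 := by simpa using hc
  rw [show β⁻¹ • γ + algebraMap F K (β⁻¹ * c) + 1 =
      algebraMap F K β⁻¹ * (γ + algebraMap F K (1 - star c)) by
        rw [show 1 - star c = c + β by rw [hβ]; ring]
        simp only [Algebra.smul_def, map_mul, map_inv₀, map_add]; field_simp; ring,
    show β⁻¹ • γ + algebraMap F K (β⁻¹ * c) = algebraMap F K β⁻¹ * (γ + algebraMap F K c) by
      simp only [Algebra.smul_def, map_mul]; ring, map_mul, map_mul] at this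
  rw [star_PN hK (hΓ γ hγ).1, mul_left_cancel₀ (by simpa [Algebra.norm_eq_zero_iff] using hc) this]
  ring

end Cfsg.Agent.H6.U5
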