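import Cfsg.Agent.H1.BD1b

/-! A Frobenius-type argument: abstract part. -/

set_option autoImplicit false
set_option linter.unusedSectionVars false
set_option linter.unusedVariables false

namespace Cfsg.Agent.H6.U5

open Subgroup Cfsg.Agent.H7.BD Cfsg.Agent.H3

variable {G : Type*} [Group G] [Finite G]

theorem exists_central {r : ℕ} (hr : r.Prime) {R : Subgroup G} (hR : IsPGroup r R) (h : R ≠ ⊥) :
    ∃ z ∈ R, z ≠ 1 ∧ ∀ g ∈ R, g * z = z * g := by
  haveI := Fact.mk hr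
  haveI := (nontrivial_iff_ne_bot R).2 h
  obtain ⟨⟨z, hz⟩, z1⟩ := @exists_ne _ hR.center_nontrivial 1
  exact ⟨z, z.2, fun e => z1 (Subtype.ext (Subtype.ext e)),
    fun g hg => congrArg Subtype.val (mem_center_iff.1 hz ⟨g, hg⟩)⟩

/-- the hypotheses of the abstract Frobenius argument -/
structure FH (A Z : Subgroup G) (x : G) (l : ℕ) : Prop where
  hl : l.Prime
  h7 : 7 ≤ l
  ho : orderOf x = l
  hx : x ∈ A
  ab : ∀ a ∈ A, ∀ b ∈ A, a * b = b * a
  zn : Z.Normal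
  za : Z ≤ A
  z5 : ∀ z ∈ Z, z ^ 5 = 1
  zc : Nat.card Z ≤ 5
  ti : ∀ g, ∀ a ∈ A, a ∉ Z → g * a * g⁻¹ ∈ A → g ∈ A
  inv : ∀ B : Subgroup G, (∀ a ∈ B, ∀ b ∈ B, a * b = b * a) → x ∈ normalizer (B : Set G) →
    ∀ b ∈ B, b * x = x * b
  tr : ∀ S : Subgroup G, (∀ s ∈ S, s ∉ Z → ∃ k, ∃ z ∈ Z, z ≠ 1 ∧ k * s * k⁻¹ = z * s) →
    (∃ s ∈ S, s ∉ Z) → Nat.card S ≤ 125

variable {A Z : Subgroup G} {x : G} {l : ℕ}

theorem FH.notZ (H : FH A Z x l) {y : G} {n : ℕ} (h1 : y ≠ 1) (h : y ^ l ^ n = 1) : y ∉ Z := fun e => by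
  have h5 : Nat.Coprime 5 (l ^ n) := ((Nat.coprime_primes Nat.prime_five H.hl).2 (by
    have := H.h7; omega)).pow_right n
  exact h1 (orderOf_eq_one_iff.1 (Nat.eq_one_of_dvd_coprimes h5
    (orderOf_dvd_of_pow_eq_one (H.z5 y e)) (orderOf_dvd_of_pow_eq_one h)))

theorem FH.xl (H : FH A Z x l) : x ^ l ^ 1 = 1 := by rw [pow_one, ← H.ho, pow_orderOf_eq_one]

theorem FH.x1 (H : FH A Z x l) : x ≠ 1 := fun e => by
  have := H.ho
  rw [e, orderOf_one] at this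
  have := H.h7; omega

theorem FH.cent (H : FH A Z x l) {g : G} (h : g * x = x * g) : g ∈ A :=
  H.ti g x H.hx (H.notZ H.x1 H.xl) (by rw [h, mul_inv_cancel_right]; exact H.hx)

theorem FH.pg (H : FH A Z x l) {r : ℕ} (hr : r.Prime) {R : Subgroup G} (hR : IsPGroup r R)
    (hx : x ∈ normalizer (R : Set G)) : R ≤ A := by
  by_contra hA
  have zn := H.zn
  have h1 : ∀ a ∈ R, a ∈ A → a ∈ Z := fun a ha ha' => by
    by_contra hz
    obtain ⟨g, g1, g2, g3⟩ := lt_norm hr hR (A := R ⊓ A) (lt_of_le_of_ne inf_le_left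
      fun e => hA (e ▸ inf_le_right))
    exact g3 ⟨g1, H.ti g a ha' hz (nm g2 ⟨ha, ha'⟩).2⟩
  have h2 : ∀ a ∈ R, (∀ g ∈ R, g * a = a * g) → a ∈ Z := fun a ha h =>
    h1 a ha (H.cent (H.inv (R ⊓ centralizer (R : Set G)) (fun a ha b hb => hb.2 a ha.1)
      (norm_inf hx (norm_cent hx)) a ⟨ha, h⟩))
  let π := QuotientGroup.mk' Z
  let S : Subgroup G := R ⊓ (centralizer (R.map π : Set (G ⧸ Z))).comap π
  have mS : ∀ s, s ∈ S ↔ s ∈ R ∧ ∀ k ∈ R, k * s * k⁻¹ * s⁻¹ ∈ Z := fun s => by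
    refine and_congr_right fun _ => ⟨fun h k hk => ?_, ?_⟩
    · rw [← QuotientGroup.eq_one_iff]
      have : π k * π s = π s * π k := h _ ⟨k, hk, rfl⟩
      show π _ = 1
      simp only [map_mul, map_inv, this]; group
    · rintro h _ ⟨k, hk, rfl⟩
      have : π _ = 1 := (QuotientGroup.eq_one_iff _).2 (h k hk)
      simp only [map_mul, map_inv] at this
      rw [← mul_inv_eq_one, ← this]; group
  have h3 : ∀ s ∈ S, s ∉ Z → ∃ k ∈ R, k * s * k⁻¹ * s⁻¹ ≠ 1 := fun s hs hz => by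
    by_contra! hh
    exact hz (h2 s hs.1 fun g hg => by rw [← mul_inv_eq_one, ← hh g hg]; group)
  obtain ⟨_, ⟨s, hs, rfl⟩, s1, s2⟩ := exists_central hr (hR.map π) fun e => hA fun g hg =>
    H.za ((QuotientGroup.eq_one_iff _).1 (e.le ⟨g, hg, rfl⟩))
  have sS : s ∈ S := ⟨hs, s2⟩
  have sZ : s ∉ Z := fun e => s1 ((QuotientGroup.eq_one_iff _).2 e)
  have c1 := H.tr S (fun s hs hz => (h3 s hs hz).imp fun k hk =>
    ⟨_, ((mS s).1 hs).2 k hk.1, hk.2, by group⟩) ⟨s, sS, sZ⟩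
  obtain ⟨k, hk, z1⟩ := h3 s sS sZ
  have zZ := ((mS s).1 sS).2 k hk
  have zR : k * s * k⁻¹ * s⁻¹ ∈ R := mul_mem (mul_mem (mul_mem hk hs) (inv_mem hk)) (inv_mem hs)
  generalize k * s * k⁻¹ * s⁻¹ = z at z1 zZ zR
  have zS : z ∈ S := (mS z).2 ⟨zR, fun k _ => mul_mem (zn.conj_mem _ zZ k) (inv_mem zZ)⟩
  haveI := Fact.mk Nat.prime_five
  have oz : orderOf z = 5 := orderOf_eq_prime (H.z5 z zZ) z1
  obtain rfl : 5 = r := by
    obtain ⟨n, hn⟩ := hR ⟨z, zR⟩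
    exact (Nat.prime_dvd_prime_iff_eq Nat.prime_five hr).1 (Nat.prime_five.dvd_of_dvd_pow
      (oz ▸ orderOf_dvd_of_pow_eq_one (congrArg Subtype.val hn)))
  have c2 : Nat.card (S ⊓ Z : Subgroup G) = 5 :=
    le_antisymm ((card_le_of_le inf_le_right).trans H.zc)
      (Nat.le_of_dvd Nat.card_pos (oz ▸ orderOf_dvd_natCard _ ⟨zS, zZ⟩))
  have c3 : 5 < Nat.card S := c2 ▸ by
    have : (S ⊓ Z : Subgroup G) < S := lt_of_le_of_ne inf_le_left fun e => sZ (e.ge sS).2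
    exact Set.ncard_lt_ncard this (Set.toFinite _)
  obtain ⟨n, hn⟩ := IsPGroup.iff_card.1 (hR.to_le (inf_le_left : S ≤ R))
  have xS : x ∈ normalizer (S : Set G) := mem_normalizer_fintype fun s hs => (mS _).2
    ⟨nm hx hs.1, fun k hk => by
      have := zn.conj_mem _ (((mS s).1 hs).2 _ (nm' hx hk)) x
      convert this using 1; group⟩
  letI : MulAction G G := MulAction.compHom _ (MulAut.conj : G →* MulAut G)
  have c4 := pgroup_ncard_modEq (α := G) H.hl (pgroup_zpowers H.xl) (S := S) (Set.toFinite _)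
    fun g hg s hs => nm (zpowers_le_of_mem xS hg) hs
  have e : {y | y ∈ (S : Set G) ∧ ∀ g ∈ zpowers x, g * y * g⁻¹ = y} = (S ⊓ Z : Subgroup G) := by
    ext y
    refine and_congr_right fun hy => ⟨fun h => h1 y hy.1 (H.cent ?_), fun h g hg => ?_⟩
    · exact (mul_inv_eq_iff_eq_mul.1 (h x (mem_zpowers x))).symm
    · exact mul_inv_eq_iff_eq_mul.2 (H.ab g (zpowers_le_of_mem H.hx hg) y (H.za h))
  replace c4 : Nat.card S ≡ Nat.card (S ⊓ Z : Subgroup G) [MOD l] :=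
    c4.trans (congrArg (fun T : Set G => T.ncard % l) e)
  rw [c2, hn] at c4
  rw [hn] at c1 c3
  have n1 : 1 < n := (Nat.pow_lt_pow_iff_right (a := 5) (by omega)).1 (by simpa using c3)
  have n2 : n ≤ 3 := (Nat.pow_le_pow_iff_right (a := 5) (by omega)).1 (by simpa using c1)
  have d : l ∣ 2 ^ 3 * 3 * 5 := by
    have := (Nat.modEq_iff_dvd' c3.le).1 c4.symm
    interval_cases n
    · exact this.trans (by norm_num)
    · exact this
  have := H.h7
  rcases (H.hl.dvd_mul).1 d with d | d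
  · rcases (H.hl.dvd_mul).1 d with d | d
    · have := Nat.le_of_dvd (by omega) (H.hl.dvd_of_dvd_pow d); omega
    · have := Nat.le_of_dvd (by omega) d; omega
  · have := Nat.le_of_dvd (by omega) d; omega

theorem FH.top (H : FH A Z x l) : A = ⊤ := by
  haveI := Fact.mk H.hl
  obtain ⟨P, hP⟩ := (pgroup_zpowers H.xl).exists_le_sylow
  have xP : x ∈ (P : Subgroup G) := hP (mem_zpowers x)
  have PA : (P : Subgroup G) ≤ A := H.pg H.hl P.2 (le_normalizer xP)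
  have hN : normalizer (P : Set G) ≤ centralizer (P : Set G) := fun g hg y hy =>
    H.ab y (PA hy) g (H.ti g x H.hx (H.notZ H.x1 H.xl) (PA (nm hg xP)))
  have h1 := MonoidHom.ker_transferSylow_isComplement' P hN
  have h2 := MonoidHom.not_dvd_card_ker_transferSylow P hN
  rw [eq_top_iff, ← h1.sup_eq_top]
  refine sup_le (le_of_sylow fun r hr => ?_) PA
  obtain ⟨S, h3, h4⟩ := inv_syl0 hr H.hl (pgroup_zpowers H.xl)
    (by rw [normalizer_eq_top]; exact le_top) h2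
  exact ⟨S, h3, H.pg hr h3.pgroup (h4 (mem_zpowers x))⟩

end Cfsg.Agent.H6.U5
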