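import Cfsg.Agent.H6.S5.B

/-! Degrees which do not divide the order of `SU_5(q)`. -/

set_option autoImplicit false

namespace Cfsg.Agent.H6.U5

open Cfsg.Agent.H6.S5

/-- the order of `SU_5(q)` -/
def ordU (q : ℕ) : ℤ := q ^ 10 * (q ^ 2 - 1) * (q ^ 3 + 1) * (q ^ 4 - 1) * (q ^ 5 + 1)

theorem boundU {q : ℕ} (hq : IsPrimePow q) {g c d : ℤ} (r0 : g - c ≠ 0) (hr : |g - c| < q)
    (h : g * (q ^ 4 - q ^ 3 + q ^ 2 - q + 1) - c ∣ d * ordU q) :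
    g * (q ^ 4 - q ^ 3 + q ^ 2 - q + 1) - c ∣ d * ((g - c) * (5 * g - c) ^ 4 * (g - c) ^ 2 *
      (g ^ 2 - g * (g - c) + (g - c) ^ 2) * (g - c) * c) := by
  refine ((((((Rd.pp hq (g * (q ^ 3 - q ^ 2 + q - 1)) (by ring) r0 hr).mul
    ((Rd.of (a := q + 1) (g * (-q ^ 3 + 2 * q ^ 2 - 3 * q + 4)) 1 (by ring)).pow 4)).mul
    ((Rd.of (a := q - 1) (-g * q * (q ^ 2 + 1)) 1 (by ring)).pow 2)).mul
    (Rd.of (a := q ^ 2 - q + 1) (g ^ 2 + g * q ^ 2 * (c - g * q)) (g * q - c) (by ring))).mul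
    (Rd.of (a := q ^ 2 + 1) (-g * q * (q - 1)) 1 (by ring))).mul
    (Rd.of (a := q ^ 4 - q ^ 3 + q ^ 2 - q + 1) g (-1) (by ring))) d ?_
  convert h using 2
  rw [ordU]; ring

theorem boundU' {q : ℕ} (hq : IsPrimePow q) (hr : 5 ≤ q)
    (h : (q ^ 4 - q ^ 3 + q ^ 2 - q + 1 - 5 : ℤ) ∣ 5 * ordU q) :
    (q ^ 3 - 2 * q ^ 2 + 3 * q - 4 : ℤ) ∣ 5 * (-4 * 10 ^ 3 * 2 ^ 2 * 7 * 4 * 5) := by
  refine ((((((Rd.pp hq (q ^ 2 - 2 * q + 3) (by ring) (by simp) (by simpa)).mul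
    ((Rd.of (a := q + 1) (q ^ 2 - 3 * q + 6) (-1) (by ring)).pow 3)).mul
    ((Rd.of (a := q - 1) (q ^ 2 - q + 2) (-1) (by ring)).pow 2)).mul
    (Rd.of (a := q ^ 2 - q + 1) (q ^ 2 + q - 1) (-(q + 2)) (by ring))).mul
    (Rd.of (a := q ^ 2 + 1) (q ^ 2 - q) (-(q + 1)) (by ring))).mul
    (Rd.of (a := q ^ 4 - q ^ 3 + q ^ 2 - q + 1) 1 (-(q + 1)) (by ring))) 5 ?_
  refine (mul_dvd_mul_iff_left (show (q + 1 : ℤ) ≠ 0 by omega)).1 ?_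
  exact (Dvd.intro 1 (by ring)).trans (h.trans (Dvd.intro 1 (by rw [ordU]; ring)))

theorem smallU : ∀ q : Fin 420, q.1 % 5 = 4 → 5 ≤ q.1 → ∀ g : Fin 5, ∀ x : Fin 2, ¬ (g = 4 ∧ x = 0) →
    (5 * ordU q.1) % ((g.1 + 1) * (q.1 ^ 4 - q.1 ^ 3 + q.1 ^ 2 - q.1 + 1) - 5 * (x.1 + 1)) ≠ 0 := by
  decide +kernel

theorem numU {q t d : ℕ} (hq : IsPrimePow q) (h3 : 3 ≤ q) (h4 : q ≠ 4)
    (ht : d * t * (q + 1) = q ^ 5 + 1)
    (hd : d = 1 ∨ d = 5 ∧ q % 5 = 4) {g x : ℤ} (g1 : 1 ≤ g) (g2 : g ≤ d) (hx : x = 1 ∨ x = 2)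
    (hn : ¬ (g = d ∧ x = 1)) : ¬ g * t - x ∣ ordU q := fun h => by
  have ht' : (d : ℤ) * t = q ^ 4 - q ^ 3 + q ^ 2 - q + 1 := by
    have : ((d * t * (q + 1) : ℕ) : ℤ) = (q ^ 5 + 1 : ℕ) := by rw [ht]
    push_cast at this
    exact mul_right_cancel₀ (show (q + 1 : ℤ) ≠ 0 by omega) (by rw [this]; ring)
  replace h := mul_dvd_mul_left (d : ℤ) h
  rw [mul_sub, mul_left_comm, ht'] at h
  have lt : ∀ {n : ℕ} {K : ℤ}, K ≠ 0 → g * (q ^ 4 - q ^ 3 + q ^ 2 - q + 1) - d * x ∣ K →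
      |K| < g * n ^ 4 → d ≤ 5 → q < n + 1 := fun {n K} k0 e l d5 => by
    by_contra! hh
    have a := Int.le_of_dvd (abs_pos.2 k0) ((dvd_abs _ _).2 e)
    have hh' : (n : ℤ) ≤ q - 1 := by omega
    have b : (n : ℤ) ^ 4 ≤ (q - 1) ^ 4 := by gcongr
    have c : (3 : ℤ) ≤ q := by exact_mod_cast h3
    have d' : (d : ℤ) ≤ 5 := by exact_mod_cast d5
    have : (q - 1 : ℤ) ^ 4 + 10 ≤ q ^ 4 - q ^ 3 + q ^ 2 - q + 1 := by nlinarith
    rcases hx with rfl | rfl <;> nlinarith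
  rcases hd with rfl | ⟨rfl, h5⟩
  · obtain rfl : g = 1 := by omega
    obtain rfl : x = 2 := by omega
    have := lt (n := 5) (by decide) (boundU hq (by decide) (by norm_num; omega) h) (by decide) (by decide)
    interval_cases q <;> revert h <;> decide
  have : q < 420 := by
    by_contra! hh
    by_cases e : g = 5 * x - 4 * g ∨ g = x
    · have e : g = x := by omega
      subst e
      have := Int.le_of_dvd (by decide) ((dvd_abs _ _).2 (boundU' hq (by omega)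
        ((Dvd.intro_left g (by push_cast; ring)).trans h)))
      have c : (420 : ℤ) ≤ q := by exact_mod_cast hh
      norm_num at this
      nlinarith [pow_le_pow_left₀ (by decide) c 2]
    · refine absurd (lt (n := 419) ?_ (boundU hq (by omega) (by rw [abs_lt]; omega) h) ?_ le_rfl)
        (by omega) <;>
        rcases hx with rfl | rfl <;> interval_cases g <;> simp_all
  obtain ⟨g, rfl⟩ : ∃ k : ℕ, g = k + 1 := ⟨(g - 1).toNat, by omega⟩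
  obtain ⟨x, rfl⟩ : ∃ k : ℕ, x = k + 1 := ⟨(x - 1).toNat, by omega⟩
  exact smallU ⟨q, this⟩ h5 (by simp; omega) ⟨g, by omega⟩ ⟨x, by omega⟩ (by simp [Fin.ext_iff]; omega)
    (Int.emod_eq_zero_of_dvd h)

end Cfsg.Agent.H6.U5
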