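import Cfsg.Agent.H1.U5Num
import Cfsg.Agent.H5.U.Geom

/-! The order of `SU_5(q)`, the number of vectors of a given norm. -/

set_option autoImplicit false
set_option linter.unusedSectionVars false
set_option linter.unusedVariables false

namespace Cfsg.Agent.H6.U5

open Module Cfsg.Agent.H5.U Cfsg.Agent.H5.U.HF

variable {F : Type*} {V : Type*} [Field F] [StarRing F] [NStar F] [Fintype F] [AddCommGroup V]
  [Module F V] {h : HF F V} {q : ℕ}

theorem two_le_q' (hq : Fintype.card F = q ^ 2) : 2 ≤ q := by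
  have := Fintype.one_lt_card (α := F)
  rw [hq] at this
  by_contra h
  have : q = 0 ∨ q = 1 := by omega
  rcases this with rfl | rfl <;> simp at this

theorem card_ker_pow (hq : Fintype.card F = q ^ 2) :
    Nat.card (powMonoidHom (q + 1) : Fˣ →* Fˣ).ker = q + 1 := by
  rw [IsCyclic.card_powMonoidHom_ker, Nat.card_units, Nat.card_eq_fintype_card, hq]
  have := two_le_q' hq
  refine Nat.gcd_eq_right ⟨q - 1, ?_⟩
  obtain ⟨k, rfl⟩ : ∃ k, q = k + 1 := ⟨q - 1, by omega⟩
  simp only [Nat.add_sub_cancel]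
  exact Nat.sub_eq_of_eq_add (by ring)

theorem card_norm_one (hq : Fintype.card F = q ^ 2) (hst : ∀ t : F, star t = t ^ q) :
    Nat.card {a : F // a * star a = 1} = q + 1 := by
  rw [← card_ker_pow hq]
  refine (Nat.card_eq_of_bijective (fun z : (powMonoidHom (q + 1) : Fˣ →* Fˣ).ker =>
    (⟨z.1, ?_⟩ : {a : F // a * star a = 1})) ⟨fun x y e => ?_, fun ⟨a, ha⟩ => ?_⟩).symm
  · have := congrArg Units.val (MonoidHom.mem_ker.1 z.2)
    rw [hst, ← pow_succ']
    simpa using this
  · exact Subtype.ext (Units.ext (congrArg Subtype.val e))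
  · refine ⟨⟨Units.mk0 a (ne_zero_of_norm_one ha), MonoidHom.mem_ker.2 (Units.ext ?_)⟩, rfl⟩
    rw [hst, ← pow_succ'] at ha
    simpa using ha

theorem card_norm_eq (hq : Fintype.card F = q ^ 2) (hst : ∀ t : F, star t = t ^ q) {t : F}
    (ht : star t = t) (t0 : t ≠ 0) : Nat.card {a : F // a * star a = t} = q + 1 := by
  obtain ⟨b, b0, hb⟩ := exists_norm' ht t0
  have b1 := star_ne_zero' b0
  rw [← card_norm_one hq hst]
  refine (Nat.card_eq_of_bijective (fun z : {a : F // a * star a = 1} =>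
    (⟨z.1 * b, ?_⟩ : {a : F // a * star a = t})) ⟨fun x y e => ?_, fun ⟨a, ha⟩ => ?_⟩).symm
  · rw [star_mul']; linear_combination hb + b * star b * z.2
  · exact Subtype.ext (mul_right_cancel₀ b0 (congrArg Subtype.val e))
  · refine ⟨⟨a / b, ?_⟩, Subtype.ext (by simp [b0])⟩
    rw [star_div₀]; field_simp; rw [ha, hb]

/-- the number of vectors of norm one in dimension `m` -/
def uU (q : ℕ) : ℕ → ℤ
  | 0 => 0
  | m + 1 => (q + 1) * q ^ (2 * m) - q * uU q m

theorem uU_five (q : ℕ) : uU q 5 = q ^ 4 * (q ^ 5 + 1) := by simp only [uU]; ring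
theorem uU_four (q : ℕ) : uU q 4 = q ^ 3 * (q ^ 4 - 1) := by simp only [uU]; ring
theorem uU_three (q : ℕ) : uU q 3 = q ^ 2 * (q ^ 3 + 1) := by simp only [uU]; ring
theorem uU_two (q : ℕ) : uU q 2 = q * (q ^ 2 - 1) := by simp only [uU]; ring
theorem uU_one (q : ℕ) : uU q 1 = q + 1 := by simp only [uU]; ring

theorem sum_two {t : F} (f : F → ℤ) (A B : ℤ) (h1 : ∀ a, a * star a = t → f a = A)
    (h2 : ∀ a, a * star a ≠ t → f a = B) :
    ∑ a, f a = Nat.card {a : F // a * star a = t} * (A - B) + Fintype.card F * B := by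
  classical
  have : ∀ a, f a = (if a * star a = t then A - B else 0) + B := fun a => by
    split_ifs with e
    · rw [h1 a e]; ring
    · rw [h2 a e]; ring
  simp only [this, Finset.sum_add_distrib, ← Finset.sum_filter, Finset.sum_const, Finset.card_univ,
    nsmul_eq_mul]
  rw [Nat.card_eq_fintype_card, Fintype.card_subtype]

variable [FiniteDimensional F V]

open Classical in
theorem cnt (hq : Fintype.card F = q ^ 2) (hst : ∀ t : F, star t = t ^ q) (m : ℕ) :
    ∀ W : Submodule F V, h.NdOn W → finrank F W = m → ∀ t : F, star t = t →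
      (Nat.card {x : V // x ∈ W ∧ h x x = t} : ℤ) =
        if t = 0 then q ^ (2 * m) - (q - 1) * uU q m else uU q m := by
  haveI : Finite V := Module.finite_of_finite F
  induction m with
  | zero =>
    intro W hW hk t ht
    obtain rfl : W = ⊥ := Submodule.finrank_eq_zero.1 hk
    split_ifs with e
    · subst e
      have : Nat.card {x : V // x ∈ (⊥ : Submodule F V) ∧ h x x = 0} = 1 :=
        Nat.card_eq_one_iff_exists.2 ⟨⟨0, by simp⟩, fun y => Subtype.ext (by simpa using y.2.1)⟩
      rw [this]; simp [uU]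
    · have : IsEmpty {x : V // x ∈ (⊥ : Submodule F V) ∧ h x x = t} := ⟨fun y => e (by
        have h1 : y.1 = 0 := by simpa using y.2.1
        have h2 := y.2.2
        rw [h1] at h2; simpa using h2.symm)⟩
      rw [Nat.card_of_isEmpty]; simp [uU]
  | succ m ih =>
    intro W hW hk t ht
    obtain ⟨v, hv, hvv⟩ := hW.exists_unit (by rintro rfl; simp at hk)
    have hv0 : h v v ≠ 0 := by simp [hvv]
    have ih' := ih _ (hW.inf_pv hv hv0) (by have := finrank_inf_unit hv hv0; omega)
    have e : Nat.card (Σ a : F, {y : V // y ∈ W ⊓ h.pv v ∧ h y y = t - a * star a}) =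
        Nat.card {x : V // x ∈ W ∧ h x x = t} := by
      refine Nat.card_eq_of_bijective (fun p => ⟨p.1 • v + p.2.1,
        W.add_mem (W.smul_mem _ hv) p.2.2.1.1, ?_⟩) ⟨?_, ?_⟩
      · have h1 : h p.2.1 v = 0 := p.2.2.1.2
        simp [h1, symm0 h1, hvv, p.2.2.2, mul_comm]
      · rintro ⟨a, y, hy⟩ ⟨b, z, hz⟩ e
        have e : a • v + y = b • v + z := congrArg Subtype.val e
        have h1 : h y v = 0 := hy.1.2
        have h2 : h z v = 0 := hz.1.2
        obtain rfl : a = b := by simpa [h1, h2, hvv] using congrArg (fun x => h x v) e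
        obtain rfl : y = z := add_left_cancel e
        rfl
      · rintro ⟨x, hx, hx'⟩
        refine ⟨⟨h x v, x - h x v • v, ⟨W.sub_mem hx (W.smul_mem _ hv), by simp [hvv]⟩, ?_⟩,
          Subtype.ext (by simp)⟩
        simp [hvv, hx']
    rw [← e, Nat.card_sigma, Nat.cast_sum, sum_two (t := t) _ (q ^ (2 * m) - (q - 1) * uU q m)
      (uU q m) (fun a ha => by rw [ih' _ (by rw [star_sub, ht, star_norm]), if_pos (by simp [ha])])
      (fun a ha => by rw [ih' _ (by rw [star_sub, ht, star_norm]), if_neg (sub_ne_zero.2 ha.symm)]), hq]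
    split_ifs with e
    · subst e
      have : Nat.card {a : F // a * star a = 0} = 1 :=
        Nat.card_eq_one_iff_exists.2 ⟨⟨0, by simp⟩, fun y => Subtype.ext (by simpa using y.2)⟩
      rw [this, uU]; push_cast; ring
    · rw [card_norm_eq hq hst ht e, uU]; push_cast; ring

/-- the number of vectors of norm `t ≠ 0` in dimension five -/
theorem card_vec_norm (hV : finrank F V = 5) (hq : Fintype.card F = q ^ 2)
    (hst : ∀ t : F, star t = t ^ q) {t : F} (ht : star t = t) (t0 : t ≠ 0) :
    Nat.card {x : V // h x x = t} = q ^ 4 * (q ^ 5 + 1) := by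
  have := cnt (h := h) hq hst 5 ⊤ ndOn_top (by simpa using hV) t ht
  rw [if_neg t0, uU_five] at this
  simp only [Submodule.mem_top, true_and] at this
  exact_mod_cast this

theorem cnt_ON (hq : Fintype.card F = q ^ 2) (hst : ∀ t : F, star t = t ^ q) (k : ℕ) :
    ∀ (m : ℕ) (W : Submodule F V), h.NdOn W → finrank F W = m + k →
      (Nat.card {b : Fin k → V // (∀ i, b i ∈ W) ∧ h.ON b} : ℤ) =
        ∏ i ∈ Finset.range k, uU q (m + i + 1) := by
  classical
  haveI : Finite V := Module.finite_of_finite F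
  induction k with
  | zero =>
    intro m W hW hk
    have : Nat.card {b : Fin 0 → V // (∀ i, b i ∈ W) ∧ h.ON b} = 1 :=
      Nat.card_eq_one_iff_exists.2 ⟨⟨Fin.elim0, fun i => i.elim0, fun i => i.elim0⟩,
        fun y => Subtype.ext (funext fun i => i.elim0)⟩
    rw [this]; simp
  | succ k ih =>
    intro m W hW hk
    have e : Nat.card (Σ v : {v : V // v ∈ W ∧ h v v = 1},
        {b : Fin k → V // (∀ i, b i ∈ W ⊓ h.pv v.1) ∧ h.ON b}) =
        Nat.card {b : Fin (k + 1) → V // (∀ i, b i ∈ W) ∧ h.ON b} := by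
      refine Nat.card_eq_of_bijective (fun p => ⟨Fin.cons p.1.1 p.2.1, fun i => ?_, fun i j => ?_⟩)
        ⟨?_, ?_⟩
      · refine Fin.cases ?_ (fun i => ?_) i
        · simpa using p.1.2.1
        · simpa using (p.2.2.1 i).1
      · refine Fin.cases ?_ (fun i => ?_) i <;> refine Fin.cases ?_ (fun j => ?_) j
        · simpa using p.1.2.2
        · simpa [(Fin.succ_ne_zero j).symm] using symm0 (p.2.2.1 j).2
        · simpa using (p.2.2.1 i).2
        · simpa using p.2.2.2 i j
      · rintro ⟨⟨a, ha⟩, y, hy⟩ ⟨⟨b, hb⟩, z, hz⟩ e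
        have e : (Fin.cons a y : Fin (k + 1) → V) = Fin.cons b z := congrArg Subtype.val e
        obtain ⟨rfl, rfl⟩ := Fin.cons_inj.1 e
        rfl
      · rintro ⟨b, hb, hb'⟩
        refine ⟨⟨⟨b 0, hb 0, by simpa using hb' 0 0⟩, Fin.tail b, fun i => ⟨hb _, ?_⟩,
          fun i j => ?_⟩, Subtype.ext (Fin.cons_self_tail b)⟩
        · simpa [Fin.tail] using hb' i.succ 0
        · simpa [Fin.tail] using hb' i.succ j.succ
    cases nonempty_fintype {v : V // v ∈ W ∧ h v v = 1}
    rw [← e, Nat.card_sigma, Nat.cast_sum, Finset.sum_congr rfl fun v _ => ih m _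
      (hW.inf_pv v.2.1 (by simp [v.2.2])) (by
        have := finrank_inf_unit v.2.1 (show h v.1 v.1 ≠ 0 by simp [v.2.2]); omega),
      Finset.sum_const, Finset.card_univ, nsmul_eq_mul, ← Nat.card_eq_fintype_card,
      cnt hq hst _ W hW hk 1 (star_one F), if_neg one_ne_zero, Finset.prod_range_succ, mul_comm]
    rfl

theorem card_GU (hq : Fintype.card F = q ^ 2) (hst : ∀ t : F, star t = t ^ q) :
    (Nat.card h.GU : ℤ) = ∏ i ∈ Finset.range (finrank F V), uU q (i + 1) := by
  classical
  have := cnt_ON (h := h) hq hst (finrank F V) 0 ⊤ ndOn_top (by simp)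
  simp only [zero_add] at this
  rw [← this]
  obtain ⟨b, hb⟩ := h.exists_ONB
  congr 1
  refine Nat.card_eq_of_bijective (fun g => ⟨fun i => g.1 (b i), fun _ => trivial, (hb.map g.2).on⟩)
    ⟨fun g k e => ?_, fun ⟨c, _, hc⟩ => ?_⟩
  · refine Subtype.ext (hb.basis.ext' fun i => ?_)
    simpa using congrFun (congrArg Subtype.val e) i
  · let c' := basisOfLinearIndependentOfCardEqFinrank' c hc.linearIndependent (by simp)
    have hc' : ∀ i, hb.basis.equiv c' (Equiv.refl _) (b i) = c i := fun i => by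
      rw [← hb.basis_apply, Basis.equiv_apply]; simp [c']
    exact ⟨⟨hb.basis.equiv c' (Equiv.refl _), hb.mem_GU (by simpa only [hc'] using hc)⟩,
      Subtype.ext (funext hc')⟩

theorem card_SU_mul (hq : Fintype.card F = q ^ 2) (hst : ∀ t : F, star t = t ^ q)
    (hV : finrank F V ≠ 0) : Nat.card h.SU * (q + 1) = Nat.card h.GU := by
  let φ : h.GU →* Fˣ := (LinearEquiv.det : (V ≃ₗ[F] V) →* Fˣ).comp h.GU.subtype
  have h1 : φ.ker = h.SU.subgroupOf h.GU := by
    ext g
    rw [Subgroup.mem_subgroupOf, HF.SU, Subgroup.mem_inf, H6.mem_SLV, and_iff_right g.2]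
    rfl
  have h2 : φ.range = (powMonoidHom (q + 1) : Fˣ →* Fˣ).ker := by
    ext z
    rw [MonoidHom.mem_ker, MonoidHom.mem_range]
    constructor
    · rintro ⟨g, rfl⟩
      have := det_norm g.2
      rw [hst, ← pow_succ'] at this
      apply Units.ext
      simpa [φ] using this
    · intro hz
      have hz : (z : F) * star (z : F) = 1 := by
        rw [hst, ← pow_succ']; simpa using congrArg Units.val hz
      obtain ⟨v, -, hv⟩ := (ndOn_top (h := h)).exists_unit (fun e => hV (by
        rw [← finrank_top, e, finrank_bot]))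
      refine ⟨⟨h.R v z, R_mem_GU _ _⟩, Units.ext ?_⟩
      simpa [φ] using det_R (show h v v ≠ 0 by simp [hv]) hz
  rw [← card_ker_pow hq, ← h2, ← Subgroup.index_ker, ← φ.ker.card_mul_index, h1,
    Nat.card_congr (Subgroup.subgroupOfEquivOfLe SU_le_GU).toEquiv]

theorem card_SU5_eq (hV : finrank F V = 5) (hq : Fintype.card F = q ^ 2)
    (hst : ∀ t : F, star t = t ^ q) : (Nat.card h.SU : ℤ) = ordU q := by
  have h1 := card_GU (h := h) hq hst
  rw [← card_SU_mul hq hst (by omega), hV] at h1
  simp only [Finset.prod_range_succ, Finset.prod_range_zero, zero_add, uU_one] at h1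
  norm_num only [uU_two, uU_three, uU_four, uU_five] at h1
  push_cast at h1
  exact mul_right_cancel₀ (show (q + 1 : ℤ) ≠ 0 by omega) (by rw [h1, ordU]; ring)

end Cfsg.Agent.H6.U5

namespace Cfsg.Agent.H6.U5

open Module Cfsg.Agent.H5.U

theorem card_SU5 {F : Type*} {V : Type*} [Field F] [StarRing F] [NStar F] [Fintype F]
    [AddCommGroup V] [Module F V] (h : HF F V) {q : ℕ} (hV : finrank F V = 5)
    (hq : Fintype.card F = q ^ 2) (hst : ∀ t : F, star t = t ^ q) :
    (Nat.card h.SU : ℤ) ∣ ordU q := by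
  haveI : FiniteDimensional F V := Module.finite_of_finrank_pos (by omega)
  exact (card_SU5_eq hV hq hst).dvd

end Cfsg.Agent.H6.U5
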